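/-
Rational structures over a subfield: transvections as pairs `(v, f)`, and the set `A` of coefficients of rational pairs.
-/
import Mathlib
import Cfsg.Agent.Lib.Classical.Geo.Basic
import Cfsg.Agent.Lib.Classical.Lin.Transvections
import Cfsg.Agent.Lib.Classical.Asch.Subfield

set_option autoImplicit false
set_option linter.unusedSectionVars false

namespace Cfsg.Agent.Lib.Classical.Sub.Rat

open scoped Matrix MatrixGroups
open Module Cfsg.Geo
open Cfsg.Agent.Lib.Classical.Geo.Basic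

variable {ι : Type} [Fintype ι] [DecidableEq ι] {F : Type*} [Field F]

theorem gl_ext {g h : GL ι F} (H : ∀ x, (g : Matrix ι ι F) *ᵥ x = (h : Matrix ι ι F) *ᵥ x) : g = h := by
  apply Units.ext
  ext i j
  have := congrFun (H (Pi.single j 1)) i
  simpa using this

theorem gl_mulVec_mul (g h : GL ι F) (x : ι → F) :
    ((g * h : GL ι F) : Matrix ι ι F) *ᵥ x = (g : Matrix ι ι F) *ᵥ ((h : Matrix ι ι F) *ᵥ x) := by
  rw [Units.val_mul, Matrix.mulVec_mulVec]

/-- The transvection `1 + v ⊗ f` lies in `M`. -/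
def InM (M : Subgroup (GL ι F)) (v : ι → F) (f : Dual F (ι → F)) : Prop := ∃ h : f v = 0, tv f v h ∈ M

variable {M : Subgroup (GL ι F)}

theorem InM.iff {v v' : ι → F} {f f' : Dual F (ι → F)} (hv : v = v') (hf : f = f') (h : InM M v f) : InM M v' f' := by
  subst hv
  subst hf
  exact h

theorem tv_mul_add {a b : ι → F} {f : Dual F (ι → F)} (ha : f a = 0) (hb : f b = 0) (hab : f (a + b) = 0) :
    tv f a ha * tv f b hb = tv f (a + b) hab := by
  apply gl_ext
  intro x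
  rw [gl_mulVec_mul, tv_mulVec, tv_mulVec, tv_mulVec, map_add, map_smul, hb, smul_eq_mul, mul_zero, add_zero,
    smul_add]
  abel

theorem tv_zero (f : Dual F (ι → F)) (h : f 0 = 0) : tv f 0 h = 1 := by
  apply gl_ext
  intro x
  rw [tv_mulVec]
  simp

theorem tv_inv {a : ι → F} {f : Dual F (ι → F)} (ha : f a = 0) (hn : f (-a) = 0) : (tv f a ha)⁻¹ = tv f (-a) hn := by
  apply inv_eq_of_mul_eq_one_right
  rw [tv_mul_add ha hn (by simp [ha])]
  have : tv f (a + -a) (by simp [ha]) = tv f 0 (by simp) := by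
    congr 1
    simp
  rw [this, tv_zero]

theorem InM.add {a b : ι → F} {f : Dual F (ι → F)} (h₁ : InM M a f) (h₂ : InM M b f) : InM M (a + b) f := by
  obtain ⟨ha, h₁⟩ := h₁
  obtain ⟨hb, h₂⟩ := h₂
  refine ⟨by rw [map_add, ha, hb, add_zero], ?_⟩
  rw [← tv_mul_add ha hb]
  exact M.mul_mem h₁ h₂

theorem InM.neg {a : ι → F} {f : Dual F (ι → F)} (h₁ : InM M a f) : InM M (-a) f := by
  obtain ⟨ha, h₁⟩ := h₁
  have hn : f (-a) = 0 := by simp [ha]
  refine ⟨hn, ?_⟩
  rw [← tv_inv ha hn]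
  exact M.inv_mem h₁

theorem InM.add_dual {a : ι → F} {f f' : Dual F (ι → F)} (h₁ : InM M a f) (h₂ : InM M a f') : InM M a (f + f') := by
  obtain ⟨ha, h₁⟩ := h₁
  obtain ⟨hb, h₂⟩ := h₂
  have hab : (f + f') a = 0 := by simp [ha, hb]
  refine ⟨hab, ?_⟩
  have e : tv f a ha * tv f' a hb = tv (f + f') a hab := by
    apply gl_ext
    intro x
    rw [gl_mulVec_mul, tv_mulVec, tv_mulVec, tv_mulVec, map_add, map_smul, ha, smul_eq_mul, mul_zero, add_zero,
      LinearMap.add_apply, add_smul]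
    abel
  rw [← e]
  exact M.mul_mem h₁ h₂

theorem InM.zero (f : Dual F (ι → F)) : InM M 0 f := by
  refine ⟨by simp, ?_⟩
  rw [tv_zero]
  exact M.one_mem

theorem InM.zero_dual (v : ι → F) : InM M v (0 : Dual F (ι → F)) := by
  refine ⟨by simp, ?_⟩
  have : tv (0 : Dual F (ι → F)) v (by simp) = 1 := by
    apply gl_ext
    intro x
    rw [tv_mulVec]
    simp
  rw [this]
  exact M.one_mem

/-- Moving a scalar across. -/
theorem InM.scale {v : ι → F} {f : Dual F (ι → F)} {c : F} (h : InM M (c • v) f) : InM M v (c • f) := by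
  obtain ⟨h1, h2⟩ := h
  have h3 : (c • f) v = 0 := by
    simpa using h1
  refine ⟨h3, ?_⟩
  have e : tv f (c • v) h1 = tv (c • f) v h3 := by
    apply gl_ext
    intro x
    rw [tv_mulVec, tv_mulVec, LinearMap.smul_apply, smul_smul, smul_eq_mul, mul_comm]
  rwa [← e]

theorem InM.unscale {v : ι → F} {f : Dual F (ι → F)} {c : F} (h : InM M v (c • f)) : InM M (c • v) f := by
  obtain ⟨h1, h2⟩ := h
  have h3 : f (c • v) = 0 := by
    simpa using h1
  refine ⟨h3, ?_⟩
  have e : tv f (c • v) h3 = tv (c • f) v h1 := by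
    apply gl_ext
    intro x
    rw [tv_mulVec, tv_mulVec, LinearMap.smul_apply, smul_smul, smul_eq_mul, mul_comm]
  rwa [e]

/-- The commutator of two transvections. -/
theorem InM.comm {a b : ι → F} {f f' : Dual F (ι → F)} (h₁ : InM M a f) (h₂ : InM M b f') (h : f' a = 0) :
    InM M (f b • a) f' := by
  obtain ⟨ha, h₁⟩ := h₁
  obtain ⟨hb, h₂⟩ := h₂
  have h3 : f' (f b • a) = 0 := by simp [h]
  refine ⟨h3, ?_⟩
  have hna : f (-a) = 0 := by simp [ha]
  have hnb : f' (-b) = 0 := by simp [hb]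
  have e : tv f a ha * tv f' b hb * tv f (-a) hna * tv f' (-b) hnb = tv f' (f b • a) h3 := by
    apply gl_ext
    intro x
    simp only [gl_mulVec_mul, tv_mulVec, map_add, map_smul, map_neg, smul_eq_mul, ha, hb, h, smul_add, smul_neg,
      mul_zero, add_zero, neg_zero, mul_neg, neg_smul, smul_smul]
    module
  rw [← e, ← tv_inv ha hna, ← tv_inv hb hnb]
  exact M.mul_mem (M.mul_mem (M.mul_mem h₁ h₂) (M.inv_mem h₁)) (M.inv_mem h₂)

/-- Conjugation. -/
theorem InM.conj {v : ι → F} {f : Dual F (ι → F)} (h : InM M v f) {g : GL ι F} (hg : g ∈ M) :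
    InM M ((g : Matrix ι ι F) *ᵥ v) (f ∘ₗ Matrix.toLin' ((g⁻¹ : GL ι F) : Matrix ι ι F)) := by
  obtain ⟨h1, h2⟩ := h
  have h3 : (f ∘ₗ Matrix.toLin' ((g⁻¹ : GL ι F) : Matrix ι ι F)) ((g : Matrix ι ι F) *ᵥ v) = 0 := by
    rw [LinearMap.comp_apply, Matrix.toLin'_apply, inv_mulVec_mulVec, h1]
  refine ⟨h3, ?_⟩
  have e : g * tv f v h1 * g⁻¹ = tv _ _ h3 := by
    apply gl_ext
    intro x
    rw [gl_mulVec_mul, gl_mulVec_mul, tv_mulVec, tv_mulVec, Matrix.mulVec_add, Matrix.mulVec_smul,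
      mulVec_inv_mulVec, LinearMap.comp_apply, Matrix.toLin'_apply]
  rw [← e]
  exact M.mul_mem (M.mul_mem hg h2) (M.inv_mem hg)

section Lift

variable {F₀ : Subfield F}

/-- Rational vectors. -/
abbrev lV (x : ι → F₀) : ι → F := fun i => (x i : F)

theorem lV_add (x y : ι → F₀) : lV (x + y) = lV x + lV y := rfl

theorem lV_sub (x y : ι → F₀) : lV (x - y) = lV x - lV y := rfl

theorem lV_smul (a : F₀) (x : ι → F₀) : lV (a • x) = (a : F) • lV x := rfl

theorem lV_zero : lV (0 : ι → F₀) = (0 : ι → F) := rfl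

theorem lV_injective : Function.Injective (lV : (ι → F₀) → (ι → F)) := by
  intro x y h
  ext i
  exact congrFun h i

theorem lV_ne_zero {x : ι → F₀} (h : x ≠ 0) : lV x ≠ 0 := fun h' => h (lV_injective (by rw [h', lV_zero]))

theorem lV_single (i : ι) : lV (Pi.single i (1 : F₀)) = (Pi.single i (1 : F) : ι → F) := by
  ext j
  by_cases h : j = i
  · subst h
    simp
  · simp [h]

/-- Rational covectors. -/
noncomputable def lD (f : Dual F₀ (ι → F₀)) : Dual F (ι → F) :=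
  ∑ i, ((f (Pi.single i 1) : F₀) : F) • LinearMap.proj i

theorem lD_apply (f : Dual F₀ (ι → F₀)) (x : ι → F) : lD f x = ∑ i, ((f (Pi.single i 1) : F₀) : F) * x i := by
  simp [lD]

theorem lD_lV (f : Dual F₀ (ι → F₀)) (x : ι → F₀) : lD f (lV x) = (f x : F) := by
  have h : x = ∑ i, x i • (Pi.single i (1 : F₀) : ι → F₀) := by
    ext j
    simp [Finset.sum_apply, Pi.single_apply]
  conv_rhs => rw [h]
  rw [lD_apply, map_sum]
  simp [mul_comm]

theorem lD_single (f : Dual F₀ (ι → F₀)) (i : ι) : lD f (Pi.single i (1 : F)) = (f (Pi.single i 1) : F) := by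
  rw [← lV_single, lD_lV]

theorem lD_proj (i : ι) (x : ι → F) : lD (LinearMap.proj i : Dual F₀ (ι → F₀)) x = x i := by
  rw [lD_apply, Finset.sum_eq_single i]
  · simp
  · intro j _ hj
    simp [hj]
  · simp

theorem lD_add (f g : Dual F₀ (ι → F₀)) : lD (f + g) = lD f + lD g := by
  ext x
  simp [lD_apply, add_mul, Finset.sum_add_distrib]

theorem lD_sub (f g : Dual F₀ (ι → F₀)) : lD (f - g) = lD f - lD g := by
  ext x
  simp [lD_apply, sub_mul, Finset.sum_sub_distrib]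

theorem lD_smul (a : F₀) (f : Dual F₀ (ι → F₀)) : lD (a • f) = (a : F) • lD f := by
  ext x
  simp [lD_apply, Finset.mul_sum, mul_assoc]

theorem lD_zero : lD (0 : Dual F₀ (ι → F₀)) = 0 := by
  ext x
  simp [lD_apply]

theorem lD_ne_zero {f : Dual F₀ (ι → F₀)} (h : f ≠ 0) : lD f ≠ 0 := by
  intro h'
  apply h
  ext x
  have := lD_lV f (fun j => (Pi.single x (1 : F₀) : ι → F₀) j)
  simp only [LinearMap.coe_comp, Function.comp_apply, LinearMap.coe_single, LinearMap.zero_apply]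
  have h2 : lD f (lV (Pi.single x (1 : F₀))) = (f (Pi.single x 1) : F) := lD_lV f _
  rw [h'] at h2
  simpa using h2.symm

theorem lD_smul_lV (f : Dual F₀ (ι → F₀)) (c : F) (u : ι → F₀) : lD f (c • lV u) = c * (f u : F) := by
  rw [map_smul, lD_lV, smul_eq_mul]

/-- Covectors agreeing on rational vectors agree. -/
theorem dual_ext_rat {φ φ' : Dual F (ι → F)} (h : ∀ x : ι → F₀, φ (lV x) = φ' (lV x)) : φ = φ' := by
  apply LinearMap.pi_ext
  intro i c
  have h1 := h (Pi.single i 1)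
  rw [lV_single] at h1
  have h2 : (Pi.single i c : ι → F) = c • (Pi.single i 1 : ι → F) := by
    ext j
    by_cases hj : j = i
    · subst hj
      simp
    · simp [hj]
  rw [h2, map_smul, map_smul, h1]

/-- A covector with rational values on rational vectors is rational. -/
theorem exists_lD (φ : Dual F (ι → F)) (h : ∀ x : ι → F₀, φ (lV x) ∈ F₀) : ∃ ψ : Dual F₀ (ι → F₀), φ = lD ψ := by
  refine ⟨∑ i, (⟨φ (lV (Pi.single i 1)), h _⟩ : F₀) • LinearMap.proj i, ?_⟩
  apply dual_ext_rat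
  intro x
  rw [lD_lV]
  have h1 : x = ∑ i, x i • (Pi.single i (1 : F₀) : ι → F₀) := by
    ext j
    simp [Finset.sum_apply, Pi.single_apply]
  have h2 : lV x = ∑ i, (x i : F) • lV (Pi.single i (1 : F₀)) := by
    ext j
    simp only [Finset.sum_apply, Pi.smul_apply, lV_single, Pi.single_apply, smul_eq_mul, mul_ite, mul_one, mul_zero,
      Finset.sum_ite_eq, Finset.mem_univ, if_true]
  rw [h2, map_sum]
  simp [mul_comm, lV_single]

/-- A vector with rational coordinates is rational. -/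
theorem exists_lV (x : ι → F) (h : ∀ i, x i ∈ F₀) : ∃ y : ι → F₀, x = lV y :=
  ⟨fun i => ⟨x i, h i⟩, rfl⟩

theorem exists_ne_vanish (h3 : 3 ≤ Fintype.card ι) (u₀ u₁ : ι → F₀) :
    ∃ ψ : Dual F₀ (ι → F₀), ψ ≠ 0 ∧ ψ u₀ = 0 ∧ ψ u₁ = 0 := by
  set W := Submodule.span F₀ {u₀, u₁} with hW
  have hd : finrank F₀ W ≤ 2 := by
    classical
    have h1 := finrank_span_finset_le_card (R := F₀) ({u₀, u₁} : Finset (ι → F₀))
    have h2 : (({u₀, u₁} : Finset (ι → F₀)) : Set (ι → F₀)) = {u₀, u₁} := by simp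
    rw [h2] at h1
    exact h1.trans Finset.card_le_two
  have hne : W ≠ ⊤ := by
    intro h
    rw [h, finrank_top, finrank_fintype_fun_eq_card] at hd
    omega
  obtain ⟨x, hx⟩ : ∃ x, x ∉ W := by
    by_contra hc
    push Not at hc
    exact hne (eq_top_iff.2 fun x _ => hc x)
  obtain ⟨f, h2, h1⟩ := exists_dual_eq_one hx
  refine ⟨f, ?_, h2 _ (Submodule.subset_span (by simp)), h2 _ (Submodule.subset_span (by simp))⟩
  rintro rfl
  simp at h1

theorem exists_vec_vanish (h3 : 3 ≤ Fintype.card ι) (ψ₀ ψ₁ : Dual F₀ (ι → F₀)) :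
    ∃ u : ι → F₀, u ≠ 0 ∧ ψ₀ u = 0 ∧ ψ₁ u = 0 := by
  let L : (ι → F₀) →ₗ[F₀] (F₀ × F₀) := LinearMap.prod ψ₀ ψ₁
  have h1 := LinearMap.finrank_range_add_finrank_ker L
  have h2 : finrank F₀ (LinearMap.range L) ≤ 2 := by
    have := Submodule.finrank_le (LinearMap.range L)
    simpa using this
  rw [finrank_fintype_fun_eq_card] at h1
  have h4 : LinearMap.ker L ≠ ⊥ := by
    intro h
    rw [h, finrank_bot] at h1
    omega
  obtain ⟨u, hu, hu0⟩ := Submodule.exists_mem_ne_zero_of_ne_bot h4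
  have hu' : L u = 0 := hu
  have h5 : (ψ₀ u, ψ₁ u) = (0, 0) := hu'
  exact ⟨u, hu0, (Prod.ext_iff.1 h5).1, (Prod.ext_iff.1 h5).2⟩

/-- A vector in the kernel, independent of a given one. -/
theorem exists_ker_indep (h3 : 3 ≤ Fintype.card ι) (ψ : Dual F₀ (ι → F₀)) {u : ι → F₀} (hu : u ≠ 0) :
    ∃ w : ι → F₀, ψ w = 0 ∧ w ∉ Submodule.span F₀ {u} := by
  have hmem : u ∉ (⊥ : Submodule F₀ (ι → F₀)) := by simpa using hu
  obtain ⟨h, -, h1⟩ := exists_dual_eq_one hmem
  obtain ⟨w, hw0, hw1, hw2⟩ := exists_vec_vanish h3 ψ h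
  refine ⟨w, hw1, fun hmem => hw0 ?_⟩
  obtain ⟨c, rfl⟩ := Submodule.mem_span_singleton.1 hmem
  rw [map_smul, h1, smul_eq_mul, mul_one] at hw2
  rw [hw2, zero_smul]

/-- The rational transvections lie in `M`. -/
def HasRat (M : Subgroup (GL ι F)) (F₀ : Subfield F) : Prop :=
  ∀ (u : ι → F₀) (ψ : Dual F₀ (ι → F₀)), ψ u = 0 → InM M (lV u) (lD ψ)

variable (hM : HasRat M F₀)
include hM

/-- Changing the covector. -/
theorem move_step {c : F} {u : ι → F₀} {ψ f : Dual F₀ (ι → F₀)} (h : InM M (c • lV u) (lD ψ)) (hf : f u = 0)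
    {w : ι → F₀} (hfw : f w = 0) (hψw : ψ w ≠ 0) : InM M (c • lV u) (lD f) := by
  have hw' : (ψ w : F) ≠ 0 := by
    simpa using hψw
  have h1 := hM ((ψ w)⁻¹ • w) f (by rw [map_smul, hfw, smul_zero])
  have h2 := h.comm h1 (by rw [lD_smul_lV, hf]; simp)
  have e : lD ψ (lV ((ψ w)⁻¹ • w)) = 1 := by
    rw [lD_lV, map_smul, smul_eq_mul, inv_mul_cancel₀ hψw]
    simp
  rw [e, one_smul] at h2
  exact h2

theorem move_cov (h3 : 3 ≤ Fintype.card ι) {c : F} {u : ι → F₀} (hu : u ≠ 0) {ψ f : Dual F₀ (ι → F₀)} (hψ : ψ ≠ 0)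
    (h : InM M (c • lV u) (lD ψ)) (hf : f u = 0) : InM M (c • lV u) (lD f) := by
  by_cases hw : ∃ w, f w = 0 ∧ ψ w ≠ 0
  · obtain ⟨w, h1, h2⟩ := hw
    exact move_step hM h hf h1 h2
  push Not at hw
  obtain ⟨w₁, hw₁, hw₁u⟩ := exists_ker_indep h3 f hu
  obtain ⟨f₂, hf₂2, hf₂1⟩ := exists_dual_eq_one hw₁u
  have hf₂u : f₂ u = 0 := hf₂2 _ (Submodule.mem_span_singleton_self u)
  obtain ⟨w₂, hw₂⟩ : ∃ w₂, ψ w₂ ≠ 0 := by
    by_contra hc
    push Not at hc
    exact hψ (LinearMap.ext hc)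
  have h1 : InM M (c • lV u) (lD f₂) := by
    refine move_step hM h hf₂u (w := w₂ - f₂ w₂ • w₁) ?_ ?_
    · rw [map_sub, map_smul, hf₂1, smul_eq_mul, mul_one, sub_self]
    · rw [map_sub, map_smul, hw w₁ hw₁, smul_zero, sub_zero]
      exact hw₂
  exact move_step hM h1 hf hw₁ (by rw [hf₂1]; exact one_ne_zero)

/-- Changing the vector. -/
theorem move_vec_step {c : F} {u v : ι → F₀} {ψ : Dual F₀ (ι → F₀)} (h : InM M (c • lV u) (lD ψ)) (hv : ψ v = 0)
    (huv : u ∉ Submodule.span F₀ {v}) : InM M (c • lV v) (lD ψ) := by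
  obtain ⟨f, h2, h1⟩ := exists_dual_eq_one huv
  have h3 : f v = 0 := h2 _ (Submodule.mem_span_singleton_self v)
  have h4 := (hM v f h3).comm h (by rw [lD_lV, hv]; simp)
  rw [lD_smul_lV, h1] at h4
  simpa using h4

theorem move_vec (h3 : 3 ≤ Fintype.card ι) {c : F} {u v : ι → F₀} (hu : u ≠ 0) (hv0 : v ≠ 0) {ψ : Dual F₀ (ι → F₀)}
    (h : InM M (c • lV u) (lD ψ)) (hψu : ψ u = 0) (hv : ψ v = 0) : InM M (c • lV v) (lD ψ) := by
  by_cases huv : u ∈ Submodule.span F₀ {v}
  swap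
  · exact move_vec_step hM h hv huv
  obtain ⟨w, hw, hwv⟩ := exists_ker_indep h3 ψ hv0
  have hw0 : w ≠ 0 := by
    rintro rfl
    exact hwv (Submodule.zero_mem _)
  have huw : u ∉ Submodule.span F₀ {w} := by
    intro hmem
    obtain ⟨a, rfl⟩ := Submodule.mem_span_singleton.1 hmem
    obtain ⟨b, hb⟩ := Submodule.mem_span_singleton.1 huv
    have ha : a ≠ 0 := by
      rintro rfl
      simp at hu
    apply hwv
    rw [Submodule.mem_span_singleton]
    refine ⟨a⁻¹ * b, ?_⟩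
    rw [mul_smul, hb, smul_smul, inv_mul_cancel₀ ha, one_smul]
  exact move_vec_step hM (move_vec_step hM h hw huw) hv hwv

omit hM in
/-- The coefficients of the rational transvections lying in `M`. -/
def A (M : Subgroup (GL ι F)) (F₀ : Subfield F) : Set F :=
  {c | ∀ (u : ι → F₀) (ψ : Dual F₀ (ι → F₀)), ψ u = 0 → InM M (c • lV u) (lD ψ)}

/-- One rational pair suffices. -/
theorem mem_A_of_pair (h3 : 3 ≤ Fintype.card ι) {c : F} {u : ι → F₀} {ψ : Dual F₀ (ι → F₀)} (hu : u ≠ 0) (hψ : ψ ≠ 0)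
    (hψu : ψ u = 0) (h : InM M (c • lV u) (lD ψ)) : c ∈ A M F₀ := by
  intro v f hf
  by_cases hv : v = 0
  · subst hv
    rw [lV_zero, smul_zero]
    exact InM.zero _
  by_cases hf0 : f = 0
  · subst hf0
    rw [lD_zero]
    exact InM.zero_dual _
  obtain ⟨f₁, hf₁, h1, h2⟩ := exists_ne_vanish h3 u v
  exact move_cov hM h3 hv hf₁ (move_vec hM h3 hu hv (move_cov hM h3 hu hψ h h1) h1 h2) hf

theorem one_mem_A : (1 : F) ∈ A M F₀ := by
  intro u ψ h
  rw [one_smul]
  exact hM u ψ h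

theorem coe_mem_A (a : F₀) : (a : F) ∈ A M F₀ := by
  intro u ψ h
  rw [← lV_smul]
  exact hM _ _ (by rw [map_smul, h, smul_zero])

omit hM in
theorem add_mem_A {c d : F} (hc : c ∈ A M F₀) (hd : d ∈ A M F₀) : c + d ∈ A M F₀ := by
  intro u ψ h
  rw [add_smul]
  exact (hc u ψ h).add (hd u ψ h)

omit hM in
theorem neg_mem_A {c : F} (hc : c ∈ A M F₀) : -c ∈ A M F₀ := by
  intro u ψ h
  rw [neg_smul]
  exact (hc u ψ h).neg

theorem mul_mem_A (h3 : 3 ≤ Fintype.card ι) {c d : F} (hc : c ∈ A M F₀) (hd : d ∈ A M F₀) : c * d ∈ A M F₀ := by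
  intro u ψ h
  by_cases hu : u = 0
  · subst hu
    rw [lV_zero, smul_zero]
    exact InM.zero _
  obtain ⟨w, hw, hwu⟩ := exists_ker_indep h3 ψ hu
  obtain ⟨f, h2, h1⟩ := exists_dual_eq_one hwu
  have h4 : f u = 0 := h2 _ (Submodule.mem_span_singleton_self u)
  have h5 := (hc u f h4).comm (hd w ψ hw) (by rw [lD_smul_lV, h]; simp)
  rw [lD_smul_lV, h1] at h5
  simp only [OneMemClass.coe_one, mul_one, smul_smul] at h5
  rwa [mul_comm] at h5

/-- The coefficients form a subfield. -/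
noncomputable def subA [Finite F] (h3 : 3 ≤ Fintype.card ι) : Subfield F where
  carrier := A M F₀
  mul_mem' := mul_mem_A hM h3
  one_mem' := one_mem_A hM
  add_mem' := add_mem_A
  zero_mem' := by
    have := coe_mem_A hM (0 : F₀)
    simpa using this
  neg_mem' := neg_mem_A
  inv_mem' := by
    intro c hc
    haveI : Fintype F := Fintype.ofFinite F
    by_cases hc0 : c = 0
    · subst hc0
      rw [inv_zero]
      have := coe_mem_A hM (0 : F₀)
      simpa using this
    have hpow : ∀ n : ℕ, c ^ n ∈ A M F₀ := by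
      intro n
      induction n with
      | zero =>
        rw [pow_zero]
        exact one_mem_A hM
      | succ n ih =>
        rw [pow_succ]
        exact mul_mem_A hM h3 ih hc
    have h1 : c⁻¹ = c ^ (Fintype.card F - 2) := by
      have h2 := FiniteField.pow_card_sub_one_eq_one c hc0
      have h3 : 2 ≤ Fintype.card F := Fintype.one_lt_card
      have h4 : Fintype.card F - 1 = (Fintype.card F - 2) + 1 := by omega
      rw [h4, pow_succ] at h2
      exact (eq_inv_of_mul_eq_one_left h2).symm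
    rw [h1]
    exact hpow _

end Lift

end Cfsg.Agent.Lib.Classical.Sub.Rat
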