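/-
A linear map preserving the rational lines is a scalar times a rational matrix.
-/
import Mathlib
import Cfsg.Agent.Lib.Classical.Sub.Rat
import Cfsg.Agent.Lib.Classical.Asch.NotSL

set_option autoImplicit false
set_option linter.unusedSectionVars false

namespace Cfsg.Agent.Lib.Classical.Sub.Lines

open scoped Matrix MatrixGroups
open Module Cfsg.Geo
open Cfsg.Agent.Lib.Classical.Geo.Basic
open Cfsg.Agent.Lib.Classical.Sub.Rat

variable {ι : Type} [Fintype ι] [DecidableEq ι] {F : Type*} [Field F] {F₀ : Subfield F}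

theorem lV_single_add (j k : ι) :
    lV ((Pi.single j (1 : F₀) : ι → F₀) + Pi.single k 1) = (Pi.single j (1 : F) : ι → F) + Pi.single k 1 := by
  rw [lV_add, lV_single, lV_single]

/-- Two columns: the ratio of the scalars is rational. -/
theorem ratio_mem {g : GL ι F} {j k : ι} (hjk : j ≠ k) {κj κk κ : F} {yj yk y : ι → F₀} (hκj : κj ≠ 0) (hκk : κk ≠ 0)
    (hj : (g : Matrix ι ι F) *ᵥ lV (Pi.single j (1 : F₀)) = κj • lV yj)
    (hk : (g : Matrix ι ι F) *ᵥ lV (Pi.single k (1 : F₀)) = κk • lV yk)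
    (h : (g : Matrix ι ι F) *ᵥ lV ((Pi.single j (1 : F₀) : ι → F₀) + Pi.single k 1) = κ • lV y) : κj / κk ∈ F₀ := by
  have hsum : κj • lV yj + κk • lV yk = κ • lV y := by
    rw [← h, lV_add, Matrix.mulVec_add, hj, hk]
  -- independence
  have hind : ∀ {j k : ι} {κj κk : F} {yj yk : ι → F₀}, j ≠ k → κj ≠ 0 → κk ≠ 0 →
      (g : Matrix ι ι F) *ᵥ lV (Pi.single j (1 : F₀)) = κj • lV yj →
      (g : Matrix ι ι F) *ᵥ lV (Pi.single k (1 : F₀)) = κk • lV yk → yj ∉ Submodule.span F₀ {yk} := by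
    intro j k κj κk yj yk hjk hκj hκk hj hk hmem
    obtain ⟨c, rfl⟩ := Submodule.mem_span_singleton.1 hmem
    have h1 : (g : Matrix ι ι F) *ᵥ lV (Pi.single j (1 : F₀)) =
        (g : Matrix ι ι F) *ᵥ (((κj * c) / κk) • lV (Pi.single k (1 : F₀))) := by
      rw [Matrix.mulVec_smul, hk, hj, lV_smul, smul_smul, smul_smul]
      congr 1
      field_simp
    have h2 := mulVec_injective g h1
    rw [lV_single, lV_single] at h2
    have h3 := congrFun h2 j
    simp [hjk] at h3
  obtain ⟨h₁, h₁0, h₁1⟩ := exists_dual_eq_one (hind hjk hκj hκk hj hk)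
  obtain ⟨h₂, h₂0, h₂1⟩ := exists_dual_eq_one (hind hjk.symm hκk hκj hk hj)
  have hyk : h₁ yk = 0 := h₁0 _ (Submodule.mem_span_singleton_self _)
  have hyj : h₂ yj = 0 := h₂0 _ (Submodule.mem_span_singleton_self _)
  have e1 := congrArg (lD h₁) hsum
  have e2 := congrArg (lD h₂) hsum
  simp only [map_add, map_smul, lD_lV, h₁1, hyk, h₂1, hyj, smul_eq_mul] at e1 e2
  simp only [OneMemClass.coe_one, ZeroMemClass.coe_zero, mul_one, mul_zero, add_zero, zero_add] at e1 e2
  have hκ : κ ≠ 0 := by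
    rintro rfl
    rw [zero_mul] at e1
    exact hκj e1
  have e3 : κj / κk = (h₁ y : F) / (h₂ y : F) := by
    rw [e1, e2, mul_div_mul_left _ _ hκ]
  rw [e3]
  exact F₀.div_mem (Subtype.coe_prop _) (Subtype.coe_prop _)

/-- **Rational lines are preserved by scalar multiples of rational matrices only.** -/
theorem mem_of_lines [Nonempty ι] {g : GL ι F}
    (hg : ∀ v₀ : ι → F₀, v₀ ≠ 0 → ∃ (κ : F) (y₀ : ι → F₀), κ ≠ 0 ∧ (g : Matrix ι ι F) *ᵥ lV v₀ = κ • lV y₀) :
    g ∈ (Matrix.GeneralLinearGroup.map (F₀.subtype : F₀ →+* F)).range ⊔ scalars ι F := by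
  classical
  have hsingle : ∀ j : ι, (Pi.single j (1 : F₀) : ι → F₀) ≠ 0 := by
    intro j h0
    have := congrFun h0 j
    simp at this
  choose κ y hκ hgy using fun j : ι => hg _ (hsingle j)
  obtain ⟨j₀⟩ := ‹Nonempty ι›
  have hr : ∀ j, κ j / κ j₀ ∈ F₀ := by
    intro j
    by_cases hj : j = j₀
    · subst hj
      rw [div_self (hκ j)]
      exact F₀.one_mem
    have hne : (Pi.single j (1 : F₀) : ι → F₀) + Pi.single j₀ 1 ≠ 0 := by
      intro h0
      have := congrFun h0 j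
      simp [hj] at this
    obtain ⟨κ', y', -, h⟩ := hg _ hne
    exact ratio_mem hj (hκ j) (hκ j₀) (hgy j) (hgy j₀) h
  let G₀ : Matrix ι ι F₀ := fun i j => (⟨κ j / κ j₀, hr j⟩ : F₀) * y j i
  have hentry : ∀ i j, (g : Matrix ι ι F) i j = κ j₀ * (G₀ i j : F) := by
    intro i j
    have h1 := congrFun (hgy j) i
    rw [lV_single, Matrix.mulVec_single_one] at h1
    simp only [Matrix.col_apply, Pi.smul_apply, smul_eq_mul] at h1
    rw [h1]
    simp only [G₀, MulMemClass.coe_mul]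
    have := hκ j₀
    field_simp
  have hmat : (g : Matrix ι ι F) = κ j₀ • (G₀.map (F₀.subtype : F₀ →+* F)) := by
    ext i j
    simp [hentry]
  have hdet : G₀.det ≠ 0 := by
    intro h0
    have h1 : (g : Matrix ι ι F).det = 0 := by
      rw [hmat, Matrix.det_smul]
      have h2 : (G₀.map (F₀.subtype : F₀ →+* F)).det = F₀.subtype G₀.det := (RingHom.map_det (F₀.subtype : F₀ →+* F) G₀).symm
      rw [h2, h0]
      simp
    have h2 : IsUnit (g : Matrix ι ι F).det := (Matrix.isUnit_iff_isUnit_det _).1 g.isUnit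
    rw [h1] at h2
    exact not_isUnit_zero h2
  let G₁ : GL ι F₀ := Matrix.GeneralLinearGroup.mkOfDetNeZero G₀ hdet
  have hz : IsUnit (κ j₀ • (1 : Matrix ι ι F)) := by
    rw [Matrix.isUnit_iff_isUnit_det, Matrix.det_smul, Matrix.det_one, mul_one]
    exact (pow_ne_zero _ (hκ j₀)).isUnit
  let z : GL ι F := hz.unit
  have hzmem : z ∈ scalars ι F := by
    rw [Cfsg.Agent.Lib.Classical.Asch.Basic.mem_scalars_iff']
    exact ⟨κ j₀, rfl⟩
  have hprod : g = Matrix.GeneralLinearGroup.map (F₀.subtype : F₀ →+* F) G₁ * z := by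
    apply Units.ext
    rw [Units.val_mul]
    have hz' : (z : Matrix ι ι F) = κ j₀ • (1 : Matrix ι ι F) := rfl
    have hG : ((Matrix.GeneralLinearGroup.map (F₀.subtype : F₀ →+* F) G₁ : GL ι F) : Matrix ι ι F) =
        G₀.map (F₀.subtype : F₀ →+* F) := rfl
    rw [hz', hG, hmat, Matrix.mul_smul, mul_one]
  rw [hprod]
  exact Subgroup.mul_mem_sup ⟨G₁, rfl⟩ hzmem

end Cfsg.Agent.Lib.Classical.Sub.Lines
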