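/-
Overgroups of the rational points in a special unitary group: the rational structure, rational hyperbolic pairs,
spanning by rational isotropic vectors.
-/
import Mathlib
import Cfsg.Agent.Lib.Classical.Sub.Lines
import Cfsg.Agent.Lib.Classical.Geo.UNondeg

set_option autoImplicit false
set_option linter.unusedSectionVars false

namespace Cfsg.Agent.Lib.Classical.Sub.UBase

open scoped Matrix MatrixGroups
open Module Cfsg Cfsg.Geo
open Cfsg.Agent.Lib.Classical.Geo.Basic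
open Cfsg.Agent.Lib.Classical.Geo.UForm Cfsg.Agent.Lib.Classical.Geo.UPair
open Cfsg.Agent.Lib.Classical.Sub.Rat

variable {ι : Type} [Fintype ι] [DecidableEq ι] {F : Type*} [Field F] [Fintype F]
  {σ : F ≃+* F} {f : (ι → F) → (ι → F) → F} {F₀ : Subfield F} {ζ : F}

/-- The rational structure. -/
structure RatS (σ : F ≃+* F) (f : (ι → F) → (ι → F) → F) (F₀ : Subfield F) (ζ : F) : Prop where
  ne : ζ ≠ 0
  σζ : σ ζ = ζ ∨ σ ζ = -ζ
  σF : ∀ x ∈ F₀, σ x ∈ F₀
  rat : ∀ x y : ι → F₀, ζ * f (lV x) (lV y) ∈ F₀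
  iso3 : ∀ W : Submodule F₀ (ι → F₀), 3 ≤ finrank F₀ W → ∃ x ∈ W, x ≠ 0 ∧ f (lV x) (lV x) = 0
  tr : ∀ x y : ι → F₀, f (lV x) (lV x) = 0 → ζ * f (lV x) (lV y) = 1 →
    ∃ s : F₀, f (lV (y - s • x)) (lV (y - s • x)) = 0

section Rational

variable (hf : IsUnitaryForm σ f) (hR : RatS σ f F₀ ζ)

include hf hR

theorem lV_smul_F (d : F₀) (x : ι → F₀) : lV (d • x) = (d : F) • lV x := lV_smul d x

/-- The rational covector of a rational vector. -/
noncomputable def cov (y : ι → F₀) : Dual F₀ (ι → F₀) where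
  toFun x := ⟨ζ * f (lV x) (lV y), hR.rat x y⟩
  map_add' a b := Subtype.ext (by
    simp only [lV_add, hf.add_left, mul_add, Subfield.coe_add])
  map_smul' c a := Subtype.ext (by
    simp only [lV_smul, hf.smul_left, smul_eq_mul, Subfield.coe_mul, RingHom.id_apply]
    ring)

omit hf hR in
@[simp] theorem cov_coe (hf : IsUnitaryForm σ f) (hR : RatS σ f F₀ ζ) (x y : ι → F₀) :
    ((cov hf hR y x : F₀) : F) = ζ * f (lV x) (lV y) := rfl

theorem eq_zero_of_rat {w : ι → F} (h : ∀ x : ι → F₀, f (lV x) w = 0) : w = 0 := by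
  apply eq_zero_right hf
  intro x
  have h1 : fLin hf w = 0 := by
    apply dual_ext_rat (F₀ := F₀)
    intro y
    simpa using h y
  have h2 := LinearMap.congr_fun h1 x
  simpa using h2

theorem eq_of_rat {w w' : ι → F} (h : ∀ x : ι → F₀, f (lV x) w = f (lV x) w') : w = w' := by
  rw [← sub_eq_zero]
  apply eq_zero_of_rat hf hR
  intro x
  rw [sub_right hf, h, sub_self]

/-- Riesz over the rational field. -/
theorem riesz (ψ : Dual F₀ (ι → F₀)) : ∃ u : ι → F₀, ∀ x, ζ * f (lV x) (lV u) = ψ x := by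
  classical
  have hinj : Function.Injective (fun u : ι → F₀ => cov hf hR u) := by
    intro a b hab
    have h1 : lV a = lV b := by
      apply eq_of_rat hf hR
      intro x
      have h2 := congrArg (fun c : Dual F₀ (ι → F₀) => ((c x : F₀) : F)) hab
      simp only [cov_coe] at h2
      exact mul_left_cancel₀ hR.ne h2
    exact lV_injective h1
  have hsurj := (Finite.injective_iff_surjective_of_equiv
    ((Pi.basisFun F₀ ι).toDualEquiv.toEquiv)).1 hinj
  obtain ⟨u, hu⟩ := hsurj ψ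
  refine ⟨u, fun x => ?_⟩
  rw [← hu]
  rfl

/-- The vectors orthogonal to rational vectors and to general vectors. -/
noncomputable def perpL {k l : ℕ} (u : Fin k → ι → F₀) (v : Fin l → ι → F) :
    (ι → F₀) →ₗ[F₀] (Fin k → F₀) × (Fin l → F) :=
  (LinearMap.pi fun i => cov hf hR (u i)).prod
    (LinearMap.pi fun j =>
      { toFun := fun x => f (lV x) (v j)
        map_add' := fun a b => by simp only [lV_add, hf.add_left]
        map_smul' := fun c a => by
          simp only [lV_smul, hf.smul_left, RingHom.id_apply]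
          rfl })

theorem mem_perpL {k l : ℕ} {u : Fin k → ι → F₀} {v : Fin l → ι → F} {z : ι → F₀} (hz : perpL hf hR u v z = 0) :
    (∀ i, f (lV z) (lV (u i)) = 0) ∧ ∀ j, f (lV z) (v j) = 0 := by
  have h1 := congrArg Prod.fst hz
  have h2 := congrArg Prod.snd hz
  constructor
  · intro i
    have h3 := congrArg (fun c : F₀ => (c : F)) (congrFun h1 i)
    have h4 : ζ * f (lV z) (lV (u i)) = 0 := h3
    exact (mul_eq_zero.1 h4).resolve_left hR.ne
  · intro j
    exact congrFun h2 j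

/-- Isotropic rational vectors orthogonal to a small family, outside of a small subspace. -/
theorem exists_iso_perp {r : ℕ} (hr : finrank F₀ F = r) {k l : ℕ} (u : Fin k → ι → F₀) (v : Fin l → ι → F)
    (S : Submodule F₀ (ι → F₀)) (h : k + l * r + finrank F₀ S + 3 ≤ Fintype.card ι) :
    ∃ z : ι → F₀, z ∉ S ∧ f (lV z) (lV z) = 0 ∧ (∀ i, f (lV z) (lV (u i)) = 0) ∧ ∀ j, f (lV z) (v j) = 0 := by
  classical
  set L := perpL hf hR u v with hL
  obtain ⟨S', hS'⟩ := Submodule.exists_isCompl S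
  have h1 := LinearMap.finrank_range_add_finrank_ker L
  have h2 : finrank F₀ (LinearMap.range L) ≤ k + l * r := by
    refine (Submodule.finrank_le _).trans ?_
    rw [Module.finrank_prod, Module.finrank_fin_fun, Module.finrank_pi_fintype]
    simp [hr]
  have h3 : finrank F₀ (ι → F₀) = Fintype.card ι := by simp
  have h4 := Submodule.finrank_sup_add_finrank_inf_eq (LinearMap.ker L) S'
  have h5 := Submodule.finrank_le (LinearMap.ker L ⊔ S')
  have h6 := Submodule.finrank_sup_add_finrank_inf_eq S S'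
  rw [hS'.sup_eq_top, hS'.inf_eq_bot, finrank_top, finrank_bot] at h6
  have h7 : 3 ≤ finrank F₀ ↥(LinearMap.ker L ⊓ S') := by omega
  obtain ⟨x, hx, hx0, hxx⟩ := hR.iso3 _ h7
  refine ⟨x, fun hxS => hx0 ?_, hxx, (mem_perpL hf hR hx.1).1, (mem_perpL hf hR hx.1).2⟩
  exact (Submodule.disjoint_def.1 hS'.disjoint) x hxS hx.2

/-- Partners. -/
theorem exists_partner_rat {x : ι → F₀} {S : Submodule F₀ (ι → F₀)} (hxS : x ∉ S) (hxx : f (lV x) (lV x) = 0)
    (hSx : ∀ s ∈ S, f (lV s) (lV x) = 0) :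
    ∃ h : ι → F₀, f (lV h) (lV h) = 0 ∧ ζ * f (lV x) (lV h) = 1 ∧ ∀ s ∈ S, f (lV s) (lV h) = 0 := by
  obtain ⟨ψ, hψ0, hψ1⟩ := exists_dual_eq_one hxS
  obtain ⟨u, hu⟩ := riesz hf hR ψ
  have h1 : ζ * f (lV x) (lV u) = 1 := by
    rw [hu, hψ1]
    simp
  obtain ⟨s, hs⟩ := hR.tr x u hxx h1
  refine ⟨u - s • x, hs, ?_, fun t ht => ?_⟩
  · rw [lV_sub, lV_smul, sub_right hf, smul_right hf, hxx, mul_zero, sub_zero, h1]
  · have h2 : ζ * f (lV t) (lV u) = 0 := by
      rw [hu, hψ0 t ht]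
      simp
    have h3 := (mul_eq_zero.1 h2).resolve_left hR.ne
    rw [lV_sub, lV_smul, sub_right hf, smul_right hf, hSx t ht, mul_zero, sub_zero, h3]

theorem f_swap_rat {a b : ι → F₀} (h : f (lV a) (lV b) = 0) : f (lV b) (lV a) = 0 := swap_zero hf h

/-- Rational hyperbolic pairs. -/
theorem exists_hyp_rat {k : ℕ} (u : Fin k → ι → F₀) (h : 2 * k + 3 ≤ Fintype.card ι) :
    ∃ e h' : ι → F₀, f (lV e) (lV e) = 0 ∧ f (lV h') (lV h') = 0 ∧ ζ * f (lV e) (lV h') = 1 ∧
      (∀ i, f (lV e) (lV (u i)) = 0) ∧ ∀ i, f (lV h') (lV (u i)) = 0 := by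
  classical
  set S := Submodule.span F₀ (Set.range u) with hS
  have hSdim : finrank F₀ S ≤ k := by
    have := finrank_range_le_card (R := F₀) u
    simpa [Set.finrank] using this
  obtain ⟨e, heS, hee, he, -⟩ := exists_iso_perp hf hR (r := finrank F₀ F) rfl u (Fin.elim0 : Fin 0 → ι → F) S (by
    simp
    omega)
  have hSe : ∀ s ∈ S, f (lV s) (lV e) = 0 := by
    intro s hs
    induction hs using Submodule.span_induction with
    | mem x hx =>
      obtain ⟨i, rfl⟩ := hx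
      exact swap_zero hf (he i)
    | zero =>
      rw [lV_zero, zero_left hf]
    | add x y _ _ h1 h2 =>
      rw [lV_add, hf.add_left, h1, h2, add_zero]
    | smul c x _ h1 =>
      rw [lV_smul, hf.smul_left, h1, mul_zero]
  obtain ⟨h', h1, h2, h3⟩ := exists_partner_rat hf hR heS hee hSe
  exact ⟨e, h', hee, h1, h2, he, fun i => swap_zero hf (h3 _ (Submodule.subset_span ⟨i, rfl⟩))⟩

/-- Isotropic vectors span, given a hyperbolic pair. -/
theorem mem_span_cone {W : Submodule F₀ (ι → F₀)} {e h' x : ι → F₀} (he : e ∈ W) (hh : h' ∈ W) (hx : x ∈ W)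
    (hee : f (lV e) (lV e) = 0) (hhh : f (lV h') (lV h') = 0) (h1 : ζ * f (lV e) (lV h') = 1) :
    x ∈ Submodule.span F₀ {y | y ∈ W ∧ f (lV y) (lV y) = 0} := by
  set I := Submodule.span F₀ {y | y ∈ W ∧ f (lV y) (lV y) = 0} with hI
  have he' : e ∈ I := Submodule.subset_span ⟨he, hee⟩
  have hh' : h' ∈ I := Submodule.subset_span ⟨hh, hhh⟩
  -- the coefficients
  have hfe : f (lV e) (lV h') ≠ 0 := by
    intro h0
    rw [h0, mul_zero] at h1
    exact zero_ne_one h1
  have hfh : f (lV h') (lV e) ≠ 0 := fun h0 => hfe (swap_zero hf h0)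
  have hce : ((cov hf hR h' e : F₀) : F) ≠ 0 := by
    rw [cov_coe]
    exact mul_ne_zero hR.ne hfe
  have hch : ((cov hf hR e h' : F₀) : F) ≠ 0 := by
    rw [cov_coe]
    exact mul_ne_zero hR.ne hfh
  set a : F₀ := cov hf hR h' x / cov hf hR h' e with ha
  set b : F₀ := cov hf hR e x / cov hf hR e h' with hb
  have hac : (a : F) * f (lV e) (lV h') = f (lV x) (lV h') := by
    rw [ha, Subfield.coe_div, cov_coe, cov_coe]
    have := hR.ne
    field_simp
  have hbc : (b : F) * f (lV h') (lV e) = f (lV x) (lV e) := by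
    rw [hb, Subfield.coe_div, cov_coe, cov_coe]
    have := hR.ne
    field_simp
  set x' : ι → F₀ := x - a • e - b • h' with hx'
  have hx'W : x' ∈ W := W.sub_mem (W.sub_mem hx (W.smul_mem _ he)) (W.smul_mem _ hh)
  have e1 : f (lV x') (lV h') = 0 := by
    rw [hx', lV_sub, lV_sub, lV_smul, lV_smul, sub_left hf, sub_left hf, hf.smul_left, hf.smul_left, hhh, hac]
    ring
  have e2 : f (lV x') (lV e) = 0 := by
    rw [hx', lV_sub, lV_sub, lV_smul, lV_smul, sub_left hf, sub_left hf, hf.smul_left, hf.smul_left, hee, hbc]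
    ring
  have e3 : ζ * f (lV e) (lV (x' + h')) = 1 := by
    rw [lV_add, add_right hf, swap_zero hf e2, zero_add, h1]
  obtain ⟨s, hs⟩ := hR.tr e (x' + h') hee e3
  have hyW : x' + h' - s • e ∈ W := W.sub_mem (W.add_mem hx'W hh) (W.smul_mem _ he)
  have hy : x' + h' - s • e ∈ I := Submodule.subset_span ⟨hyW, hs⟩
  have hex : x = (x' + h' - s • e) - h' + s • e + a • e + b • h' := by
    rw [hx']
    abel
  rw [hex]
  exact I.add_mem (I.add_mem (I.add_mem (I.sub_mem hy hh') (I.smul_mem _ he')) (I.smul_mem _ he')) (I.smul_mem _ hh')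

/-- `lV` of a combination in the span. -/
theorem lV_mem_span {C : Set (ι → F₀)} {x : ι → F₀} (hx : x ∈ Submodule.span F₀ C) :
    lV x ∈ Submodule.span F (lV '' C) := by
  induction hx using Submodule.span_induction with
  | mem y hy => exact Submodule.subset_span ⟨y, hy, rfl⟩
  | zero =>
    rw [lV_zero]
    exact Submodule.zero_mem _
  | add y z _ _ h1 h2 =>
    rw [lV_add]
    exact Submodule.add_mem _ h1 h2
  | smul c y _ h1 =>
    rw [lV_smul]
    exact Submodule.smul_mem _ _ h1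

/-- The rational isotropic vectors span the rational vectors. -/
theorem all_span_cone (h3 : 3 ≤ Fintype.card ι) (x : ι → F₀) :
    x ∈ Submodule.span F₀ {y : ι → F₀ | f (lV y) (lV y) = 0} := by
  obtain ⟨e, h', hee, hhh, h1, -, -⟩ := exists_hyp_rat hf hR (Fin.elim0 : Fin 0 → ι → F₀) (by simpa using h3)
  have := mem_span_cone hf hR (W := ⊤) (x := x) trivial trivial trivial hee hhh h1
  simpa using this

/-- A functional which is rational on the rational isotropic vectors, up to a scalar, comes from a rational vector. -/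
theorem line_of_rel (h3 : 3 ≤ Fintype.card ι) {v : ι → F} {t : F} (ht : t ≠ 0)
    (h : ∀ y : ι → F₀, f (lV y) (lV y) = 0 → f (lV y) v * t ∈ F₀) :
    ∃ u : ι → F₀, v = (σ ζ / σ t) • lV u := by
  have hall : ∀ x : ι → F₀, f (lV x) v * t ∈ F₀ := by
    intro x
    have hx := all_span_cone hf hR h3 x
    induction hx using Submodule.span_induction with
    | mem y hy => exact h y hy
    | zero =>
      rw [lV_zero, zero_left hf, zero_mul]
      exact F₀.zero_mem
    | add y z _ _ h1 h2 =>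
      rw [lV_add, hf.add_left, add_mul]
      exact F₀.add_mem h1 h2
    | smul c y _ h1 =>
      rw [lV_smul, hf.smul_left, mul_assoc]
      exact F₀.mul_mem c.2 h1
  obtain ⟨ψ, hψ⟩ := exists_lD (t • fLin hf v) (by
    intro x
    simp only [LinearMap.smul_apply, fLin_apply, smul_eq_mul]
    rw [mul_comm]
    exact hall x)
  obtain ⟨u, hu⟩ := riesz hf hR ψ
  refine ⟨u, ?_⟩
  have hσt : σ t ≠ 0 := by simpa using ht
  have hmain : σ t • v = σ ζ • lV u := by
    apply eq_of_rat hf hR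
    intro x
    rw [smul_right hf, smul_right hf, hf.involutive, hf.involutive, hu]
    have h1 := LinearMap.congr_fun hψ (lV x)
    simp only [LinearMap.smul_apply, fLin_apply, smul_eq_mul, lD_lV] at h1
    exact h1
  rw [div_eq_inv_mul, mul_smul, ← hmain, smul_smul, inv_mul_cancel₀ hσt, one_smul]

/-- If `lV u` is a multiple of `lV t`, with `t ≠ 0`, then `u` is a rational multiple of `t`. -/
theorem exists_rat_mult {u t : ι → F₀} {l : F} (ht : t ≠ 0) (h : lV u = l • lV t) : u ∈ Submodule.span F₀ {t} := by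
  obtain ⟨i, hi⟩ : ∃ i, t i ≠ 0 := by
    by_contra hcon
    push Not at hcon
    exact ht (funext hcon)
  have hi' : (t i : F) ≠ 0 := by simpa using hi
  have h1 := congrFun h i
  have h2 : ∀ j, (u j : F) = l * (t j : F) := fun j => congrFun h j
  have hl : l ∈ F₀ := by
    have e : l = (u i : F) / (t i : F) := by
      rw [h2 i]
      field_simp
    rw [e]
    exact F₀.div_mem (Subtype.coe_prop _) (Subtype.coe_prop _)
  rw [Submodule.mem_span_singleton]
  refine ⟨⟨l, hl⟩, funext fun j => Subtype.ext ?_⟩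
  simp only [Pi.smul_apply, smul_eq_mul, Subfield.coe_mul]
  exact (h2 j).symm

omit hf hR in
/-- The ratio from a relation between rational vectors. -/
theorem ratio_of_sum {u' w' x' : ι → F₀} {κ₁ κ₂ κ₃ : F} (h1 : u' ∉ Submodule.span F₀ {w'}) (h2 : w' ∉ Submodule.span F₀ {u'})
    (hκ₁ : κ₁ ≠ 0) (hκ₂ : κ₂ ≠ 0) (hsum : κ₁ • lV u' + κ₂ • lV w' = κ₃ • lV x') : κ₁ / κ₂ ∈ F₀ := by
  obtain ⟨h₁, h₁0, h₁1⟩ := exists_dual_eq_one h1
  obtain ⟨h₂, h₂0, h₂1⟩ := exists_dual_eq_one h2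
  have hyk : h₁ w' = 0 := h₁0 _ (Submodule.mem_span_singleton_self _)
  have hyj : h₂ u' = 0 := h₂0 _ (Submodule.mem_span_singleton_self _)
  have e1 := congrArg (lD h₁) hsum
  have e2 := congrArg (lD h₂) hsum
  simp only [map_add, map_smul, lD_lV, h₁1, hyk, h₂1, hyj, smul_eq_mul] at e1 e2
  simp only [OneMemClass.coe_one, ZeroMemClass.coe_zero, mul_one, mul_zero, add_zero, zero_add] at e1 e2
  have hκ : κ₃ ≠ 0 := by
    rintro rfl
    rw [zero_mul] at e1
    exact hκ₁ e1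
  have e3 : κ₁ / κ₂ = (h₁ x' : F) / (h₂ x' : F) := by
    rw [e1, e2, mul_div_mul_left _ _ hκ]
  rw [e3]
  exact F₀.div_mem (Subtype.coe_prop _) (Subtype.coe_prop _)

/-- Ratio of the scalars on orthogonal rational isotropic vectors. -/
theorem ratio_pair {g : GL ι F}
    (hg : ∀ x : ι → F₀, x ≠ 0 → f (lV x) (lV x) = 0 →
      ∃ (κ : F) (y₀ : ι → F₀), κ ≠ 0 ∧ (g : Matrix ι ι F) *ᵥ lV x = κ • lV y₀)
    {u t u' t' : ι → F₀} {κ₁ κ₂ : F} (hu0 : u ≠ 0) (hut : t ∉ Submodule.span F₀ {u}) (huu : f (lV u) (lV u) = 0)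
    (htt : f (lV t) (lV t) = 0) (hu_t : f (lV u) (lV t) = 0) (hκ₁ : κ₁ ≠ 0) (hκ₂ : κ₂ ≠ 0)
    (e₁ : (g : Matrix ι ι F) *ᵥ lV u = κ₁ • lV u') (e₂ : (g : Matrix ι ι F) *ᵥ lV t = κ₂ • lV t') : κ₁ / κ₂ ∈ F₀ := by
  have ht0 : t ≠ 0 := by
    rintro rfl
    exact hut (Submodule.zero_mem _)
  have hsum0 : u + t ≠ 0 := by
    intro h0
    apply hut
    have : t = (-1 : F₀) • u := by
      have h1 : t = -u := by
        rw [eq_neg_iff_add_eq_zero, add_comm]
        exact h0
      rw [h1]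
      simp
    rw [this]
    exact Submodule.smul_mem _ _ (Submodule.mem_span_singleton_self _)
  have hsumi : f (lV (u + t)) (lV (u + t)) = 0 := by
    rw [lV_add, self_add hf, huu, htt, hu_t, map_zero]
    ring
  obtain ⟨κ₃, x', -, e₃⟩ := hg _ hsum0 hsumi
  have hsum : κ₁ • lV u' + κ₂ • lV t' = κ₃ • lV x' := by
    rw [← e₃, lV_add, Matrix.mulVec_add, e₁, e₂]
  have hinj : ∀ {a b a' b' : ι → F₀} {κa κb : F}, κa ≠ 0 → κb ≠ 0 → b ≠ 0 →
      (g : Matrix ι ι F) *ᵥ lV a = κa • lV a' → (g : Matrix ι ι F) *ᵥ lV b = κb • lV b' →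
      a' ∈ Submodule.span F₀ {b'} → a ∈ Submodule.span F₀ {b} := by
    intro a b a' b' κa κb hκa hκb hb0 ha hb hmem
    obtain ⟨c, rfl⟩ := Submodule.mem_span_singleton.1 hmem
    apply exists_rat_mult hf hR hb0 (l := (κa * c) / κb)
    apply mulVec_injective g
    change (g : Matrix ι ι F) *ᵥ lV a = (g : Matrix ι ι F) *ᵥ (((κa * c) / κb) • lV b)
    rw [Matrix.mulVec_smul, hb, ha, lV_smul, smul_smul, smul_smul]
    congr 1
    field_simp
  refine ratio_of_sum (fun hmem => ?_) (fun hmem => hut (hinj hκ₂ hκ₁ hu0 e₂ e₁ hmem)) hκ₁ hκ₂ hsum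
  have h1 := hinj hκ₁ hκ₂ ht0 e₁ e₂ hmem
  obtain ⟨c, hc⟩ := Submodule.mem_span_singleton.1 h1
  have hc0 : c ≠ 0 := by
    rintro rfl
    apply hu0
    rw [← hc, zero_smul]
  apply hut
  rw [Submodule.mem_span_singleton]
  exact ⟨c⁻¹, by rw [← hc, smul_smul, inv_mul_cancel₀ hc0, one_smul]⟩

/-- **Rational isotropic lines preserved by scalar multiples of rational matrices only.** -/
theorem mem_of_iso_lines (hn : 7 ≤ Fintype.card ι) {g : GL ι F}
    (hg : ∀ x : ι → F₀, x ≠ 0 → f (lV x) (lV x) = 0 →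
      ∃ (κ : F) (y₀ : ι → F₀), κ ≠ 0 ∧ (g : Matrix ι ι F) *ᵥ lV x = κ • lV y₀) :
    g ∈ (Matrix.GeneralLinearGroup.map (F₀.subtype : F₀ →+* F)).range ⊔ scalars ι F := by
  classical
  haveI : Nonempty ι := by
    apply Fintype.card_pos_iff.1
    omega
  obtain ⟨u₀, hu₀, hu₀u₀, -, -⟩ := exists_iso_perp hf hR (r := finrank F₀ F) rfl (Fin.elim0 : Fin 0 → ι → F₀)
    (Fin.elim0 : Fin 0 → ι → F) ⊥ (by simp; omega)
  have hu₀0 : u₀ ≠ 0 := by simpa using hu₀
  obtain ⟨κ₀, y₀, hκ₀, hy₀⟩ := hg u₀ hu₀0 hu₀u₀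
  have hratio : ∀ x : ι → F₀, x ≠ 0 → f (lV x) (lV x) = 0 → ∃ y : ι → F₀, (g : Matrix ι ι F) *ᵥ lV x = κ₀ • lV y := by
    intro x hx0 hxx
    obtain ⟨κ, y, hκ, hy⟩ := hg x hx0 hxx
    -- a common orthogonal vector
    have hS : finrank F₀ (Submodule.span F₀ {x, u₀}) ≤ 2 := finrank_span_pair_le x u₀
    obtain ⟨t, htS, htt, ht, -⟩ := exists_iso_perp hf hR (r := finrank F₀ F) rfl ![x, u₀]
      (Fin.elim0 : Fin 0 → ι → F) (Submodule.span F₀ {x, u₀}) (by simp; omega)
    have htx : f (lV t) (lV x) = 0 := ht 0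
    have htu : f (lV t) (lV u₀) = 0 := ht 1
    have ht0 : t ≠ 0 := by
      rintro rfl
      exact htS (Submodule.zero_mem _)
    obtain ⟨κt, yt, hκt, hyt⟩ := hg t ht0 htt
    have h1 : κ / κt ∈ F₀ := ratio_pair hf hR hg hx0
      (fun hmem => htS (Submodule.span_mono (by simp) hmem)) hxx htt (swap_zero hf htx) hκ hκt hy hyt
    have h2 : κ₀ / κt ∈ F₀ := ratio_pair hf hR hg hu₀0
      (fun hmem => htS (Submodule.span_mono (by simp) hmem)) hu₀u₀ htt (swap_zero hf htu) hκ₀ hκt hy₀ hyt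
    have h3 : κ / κ₀ ∈ F₀ := by
      have e : κ / κ₀ = (κ / κt) / (κ₀ / κt) := by
        field_simp
      rw [e]
      exact F₀.div_mem h1 h2
    refine ⟨(⟨κ / κ₀, h3⟩ : F₀) • y, ?_⟩
    rw [hy, lV_smul, smul_smul]
    congr 1
    simp only
    field_simp
  have hall : ∀ x : ι → F₀, ∃ y : ι → F₀, (g : Matrix ι ι F) *ᵥ lV x = κ₀ • lV y := by
    intro x
    have hx := all_span_cone hf hR (by omega) x
    induction hx using Submodule.span_induction with
    | mem y hy =>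
      by_cases hy0 : y = 0
      · refine ⟨0, ?_⟩
        rw [hy0, lV_zero, Matrix.mulVec_zero, smul_zero]
      · exact hratio y hy0 hy
    | zero =>
      refine ⟨0, ?_⟩
      rw [lV_zero, Matrix.mulVec_zero, smul_zero]
    | add y z _ _ h1 h2 =>
      obtain ⟨y₁, h1⟩ := h1
      obtain ⟨y₂, h2⟩ := h2
      refine ⟨y₁ + y₂, ?_⟩
      rw [lV_add, Matrix.mulVec_add, h1, h2, lV_add, smul_add]
    | smul c y _ h1 =>
      obtain ⟨y₁, h1⟩ := h1
      refine ⟨c • y₁, ?_⟩
      rw [lV_smul, Matrix.mulVec_smul, h1, lV_smul, smul_smul, smul_smul, mul_comm]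
  apply Cfsg.Agent.Lib.Classical.Sub.Lines.mem_of_lines
  intro v₀ _
  obtain ⟨y, hy⟩ := hall v₀
  exact ⟨κ₀, y, hκ₀, hy⟩

end Rational

end Cfsg.Agent.Lib.Classical.Sub.UBase
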