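/-
Overgroups of the rational points in a special unitary group: root elements, Heisenberg elements, the field of
coefficients.
-/
import Mathlib
import Cfsg.Agent.Lib.Classical.Sub.UBase

set_option autoImplicit false
set_option linter.unusedSectionVars false

namespace Cfsg.Agent.Lib.Classical.Sub.UElts

open scoped Matrix MatrixGroups
open Module Cfsg Cfsg.Geo
open Cfsg.Agent.Lib.Classical.Geo.Basic
open Cfsg.Agent.Lib.Classical.Geo.UForm Cfsg.Agent.Lib.Classical.Geo.UPair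
open Cfsg.Agent.Lib.Classical.Sub.Rat Cfsg.Agent.Lib.Classical.Sub.UBase

variable {ι : Type} [Fintype ι] [DecidableEq ι] {F : Type*} [Field F] [Fintype F]
  {σ : F ≃+* F} {f : (ι → F) → (ι → F) → F} {F₀ : Subfield F} {ζ : F}

local notation "Mt" => Matrix ι ι F

section Root

variable (hf : IsUnitaryForm σ f)

/-- `E(u, v) ∈ M`. -/
def InE (M : Subgroup (GL ι F)) (u v : ι → F) : Prop := ∃ h : f u v = 0, E hf u v h ∈ M

include hf

variable {M : Subgroup (GL ι F)}

omit [Fintype F] in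
theorem iso_smul {x : ι → F} (h : f x x = 0) (t : F) : f (t • x) (t • x) = 0 := by
  rw [self_smul hf, h, mul_zero]

theorem InE.congr {u u' v v' : ι → F} (h : InE hf M u v) (hu : u = u') (hv : v = v') : InE hf M u' v' := by
  subst hu hv
  exact h

theorem InE.swap {u v : ι → F} (huu : f u u = 0) (hvv : f v v = 0) (h : InE hf M u v) : InE hf M v u := by
  obtain ⟨h0, h1⟩ := h
  have h0' := swap_zero hf h0
  refine ⟨h0', ?_⟩
  have e : E hf v u h0' = (E hf u v h0)⁻¹ := by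
    apply eq_inv_of_mul_eq_one_left
    apply gl_ext
    intro x
    simp only [gl_mulVec_mul, E_mulVec hf h0 hvv, E_mulVec hf h0' huu, Units.val_one, Matrix.one_mulVec,
      sub_left hf, hf.add_left, hf.smul_left, huu, hvv, h0, h0']
    module
  rw [e]
  exact M.inv_mem h1

/-- Scalars move across. -/
theorem InE.smul_move {u v : ι → F} {t : F} (hvv : f v v = 0) (h : InE hf M u (t • v)) : InE hf M (σ t • u) v := by
  obtain ⟨h0, h1⟩ := h
  have h0' : f (σ t • u) v = 0 := by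
    have := h0
    rw [smul_right hf] at this
    rw [hf.smul_left, this]
  refine ⟨h0', ?_⟩
  have e : E hf (σ t • u) v h0' = E hf u (t • v) h0 := by
    apply gl_ext
    intro x
    rw [E_mulVec hf h0' hvv, E_mulVec hf h0 (iso_smul hf hvv t), smul_right hf, smul_right hf, hf.involutive]
    module
  rw [e]
  exact h1

theorem InE.smul_move' {u v : ι → F} {t : F} (hvv : f v v = 0) (h : InE hf M (σ t • u) v) : InE hf M u (t • v) := by
  obtain ⟨h0, h1⟩ := h
  have h0' : f u (t • v) = 0 := by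
    have := h0
    rw [hf.smul_left] at this
    rw [smul_right hf, this]
  refine ⟨h0', ?_⟩
  have e : E hf (σ t • u) v h0 = E hf u (t • v) h0' := by
    apply gl_ext
    intro x
    rw [E_mulVec hf h0 hvv, E_mulVec hf h0' (iso_smul hf hvv t), smul_right hf, smul_right hf, hf.involutive]
    module
  rw [← e]
  exact h1

theorem E_mul_right {u v w : ι → F} (hvv : f v v = 0) (hww : f w w = 0) (huu : f u u = 0)
    (h1 : f u v = 0) (h2 : f u w = 0) (hvw : f v w = 0) (h3 : f u (v + w) = 0) :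
    E hf u v h1 * E hf u w h2 = E hf u (v + w) h3 := by
  have hvw' := swap_zero hf hvw
  have h2' := swap_zero hf h2
  have h1' := swap_zero hf h1
  have hss : f (v + w) (v + w) = 0 := by
    rw [self_add hf, hvv, hww, hvw, map_zero]
    ring
  apply gl_ext
  intro x
  simp only [gl_mulVec_mul, E_mulVec hf h1 hvv, E_mulVec hf h2 hww, E_mulVec hf h3 hss, sub_left hf, hf.add_left,
    add_right hf, hf.smul_left, huu, hvv, hww, h1, h2, hvw, hvw', h2', h1']
  module

theorem InE.addR {u v w : ι → F} (hvv : f v v = 0) (hww : f w w = 0) (huu : f u u = 0) (hvw : f v w = 0)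
    (h : InE hf M u v) (h' : InE hf M u w) : InE hf M u (v + w) := by
  obtain ⟨h1, m1⟩ := h
  obtain ⟨h2, m2⟩ := h'
  have h3 : f u (v + w) = 0 := by rw [add_right hf, h1, h2, add_zero]
  refine ⟨h3, ?_⟩
  rw [← E_mul_right hf hvv hww huu h1 h2 hvw h3]
  exact M.mul_mem m1 m2

/-- Cancellation on the right slot. -/
theorem InE.subR {u v w : ι → F} (hvv : f v v = 0) (hww : f w w = 0) (huu : f u u = 0) (hvw : f v w = 0)
    (huv : f u v = 0) (huw : f u w = 0)
    (h : InE hf M u v) (h' : InE hf M u (v + w)) : InE hf M u w := by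
  obtain ⟨h1, m1⟩ := h
  obtain ⟨h3, m3⟩ := h'
  refine ⟨huw, ?_⟩
  have e := E_mul_right hf hvv hww huu h1 huw hvw h3
  have e' : E hf u w huw = (E hf u v h1)⁻¹ * E hf u (v + w) h3 := by
    rw [← e]
    group
  rw [e']
  exact M.mul_mem (M.inv_mem m1) m3

theorem InE.addL {u v w : ι → F} (hvv : f v v = 0) (hww : f w w = 0) (huu : f u u = 0) (hvw : f v w = 0)
    (h : InE hf M v u) (h' : InE hf M w u) : InE hf M (v + w) u := by
  have h1 := InE.addR hf hvv hww huu hvw (InE.swap hf hvv huu h) (InE.swap hf hww huu h')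
  refine InE.swap hf huu ?_ h1
  rw [self_add hf, hvv, hww, hvw, map_zero]
  ring

theorem InE.negL {u v : ι → F} (huu : f u u = 0) (hvv : f v v = 0) (h : InE hf M u v) : InE hf M (-u) v := by
  obtain ⟨h1, m1⟩ := h
  have h1' : f (-u) v = 0 := by rw [neg_left hf, h1, neg_zero]
  have h1'' := swap_zero hf h1
  refine ⟨h1', ?_⟩
  have e : E hf (-u) v h1' = (E hf u v h1)⁻¹ := by
    apply eq_inv_of_mul_eq_one_left
    apply gl_ext
    intro x
    simp only [gl_mulVec_mul, E_mulVec hf h1 hvv, E_mulVec hf h1' hvv, Units.val_one, Matrix.one_mulVec,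
      sub_left hf, neg_left hf, neg_right hf, hf.add_left, hf.smul_left, huu, hvv, h1, h1'']
    module
  rw [e]
  exact M.inv_mem m1

/-- Conjugation by an isometry in `M`. -/
theorem InE.conj {u v : ι → F} (hvv : f v v = 0) (h : InE hf M u v) {g : GL ι F} (hgM : g ∈ M)
    (hg : ∀ x y, f ((g : Mt) *ᵥ x) ((g : Mt) *ᵥ y) = f x y) : InE hf M ((g : Mt) *ᵥ u) ((g : Mt) *ᵥ v) := by
  obtain ⟨h1, m1⟩ := h
  have h' : f ((g : Mt) *ᵥ u) ((g : Mt) *ᵥ v) = 0 := by rw [hg, h1]
  refine ⟨h', ?_⟩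
  rw [← conj_E hf hg h1 hvv h']
  exact M.mul_mem (M.mul_mem hgM m1) (M.inv_mem hgM)

end Root

section Rat

variable (hf : IsUnitaryForm σ f)

/-- The rational points lie in `M`. -/
def HasRatU (M : Subgroup (GL ι F)) (F₀ : Subfield F) : Prop :=
  ∀ g ∈ isoGroup hf, (∀ x : ι → F₀, ∃ y : ι → F₀, (g : Mt) *ᵥ lV x = lV y) → g ∈ M

variable (hR : RatS σ f F₀ ζ) {M : Subgroup (GL ι F)} (hM : HasRatU hf M F₀)

include hf hR

theorem sigma_zeta_rat (x y : ι → F₀) : ∃ c : F₀, (c : F) = σ ζ * f (lV x) (lV y) := by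
  rcases hR.σζ with h | h
  · exact ⟨⟨_, hR.rat x y⟩, by rw [h]⟩
  · refine ⟨-⟨_, hR.rat x y⟩, ?_⟩
    rw [h]
    simp

include hM

/-- Rational root elements. -/
theorem rat_E {a b : ι → F₀} (haa : f (lV a) (lV a) = 0) (hbb : f (lV b) (lV b) = 0) (hab : f (lV a) (lV b) = 0) :
    InE hf M (ζ • lV a) (lV b) := by
  have h0 : f (ζ • lV a) (lV b) = 0 := by rw [hf.smul_left, hab, mul_zero]
  refine ⟨h0, hM _ (E_mem hf (iso_smul hf haa ζ) hbb h0) fun x => ?_⟩
  obtain ⟨c, hc⟩ := sigma_zeta_rat hf hR x a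
  refine ⟨x + (⟨_, hR.rat x b⟩ : F₀) • a - c • b, ?_⟩
  rw [E_mulVec hf h0 hbb, smul_right hf, lV_sub, lV_add, lV_smul, lV_smul, ← hc, smul_smul]
  simp only [mul_comm (f (lV x) (lV b))]

/-- The coefficients of the rational root elements on a pair. -/
def KS (hf : IsUnitaryForm σ f) (M : Subgroup (GL ι F)) (ζ : F) (a b : ι → F₀) : Set F :=
  {κ | InE hf M (κ • ζ • lV a) (lV b)}

omit hR hM in
theorem f_scale_left {x y : ι → F} (h : f x y = 0) (t t' : F) : f (t • t' • x) y = 0 := by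
  rw [hf.smul_left, hf.smul_left, h, mul_zero, mul_zero]

omit hR hM in
theorem f_scale_right {x y : ι → F} (h : f x y = 0) (t : F) : f x (t • y) = 0 := by
  rw [smul_right hf, h, mul_zero]

omit hR hM in
theorem iso_scale {x : ι → F} (h : f x x = 0) (t t' : F) : f (t • t' • x) (t • t' • x) = 0 :=
  iso_smul hf (iso_smul hf h t') t

/-- The basic step. -/
theorem KS_step {a b c d : ι → F₀} {κ κ' : F} (haa : f (lV a) (lV a) = 0) (hbb : f (lV b) (lV b) = 0)
    (hcc : f (lV c) (lV c) = 0) (hdd : f (lV d) (lV d) = 0) (hab : f (lV a) (lV b) = 0)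
    (hac : f (lV a) (lV c) = 0) (had : f (lV a) (lV d) = 0) (hbc : f (lV b) (lV c) = 0)
    (hcd : f (lV c) (lV d) = 0) (hbd : ζ * f (lV b) (lV d) = 1) (h : κ ∈ KS hf M ζ a b) (h' : κ' ∈ KS hf M ζ c d) :
    InE hf M (κ • ζ • lV a) (κ' • lV c) := by
  obtain ⟨h0, hg⟩ := id h'
  have hgi := E_iso hf (iso_scale hf hcc κ' ζ) hdd h0
  have h1 := InE.conj hf hbb h hg hgi
  have e1 : ((E hf (κ' • ζ • lV c) (lV d) h0 : GL ι F) : Mt) *ᵥ (κ • ζ • lV a) = κ • ζ • lV a := by
    rw [E_mulVec hf h0 hdd, f_scale_left hf had, hf.smul_left, hf.smul_left, smul_right hf, smul_right hf, hac]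
    simp
  have e2 : ((E hf (κ' • ζ • lV c) (lV d) h0 : GL ι F) : Mt) *ᵥ lV b = lV b + κ' • lV c := by
    rw [E_mulVec hf h0 hdd, smul_right hf, smul_right hf, hbc, mul_zero, mul_zero, zero_smul, sub_zero, smul_smul, smul_smul]
    congr 1
    have : f (lV b) (lV d) * κ' * ζ = κ' * (ζ * f (lV b) (lV d)) := by ring
    rw [this, hbd, mul_one]
  rw [e1, e2] at h1
  exact InE.subR hf hbb (iso_smul hf hcc κ') (iso_scale hf haa κ ζ) (f_scale_right hf hbc κ')
    (f_scale_left hf hab κ ζ) (f_scale_right hf (f_scale_left hf hac κ ζ) κ') h h1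

/-- Rational scalars. -/
theorem coe_mem_KS {a b : ι → F₀} (haa : f (lV a) (lV a) = 0) (hbb : f (lV b) (lV b) = 0)
    (hab : f (lV a) (lV b) = 0) (d : F₀) : (d : F) ∈ KS hf M ζ a b := by
  have h := rat_E hf hR hM (a := d • a) (b := b) (by rw [lV_smul]; exact iso_smul hf haa _) hbb
    (by rw [lV_smul, hf.smul_left, hab, mul_zero])
  refine h.congr hf ?_ rfl
  rw [lV_smul, smul_comm]

omit hR hM in
theorem orth_span_pair {a c : ι → F₀} {x : ι → F} (h₁ : f (lV a) x = 0) (h₂ : f (lV c) x = 0) {s : ι → F₀}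
    (hs : s ∈ Submodule.span F₀ {a, c}) : f (lV s) x = 0 := by
  obtain ⟨α, β, rfl⟩ := Submodule.mem_span_pair.1 hs
  rw [lV_add, lV_smul, lV_smul, hf.add_left, hf.smul_left, hf.smul_left, h₁, h₂]
  ring

/-- Change of the second vector. -/
theorem KS_link {a b c : ι → F₀} {κ : F} (haa : f (lV a) (lV a) = 0) (hbb : f (lV b) (lV b) = 0)
    (hcc : f (lV c) (lV c) = 0) (hab : f (lV a) (lV b) = 0) (hac : f (lV a) (lV c) = 0) (hbc : f (lV b) (lV c) = 0)
    (hb : b ∉ Submodule.span F₀ {a, c}) (h : κ ∈ KS hf M ζ a b) : κ ∈ KS hf M ζ a c := by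
  obtain ⟨d, hdd, h1, h2⟩ := exists_partner_rat hf hR hb hbb
    (fun s hs => orth_span_pair hf hab (swap_zero hf hbc) hs)
  have had := h2 a (Submodule.subset_span (by simp))
  have hcd := h2 c (Submodule.subset_span (by simp))
  have h3 := KS_step hf hR hM (κ' := 1) haa hbb hcc hdd hab hac had hbc hcd h1 h
    (by simpa using coe_mem_KS hf hR hM hcc hdd hcd (1 : F₀))
  exact h3.congr hf rfl (one_smul _ _)

/-- The swap. -/
theorem KS_swap {a b : ι → F₀} {κ : F} (haa : f (lV a) (lV a) = 0) (hbb : f (lV b) (lV b) = 0)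
    (h : κ ∈ KS hf M ζ a b) : σ κ ∈ KS hf M ζ b a := by
  have h1 : InE hf M (lV b) ((κ * ζ) • lV a) :=
    (InE.swap hf (iso_scale hf haa κ ζ) hbb h).congr hf rfl (smul_smul _ _ _)
  have h2 := InE.smul_move hf haa h1
  rcases hR.σζ with h3 | h3
  · refine h2.congr hf ?_ rfl
    rw [map_mul, h3, mul_smul]
  · have h4 := InE.negL hf (iso_smul hf hbb _) haa h2
    refine h4.congr hf ?_ rfl
    rw [map_mul, h3, mul_neg, neg_smul, neg_neg, mul_smul]

/-- Change of the first vector. -/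
theorem KS_link' {a b c : ι → F₀} {κ : F} (haa : f (lV a) (lV a) = 0) (hbb : f (lV b) (lV b) = 0)
    (hcc : f (lV c) (lV c) = 0) (hab : f (lV a) (lV b) = 0) (hac : f (lV a) (lV c) = 0) (hbc : f (lV b) (lV c) = 0)
    (ha : a ∉ Submodule.span F₀ {b, c}) (h : κ ∈ KS hf M ζ a b) : κ ∈ KS hf M ζ c b := by
  have h1 := KS_swap hf hR hM haa hbb h
  have h2 := KS_link hf hR hM hbb haa hcc (swap_zero hf hab) hbc hac ha h1
  have h3 := KS_swap hf hR hM hbb hcc h2
  rwa [hf.involutive] at h3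

/-- All rational pairs have the same coefficients. -/
theorem KS_transit (hn : 11 ≤ Fintype.card ι) {a b a' b' : ι → F₀} {κ : F} (haa : f (lV a) (lV a) = 0)
    (hbb : f (lV b) (lV b) = 0) (hab : f (lV a) (lV b) = 0) (ha0 : a ≠ 0) (hba : b ∉ Submodule.span F₀ {a})
    (ha'a' : f (lV a') (lV a') = 0) (hb'b' : f (lV b') (lV b') = 0) (ha'b' : f (lV a') (lV b') = 0)
    (h : κ ∈ KS hf M ζ a b) : κ ∈ KS hf M ζ a' b' := by
  classical
  have hS₁ : finrank F₀ (Submodule.span F₀ (Set.range ![a, b, a', b'])) ≤ 4 := by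
    have := finrank_range_le_card (R := F₀) ![a, b, a', b']
    simpa [Set.finrank] using this
  obtain ⟨c, hcS, hcc, hc, -⟩ := exists_iso_perp hf hR (r := finrank F₀ F) rfl ![a, b, a', b']
    (Fin.elim0 : Fin 0 → ι → F) (Submodule.span F₀ (Set.range ![a, b, a', b'])) (by simp; omega)
  have hca : f (lV c) (lV a) = 0 := hc 0
  have hcb : f (lV c) (lV b) = 0 := hc 1
  have hca' : f (lV c) (lV a') = 0 := hc 2
  have hcb' : f (lV c) (lV b') = 0 := hc 3
  have hmem : ∀ x ∈ ({a, b, a', b'} : Set (ι → F₀)), x ∈ Submodule.span F₀ (Set.range ![a, b, a', b']) := by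
    rintro x (rfl | rfl | rfl | rfl)
    · exact Submodule.subset_span ⟨0, rfl⟩
    · exact Submodule.subset_span ⟨1, rfl⟩
    · exact Submodule.subset_span ⟨2, rfl⟩
    · exact Submodule.subset_span ⟨3, rfl⟩
  have hc1 : c ∉ Submodule.span F₀ {a, b} := fun hm => hcS
    ((Submodule.span_le.2 fun x hx => hmem x (by
      rcases hx with rfl | rfl
      · simp
      · simp)) hm)
  have hc2 : c ∉ Submodule.span F₀ {a', b'} := fun hm => hcS
    ((Submodule.span_le.2 fun x hx => hmem x (by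
      rcases hx with rfl | rfl
      · simp
      · simp)) hm)
  have hc3 : c ∉ Submodule.span F₀ {a} := fun hm => hc1 (Submodule.span_mono (by simp) hm)
  have hS₂ : finrank F₀ (Submodule.span F₀ (Set.range ![a, c, a'])) ≤ 3 := by
    have := finrank_range_le_card (R := F₀) ![a, c, a']
    simpa [Set.finrank] using this
  obtain ⟨e, heS, hee, he, -⟩ := exists_iso_perp hf hR (r := finrank F₀ F) rfl ![a, c, a']
    (Fin.elim0 : Fin 0 → ι → F) (Submodule.span F₀ (Set.range ![a, c, a'])) (by simp; omega)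
  have hea : f (lV e) (lV a) = 0 := he 0
  have hec : f (lV e) (lV c) = 0 := he 1
  have hea' : f (lV e) (lV a') = 0 := he 2
  have he1 : e ∉ Submodule.span F₀ {c, a} := fun hm => heS
    ((Submodule.span_le.2 fun x hx => by
      rcases hx with rfl | rfl
      · exact Submodule.subset_span ⟨1, rfl⟩
      · exact Submodule.subset_span ⟨0, rfl⟩) hm)
  have he2 : e ∉ Submodule.span F₀ {c, a'} := fun hm => heS
    ((Submodule.span_le.2 fun x hx => by
      rcases hx with rfl | rfl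
      · exact Submodule.subset_span ⟨1, rfl⟩
      · exact Submodule.subset_span ⟨2, rfl⟩) hm)
  have hac : a ∉ Submodule.span F₀ {c} := not_mem_singleton_symm ha0 hc3
  have h1 : κ ∈ KS hf M ζ a c := KS_link hf hR hM haa hbb hcc hab (swap_zero hf hca) (swap_zero hf hcb)
    (not_mem_pair hba hc1) h
  have h2 : κ ∈ KS hf M ζ e c := KS_link' hf hR hM haa hcc hee (swap_zero hf hca) (swap_zero hf hea)
    (swap_zero hf hec) (not_mem_pair hac he1) h1
  have h3 : κ ∈ KS hf M ζ a' c := KS_link' hf hR hM hee hcc ha'a' hec hea' hca' he2 h2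
  exact KS_link hf hR hM ha'a' hcc hb'b' (swap_zero hf hca') ha'b' hcb' hc2 h3

/-- The coefficients of all rational root elements. -/
def AsU (hf : IsUnitaryForm σ f) (M : Subgroup (GL ι F)) (ζ : F) (F₀ : Subfield F) : Set F :=
  {κ | ∀ a b : ι → F₀, f (lV a) (lV a) = 0 → f (lV b) (lV b) = 0 → f (lV a) (lV b) = 0 → κ ∈ KS hf M ζ a b}

theorem mem_AsU_of_pair (hn : 11 ≤ Fintype.card ι) {a b : ι → F₀} {κ : F} (haa : f (lV a) (lV a) = 0)
    (hbb : f (lV b) (lV b) = 0) (hab : f (lV a) (lV b) = 0) (ha0 : a ≠ 0) (hba : b ∉ Submodule.span F₀ {a})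
    (h : κ ∈ KS hf M ζ a b) : κ ∈ AsU hf M ζ F₀ :=
  fun _ _ ha'a' hb'b' ha'b' => KS_transit hf hR hM hn haa hbb hab ha0 hba ha'a' hb'b' ha'b' h

theorem coe_mem_AsU (d : F₀) : (d : F) ∈ AsU hf M ζ F₀ :=
  fun _ _ haa hbb hab => coe_mem_KS hf hR hM haa hbb hab d

omit hR hM in
theorem add_mem_AsU {κ κ' : F} (h : κ ∈ AsU hf M ζ F₀) (h' : κ' ∈ AsU hf M ζ F₀) : κ + κ' ∈ AsU hf M ζ F₀ := by
  intro a b haa hbb hab
  have h1 := InE.addL hf (iso_scale hf haa κ ζ) (iso_scale hf haa κ' ζ) hbb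
    (f_scale_left hf (f_scale_right hf (f_scale_right hf haa ζ) κ') κ ζ) (h a b haa hbb hab) (h' a b haa hbb hab)
  exact h1.congr hf (add_smul _ _ _).symm rfl

omit hR hM in
theorem neg_mem_AsU {κ : F} (h : κ ∈ AsU hf M ζ F₀) : -κ ∈ AsU hf M ζ F₀ := by
  intro a b haa hbb hab
  have h1 := InE.negL hf (iso_scale hf haa κ ζ) hbb (h a b haa hbb hab)
  exact h1.congr hf (neg_smul _ _).symm rfl

/-- The twisted products. -/
theorem mul_sigma_mem_AsU (hn : 11 ≤ Fintype.card ι) {κ κ' : F} (h : κ ∈ AsU hf M ζ F₀) (h' : κ' ∈ AsU hf M ζ F₀) :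
    κ * σ κ' ∈ AsU hf M ζ F₀ := by
  obtain ⟨a, haS, haa, -, -⟩ := exists_iso_perp hf hR (r := finrank F₀ F) rfl (Fin.elim0 : Fin 0 → ι → F₀)
    (Fin.elim0 : Fin 0 → ι → F) ⊥ (by simp; omega)
  have ha0 : a ≠ 0 := by simpa using haS
  have hS1 : finrank F₀ (Submodule.span F₀ {a}) ≤ 1 := le_of_eq (finrank_span_singleton ha0)
  obtain ⟨b, hbS, hbb, hb, -⟩ := exists_iso_perp hf hR (r := finrank F₀ F) rfl ![a]
    (Fin.elim0 : Fin 0 → ι → F) (Submodule.span F₀ {a}) (by simp; omega)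
  have hba : f (lV b) (lV a) = 0 := hb 0
  have hS2 : finrank F₀ (Submodule.span F₀ {a, b}) ≤ 2 := finrank_span_pair_le a b
  obtain ⟨c, hcS, hcc, hc, -⟩ := exists_iso_perp hf hR (r := finrank F₀ F) rfl ![a, b]
    (Fin.elim0 : Fin 0 → ι → F) (Submodule.span F₀ {a, b}) (by simp; omega)
  have hca : f (lV c) (lV a) = 0 := hc 0
  have hcb : f (lV c) (lV b) = 0 := hc 1
  have hb2 : b ∉ Submodule.span F₀ {a, c} := not_mem_pair hbS hcS
  obtain ⟨d, hdd, h1, h2⟩ := exists_partner_rat hf hR hb2 hbb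
    (fun s hs => orth_span_pair hf (swap_zero hf hba) hcb hs)
  have had := h2 a (Submodule.subset_span (by simp))
  have hcd := h2 c (Submodule.subset_span (by simp))
  have h3 := KS_step hf hR hM (a := a) (b := b) (c := c) (d := d) (κ := κ) (κ' := κ') haa hbb hcc hdd (swap_zero hf hba)
    (swap_zero hf hca) had (swap_zero hf hcb) hcd h1 (h a b haa hbb (swap_zero hf hba)) (h' c d hcc hdd hcd)
  have h4 := InE.smul_move hf hcc h3
  have h5 : κ * σ κ' ∈ KS hf M ζ a c := h4.congr hf (by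
    rw [smul_smul, mul_comm]) rfl
  have hca' : c ∉ Submodule.span F₀ {a} := fun hm => hcS (Submodule.span_mono (by simp) hm)
  exact mem_AsU_of_pair hf hR hM hn haa hcc (swap_zero hf hca) ha0 hca' h5

theorem sigma_mem_AsU (hn : 11 ≤ Fintype.card ι) {κ : F} (h : κ ∈ AsU hf M ζ F₀) : σ κ ∈ AsU hf M ζ F₀ := by
  have h1 := mul_sigma_mem_AsU hf hR hM hn (coe_mem_AsU hf hR hM (1 : F₀)) h
  simpa using h1

theorem mul_mem_AsU (hn : 11 ≤ Fintype.card ι) {κ κ' : F} (h : κ ∈ AsU hf M ζ F₀) (h' : κ' ∈ AsU hf M ζ F₀) :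
    κ * κ' ∈ AsU hf M ζ F₀ := by
  have h1 := mul_sigma_mem_AsU hf hR hM hn h (sigma_mem_AsU hf hR hM hn h')
  rwa [hf.involutive] at h1

/-- The field of coefficients. -/
noncomputable def subK (hn : 11 ≤ Fintype.card ι) : Subfield F where
  carrier := AsU hf M ζ F₀
  mul_mem' := mul_mem_AsU hf hR hM hn
  one_mem' := by
    have := coe_mem_AsU hf hR hM (1 : F₀)
    simpa using this
  add_mem' := add_mem_AsU hf
  zero_mem' := by
    have := coe_mem_AsU hf hR hM (0 : F₀)
    simpa using this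
  neg_mem' := neg_mem_AsU hf
  inv_mem' := by
    intro c hc
    have h1' : (1 : F) ∈ AsU hf M ζ F₀ := by
      have := coe_mem_AsU hf hR hM (1 : F₀)
      simpa using this
    by_cases hc0 : c = 0
    · subst hc0
      rw [inv_zero]
      have := coe_mem_AsU hf hR hM (0 : F₀)
      simpa using this
    have hpow : ∀ n : ℕ, c ^ n ∈ AsU hf M ζ F₀ := by
      intro n
      induction n with
      | zero =>
        rw [pow_zero]
        exact h1'
      | succ n ih =>
        rw [pow_succ]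
        exact mul_mem_AsU hf hR hM hn ih hc
    have h1 : c⁻¹ = c ^ (Fintype.card F - 2) := by
      have h2 := FiniteField.pow_card_sub_one_eq_one c hc0
      have h3 : 2 ≤ Fintype.card F := Fintype.one_lt_card
      have h4 : Fintype.card F - 1 = (Fintype.card F - 2) + 1 := by omega
      rw [h4, pow_succ] at h2
      exact (eq_inv_of_mul_eq_one_left h2).symm
    rw [h1]
    exact hpow _

end Rat

section Heis

variable (hf : IsUnitaryForm σ f)

/-- The Heisenberg element `x ↦ x + f(x, z) w - f(x, w) z + s f(x, z) z`. -/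
noncomputable def Hh (z w : ι → F) (s : F) (hz : f z z = 0) (h : f w z = 0) : GL ι F :=
  E hf w z h * T hf (s • z) z (by rw [hf.smul_left, hz, mul_zero])

theorem Hh_mulVec {z w : ι → F} {s : F} (hz : f z z = 0) (h : f w z = 0) (x : ι → F) :
    ((Hh hf z w s hz h : GL ι F) : Mt) *ᵥ x = x + f x z • w - f x w • z + (s * f x z) • z := by
  have h' := swap_zero hf h
  unfold Hh
  rw [gl_mulVec_mul, T_mulVec, E_mulVec hf h hz]
  simp only [hf.add_left, hf.smul_left, hz, h']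
  module

/-- The element `Hh` is in `M`. -/
def InY (M : Subgroup (GL ι F)) (z w : ι → F) (s : F) : Prop :=
  ∃ (hz : f z z = 0) (h : f w z = 0), Hh hf z w s hz h ∈ M

variable {M : Subgroup (GL ι F)}

include hf

theorem InY.congr {z w w' : ι → F} {s s' : F} (h : InY hf M z w s) (hw : w = w') (hs : s = s') : InY hf M z w' s' := by
  subst hw hs
  exact h

theorem InY.mul {z y₁ y₂ : ι → F} {s₁ s₂ : F} (h₁ : InY hf M z y₁ s₁) (h₂ : InY hf M z y₂ s₂) :
    InY hf M z (y₁ + y₂) (s₁ + s₂ - f y₂ y₁) := by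
  obtain ⟨hz, h1, m1⟩ := h₁
  obtain ⟨_, h2, m2⟩ := h₂
  have h3 : f (y₁ + y₂) z = 0 := by rw [hf.add_left, h1, h2, add_zero]
  refine ⟨hz, h3, ?_⟩
  have e : Hh hf z (y₁ + y₂) (s₁ + s₂ - f y₂ y₁) hz h3 = Hh hf z y₁ s₁ hz h1 * Hh hf z y₂ s₂ hz h2 := by
    have h1' := swap_zero hf h1
    have h2' := swap_zero hf h2
    apply gl_ext
    intro x
    simp only [gl_mulVec_mul, Hh_mulVec hf hz, sub_left hf, hf.add_left, add_right hf, hf.smul_left, hz, h1, h2, h1', h2']
    module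
  rw [e]
  exact M.mul_mem m1 m2

theorem InY.inv {z y : ι → F} {s : F} (h : InY hf M z y s) : InY hf M z (-y) (-s - f y y) := by
  obtain ⟨hz, h1, m1⟩ := h
  have h3 : f (-y) z = 0 := by rw [neg_left hf, h1, neg_zero]
  refine ⟨hz, h3, ?_⟩
  have e : Hh hf z (-y) (-s - f y y) hz h3 = (Hh hf z y s hz h1)⁻¹ := by
    have h1' := swap_zero hf h1
    apply eq_inv_of_mul_eq_one_left
    apply gl_ext
    intro x
    simp only [gl_mulVec_mul, Hh_mulVec hf hz, sub_left hf, neg_left hf, neg_right hf, hf.add_left, add_right hf,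
      hf.smul_left, hz, h1, h1', Units.val_one, Matrix.one_mulVec]
    module
  rw [e]
  exact M.inv_mem m1

/-- Conjugation by an isometry fixing `z`. -/
theorem InY.conj {z w : ι → F} {s : F} (h : InY hf M z w s) {g : GL ι F} (hgM : g ∈ M)
    (hg : ∀ x y, f ((g : Mt) *ᵥ x) ((g : Mt) *ᵥ y) = f x y) (hgz : (g : Mt) *ᵥ z = z) :
    InY hf M z ((g : Mt) *ᵥ w) s := by
  obtain ⟨hz, h1, m1⟩ := h
  have h3 : f ((g : Mt) *ᵥ w) z = 0 := by
    have := hg w z
    rw [hgz] at this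
    rw [this, h1]
  refine ⟨hz, h3, ?_⟩
  have e : Hh hf z ((g : Mt) *ᵥ w) s hz h3 = g * Hh hf z w s hz h1 * g⁻¹ := by
    apply gl_ext
    intro x
    rw [gl_mulVec_mul, gl_mulVec_mul, Hh_mulVec hf hz, Hh_mulVec hf hz]
    have e1 := hg (((g⁻¹ : GL ι F) : Mt) *ᵥ x) z
    have e2 := hg (((g⁻¹ : GL ι F) : Mt) *ᵥ x) w
    rw [mulVec_inv_mulVec] at e1 e2
    rw [hgz] at e1
    rw [Matrix.mulVec_add, Matrix.mulVec_sub, Matrix.mulVec_add, Matrix.mulVec_smul, Matrix.mulVec_smul, Matrix.mulVec_smul,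
      mulVec_inv_mulVec, hgz, ← e1, ← e2]
  rw [e]
  exact M.mul_mem (M.mul_mem hgM m1) (M.inv_mem hgM)

/-- The difference. -/
theorem InY.step {z w : ι → F} {s : F} (h : InY hf M z w s) {g : GL ι F} (hgM : g ∈ M)
    (hg : ∀ x y, f ((g : Mt) *ᵥ x) ((g : Mt) *ᵥ y) = f x y) (hgz : (g : Mt) *ᵥ z = z) :
    InY hf M z ((g : Mt) *ᵥ w - w) (f w ((g : Mt) *ᵥ w) - f w w) := by
  have h1 := InY.mul hf (InY.conj hf h hgM hg hgz) (InY.inv hf h)
  refine h1.congr hf (sub_eq_add_neg _ _).symm ?_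
  rw [neg_left hf]
  ring

theorem InE.toY {w z : ι → F} (hz : f z z = 0) (h : InE hf M w z) : InY hf M z w 0 := by
  obtain ⟨h0, h1⟩ := h
  refine ⟨hz, h0, ?_⟩
  have e : Hh hf z w 0 hz h0 = E hf w z h0 := by
    apply gl_ext
    intro x
    rw [Hh_mulVec hf hz, E_mulVec hf h0 hz]
    simp
  rw [e]
  exact h1

theorem InY.toE {w z : ι → F} (h : InY hf M z w 0) : InE hf M w z := by
  obtain ⟨hz, h0, h1⟩ := h
  refine ⟨h0, ?_⟩
  have e : Hh hf z w 0 hz h0 = E hf w z h0 := by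
    apply gl_ext
    intro x
    rw [Hh_mulVec hf hz, E_mulVec hf h0 hz]
    simp
  rw [← e]
  exact h1

theorem InY.zero_of_T {z : ι → F} (hz : f z z = 0) {s : F}
    (h : T hf (s • z) z (by rw [hf.smul_left, hz, mul_zero]) ∈ M) : InY hf M z 0 s := by
  have h0 : f (0 : ι → F) z = 0 := zero_left hf z
  refine ⟨hz, h0, ?_⟩
  have e : Hh hf z 0 s hz h0 = T hf (s • z) z (by rw [hf.smul_left, hz, mul_zero]) := by
    apply gl_ext
    intro x
    rw [Hh_mulVec hf hz, T_mulVec, zero_right hf]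
    simp only [smul_zero, zero_smul, smul_smul, add_zero, sub_zero]
    module
  rw [e]
  exact h

end Heis

end Cfsg.Agent.Lib.Classical.Sub.UElts
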