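/-
Generation in `SL₂`: `x 1` together with a large additive group of `y`'s generating the field.
All characteristics.
-/
import Mathlib
import Cfsg.Agent.Lib.Linalg.Quad.FieldGen

set_option autoImplicit false

namespace Cfsg.Agent.Lib.Classical.Sub.SL2Gen

open Matrix Subgroup Polynomial
open scoped MatrixGroups
open Cfsg.Agent.Lib.PSL2.Basic Cfsg.Agent.Lib.PSL2.Conj Cfsg.Agent.Lib.PSL2.Members
open Cfsg.Agent.Lib.PSL2.Subfield Cfsg.Agent.Lib.PSL2.Reduction Cfsg.Agent.Lib.PSL2.DPart
open Cfsg.Agent.Lib.PSL2.DCount Cfsg.Agent.Lib.PSL2.DClassify Cfsg.Agent.Lib.PSL2.DicksonSL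
open Cfsg.Agent.Lib.PSL2.DicksonSL2 Cfsg.Agent.Lib.PSL2.Unipotent
open Cfsg.Agent.Lib.Linalg.Quad.FieldGen

variable {F : Type*} [Field F] [Fintype F]

omit [Fintype F] in
lemma mkP_y_inj {a b : F} (h : mkP (y a) = mkP (y b)) : a = b := by
  rcases mkP_eq_iff.1 h with h1 | h1
  · have := congrArg (fun M : SL(2, F) => M.1 1 0) h1
    simpa using this.symm
  · have h2 := congrArg (fun M : SL(2, F) => M.1 1 0) h1
    have h3 := congrArg (fun M : SL(2, F) => M.1 0 0) h1
    simp at h2 h3
    have h4 : (2 : F) = 0 := by linear_combination h3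
    rw [h2]
    linear_combination a * h4

omit [Fintype F] in
/-- The order of an additive subgroup is a power of `p`. -/
lemma card_addSubgroup {p : ℕ} [Fact p.Prime] [CharP F p] [Finite F] (B : AddSubgroup F) : ∃ k : ℕ, Nat.card B = p ^ k := by
  have h1 : IsPGroup p (Multiplicative B) := by
    intro g
    refine ⟨1, ?_⟩
    apply Multiplicative.toAdd.injective
    apply Subtype.ext
    simp only [pow_one, toAdd_pow, toAdd_one, AddSubgroup.coe_zero, AddSubgroup.coe_nsmul]
    rw [nsmul_eq_mul, CharP.cast_eq_zero, zero_mul]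
  obtain ⟨k, hk⟩ := IsPGroup.iff_card.1 h1
  refine ⟨k, ?_⟩
  rw [← hk]
  exact Nat.card_congr Multiplicative.toAdd.symm

omit [Fintype F] in
/-- Prime powers dividing `120` are small. -/
lemma prime_pow_dvd_le {p k : ℕ} (hp : p.Prime) (h : p ^ k ∣ 120) : p ^ k ≤ 8 := by
  rcases k with _ | k
  · simp
  have h1 : p ∣ 120 := (dvd_pow_self p (by omega)).trans h
  have h2 : p = 2 ∨ p = 3 ∨ p = 5 := by
    have e : (120 : ℕ) = 2 * 2 * 2 * 3 * 5 := by norm_num
    rw [e] at h1
    have h3 : ∀ q : ℕ, q.Prime → p ∣ q → p = q := fun q hq hd => (Nat.prime_dvd_prime_iff_eq hp hq).1 hd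
    rcases (Nat.Prime.dvd_mul hp).1 h1 with h4 | h4
    · rcases (Nat.Prime.dvd_mul hp).1 h4 with h5 | h5
      · rcases (Nat.Prime.dvd_mul hp).1 h5 with h6 | h6
        · rcases (Nat.Prime.dvd_mul hp).1 h6 with h7 | h7
          · exact Or.inl (h3 2 Nat.prime_two h7)
          · exact Or.inl (h3 2 Nat.prime_two h7)
        · exact Or.inl (h3 2 Nat.prime_two h6)
      · exact Or.inr (Or.inl (h3 3 Nat.prime_three h5))
    · exact Or.inr (Or.inr (h3 5 Nat.prime_five h4))
  have hk : ∀ q : ℕ, 1 < q → ¬ q ^ 4 ∣ 120 → q ^ (k + 1) ∣ 120 → k + 1 ≤ 3 := by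
    intro q hq h4 h5
    by_contra h6
    exact h4 ((pow_dvd_pow q (by omega)).trans h5)
  rcases h2 with rfl | rfl | rfl
  · have := hk 2 (by norm_num) (by norm_num) h
    calc 2 ^ (k + 1) ≤ 2 ^ 3 := Nat.pow_le_pow_right (by norm_num) this
      _ = 8 := by norm_num
  · have h6 : k = 0 := by
      by_contra h6
      have : (3 : ℕ) ^ 2 ∣ 120 := (pow_dvd_pow 3 (by omega)).trans h
      norm_num at this
    subst h6
    norm_num
  · have h6 : k = 0 := by
      by_contra h6
      have : (5 : ℕ) ^ 2 ∣ 120 := (pow_dvd_pow 5 (by omega)).trans h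
      norm_num at this
    subst h6
    norm_num

/-- **Generation.** -/
theorem gen_top (p : ℕ) [hp : Fact p.Prime] [CharP F p] (H : Subgroup SL(2, F)) (hx : x (1 : F) ∈ H) (B : AddSubgroup F) (hy : ∀ d ∈ B, y d ∈ H)
    (hB : 8 < Nat.card B) (hgen : ∀ W : Subfield F, (∀ d ∈ B, d ∈ W) → W = ⊤) : H = ⊤ := by
  classical
  set H₁ : Subgroup PSL(2, F) := H.map mkP with hH₁def
  have hyH₁ : ∀ d ∈ B, mkP (y d) ∈ H₁ := fun d hd => ⟨_, hy d hd, rfl⟩
  obtain ⟨k, hk⟩ := card_addSubgroup (p := p) B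
  -- `|B|` divides the order
  have hBdvd : Nat.card B ∣ Nat.card H₁ := by
    let f : Multiplicative B →* H₁ :=
      { toFun := fun c => ⟨mkP (y ((Multiplicative.toAdd c : B) : F)), hyH₁ _ (Multiplicative.toAdd c).2⟩
        map_one' := by
          apply Subtype.ext
          simp [y_zero]
        map_mul' := by
          intro a b
          apply Subtype.ext
          simp [y_add] }
    have hf : Function.Injective f := by
      intro a b hab
      have h2 : mkP (y ((Multiplicative.toAdd a : B) : F)) = mkP (y ((Multiplicative.toAdd b : B) : F)) :=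
        congrArg Subtype.val hab
      exact Multiplicative.toAdd.injective (Subtype.ext (mkP_y_inj h2))
    have h2 := Subgroup.card_dvd_of_injective f hf
    rwa [Nat.card_congr Multiplicative.toAdd] at h2
  have hk0 : k ≠ 0 := by
    rintro rfl
    rw [hk] at hB
    simp at hB
  -- more than one Sylow subgroup
  have hn : Nat.card (Sylow p H₁) ≠ 1 := by
    intro h1
    rw [Nat.card_eq_one_iff_unique] at h1
    haveI := h1.1
    obtain ⟨Q⟩ := h1.2
    have hpel : ∀ z : H₁, z ^ p = 1 → z ∈ (Q : Subgroup H₁) := by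
      intro z hz
      have hz' : IsPGroup p (Subgroup.zpowers z) := by
        rintro ⟨w, n, rfl⟩
        refine ⟨1, Subtype.ext ?_⟩
        simp only [pow_one, SubmonoidClass.coe_pow, OneMemClass.coe_one]
        show (z ^ n) ^ p = 1
        rw [← zpow_natCast, ← _root_.zpow_mul, mul_comm, _root_.zpow_mul, zpow_natCast, hz, _root_.one_zpow]
      obtain ⟨Q', hQ'⟩ := hz'.exists_le_sylow
      have h2 : z ∈ (Q' : Subgroup H₁) := hQ' (Subgroup.mem_zpowers z)
      rwa [Subsingleton.elim Q' Q] at h2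
    have hdisc : ∀ d ∈ B, disc (x (1 : F) * y d) = 0 := by
      intro d hd
      have hu : (⟨mkP (x (1 : F)), ⟨_, hx, rfl⟩⟩ : H₁) ∈ (Q : Subgroup H₁) := by
        apply hpel
        apply Subtype.ext
        show mkP (x (1 : F)) ^ p = 1
        rw [← map_pow, x_pow_char, map_one]
      have hv : (⟨mkP (y d), ⟨_, hy d hd, rfl⟩⟩ : H₁) ∈ (Q : Subgroup H₁) := by
        apply hpel
        apply Subtype.ext
        show mkP (y d) ^ p = 1
        rw [← map_pow, y_pow]
        simp
      have huv := (Q : Subgroup H₁).mul_mem hu hv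
      obtain ⟨n, hn⟩ := Q.isPGroup' ⟨_, huv⟩
      have h3 : ((⟨mkP (x (1 : F)), ⟨_, hx, rfl⟩⟩ : H₁) * ⟨mkP (y d), ⟨_, hy d hd, rfl⟩⟩) ^ p ^ n = 1 :=
        congrArg Subtype.val hn
      have h4 : mkP (x (1 : F) * y d) ^ p ^ n = 1 := by
        have := congrArg Subtype.val h3
        simpa using this
      exact disc_of_mkP_pow p h4
    have hall : ∀ d ∈ B, d * (d + 4) = 0 := by
      intro d hd
      have h1' := hdisc d hd
      simp only [disc, tr_def, mul_00, mul_11, x_00, x_01, x_10, x_11, y_00, y_01, y_10, y_11] at h1'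
      linear_combination h1'
    -- `B` would have at most two elements
    have hsub : ∀ b : B, (b : F) = 0 ∨ (b : F) = -4 := by
      intro b
      rcases mul_eq_zero.1 (hall b b.2) with h | h
      · exact Or.inl h
      · exact Or.inr (by linear_combination h)
    have hcard : Nat.card B ≤ 2 := by
      have hinj : Function.Injective (fun b : B => (⟨(b : F), by simpa using hsub b⟩ : ({0, -4} : Finset F))) := by
        intro a b hab
        have h7 : (a : F) = (b : F) := congrArg (fun z : ({0, -4} : Finset F) => (z : F)) hab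
        exact Subtype.ext h7
      have h5 := Nat.card_le_card_of_injective _ hinj
      have h6 : Nat.card ({0, -4} : Finset F) ≤ 2 := by
        rw [Nat.card_eq_fintype_card, Fintype.card_coe]
        exact Finset.card_le_two
      omega
    omega
  have hdvd : p ∣ Nat.card H₁ := by
    rw [hk] at hBdvd
    exact (dvd_pow_self p hk0).trans hBdvd
  -- the case analysis of the counting
  obtain ⟨M, hM, hP, hnn, hcardS⟩ : ∃ M ∈ (dp H₁ p).mem, IsP p M ∧ ¬ M.Normal ∧ Nat.card (Sylow p H₁) = Nat.card M + 1 := by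
    let D : Dp H₁ p := dp H₁ p
    obtain ⟨M, hM, hP⟩ := exists_isP_member H₁ hdvd
    have hnn : ¬ M.Normal := by
      intro hnorm
      apply hn
      obtain ⟨Q₀, hQ₀⟩ := isP_sylow D hM hP
      rw [Nat.card_eq_one_iff_unique]
      haveI : (Q₀ : Subgroup H₁).Normal := by rw [hQ₀]; exact hnorm
      haveI := Sylow.unique_of_normal Q₀ inferInstance
      exact ⟨inferInstance, inferInstance⟩
    have hle : ∀ m : ℕ, m ∣ 120 → Nat.card H₁ = m → False := by
      intro m hm0 hm
      have h8 := hBdvd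
      rw [hm] at h8
      have := prime_pow_dvd_le hp.out (by rw [← hk]; exact h8.trans hm0)
      rw [← hk] at this
      omega
    rcases classify D with h | h | ⟨N, hN, hNS, hNi⟩ | ⟨N, hN, hNP, hNn⟩ | ⟨h12, -⟩ | ⟨h24, -⟩ |
      ⟨h60, L, hL, -⟩ | ⟨N, hN, hNP, hNn, hNc, -⟩
    · exact (hle 1 (by norm_num) h).elim
    · exfalso
      apply hnn
      refine ⟨fun a ha g => ?_⟩
      have hc := D.comm ⊤ h a trivial g trivial
      have h1 : g * a * g⁻¹ = a := by
        rw [← hc]
        group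
      rwa [h1]
    · exfalso
      have h1 : Nat.card H₁ = Nat.card N * 2 := by
        have := Subgroup.card_mul_index N
        rw [hNi] at this
        exact this.symm
      have h2 : p ^ k ∣ Nat.card N * 2 := by
        rw [← h1, ← hk]
        exact hBdvd
      have h3 : p ^ k ∣ 2 := by
        have hco : Nat.Coprime (p ^ k) (Nat.card N) :=
          Nat.Coprime.pow_left _ ((Nat.Prime.coprime_iff_not_dvd hp.out).2 hNS.cop)
        exact hco.dvd_of_dvd_mul_left h2
      have := Nat.le_of_dvd (by norm_num) h3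
      rw [← hk] at this
      omega
    · exfalso
      apply hnn
      obtain ⟨g, hg⟩ := isP_conj D hN hM hNP hP
      have h1 : cj g N = N := cj_eq_iff.2 (by
        rw [Subgroup.normalizer_eq_top_iff.2 hNn]
        trivial)
      rw [← hg, h1]
      exact hNn
    · exact (hle 12 (by norm_num) h12).elim
    · exact (hle 24 (by norm_num) h24).elim
    · exact (hle 60 (by norm_num) h60).elim
    · exact ⟨N, hN, hNP, hNn, hNc⟩
  obtain ⟨A, hA, hAH, rfl⟩ := hM
  have hd : disc A = 0 := disc_eq_zero_of_isP p hA hAH hP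
  obtain ⟨Q₀, hQ₀⟩ := isP_sylow (dp H₁ p) ⟨A, hA, hAH, rfl⟩ hP
  have hindex : (normalizer (member H₁ A : Set H₁)).index = Nat.card (member H₁ A) + 1 := by
    rw [← hcardS, Sylow.card_eq_index_normalizer Q₀,
      show (Q₀ : Set H₁) = (member H₁ A : Set H₁) by rw [← hQ₀]; rfl]
  have hcard : Nat.card H₁ = (Nat.card (member H₁ A) + 1) *
      Nat.card (normalizer (member H₁ A : Set H₁)) := by
    rw [← hindex, mul_comm, Subgroup.card_mul_index]
  obtain ⟨g₁, c₁, hc₁, hN, -, -⟩ := exists_normalPos_frame hA hd hAH hnn hcard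
  set H₂ : Subgroup PSL(2, F) := H₁.map (frameP g₁ c₁ hc₁).toMonoidHom with hH₂def
  have htr : ∀ Z ∈ H, tr Z ^ 2 ∈ subfieldW hN := by
    intro Z hZ
    rw [← tr_frame g₁ c₁ hc₁ Z]
    apply tr_sq_mem
    rw [← frameP_mk]
    exact ⟨mkP Z, ⟨Z, hZ, rfl⟩, rfl⟩
  have hkey : ∀ d ∈ B, d ∈ subfieldW hN := by
    intro d hdB
    have h1 := htr _ (H.mul_mem hx (hy d hdB))
    simp only [tr_def, mul_00, mul_11, x_00, x_01, x_10, x_11, y_00, y_01, y_10, y_11] at h1
    by_cases hp2 : p = 2
    · subst hp2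
      have h20 : (2 : F) = 0 := by exact_mod_cast CharP.cast_eq_zero F 2
      have h3 : d ^ 2 ∈ subfieldW hN := by
        have e : (1 * 1 + 1 * d + (0 * 0 + 1 * 1)) ^ 2 = d ^ 2 := by
          have : (1 * 1 + 1 * d + (0 * 0 + 1 * 1) : F) = d + 2 := by ring
          rw [this, h20, add_zero]
        rwa [e] at h1
      obtain ⟨f, hf, hcardF⟩ := FiniteField.card F 2
      have h4 : d ^ Fintype.card F = d := FiniteField.pow_card d
      obtain ⟨f', hf'⟩ : ∃ f', (f : ℕ) = f' + 1 := ⟨(f : ℕ) - 1, by have := f.pos; omega⟩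
      have h5 : d = (d ^ 2) ^ 2 ^ f' := by
        rw [← pow_mul]
        conv_lhs => rw [← h4]
        rw [hcardF, hf', pow_succ]
        ring_nf
      rw [h5]
      exact pow_mem h3 _
    · have h20 : (2 : F) ≠ 0 := by
        intro h
        apply hp2
        have : p ∣ 2 := (CharP.cast_eq_zero_iff F p 2).1 (by exact_mod_cast h)
        exact (Nat.prime_dvd_prime_iff_eq hp.out Nat.prime_two).1 this
      have h80 : (8 : F) ≠ 0 := by
        have : (8 : F) = 2 * 2 * 2 := by norm_num
        rw [this]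
        exact mul_ne_zero (mul_ne_zero h20 h20) h20
      have h2d : d + d ∈ B := B.add_mem hdB hdB
      have h2 := htr _ (H.mul_mem hx (hy _ h2d))
      simp only [tr_def, mul_00, mul_11, x_00, x_01, x_10, x_11, y_00, y_01, y_10, y_11] at h2
      have e : d = (8 : F)⁻¹ * (4 * (1 * 1 + 1 * d + (0 * 0 + 1 * 1)) ^ 2 - (1 * 1 + 1 * (d + d) + (0 * 0 + 1 * 1)) ^ 2 - 12) := by
        field_simp
        ring
      rw [e]
      refine mul_mem (inv_mem (ofNat_mem _ 8)) (sub_mem (sub_mem (mul_mem (ofNat_mem _ 4) h1) h2) (ofNat_mem _ 12))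
  have htop := hgen _ hkey
  have hall : ∀ u : F, mkP (x u) ∈ H₂ := fun u => by
    have : u ∈ subfieldW hN := by rw [htop]; trivial
    exact this
  have hall' : ∀ u : F, mkP (y u) ∈ H₂ := fun u => (y_mem_iff hN).2 (hall u)
  have hZ₂ : ∀ Z : SL(2, F), mkP Z ∈ H₂ := by
    intro Z
    exact mem_of_x_y (H₂.comap mkP) hall hall' Z
  have hZ₁ : ∀ Z : SL(2, F), mkP Z ∈ H₁ := by
    intro Z
    have h1 := hZ₂ (frameEquiv g₁ c₁ hc₁ Z)
    obtain ⟨z, hz, hzZ⟩ := h1
    have h2 : (frameP g₁ c₁ hc₁) z = (frameP g₁ c₁ hc₁) (mkP Z) := by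
      rw [frameP_mk]
      exact hzZ
    rw [← (frameP g₁ c₁ hc₁).injective h2]
    exact hz
  have hlift : ∀ u : SL(2, F), (∃ k : ℕ, u ^ p ^ k = 1) → mkP u ∈ H₁ → u ∈ H := by
    intro u hu hmem
    by_cases hp2 : p = 2
    · subst hp2
      obtain ⟨v, hv, hvu⟩ := hmem
      rcases mkP_eq_iff.1 hvu with h1 | h1
      · rwa [h1]
      · have h20 : (2 : F) = 0 := by exact_mod_cast CharP.cast_eq_zero F 2
        have h3 : -v = v := by
          apply ext2 <;> simp <;> linear_combination (-(v.1 _ _)) * h20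
        rw [h1, h3]
        exact hv
    · exact mem_of_mkP_mem hp2 H hu hmem
  refine eq_top_iff.2 fun Z _ => mem_of_x_y H (fun u => ?_) (fun u => ?_) Z
  · exact hlift _ ⟨1, by rw [pow_one, x_pow_char]⟩ (hZ₁ _)
  · refine hlift _ ⟨1, ?_⟩ (hZ₁ _)
    rw [pow_one, y_pow]
    simp

end Cfsg.Agent.Lib.Classical.Sub.SL2Gen
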