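/-
Elements of a matrix group acting as `SL₂` on a plane `⟨e, w⟩` and trivially on the quotient.
-/
import Mathlib
import Cfsg.Agent.Lib.Classical.Geo.Basic
import Cfsg.Agent.Lib.Classical.Sub.SL2Gen

set_option autoImplicit false
set_option linter.unusedSectionVars false

namespace Cfsg.Agent.Lib.Classical.Sub.Act

open scoped Matrix MatrixGroups
open Module Cfsg.Geo
open Cfsg.Agent.Lib.Classical.Geo.Basic
open Cfsg.Agent.Lib.PSL2.Basic

variable {ι : Type} [Fintype ι] [DecidableEq ι] {F : Type*} [Field F]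

/-- The parametrisation of the plane. -/
def L (e w : ι → F) (p : Fin 2 → F) : ι → F := p 0 • e + p 1 • w

theorem L_add (e w : ι → F) (p q : Fin 2 → F) : L e w (p + q) = L e w p + L e w q := by
  simp only [L, Pi.add_apply, add_smul]
  abel

theorem L_neg (e w : ι → F) (p : Fin 2 → F) : L e w (-p) = - L e w p := by
  simp only [L, Pi.neg_apply, neg_smul]
  abel

theorem L_zero (e w : ι → F) : L e w 0 = 0 := by
  simp [L]

/-- `g` acts on the plane as `X`, and trivially on the quotient. -/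
def Act (e w : ι → F) (g : GL ι F) (X : SL(2, F)) : Prop :=
  (∀ p, (g : Matrix ι ι F) *ᵥ L e w p = L e w ((X : Matrix (Fin 2) (Fin 2) F) *ᵥ p)) ∧
    ∀ y, ∃ p, (g : Matrix ι ι F) *ᵥ y - y = L e w p

variable {e w : ι → F}

theorem Act.one : Act e w (1 : GL ι F) (1 : SL(2, F)) := by
  refine ⟨fun p => by simp, fun y => ⟨0, by simp [L_zero]⟩⟩

theorem Act.mul {g h : GL ι F} {X Y : SL(2, F)} (h₁ : Act e w g X) (h₂ : Act e w h Y) : Act e w (g * h) (X * Y) := by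
  refine ⟨fun p => ?_, fun y => ?_⟩
  · rw [Units.val_mul, ← Matrix.mulVec_mulVec, h₂.1, h₁.1, Matrix.SpecialLinearGroup.coe_mul, Matrix.mulVec_mulVec]
  · obtain ⟨p, hp⟩ := h₂.2 y
    obtain ⟨q, hq⟩ := h₁.2 y
    refine ⟨(X : Matrix (Fin 2) (Fin 2) F) *ᵥ p + q, ?_⟩
    rw [L_add, ← h₁.1, ← hp, ← hq, Units.val_mul, ← Matrix.mulVec_mulVec, Matrix.mulVec_sub]
    abel

theorem Act.inv {g : GL ι F} {X : SL(2, F)} (h₁ : Act e w g X) : Act e w g⁻¹ X⁻¹ := by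
  have h2 : ∀ p, ((g⁻¹ : GL ι F) : Matrix ι ι F) *ᵥ L e w p = L e w (((X⁻¹ : SL(2, F)) : Matrix (Fin 2) (Fin 2) F) *ᵥ p) := by
    intro p
    have h3 : (X : Matrix (Fin 2) (Fin 2) F) *ᵥ (((X⁻¹ : SL(2, F)) : Matrix (Fin 2) (Fin 2) F) *ᵥ p) = p := by
      rw [Matrix.mulVec_mulVec, ← Matrix.SpecialLinearGroup.coe_mul, mul_inv_cancel]
      simp
    conv_lhs => rw [← h3]
    rw [← h₁.1, inv_mulVec_mulVec]
  refine ⟨h2, fun y => ?_⟩
  obtain ⟨q, hq⟩ := h₁.2 y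
  refine ⟨-(((X⁻¹ : SL(2, F)) : Matrix (Fin 2) (Fin 2) F) *ᵥ q), ?_⟩
  rw [L_neg, ← h2, ← hq, Matrix.mulVec_sub, inv_mulVec_mulVec]
  abel

/-- The group of elements of `SL₂` induced by `M`. -/
def actGroup (M : Subgroup (GL ι F)) (e w : ι → F) : Subgroup SL(2, F) where
  carrier := {X | ∃ g ∈ M, Act e w g X}
  mul_mem' := by
    rintro X Y ⟨g, hg, h₁⟩ ⟨g', hg', h₂⟩
    exact ⟨g * g', M.mul_mem hg hg', h₁.mul h₂⟩
  one_mem' := ⟨1, M.one_mem, Act.one⟩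
  inv_mem' := by
    rintro X ⟨g, hg, h₁⟩
    exact ⟨g⁻¹, M.inv_mem hg, h₁.inv⟩

/-- **Generation**: `x 1` and many `y`'s give all of `SL₂`. -/
theorem act_all [Fintype F] {M : Subgroup (GL ι F)} (hx : ∃ g ∈ M, Act e w g (x (1 : F))) (B : AddSubgroup F)
    (hy : ∀ d ∈ B, ∃ g ∈ M, Act e w g (y d)) (hB : 8 < Nat.card B)
    (hgen : ∀ W : Subfield F, (∀ d ∈ B, d ∈ W) → W = ⊤) (X : SL(2, F)) : ∃ g ∈ M, Act e w g X := by
  obtain ⟨p, hp⟩ := CharP.exists F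
  haveI : Fact p.Prime := ⟨(CharP.char_is_prime_or_zero F p).resolve_right (CharP.ringChar_ne_zero_of_finite F |> fun h => by
    rw [ringChar.eq F p] at h
    exact h)⟩
  have h := SL2Gen.gen_top p (actGroup M e w) hx B hy hB hgen
  have h2 : X ∈ actGroup M e w := by
    rw [h]
    exact Subgroup.mem_top X
  exact h2

/-- The action on the plane of the transvection `1 + v ⊗ φ`, with `e = φ(w) v`. -/
theorem act_tv_x {φ : Dual F (ι → F)} {v : ι → F} (hv : φ v = 0) {a : F} (ha : a ≠ 0) (he : e = a • v) (hw : φ w = a) :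
    Act e w (tv φ v hv) (x (1 : F)) := by
  have hφe : φ e = 0 := by
    rw [he, map_smul, hv, smul_zero]
  refine ⟨fun p => ?_, fun y => ⟨![a⁻¹ * φ y, 0], ?_⟩⟩
  · rw [tv_mulVec]
    simp only [L, map_add, map_smul, hφe, hw, smul_eq_mul, mul_zero, zero_add]
    have h0 : (((x (1 : F) : SL(2, F)) : Matrix (Fin 2) (Fin 2) F) *ᵥ p) 0 = p 0 + p 1 := by
      simp [x, Matrix.mulVec, dotProduct, Fin.sum_univ_two]
    have h1 : (((x (1 : F) : SL(2, F)) : Matrix (Fin 2) (Fin 2) F) *ᵥ p) 1 = p 1 := by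
      simp [x, Matrix.mulVec, dotProduct, Fin.sum_univ_two]
    rw [h0, h1, he, add_smul, smul_smul, smul_smul]
    abel
  · rw [tv_mulVec]
    simp only [L, add_sub_cancel_left, Matrix.cons_val_zero, Matrix.cons_val_one, zero_smul, add_zero, he, smul_smul]
    rw [mul_assoc, mul_comm (φ y), ← mul_assoc, inv_mul_cancel₀ ha, one_mul]

/-- The action on the plane of the transvection `1 + w ⊗ ψ`. -/
theorem act_tv_y {ψ : Dual F (ι → F)} (hw : ψ w = 0) : Act e w (tv ψ w hw) (y (ψ e)) := by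
  refine ⟨fun p => ?_, fun z => ⟨![0, ψ z], ?_⟩⟩
  · rw [tv_mulVec]
    simp only [L, map_add, map_smul, hw, smul_eq_mul, mul_zero, add_zero]
    have h0 : (((y (ψ e) : SL(2, F)) : Matrix (Fin 2) (Fin 2) F) *ᵥ p) 0 = p 0 := by
      simp [y, Matrix.mulVec, dotProduct, Fin.sum_univ_two]
    have h1 : (((y (ψ e) : SL(2, F)) : Matrix (Fin 2) (Fin 2) F) *ᵥ p) 1 = ψ e * p 0 + p 1 := by
      simp [y, Matrix.mulVec, dotProduct, Fin.sum_univ_two]
    rw [h0, h1, add_smul]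
    simp only [smul_eq_mul, mul_comm]
    abel
  · rw [tv_mulVec]
    simp [L]

section Quot

/-- `g` fixes `R`, acts on the plane modulo `R` as `X`, and trivially on the quotient by the plane and `R`. -/
def ActR (R : Submodule F (ι → F)) (e w : ι → F) (g : GL ι F) (X : SL(2, F)) : Prop :=
  (∀ r ∈ R, (g : Matrix ι ι F) *ᵥ r = r) ∧
  (∀ p, (g : Matrix ι ι F) *ᵥ L e w p - L e w ((X : Matrix (Fin 2) (Fin 2) F) *ᵥ p) ∈ R) ∧
    ∀ y, ∃ p, (g : Matrix ι ι F) *ᵥ y - y - L e w p ∈ R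

variable {R : Submodule F (ι → F)}

theorem ActR.one : ActR R e w (1 : GL ι F) (1 : SL(2, F)) := by
  refine ⟨fun r _ => by simp, fun p => by simp, fun y => ⟨0, by simp [L_zero]⟩⟩

theorem ActR.mul {g h : GL ι F} {X Y : SL(2, F)} (h₁ : ActR R e w g X) (h₂ : ActR R e w h Y) : ActR R e w (g * h) (X * Y) := by
  refine ⟨fun r hr => ?_, fun p => ?_, fun y => ?_⟩
  · rw [Units.val_mul, ← Matrix.mulVec_mulVec, h₂.1 r hr, h₁.1 r hr]
  · have a1 := h₂.2.1 p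
    have a2 := h₁.2.1 ((Y : Matrix (Fin 2) (Fin 2) F) *ᵥ p)
    have a3 := h₁.1 _ a1
    rw [Matrix.mulVec_sub] at a3
    have e1 : ((g * h : GL ι F) : Matrix ι ι F) *ᵥ L e w p - L e w (((X * Y : SL(2, F)) : Matrix (Fin 2) (Fin 2) F) *ᵥ p) =
        ((g : Matrix ι ι F) *ᵥ L e w ((Y : Matrix (Fin 2) (Fin 2) F) *ᵥ p) -
          L e w ((X : Matrix (Fin 2) (Fin 2) F) *ᵥ ((Y : Matrix (Fin 2) (Fin 2) F) *ᵥ p))) +
        ((h : Matrix ι ι F) *ᵥ L e w p - L e w ((Y : Matrix (Fin 2) (Fin 2) F) *ᵥ p)) := by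
      rw [← a3, Units.val_mul, ← Matrix.mulVec_mulVec, Matrix.SpecialLinearGroup.coe_mul, ← Matrix.mulVec_mulVec]
      abel
    rw [e1]
    exact R.add_mem a2 a1
  · obtain ⟨p, hp⟩ := h₂.2.2 y
    obtain ⟨q, hq⟩ := h₁.2.2 y
    refine ⟨(X : Matrix (Fin 2) (Fin 2) F) *ᵥ p + q, ?_⟩
    have a1 := h₁.1 _ hp
    rw [Matrix.mulVec_sub, Matrix.mulVec_sub] at a1
    have a2 := h₁.2.1 p
    have e1 : ((g * h : GL ι F) : Matrix ι ι F) *ᵥ y - y - L e w ((X : Matrix (Fin 2) (Fin 2) F) *ᵥ p + q) =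
        ((h : Matrix ι ι F) *ᵥ y - y - L e w p) + ((g : Matrix ι ι F) *ᵥ y - y - L e w q) +
          ((g : Matrix ι ι F) *ᵥ L e w p - L e w ((X : Matrix (Fin 2) (Fin 2) F) *ᵥ p)) := by
      rw [L_add, Units.val_mul, ← Matrix.mulVec_mulVec]
      have a3 : (g : Matrix ι ι F) *ᵥ ((h : Matrix ι ι F) *ᵥ y) = (h : Matrix ι ι F) *ᵥ y - y - L e w p + (g : Matrix ι ι F) *ᵥ y + (g : Matrix ι ι F) *ᵥ L e w p := by
        rw [← a1]
        abel
      rw [a3]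
      abel
    rw [e1]
    exact R.add_mem (R.add_mem hp hq) a2

theorem ActR.inv {g : GL ι F} {X : SL(2, F)} (h₁ : ActR R e w g X) : ActR R e w g⁻¹ X⁻¹ := by
  have h0 : ∀ r ∈ R, ((g⁻¹ : GL ι F) : Matrix ι ι F) *ᵥ r = r := by
    intro r hr
    conv_lhs => rw [← h₁.1 r hr]
    rw [inv_mulVec_mulVec]
  refine ⟨h0, fun p => ?_, fun y => ?_⟩
  · have h3 : (X : Matrix (Fin 2) (Fin 2) F) *ᵥ (((X⁻¹ : SL(2, F)) : Matrix (Fin 2) (Fin 2) F) *ᵥ p) = p := by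
      rw [Matrix.mulVec_mulVec, ← Matrix.SpecialLinearGroup.coe_mul, mul_inv_cancel]
      simp
    have a1 := h₁.2.1 (((X⁻¹ : SL(2, F)) : Matrix (Fin 2) (Fin 2) F) *ᵥ p)
    rw [h3] at a1
    have a2 := h0 _ a1
    rw [Matrix.mulVec_sub, inv_mulVec_mulVec] at a2
    have e1 : ((g⁻¹ : GL ι F) : Matrix ι ι F) *ᵥ L e w p - L e w (((X⁻¹ : SL(2, F)) : Matrix (Fin 2) (Fin 2) F) *ᵥ p) =
        -((g : Matrix ι ι F) *ᵥ L e w (((X⁻¹ : SL(2, F)) : Matrix (Fin 2) (Fin 2) F) *ᵥ p) - L e w p) := by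
      rw [← a2]
      abel
    rw [e1]
    exact R.neg_mem a1
  · obtain ⟨q, hq⟩ := h₁.2.2 (((g⁻¹ : GL ι F) : Matrix ι ι F) *ᵥ y)
    refine ⟨-q, ?_⟩
    rw [mulVec_inv_mulVec] at hq
    have e1 : ((g⁻¹ : GL ι F) : Matrix ι ι F) *ᵥ y - y - L e w (-q) =
        -(y - ((g⁻¹ : GL ι F) : Matrix ι ι F) *ᵥ y - L e w q) := by
      rw [L_neg]
      abel
    rw [e1]
    exact R.neg_mem hq

/-- The group of elements of `SL₂` induced by `M`. -/
def actGroupR (M : Subgroup (GL ι F)) (R : Submodule F (ι → F)) (e w : ι → F) : Subgroup SL(2, F) where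
  carrier := {X | ∃ g ∈ M, ActR R e w g X}
  mul_mem' := by
    rintro X Y ⟨g, hg, h₁⟩ ⟨g', hg', h₂⟩
    exact ⟨g * g', M.mul_mem hg hg', h₁.mul h₂⟩
  one_mem' := ⟨1, M.one_mem, ActR.one⟩
  inv_mem' := by
    rintro X ⟨g, hg, h₁⟩
    exact ⟨g⁻¹, M.inv_mem hg, h₁.inv⟩

/-- **Generation**: `x 1` and many `y`'s give all of `SL₂`. -/
theorem actR_all [Fintype F] {M : Subgroup (GL ι F)} (hx : ∃ g ∈ M, ActR R e w g (x (1 : F))) (B : AddSubgroup F)
    (hy : ∀ d ∈ B, ∃ g ∈ M, ActR R e w g (y d)) (hB : 8 < Nat.card B)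
    (hgen : ∀ W : Subfield F, (∀ d ∈ B, d ∈ W) → W = ⊤) (X : SL(2, F)) : ∃ g ∈ M, ActR R e w g X := by
  obtain ⟨p, hp⟩ := CharP.exists F
  haveI : Fact p.Prime := ⟨(CharP.char_is_prime_or_zero F p).resolve_right (CharP.ringChar_ne_zero_of_finite F |> fun h => by
    rw [ringChar.eq F p] at h
    exact h)⟩
  have h := SL2Gen.gen_top p (actGroupR M R e w) hx B hy hB hgen
  have h2 : X ∈ actGroupR M R e w := by
    rw [h]
    exact Subgroup.mem_top X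
  exact h2

end Quot

end Cfsg.Agent.Lib.Classical.Sub.Act
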