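/-
Overgroups of the rational points in an orthogonal group: the rational structure, rational hyperbolic pairs, spanning
by rational singular vectors.
-/
import Mathlib
import Cfsg.Agent.Lib.Classical.Sub.Lines
import Cfsg.Agent.Lib.Classical.Geo.OPair

set_option autoImplicit false
set_option linter.unusedSectionVars false

namespace Cfsg.Agent.Lib.Classical.Sub.OBase

open scoped Matrix MatrixGroups
open Module Cfsg Cfsg.Geo QuadraticMap
open Cfsg.Agent.Lib.Classical.Orth.Basic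
open Cfsg.Agent.Lib.Classical.Orth.Simple
open Cfsg.Agent.Lib.Classical.Geo.Basic
open Cfsg.Agent.Lib.Classical.Sub.Rat
open Cfsg.Agent.Lib.Classical.Geo.UPair (finrank_span_pair_le)

variable {ι : Type} [Fintype ι] [DecidableEq ι] {F : Type*} [Field F] [Fintype F]
  {Q : QuadraticForm F (ι → F)} {F₀ : Subfield F}

set_option quotPrecheck false in
local notation "𝔣" => polar (⇑Q)

/-- The rational structure. -/
def RatQ (Q : QuadraticForm F (ι → F)) (F₀ : Subfield F) : Prop := ∀ x : ι → F₀, Q (lV x) ∈ F₀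

/-- The functional `𝔣 _ w`. -/
noncomputable def fL (Q : QuadraticForm F (ι → F)) (w : ι → F) : Dual F (ι → F) := (polarBilin Q).flip w

@[simp] theorem fL_apply (w x : ι → F) : fL Q w x = 𝔣 x w := rfl

section Rational

variable (hQ : (polarBilin Q).Nondegenerate) (hR : RatQ Q F₀)

include hR in
theorem rat_polar (x y : ι → F₀) : 𝔣 (lV x) (lV y) ∈ F₀ := by
  have e : 𝔣 (lV x) (lV y) = Q (lV (x + y)) - Q (lV x) - Q (lV y) := rfl
  rw [e]
  exact F₀.sub_mem (F₀.sub_mem (hR _) (hR _)) (hR _)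

/-- The rational value of the form. -/
noncomputable def qv (hR : RatQ Q F₀) (x : ι → F₀) : F₀ := ⟨Q (lV x), hR x⟩

/-- The rational value of the polar form. -/
noncomputable def rv (hR : RatQ Q F₀) (x y : ι → F₀) : F₀ := ⟨𝔣 (lV x) (lV y), rat_polar hR x y⟩

@[simp] theorem qv_coe (hR : RatQ Q F₀) (x : ι → F₀) : ((qv hR x : F₀) : F) = Q (lV x) := rfl

@[simp] theorem rv_coe (hR : RatQ Q F₀) (x y : ι → F₀) : ((rv hR x y : F₀) : F) = 𝔣 (lV x) (lV y) := rfl

/-- The rational covector of a rational vector. -/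
noncomputable def cov (hR : RatQ Q F₀) (y : ι → F₀) : Dual F₀ (ι → F₀) where
  toFun x := rv hR x y
  map_add' a b := Subtype.ext (by
    simp only [rv_coe, lV_add, polar_add_left, Subfield.coe_add])
  map_smul' c a := Subtype.ext (by
    simp only [rv_coe, lV_smul, polar_smul_left', smul_eq_mul, Subfield.coe_mul, RingHom.id_apply])

@[simp] theorem cov_coe (hR : RatQ Q F₀) (x y : ι → F₀) : ((cov hR y x : F₀) : F) = 𝔣 (lV x) (lV y) := rfl

/-- The rational quadratic form. -/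
noncomputable def Qr (hR : RatQ Q F₀) : QuadraticForm F₀ (ι → F₀) where
  toFun := qv hR
  toFun_smul c x := Subtype.ext (by
    simp only [qv_coe, lV_smul, Q_smul, smul_eq_mul, Subfield.coe_mul])
  exists_companion' := ⟨LinearMap.mk₂ F₀ (rv hR)
    (fun a b c => Subtype.ext (by simp only [rv_coe, lV_add, polar_add_left, Subfield.coe_add]))
    (fun c a b => Subtype.ext (by simp only [rv_coe, lV_smul, polar_smul_left', smul_eq_mul, Subfield.coe_mul]))
    (fun a b c => Subtype.ext (by simp only [rv_coe, lV_add, polar_add_right, Subfield.coe_add]))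
    (fun c a b => Subtype.ext (by simp only [rv_coe, lV_smul, polar_smul_right', smul_eq_mul, Subfield.coe_mul])),
    fun x y => Subtype.ext (by
      simp only [LinearMap.mk₂_apply, qv_coe, rv_coe, Subfield.coe_add, lV_add]
      rw [QuadraticMap.polar]
      ring)⟩

@[simp] theorem Qr_coe (hR : RatQ Q F₀) (x : ι → F₀) : ((Qr hR x : F₀) : F) = Q (lV x) := rfl

include hR in
/-- Three rational dimensions contain a rational singular vector. -/
theorem iso3 (W : Submodule F₀ (ι → F₀)) (hW : 3 ≤ finrank F₀ W) : ∃ x ∈ W, x ≠ 0 ∧ Q (lV x) = 0 := by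
  obtain ⟨⟨x, hx⟩, hx0, hxx⟩ := Cfsg.Agent.Lib.Classical.Witt.Hyp.exists_singular_of_three_le ((Qr hR).comp W.subtype) hW
  refine ⟨x, hx, fun h => hx0 (Subtype.ext h), ?_⟩
  have h1 : Qr hR x = 0 := hxx
  have h2 := congrArg (fun c : F₀ => (c : F)) h1
  exact h2

include hQ in
theorem eq_zero_of_rat {w : ι → F} (h : ∀ x : ι → F₀, 𝔣 (lV x) w = 0) : w = 0 := by
  have h1 : fL Q w = 0 := by
    apply dual_ext_rat (F₀ := F₀)
    intro y
    simpa using h y
  apply hQ.2 w
  intro x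
  have h2 := LinearMap.congr_fun h1 x
  simpa using h2

include hQ in
theorem eq_of_rat {w w' : ι → F} (h : ∀ x : ι → F₀, 𝔣 (lV x) w = 𝔣 (lV x) w') : w = w' := by
  rw [← sub_eq_zero]
  apply eq_zero_of_rat hQ (F₀ := F₀)
  intro x
  rw [polar_sub_right, h, sub_self]

include hQ hR

/-- Riesz over the rational field. -/
theorem riesz (ψ : Dual F₀ (ι → F₀)) : ∃ u : ι → F₀, ∀ x, 𝔣 (lV x) (lV u) = ψ x := by
  classical
  have hinj : Function.Injective (fun u : ι → F₀ => cov hR u) := by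
    intro a b hab
    have h1 : lV a = lV b := by
      apply eq_of_rat hQ (F₀ := F₀)
      intro x
      exact congrArg (fun c : Dual F₀ (ι → F₀) => ((c x : F₀) : F)) hab
    exact lV_injective h1
  have hsurj := (Finite.injective_iff_surjective_of_equiv
    ((Pi.basisFun F₀ ι).toDualEquiv.toEquiv)).1 hinj
  obtain ⟨u, hu⟩ := hsurj ψ
  refine ⟨u, fun x => ?_⟩
  rw [← hu]
  rfl

omit hQ in
/-- The vectors orthogonal to rational vectors and to general vectors. -/
noncomputable def perpL (hR : RatQ Q F₀) {k l : ℕ} (u : Fin k → ι → F₀) (v : Fin l → ι → F) :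
    (ι → F₀) →ₗ[F₀] (Fin k → F₀) × (Fin l → F) :=
  (LinearMap.pi fun i => cov hR (u i)).prod
    (LinearMap.pi fun j =>
      { toFun := fun x => 𝔣 (lV x) (v j)
        map_add' := fun a b => by simp only [lV_add, polar_add_left]
        map_smul' := fun c a => by
          simp only [lV_smul, polar_smul_left', RingHom.id_apply]
          rfl })

omit hQ hR in
theorem mem_perpL (hR : RatQ Q F₀) {k l : ℕ} {u : Fin k → ι → F₀} {v : Fin l → ι → F} {z : ι → F₀} (hz : perpL hR u v z = 0) :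
    (∀ i, 𝔣 (lV z) (lV (u i)) = 0) ∧ ∀ j, 𝔣 (lV z) (v j) = 0 := by
  have h1 := congrArg Prod.fst hz
  have h2 := congrArg Prod.snd hz
  constructor
  · intro i
    exact congrArg (fun c : F₀ => (c : F)) (congrFun h1 i)
  · intro j
    exact congrFun h2 j

omit hQ in
/-- Singular rational vectors orthogonal to a small family, outside of a small subspace. -/
theorem exists_iso_perp {r : ℕ} (hr : finrank F₀ F = r) {k l : ℕ} (u : Fin k → ι → F₀) (v : Fin l → ι → F)
    (S : Submodule F₀ (ι → F₀)) (h : k + l * r + finrank F₀ S + 3 ≤ Fintype.card ι) :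
    ∃ z : ι → F₀, z ∉ S ∧ Q (lV z) = 0 ∧ (∀ i, 𝔣 (lV z) (lV (u i)) = 0) ∧ ∀ j, 𝔣 (lV z) (v j) = 0 := by
  classical
  set L := perpL hR u v with hL
  obtain ⟨S', hS'⟩ := Submodule.exists_isCompl S
  have h1 := LinearMap.finrank_range_add_finrank_ker L
  have h2 : finrank F₀ (LinearMap.range L) ≤ k + l * r := by
    refine (Submodule.finrank_le _).trans ?_
    rw [Module.finrank_prod, Module.finrank_fin_fun, Module.finrank_pi_fintype]
    simp [hr]
  have h3 : finrank F₀ (ι → F₀) = Fintype.card ι := by simp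
  have h4 := Submodule.finrank_sup_add_finrank_inf_eq (LinearMap.ker L) S'
  have h5 := Submodule.finrank_le (LinearMap.ker L ⊔ S')
  have h6 := Submodule.finrank_sup_add_finrank_inf_eq S S'
  rw [hS'.sup_eq_top, hS'.inf_eq_bot, finrank_top, finrank_bot] at h6
  have h7 : 3 ≤ finrank F₀ ↥(LinearMap.ker L ⊓ S') := by omega
  obtain ⟨x, hx, hx0, hxx⟩ := iso3 hR _ h7
  refine ⟨x, fun hxS => hx0 ?_, hxx, (mem_perpL hR hx.1).1, (mem_perpL hR hx.1).2⟩
  exact (Submodule.disjoint_def.1 hS'.disjoint) x hxS hx.2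

/-- Partners. -/
theorem exists_partner_rat {x : ι → F₀} {S : Submodule F₀ (ι → F₀)} (hxS : x ∉ S) (hxx : Q (lV x) = 0)
    (hSx : ∀ s ∈ S, 𝔣 (lV s) (lV x) = 0) :
    ∃ h : ι → F₀, Q (lV h) = 0 ∧ 𝔣 (lV x) (lV h) = 1 ∧ ∀ s ∈ S, 𝔣 (lV s) (lV h) = 0 := by
  obtain ⟨ψ, hψ0, hψ1⟩ := exists_dual_eq_one hxS
  obtain ⟨u, hu⟩ := riesz hQ hR ψ
  have h1 : 𝔣 (lV x) (lV u) = 1 := by
    rw [hu, hψ1]
    simp
  refine ⟨u - qv hR u • x, ?_, ?_, fun t ht => ?_⟩
  · rw [lV_sub, lV_smul, Q_sub, Q_smul, hxx, polar_smul_right', polar_comm (⇑Q) (lV u) (lV x), h1]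
    simp
  · rw [lV_sub, lV_smul, polar_sub_right, polar_smul_right', polar_zero_of_singular hxx, mul_zero, sub_zero, h1]
  · have h2 : 𝔣 (lV t) (lV u) = 0 := by
      rw [hu, hψ0 t ht]
      simp
    rw [lV_sub, lV_smul, polar_sub_right, polar_smul_right', hSx t ht, mul_zero, sub_zero, h2]

/-- Rational hyperbolic pairs. -/
theorem exists_hyp_rat {k : ℕ} (u : Fin k → ι → F₀) (h : 2 * k + 3 ≤ Fintype.card ι) :
    ∃ e h' : ι → F₀, Q (lV e) = 0 ∧ Q (lV h') = 0 ∧ 𝔣 (lV e) (lV h') = 1 ∧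
      (∀ i, 𝔣 (lV e) (lV (u i)) = 0) ∧ ∀ i, 𝔣 (lV h') (lV (u i)) = 0 := by
  classical
  set S := Submodule.span F₀ (Set.range u) with hS
  have hSdim : finrank F₀ S ≤ k := by
    have := finrank_range_le_card (R := F₀) u
    simpa [Set.finrank] using this
  obtain ⟨e, heS, hee, he, -⟩ := exists_iso_perp hR (r := finrank F₀ F) rfl u (Fin.elim0 : Fin 0 → ι → F) S (by
    simp
    omega)
  have hSe : ∀ s ∈ S, 𝔣 (lV s) (lV e) = 0 := by
    intro s hs
    induction hs using Submodule.span_induction with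
    | mem x hx =>
      obtain ⟨i, rfl⟩ := hx
      rw [polar_comm]
      exact he i
    | zero =>
      rw [lV_zero]
      simp
    | add x y _ _ h1 h2 =>
      rw [lV_add, polar_add_left, h1, h2, add_zero]
    | smul c x _ h1 =>
      rw [lV_smul, polar_smul_left', h1, mul_zero]
  obtain ⟨h', h1, h2, h3⟩ := exists_partner_rat hQ hR heS hee hSe
  refine ⟨e, h', hee, h1, h2, he, fun i => ?_⟩
  rw [polar_comm]
  exact h3 _ (Submodule.subset_span ⟨i, rfl⟩)

omit hQ in
/-- Singular vectors span, given a hyperbolic pair. -/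
theorem mem_span_cone {W : Submodule F₀ (ι → F₀)} {e h' x : ι → F₀} (he : e ∈ W) (hh : h' ∈ W) (hx : x ∈ W)
    (hee : Q (lV e) = 0) (hhh : Q (lV h') = 0) (h1 : 𝔣 (lV e) (lV h') = 1) :
    x ∈ Submodule.span F₀ {y | y ∈ W ∧ Q (lV y) = 0} := by
  set I := Submodule.span F₀ {y | y ∈ W ∧ Q (lV y) = 0} with hI
  have he' : e ∈ I := Submodule.subset_span ⟨he, hee⟩
  have hh' : h' ∈ I := Submodule.subset_span ⟨hh, hhh⟩
  have h1' : 𝔣 (lV h') (lV e) = 1 := by
    rw [polar_comm]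
    exact h1
  set a : F₀ := rv hR x h' with ha
  set b : F₀ := rv hR x e with hb
  set x' : ι → F₀ := x - a • e - b • h' with hx'
  have hx'W : x' ∈ W := W.sub_mem (W.sub_mem hx (W.smul_mem _ he)) (W.smul_mem _ hh)
  have e1 : 𝔣 (lV x') (lV h') = 0 := by
    rw [hx', lV_sub, lV_sub, lV_smul, lV_smul, polar_sub_left, polar_sub_left, polar_smul_left', polar_smul_left',
      polar_zero_of_singular hhh, h1, show (a : F) = 𝔣 (lV x) (lV h') from rfl]
    ring
  have e2 : 𝔣 (lV x') (lV e) = 0 := by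
    rw [hx', lV_sub, lV_sub, lV_smul, lV_smul, polar_sub_left, polar_sub_left, polar_smul_left', polar_smul_left',
      polar_zero_of_singular hee, h1', show (b : F) = 𝔣 (lV x) (lV e) from rfl]
    ring
  set s : F₀ := qv hR (x' + h') with hs
  have hy0 : Q (lV (x' + h' - s • e)) = 0 := by
    have e3 : 𝔣 (lV e) (lV x' + lV h') = 1 := by
      rw [polar_add_right, polar_comm (⇑Q) (lV e) (lV x'), e2, h1, zero_add]
    rw [lV_sub, lV_smul, Q_sub, Q_smul, hee, polar_smul_right', lV_add, polar_comm (⇑Q) (lV x' + lV h'), e3, hs, qv_coe, lV_add]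
    ring
  have hyW : x' + h' - s • e ∈ W := W.sub_mem (W.add_mem hx'W hh) (W.smul_mem _ he)
  have hy : x' + h' - s • e ∈ I := Submodule.subset_span ⟨hyW, hy0⟩
  have hex : x = (x' + h' - s • e) - h' + s • e + a • e + b • h' := by
    rw [hx']
    abel
  rw [hex]
  exact I.add_mem (I.add_mem (I.add_mem (I.sub_mem hy hh') (I.smul_mem _ he')) (I.smul_mem _ he')) (I.smul_mem _ hh')

omit hQ hR in
/-- `lV` of a combination in the span. -/
theorem lV_mem_span {C : Set (ι → F₀)} {x : ι → F₀} (hx : x ∈ Submodule.span F₀ C) :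
    lV x ∈ Submodule.span F (lV '' C) := by
  induction hx using Submodule.span_induction with
  | mem y hy => exact Submodule.subset_span ⟨y, hy, rfl⟩
  | zero =>
    rw [lV_zero]
    exact Submodule.zero_mem _
  | add y z _ _ h1 h2 =>
    rw [lV_add]
    exact Submodule.add_mem _ h1 h2
  | smul c y _ h1 =>
    rw [lV_smul]
    exact Submodule.smul_mem _ _ h1

/-- The rational singular vectors span the rational vectors. -/
theorem all_span_cone (h3 : 3 ≤ Fintype.card ι) (x : ι → F₀) :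
    x ∈ Submodule.span F₀ {y : ι → F₀ | Q (lV y) = 0} := by
  obtain ⟨e, h', hee, hhh, h1, -, -⟩ := exists_hyp_rat hQ hR (Fin.elim0 : Fin 0 → ι → F₀) (by simpa using h3)
  have := mem_span_cone hR (W := ⊤) (x := x) trivial trivial trivial hee hhh h1
  simpa using this

/-- A functional which is rational on the rational singular vectors, up to a scalar, comes from a rational vector. -/
theorem line_of_rel (h3 : 3 ≤ Fintype.card ι) {v : ι → F} {t : F} (ht : t ≠ 0)
    (h : ∀ y : ι → F₀, Q (lV y) = 0 → 𝔣 (lV y) v * t ∈ F₀) :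
    ∃ u : ι → F₀, v = t⁻¹ • lV u := by
  have hall : ∀ x : ι → F₀, 𝔣 (lV x) v * t ∈ F₀ := by
    intro x
    have hx := all_span_cone hQ hR h3 x
    induction hx using Submodule.span_induction with
    | mem y hy => exact h y hy
    | zero =>
      rw [lV_zero]
      simp [F₀.zero_mem]
    | add y z _ _ h1 h2 =>
      rw [lV_add, polar_add_left, add_mul]
      exact F₀.add_mem h1 h2
    | smul c y _ h1 =>
      rw [lV_smul, polar_smul_left', mul_assoc]
      exact F₀.mul_mem c.2 h1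
  obtain ⟨ψ, hψ⟩ := exists_lD (t • fL Q v) (by
    intro x
    simp only [LinearMap.smul_apply, fL_apply, smul_eq_mul]
    rw [mul_comm]
    exact hall x)
  obtain ⟨u, hu⟩ := riesz hQ hR ψ
  refine ⟨u, ?_⟩
  have hmain : t • v = lV u := by
    apply eq_of_rat hQ (F₀ := F₀)
    intro x
    rw [polar_smul_right', hu]
    have h1 := LinearMap.congr_fun hψ (lV x)
    simp only [LinearMap.smul_apply, fL_apply, smul_eq_mul, lD_lV] at h1
    exact h1
  rw [← hmain, smul_smul, inv_mul_cancel₀ ht, one_smul]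

omit hQ hR in
/-- If `lV u` is a multiple of `lV t`, with `t ≠ 0`, then `u` is a rational multiple of `t`. -/
theorem exists_rat_mult {u t : ι → F₀} {l : F} (ht : t ≠ 0) (h : lV u = l • lV t) : u ∈ Submodule.span F₀ {t} := by
  obtain ⟨i, hi⟩ : ∃ i, t i ≠ 0 := by
    by_contra hcon
    push Not at hcon
    exact ht (funext hcon)
  have hi' : (t i : F) ≠ 0 := by simpa using hi
  have h1 := congrFun h i
  have h2 : ∀ j, (u j : F) = l * (t j : F) := fun j => congrFun h j
  have hl : l ∈ F₀ := by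
    have e : l = (u i : F) / (t i : F) := by
      rw [h2 i]
      field_simp
    rw [e]
    exact F₀.div_mem (Subtype.coe_prop _) (Subtype.coe_prop _)
  rw [Submodule.mem_span_singleton]
  refine ⟨⟨l, hl⟩, funext fun j => Subtype.ext ?_⟩
  simp only [Pi.smul_apply, smul_eq_mul, Subfield.coe_mul]
  exact (h2 j).symm

omit hQ hR in
/-- The ratio from a relation between rational vectors. -/
theorem ratio_of_sum {u' w' x' : ι → F₀} {κ₁ κ₂ κ₃ : F} (h1 : u' ∉ Submodule.span F₀ {w'}) (h2 : w' ∉ Submodule.span F₀ {u'})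
    (hκ₁ : κ₁ ≠ 0) (hκ₂ : κ₂ ≠ 0) (hsum : κ₁ • lV u' + κ₂ • lV w' = κ₃ • lV x') : κ₁ / κ₂ ∈ F₀ := by
  obtain ⟨h₁, h₁0, h₁1⟩ := exists_dual_eq_one h1
  obtain ⟨h₂, h₂0, h₂1⟩ := exists_dual_eq_one h2
  have hyk : h₁ w' = 0 := h₁0 _ (Submodule.mem_span_singleton_self _)
  have hyj : h₂ u' = 0 := h₂0 _ (Submodule.mem_span_singleton_self _)
  have e1 := congrArg (lD h₁) hsum
  have e2 := congrArg (lD h₂) hsum
  simp only [map_add, map_smul, lD_lV, h₁1, hyk, h₂1, hyj, smul_eq_mul] at e1 e2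
  simp only [OneMemClass.coe_one, ZeroMemClass.coe_zero, mul_one, mul_zero, add_zero, zero_add] at e1 e2
  have hκ : κ₃ ≠ 0 := by
    rintro rfl
    rw [zero_mul] at e1
    exact hκ₁ e1
  have e3 : κ₁ / κ₂ = (h₁ x' : F) / (h₂ x' : F) := by
    rw [e1, e2, mul_div_mul_left _ _ hκ]
  rw [e3]
  exact F₀.div_mem (Subtype.coe_prop _) (Subtype.coe_prop _)

omit hQ hR in
/-- Ratio of the scalars on orthogonal rational singular vectors. -/
theorem ratio_pair {g : GL ι F}
    (hg : ∀ x : ι → F₀, x ≠ 0 → Q (lV x) = 0 →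
      ∃ (κ : F) (y₀ : ι → F₀), κ ≠ 0 ∧ (g : Matrix ι ι F) *ᵥ lV x = κ • lV y₀)
    {u t u' t' : ι → F₀} {κ₁ κ₂ : F} (hu0 : u ≠ 0) (hut : t ∉ Submodule.span F₀ {u}) (huu : Q (lV u) = 0)
    (htt : Q (lV t) = 0) (hu_t : 𝔣 (lV u) (lV t) = 0) (hκ₁ : κ₁ ≠ 0) (hκ₂ : κ₂ ≠ 0)
    (e₁ : (g : Matrix ι ι F) *ᵥ lV u = κ₁ • lV u') (e₂ : (g : Matrix ι ι F) *ᵥ lV t = κ₂ • lV t') : κ₁ / κ₂ ∈ F₀ := by
  have ht0 : t ≠ 0 := by
    rintro rfl
    exact hut (Submodule.zero_mem _)
  have hsum0 : u + t ≠ 0 := by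
    intro h0
    apply hut
    have : t = (-1 : F₀) • u := by
      have h1 : t = -u := by
        rw [eq_neg_iff_add_eq_zero, add_comm]
        exact h0
      rw [h1]
      simp
    rw [this]
    exact Submodule.smul_mem _ _ (Submodule.mem_span_singleton_self _)
  have hsumi : Q (lV (u + t)) = 0 := by
    rw [lV_add, Q_add, huu, htt, hu_t]
    ring
  obtain ⟨κ₃, x', -, e₃⟩ := hg _ hsum0 hsumi
  have hsum : κ₁ • lV u' + κ₂ • lV t' = κ₃ • lV x' := by
    rw [← e₃, lV_add, Matrix.mulVec_add, e₁, e₂]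
  have hinj : ∀ {a b a' b' : ι → F₀} {κa κb : F}, κa ≠ 0 → κb ≠ 0 → b ≠ 0 →
      (g : Matrix ι ι F) *ᵥ lV a = κa • lV a' → (g : Matrix ι ι F) *ᵥ lV b = κb • lV b' →
      a' ∈ Submodule.span F₀ {b'} → a ∈ Submodule.span F₀ {b} := by
    intro a b a' b' κa κb hκa hκb hb0 ha hb hmem
    obtain ⟨c, rfl⟩ := Submodule.mem_span_singleton.1 hmem
    apply exists_rat_mult hb0 (l := (κa * c) / κb)
    apply mulVec_injective g
    change (g : Matrix ι ι F) *ᵥ lV a = (g : Matrix ι ι F) *ᵥ (((κa * c) / κb) • lV b)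
    rw [Matrix.mulVec_smul, hb, ha, lV_smul, smul_smul, smul_smul]
    congr 1
    field_simp
  refine ratio_of_sum (fun hmem => ?_) (fun hmem => hut (hinj hκ₂ hκ₁ hu0 e₂ e₁ hmem)) hκ₁ hκ₂ hsum
  have h1 := hinj hκ₁ hκ₂ ht0 e₁ e₂ hmem
  obtain ⟨c, hc⟩ := Submodule.mem_span_singleton.1 h1
  have hc0 : c ≠ 0 := by
    rintro rfl
    apply hu0
    rw [← hc, zero_smul]
  apply hut
  rw [Submodule.mem_span_singleton]
  exact ⟨c⁻¹, by rw [← hc, smul_smul, inv_mul_cancel₀ hc0, one_smul]⟩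

/-- **Rational singular lines preserved by scalar multiples of rational matrices only.** -/
theorem mem_of_iso_lines (hn : 7 ≤ Fintype.card ι) {g : GL ι F}
    (hg : ∀ x : ι → F₀, x ≠ 0 → Q (lV x) = 0 →
      ∃ (κ : F) (y₀ : ι → F₀), κ ≠ 0 ∧ (g : Matrix ι ι F) *ᵥ lV x = κ • lV y₀) :
    g ∈ (Matrix.GeneralLinearGroup.map (F₀.subtype : F₀ →+* F)).range ⊔ scalars ι F := by
  classical
  haveI : Nonempty ι := by
    apply Fintype.card_pos_iff.1
    omega
  obtain ⟨u₀, hu₀, hu₀u₀, -, -⟩ := exists_iso_perp hR (r := finrank F₀ F) rfl (Fin.elim0 : Fin 0 → ι → F₀)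
    (Fin.elim0 : Fin 0 → ι → F) ⊥ (by simp; omega)
  have hu₀0 : u₀ ≠ 0 := by simpa using hu₀
  obtain ⟨κ₀, y₀, hκ₀, hy₀⟩ := hg u₀ hu₀0 hu₀u₀
  have hratio : ∀ x : ι → F₀, x ≠ 0 → Q (lV x) = 0 → ∃ y : ι → F₀, (g : Matrix ι ι F) *ᵥ lV x = κ₀ • lV y := by
    intro x hx0 hxx
    obtain ⟨κ, y, hκ, hy⟩ := hg x hx0 hxx
    -- a common orthogonal vector
    have hS : finrank F₀ (Submodule.span F₀ {x, u₀}) ≤ 2 := finrank_span_pair_le x u₀
    obtain ⟨t, htS, htt, ht, -⟩ := exists_iso_perp hR (r := finrank F₀ F) rfl ![x, u₀]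
      (Fin.elim0 : Fin 0 → ι → F) (Submodule.span F₀ {x, u₀}) (by simp; omega)
    have htx : 𝔣 (lV t) (lV x) = 0 := ht 0
    have htu : 𝔣 (lV t) (lV u₀) = 0 := ht 1
    have ht0 : t ≠ 0 := by
      rintro rfl
      exact htS (Submodule.zero_mem _)
    obtain ⟨κt, yt, hκt, hyt⟩ := hg t ht0 htt
    have h1 : κ / κt ∈ F₀ := ratio_pair hg hx0
      (fun hmem => htS (Submodule.span_mono (by simp) hmem)) hxx htt (by rw [polar_comm]; exact htx) hκ hκt hy hyt
    have h2 : κ₀ / κt ∈ F₀ := ratio_pair hg hu₀0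
      (fun hmem => htS (Submodule.span_mono (by simp) hmem)) hu₀u₀ htt (by rw [polar_comm]; exact htu) hκ₀ hκt hy₀ hyt
    have h3 : κ / κ₀ ∈ F₀ := by
      have e : κ / κ₀ = (κ / κt) / (κ₀ / κt) := by
        field_simp
      rw [e]
      exact F₀.div_mem h1 h2
    refine ⟨(⟨κ / κ₀, h3⟩ : F₀) • y, ?_⟩
    rw [hy, lV_smul, smul_smul]
    congr 1
    simp only
    field_simp
  have hall : ∀ x : ι → F₀, ∃ y : ι → F₀, (g : Matrix ι ι F) *ᵥ lV x = κ₀ • lV y := by
    intro x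
    have hx := all_span_cone hQ hR (by omega) x
    induction hx using Submodule.span_induction with
    | mem y hy =>
      by_cases hy0 : y = 0
      · refine ⟨0, ?_⟩
        rw [hy0, lV_zero, Matrix.mulVec_zero, smul_zero]
      · exact hratio y hy0 hy
    | zero =>
      refine ⟨0, ?_⟩
      rw [lV_zero, Matrix.mulVec_zero, smul_zero]
    | add y z _ _ h1 h2 =>
      obtain ⟨y₁, h1⟩ := h1
      obtain ⟨y₂, h2⟩ := h2
      refine ⟨y₁ + y₂, ?_⟩
      rw [lV_add, Matrix.mulVec_add, h1, h2, lV_add, smul_add]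
    | smul c y _ h1 =>
      obtain ⟨y₁, h1⟩ := h1
      refine ⟨c • y₁, ?_⟩
      rw [lV_smul, Matrix.mulVec_smul, h1, lV_smul, smul_smul, smul_smul, mul_comm]
  apply Cfsg.Agent.Lib.Classical.Sub.Lines.mem_of_lines
  intro v₀ _
  obtain ⟨y, hy⟩ := hall v₀
  exact ⟨κ₀, y, hκ₀, hy⟩

end Rational

end Cfsg.Agent.Lib.Classical.Sub.OBase
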