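/-
Overgroups of `SL_n(F₀)` in `GL_n(F)`, `F₀` a maximal subfield: every transvection has a rational centre,
unless all the coefficients appear.
-/
import Mathlib
import Cfsg.Agent.Lib.Classical.Sub.Rat
import Cfsg.Agent.Lib.Classical.Sub.Act

set_option autoImplicit false
set_option linter.unusedSectionVars false

namespace Cfsg.Agent.Lib.Classical.Sub.SLCore

open scoped Matrix MatrixGroups
open Module Cfsg.Geo
open Cfsg.Agent.Lib.Classical.Geo.Basic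
open Cfsg.Agent.Lib.PSL2.Basic
open Cfsg.Agent.Lib.Classical.Sub.Rat Cfsg.Agent.Lib.Classical.Sub.Act

variable {ι : Type} [Fintype ι] [DecidableEq ι] {F : Type*} [Field F] {F₀ : Subfield F} {M : Subgroup (GL ι F)}

theorem rat_of_cov (hM : HasRat M F₀) (hA : ∀ c ∈ A M F₀, c ∈ F₀) (h3 : 3 ≤ Fintype.card ι) {y : ι → F}
    {ψ : Dual F₀ (ι → F₀)} (hψ : ψ ≠ 0) (h : InM M y (lD ψ)) : ∃ y₀ : ι → F₀, y = lV y₀ := by
  apply exists_lV
  intro i
  obtain ⟨u, hu, hu1, hu2⟩ := exists_vec_vanish h3 ψ (LinearMap.proj i)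
  have h1 := (hM u (LinearMap.proj i) hu2).comm h (by rw [lD_lV, hu1]; simp)
  rw [lD_proj] at h1
  exact hA _ (mem_A_of_pair hM h3 hu hψ hu1 h1)

theorem rat_of_vec (hM : HasRat M F₀) (hA : ∀ c ∈ A M F₀, c ∈ F₀) (h3 : 3 ≤ Fintype.card ι) {w₀ : ι → F₀} (hw₀ : w₀ ≠ 0)
    {χ : Dual F (ι → F)} (h : InM M (lV w₀) χ) : ∃ ψ : Dual F₀ (ι → F₀), χ = lD ψ := by
  apply exists_lD
  intro x
  obtain ⟨ψ', hψ', h1, h2⟩ := exists_ne_vanish h3 w₀ x
  have h4 := h.comm (hM x ψ' h2) (by rw [lD_lV, h1]; simp)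
  exact hA _ (mem_A_of_pair hM h3 hw₀ hψ' h1 h4)

/-- A transvection whose centre is killed by a rational covector has a rational centre. -/
theorem line_of_cov (hM : HasRat M F₀) (hA : ∀ c ∈ A M F₀, c ∈ F₀) (h3 : 3 ≤ Fintype.card ι) {v : ι → F}
    {φ : Dual F (ι → F)} (hφ : φ ≠ 0) (h : InM M v φ) {ψ₀ : Dual F₀ (ι → F₀)} (hψ₀ : ψ₀ ≠ 0) (hv : lD ψ₀ v = 0) :
    ∃ (κ : F) (y₀ : ι → F₀), κ ≠ 0 ∧ v = κ • lV y₀ := by
  by_cases hw : ∃ w, ψ₀ w = 0 ∧ φ (lV w) ≠ 0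
  · obtain ⟨w, hw1, hw2⟩ := hw
    have h1 := h.comm (hM w ψ₀ hw1) hv
    obtain ⟨y₀, hy₀⟩ := rat_of_cov hM hA h3 hψ₀ h1
    refine ⟨(φ (lV w))⁻¹, y₀, inv_ne_zero hw2, ?_⟩
    rw [← hy₀, smul_smul, inv_mul_cancel₀ hw2, one_smul]
  push Not at hw
  obtain ⟨w₂, hw₂⟩ : ∃ w₂, ψ₀ w₂ ≠ 0 := by
    by_contra hc
    push Not at hc
    exact hψ₀ (LinearMap.ext hc)
  set w₁ := (ψ₀ w₂)⁻¹ • w₂ with hw₁def
  have hw₁ : ψ₀ w₁ = 1 := by
    rw [hw₁def, map_smul, smul_eq_mul, inv_mul_cancel₀ hw₂]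
  have h1 : φ = φ (lV w₁) • lD ψ₀ := by
    apply dual_ext_rat (F₀ := F₀)
    intro x
    have h2 := hw (x - ψ₀ x • w₁) (by rw [map_sub, map_smul, hw₁, smul_eq_mul, mul_one, sub_self])
    rw [lV_sub, lV_smul, map_sub, map_smul, sub_eq_zero, smul_eq_mul] at h2
    rw [h2, LinearMap.smul_apply, lD_lV, smul_eq_mul, mul_comm]
  have hc0 : φ (lV w₁) ≠ 0 := by
    intro hc
    rw [hc, zero_smul] at h1
    exact hφ h1
  have h2 : InM M v (φ (lV w₁) • lD ψ₀) := by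
    rw [← h1]
    exact h
  obtain ⟨y₀, hy₀⟩ := rat_of_cov hM hA h3 hψ₀ h2.unscale
  refine ⟨(φ (lV w₁))⁻¹, y₀, inv_ne_zero hc0, ?_⟩
  rw [← hy₀, smul_smul, inv_mul_cancel₀ hc0, one_smul]

/-- A transvection whose axis contains a rational vector has a rational centre. -/
theorem line_of_vec (hM : HasRat M F₀) (hA : ∀ c ∈ A M F₀, c ∈ F₀) (h3 : 3 ≤ Fintype.card ι) {v : ι → F} (hv0 : v ≠ 0)
    {φ : Dual F (ι → F)} (hφ : φ ≠ 0) (h : InM M v φ) {w₀ : ι → F₀} (hw₀ : w₀ ≠ 0) (hw : φ (lV w₀) = 0) :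
    ∃ (κ : F) (y₀ : ι → F₀), κ ≠ 0 ∧ v = κ • lV y₀ := by
  by_cases hh : ∃ f : Dual F₀ (ι → F₀), f w₀ = 0 ∧ lD f v ≠ 0
  · obtain ⟨f, hf1, hf2⟩ := hh
    have h1 := (hM w₀ f hf1).comm h hw
    have h2 : InM M (lV w₀) (lD f v • φ) := h1.scale
    obtain ⟨ψ, hψ⟩ := rat_of_vec hM hA h3 hw₀ h2
    have hψ0 : ψ ≠ 0 := by
      rintro rfl
      rw [lD_zero] at hψ
      rcases smul_eq_zero.1 hψ with h5 | h5
      · exact hf2 h5
      · exact hφ h5
    have h5 : φ = (lD f v)⁻¹ • lD ψ := by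
      rw [← hψ, smul_smul, inv_mul_cancel₀ hf2, one_smul]
    have h6 : InM M v ((lD f v)⁻¹ • lD ψ) := by
      rw [← h5]
      exact h
    obtain ⟨y₀, hy₀⟩ := rat_of_cov hM hA h3 hψ0 h6.unscale
    refine ⟨lD f v, y₀, hf2, ?_⟩
    rw [← hy₀, smul_smul, mul_inv_cancel₀ hf2, one_smul]
  push Not at hh
  obtain ⟨k, hk⟩ : ∃ k, w₀ k ≠ 0 := by
    by_contra hc
    push Not at hc
    exact hw₀ (funext hc)
  have hk' : (w₀ k : F) ≠ 0 := by simpa using hk
  have h1 : v = (v k / w₀ k) • lV w₀ := by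
    funext i
    have h2 := hh (LinearMap.proj i - (w₀ i / w₀ k) • LinearMap.proj k) (by
      simp only [LinearMap.sub_apply, LinearMap.smul_apply, LinearMap.proj_apply, smul_eq_mul]
      field_simp
      simp)
    rw [lD_sub, lD_smul, LinearMap.sub_apply, LinearMap.smul_apply] at h2
    rw [lD_proj, lD_proj, sub_eq_zero, smul_eq_mul] at h2
    simp only [Pi.smul_apply, smul_eq_mul]
    rw [h2]
    push_cast
    field_simp
  have hκ : v k / (w₀ k : F) ≠ 0 := by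
    intro hc
    apply hv0
    rw [h1, hc, zero_smul]
  exact ⟨_, w₀, hκ, h1⟩

/-- A subfield containing `F₀` and an element outside `F₀` is everything. -/
theorem subfield_dichotomy [Fintype F] {r : ℕ} (hr : r.Prime) (hc : Fintype.card F = Nat.card F₀ ^ r) (W : Subfield F)
    (hW : F₀ ≤ W) : W = F₀ ∨ W = ⊤ := by
  classical
  haveI : Algebra F₀ W := (Subfield.inclusion hW).toAlgebra
  haveI : Module F₀ W := Algebra.toModule
  have h1 : Nat.card W = Nat.card F₀ ^ Module.finrank F₀ W := by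
    rw [Module.natCard_eq_pow_finrank (K := F₀) (V := W)]
  obtain ⟨b, hb⟩ := Cfsg.Agent.Lib.Classical.Asch.Subfield.exists_card_eq_pow W
  set a := Module.finrank F₀ W with ha
  have h2 : 1 < Nat.card F₀ := Finite.one_lt_card
  have h3 : r = a * b := by
    have h4 : Nat.card F₀ ^ r = Nat.card F₀ ^ (a * b) := by
      rw [← hc, hb, h1, pow_mul]
    exact Nat.pow_right_injective h2 h4
  rcases (Nat.dvd_prime hr).1 (Dvd.intro b h3.symm) with h5 | h5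
  · left
    have h6 : Nat.card W = Nat.card F₀ := by
      rw [h1, h5, pow_one]
    have h7 : (F₀ : Set F) = W := Set.eq_of_subset_of_ncard_le hW (by
      rw [← Nat.card_coe_set_eq, ← Nat.card_coe_set_eq]
      exact h6.le) (Set.toFinite _)
    exact (SetLike.coe_injective h7).symm
  · right
    have h6 : b = 1 := by
      rw [h5] at h3
      exact Nat.eq_of_mul_eq_mul_left hr.pos (by rw [mul_one]; exact h3.symm : r * b = r * 1)
    have h7 : Nat.card W = Fintype.card F := by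
      rw [hb, h6, pow_one]
    have h8 : (W : Set F) = Set.univ := by
      apply Set.eq_of_subset_of_ncard_le (Set.subset_univ _) _ (Set.toFinite _)
      rw [Set.ncard_univ, ← Nat.card_coe_set_eq, Nat.card_eq_fintype_card (α := F)]
      exact h7.ge
    exact SetLike.coe_injective (by simpa using h8)

/-- The commutator of an element of the kernel with an element acting as `x c` on the plane. -/
theorem comm_tv {g h : GL ι F} (hg : g ∈ M) (hh : h ∈ M) {χ₁ χ₂ : Dual F (ι → F)} {e w : ι → F} {c : F}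
    (hθ : ∀ y, (g : Matrix ι ι F) *ᵥ y = y + χ₁ y • e + χ₂ y • w) (h1e : χ₁ e = 0) (h1w : χ₁ w = 0) (h2e : χ₂ e = 0)
    (h2w : χ₂ w = 0) (he : (h : Matrix ι ι F) *ᵥ e = e) (hw : (h : Matrix ι ι F) *ᵥ w = w + c • e)
    (h1 : ∀ y, χ₁ ((h : Matrix ι ι F) *ᵥ y) = χ₁ y) (h2 : ∀ y, χ₂ ((h : Matrix ι ι F) *ᵥ y) = χ₂ y) :
    InM M (c • e) χ₂ := by
  have h3 : χ₂ (c • e) = 0 := by rw [map_smul, h2e, smul_zero]
  refine ⟨h3, ?_⟩
  have e1 : h * g * h⁻¹ * g⁻¹ = tv χ₂ (c • e) h3 := by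
    have e2 : h * g = tv χ₂ (c • e) h3 * (g * h) := by
      apply gl_ext
      intro y
      rw [gl_mulVec_mul, gl_mulVec_mul, gl_mulVec_mul, tv_mulVec, hθ, hθ]
      simp only [Matrix.mulVec_add, Matrix.mulVec_smul, he, hw, map_add, map_smul, h1, h2, h1e, h1w, h2e, h2w, smul_eq_mul,
        mul_zero, add_zero]
      module
    rw [e2]
    group
  rw [← e1]
  exact M.mul_mem (M.mul_mem (M.mul_mem hh hg) (M.inv_mem hh)) (M.inv_mem hg)

/-- The kernel of the action on the plane is trivial. -/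
theorem kernel_trivial (hM : HasRat M F₀) (hA : ∀ c ∈ A M F₀, c ∈ F₀) (h3 : 3 ≤ Fintype.card ι) {e : ι → F} {w₀ : ι → F₀}
    (hw₀ : w₀ ≠ 0) (hall : ∀ X : SL(2, F), ∃ g ∈ M, Act e (lV w₀) g X) {ε₁ ε₂ : Dual F (ι → F)} (h11 : ε₁ e = 1)
    (h12 : ε₁ (lV w₀) = 0) (h21 : ε₂ e = 0) (h22 : ε₂ (lV w₀) = 1) (hF : ∃ c : F, c ∉ F₀) {g : GL ι F} (hg : g ∈ M)
    (hact : Act e (lV w₀) g 1) : g = 1 := by
  set w := lV w₀ with hwdef
  let χ₁ : Dual F (ι → F) := ε₁ ∘ₗ (Matrix.toLin' (g : Matrix ι ι F) - LinearMap.id)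
  let χ₂ : Dual F (ι → F) := ε₂ ∘ₗ (Matrix.toLin' (g : Matrix ι ι F) - LinearMap.id)
  have hχ₁ : ∀ y, χ₁ y = ε₁ ((g : Matrix ι ι F) *ᵥ y - y) := fun y => rfl
  have hχ₂ : ∀ y, χ₂ y = ε₂ ((g : Matrix ι ι F) *ᵥ y - y) := fun y => rfl
  have hL1 : ∀ p, ε₁ (L e w p) = p 0 := by
    intro p
    simp [L, h11, h12]
  have hL2 : ∀ p, ε₂ (L e w p) = p 1 := by
    intro p
    simp [L, h21, h22]
  have hθ : ∀ y, (g : Matrix ι ι F) *ᵥ y = y + χ₁ y • e + χ₂ y • w := by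
    intro y
    obtain ⟨p, hp⟩ := hact.2 y
    rw [hχ₁, hχ₂, hp, hL1, hL2]
    have : (g : Matrix ι ι F) *ᵥ y = y + L e w p := by
      rw [← hp]
      abel
    rw [this, L, add_assoc]
  have hge : (g : Matrix ι ι F) *ᵥ e = e := by
    have := hact.1 ![1, 0]
    simpa [L] using this
  have hgw : (g : Matrix ι ι F) *ᵥ w = w := by
    have := hact.1 ![0, 1]
    simpa [L] using this
  have h1e : χ₁ e = 0 := by rw [hχ₁, hge, sub_self, map_zero]
  have h1w : χ₁ w = 0 := by rw [hχ₁, hgw, sub_self, map_zero]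
  have h2e : χ₂ e = 0 := by rw [hχ₂, hge, sub_self, map_zero]
  have h2w : χ₂ w = 0 := by rw [hχ₂, hgw, sub_self, map_zero]
  have hinv : ∀ (χ : Dual F (ι → F)), χ e = 0 → χ w = 0 → ∀ (h : GL ι F) (X : SL(2, F)), Act e w h X →
      ∀ y, χ ((h : Matrix ι ι F) *ᵥ y) = χ y := by
    intro χ h1 h2 h X hX y
    obtain ⟨p, hp⟩ := hX.2 y
    have : (h : Matrix ι ι F) *ᵥ y = y + L e w p := by
      rw [← hp]
      abel
    rw [this, map_add, L, map_add, map_smul, map_smul, h1, h2]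
    simp
  -- the coefficients along `w`
  have key : ∀ (χ : Dual F (ι → F)), χ ≠ 0 → (∀ c : F, InM M (c • w) χ) → False := by
    intro χ hχ hc
    obtain ⟨i, hi⟩ : ∃ i, χ (lV (Pi.single i (1 : F₀))) ≠ 0 := by
      by_contra hcon
      push Not at hcon
      apply hχ
      apply dual_ext_rat (F₀ := F₀)
      intro x
      have h5 : x = ∑ i, x i • (Pi.single i (1 : F₀) : ι → F₀) := by
        ext j
        simp [Finset.sum_apply, Pi.single_apply]
      have h6 : lV x = ∑ i, (x i : F) • lV (Pi.single i (1 : F₀)) := by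
        ext j
        simp only [Finset.sum_apply, Pi.smul_apply, lV_single, Pi.single_apply, smul_eq_mul, mul_ite, mul_one, mul_zero,
          Finset.sum_ite_eq, Finset.mem_univ, if_true]
      rw [h6, map_sum]
      simp [hcon]
    obtain ⟨ψ', hψ', h1, h2⟩ := exists_ne_vanish h3 w₀ (Pi.single i (1 : F₀))
    obtain ⟨c, hc0⟩ := hF
    have h5 : ∀ d : F, d ∈ F₀ := by
      intro d
      set κ := χ (lV (Pi.single i (1 : F₀))) with hκ
      have h6 := (hc (κ⁻¹ * d)).comm (hM _ ψ' h2) (by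
        rw [map_smul, lD_lV, h1]
        simp)
      rw [← hκ, smul_smul] at h6
      have h7 := mem_A_of_pair hM h3 hw₀ hψ' h1 h6
      have h8 : κ * (κ⁻¹ * d) = d := by
        rw [← mul_assoc, mul_inv_cancel₀ hi, one_mul]
      rw [h8] at h7
      exact hA _ h7
    exact hc0 (h5 c)
  have hA1 : χ₁ = 0 := by
    by_contra hne
    refine key χ₁ hne fun c => ?_
    obtain ⟨h, hh, hX⟩ := hall (y c)
    have he : (h : Matrix ι ι F) *ᵥ e = e + c • w := by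
      have := hX.1 ![1, 0]
      simpa [L, y, Matrix.mulVec, dotProduct, Fin.sum_univ_two] using this
    have hw' : (h : Matrix ι ι F) *ᵥ w = w := by
      have := hX.1 ![0, 1]
      simpa [L, y, Matrix.mulVec, dotProduct, Fin.sum_univ_two] using this
    exact comm_tv (e := w) (w := e) (χ₁ := χ₂) (χ₂ := χ₁) hg hh (fun y => by rw [hθ]; abel) h2w h2e h1w h1e hw' he
      (hinv χ₂ h2e h2w h _ hX) (hinv χ₁ h1e h1w h _ hX)
  have hA2 : χ₂ = 0 := by
    by_contra hne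
    have hxc : ∀ c : F, InM M (c • e) χ₂ := by
      intro c
      obtain ⟨h, hh, hX⟩ := hall (x c)
      have he : (h : Matrix ι ι F) *ᵥ e = e := by
        have := hX.1 ![1, 0]
        simpa [L, x, Matrix.mulVec, dotProduct, Fin.sum_univ_two] using this
      have hw' : (h : Matrix ι ι F) *ᵥ w = w + c • e := by
        have := hX.1 ![0, 1]
        rw [add_comm]
        simpa [L, x, Matrix.mulVec, dotProduct, Fin.sum_univ_two] using this
      exact comm_tv hg hh hθ h1e h1w h2e h2w he hw' (hinv χ₁ h1e h1w h _ hX) (hinv χ₂ h2e h2w h _ hX)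
    refine key χ₂ hne fun c => ?_
    obtain ⟨h, hh, hX⟩ := hall (y (1 : F))
    have he : (h : Matrix ι ι F) *ᵥ e = e + w := by
      have := hX.1 ![1, 0]
      simpa [L, y, Matrix.mulVec, dotProduct, Fin.sum_univ_two] using this
    have h5 := (hxc c).conj hh
    have h6 : χ₂ ∘ₗ Matrix.toLin' ((h⁻¹ : GL ι F) : Matrix ι ι F) = χ₂ := by
      apply LinearMap.ext
      intro z
      rw [LinearMap.comp_apply, Matrix.toLin'_apply]
      exact hinv χ₂ h2e h2w _ _ hX.inv z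
    rw [h6, Matrix.mulVec_smul, he] at h5
    have h7 := h5.add (hxc c).neg
    have h8 : c • (e + w) + -(c • e) = c • w := by
      rw [smul_add]
      abel
    rwa [h8] at h7
  apply gl_ext
  intro y
  rw [hθ, hA1, hA2]
  simp

/-- Elements acting as `y μ` come from rational covectors. -/
theorem no_extra (hM : HasRat M F₀) (hA : ∀ c ∈ A M F₀, c ∈ F₀) (h3 : 3 ≤ Fintype.card ι) {e : ι → F} {w₀ : ι → F₀}
    (hw₀ : w₀ ≠ 0) (hall : ∀ X : SL(2, F), ∃ g ∈ M, Act e (lV w₀) g X) {ε₁ ε₂ : Dual F (ι → F)} (h11 : ε₁ e = 1)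
    (h12 : ε₁ (lV w₀) = 0) (h21 : ε₂ e = 0) (h22 : ε₂ (lV w₀) = 1) (hF : ∃ c : F, c ∉ F₀) {ψ₂ : Dual F₀ (ι → F₀)}
    (hψ₂ : ψ₂ w₀ = 0) (hψ₂e : lD ψ₂ e ≠ 0) {t : GL ι F} {μ : F} (ht : t ∈ M) (hact : Act e (lV w₀) t (y μ)) :
    ∃ ψ : Dual F₀ (ι → F₀), ψ w₀ = 0 ∧ μ = lD ψ e := by
  set w := lV w₀ with hwdef
  have hw0 : w ≠ 0 := lV_ne_zero hw₀
  have hψw : lD ψ₂ w = 0 := by
    rw [hwdef, lD_lV, hψ₂]
    simp
  have hT : tv (lD ψ₂) w hψw ∈ M := by
    obtain ⟨hh, hh2⟩ := hM w₀ ψ₂ hψ₂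
    exact hh2
  have hTact : Act e w (tv (lD ψ₂) w hψw) (y (lD ψ₂ e)) := act_tv_y hψw
  have hc : t * tv (lD ψ₂) w hψw * t⁻¹ * (tv (lD ψ₂) w hψw)⁻¹ = 1 := by
    apply kernel_trivial hM hA h3 hw₀ hall h11 h12 h21 h22 hF
    · exact M.mul_mem (M.mul_mem (M.mul_mem ht hT) (M.inv_mem ht)) (M.inv_mem hT)
    · have h4 := ((hact.mul hTact).mul hact.inv).mul hTact.inv
      have h5 : y μ * y (lD ψ₂ e) * (y μ)⁻¹ * (y (lD ψ₂ e))⁻¹ = 1 := by
        rw [y_inv, y_inv, ← y_add, ← y_add, ← y_add]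
        have : μ + lD ψ₂ e + -μ + -lD ψ₂ e = 0 := by ring
        rw [this, y_zero]
      rwa [h5] at h4
  have hcomm : t * tv (lD ψ₂) w hψw = tv (lD ψ₂) w hψw * t := by
    have : t * tv (lD ψ₂) w hψw * t⁻¹ * (tv (lD ψ₂) w hψw)⁻¹ * (tv (lD ψ₂) w hψw * t) = t * tv (lD ψ₂) w hψw := by group
    rw [hc, one_mul] at this
    exact this.symm
  have htw : (t : Matrix ι ι F) *ᵥ w = w := by
    have := hact.1 ![0, 1]
    simpa [L, y, Matrix.mulVec, dotProduct, Fin.sum_univ_two] using this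
  have hte : (t : Matrix ι ι F) *ᵥ e = e + μ • w := by
    have := hact.1 ![1, 0]
    simpa [L, y, Matrix.mulVec, dotProduct, Fin.sum_univ_two] using this
  have hfix : ∀ z, lD ψ₂ ((t : Matrix ι ι F) *ᵥ z) = lD ψ₂ z := by
    intro z
    have h4 := congrArg (fun g : GL ι F => (g : Matrix ι ι F) *ᵥ z) hcomm
    simp only [gl_mulVec_mul, tv_mulVec, Matrix.mulVec_add, Matrix.mulVec_smul, htw] at h4
    have h5 : (lD ψ₂ z - lD ψ₂ ((t : Matrix ι ι F) *ᵥ z)) • w = 0 := by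
      rw [sub_smul]
      have : (lD ψ₂ z) • w = (lD ψ₂ ((t : Matrix ι ι F) *ᵥ z)) • w := add_left_cancel h4
      rw [this, sub_self]
    rcases smul_eq_zero.1 h5 with h6 | h6
    · exact (sub_eq_zero.1 h6).symm
    · exact absurd h6 hw0
  let χ : Dual F (ι → F) := ε₂ ∘ₗ (Matrix.toLin' (t : Matrix ι ι F) - LinearMap.id)
  have hχ : ∀ z, χ z = ε₂ ((t : Matrix ι ι F) *ᵥ z - z) := fun z => rfl
  have hθ : ∀ z, (t : Matrix ι ι F) *ᵥ z = z + χ z • w := by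
    intro z
    obtain ⟨p, hp⟩ := hact.2 z
    have h4 : p 0 = 0 := by
      have h5 := congrArg (lD ψ₂) hp
      rw [map_sub, hfix, sub_self, L, map_add, map_smul, map_smul, hψw] at h5
      simp only [smul_eq_mul, mul_zero, add_zero] at h5
      rcases mul_eq_zero.1 h5.symm with h6 | h6
      · exact h6
      · exact absurd h6 hψ₂e
    have h5 : (t : Matrix ι ι F) *ᵥ z = z + p 1 • w := by
      have : (t : Matrix ι ι F) *ᵥ z = z + L e w p := by
        rw [← hp]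
        abel
      rw [this, L, h4, zero_smul, zero_add]
    rw [hχ, h5, add_sub_cancel_left, map_smul, h22, smul_eq_mul, mul_one]
  have hχw : χ w = 0 := by
    rw [hχ, htw, sub_self, map_zero]
  have h5 : InM M w χ := by
    refine ⟨hχw, ?_⟩
    have : t = tv χ w hχw := by
      apply gl_ext
      intro z
      rw [tv_mulVec, hθ]
    rwa [← this]
  obtain ⟨ψ, hψ⟩ := rat_of_vec hM hA h3 hw₀ h5
  refine ⟨ψ, ?_, ?_⟩
  · have h6 : lD ψ w = 0 := by rw [← hψ, hχw]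
    rw [hwdef, lD_lV] at h6
    exact Subtype.ext h6
  · rw [← hψ, hχ, hte, add_sub_cancel_left, map_smul, h22, smul_eq_mul, mul_one]

/-- **The main step.** -/
theorem dickson_step [Fintype F] (hM : HasRat M F₀) (hA : ∀ c ∈ A M F₀, c ∈ F₀)
    (hdich : ∀ W : Subfield F, F₀ ≤ W → W = F₀ ∨ W = ⊤) (h7 : 7 ≤ Fintype.card ι) {v : ι → F} {φ : Dual F (ι → F)}
    (h : InM M v φ) (hvf : ∀ ψ : Dual F₀ (ι → F₀), ψ ≠ 0 → lD ψ v ≠ 0) {w₀ : ι → F₀} {ψ₁ : Dual F₀ (ι → F₀)}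
    (hw₀ : w₀ ≠ 0) (hψ₁ : ψ₁ w₀ = 0) (ha : φ (lV w₀) ≠ 0) (hl : φ (lV w₀) * lD ψ₁ v ∉ F₀) : False := by
  classical
  have h3 : 3 ≤ Fintype.card ι := by omega
  set a := φ (lV w₀) with hadef
  set w := lV w₀ with hwdef
  obtain ⟨e, he⟩ : ∃ e, e = a • v := ⟨_, rfl⟩
  have hvfe : ∀ ψ : Dual F₀ (ι → F₀), ψ ≠ 0 → lD ψ e ≠ 0 := by
    intro ψ hψ
    rw [he, map_smul, smul_eq_mul]
    exact mul_ne_zero ha (hvf ψ hψ)
  have hlam : lD ψ₁ e ∉ F₀ := by
    rw [he, map_smul, smul_eq_mul]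
    exact hl
  have hinj : ∀ ψ ψ' : Dual F₀ (ι → F₀), lD ψ e = lD ψ' e → ψ = ψ' := by
    intro ψ ψ' h1
    by_contra hne
    apply hvfe (ψ - ψ') (sub_ne_zero.2 hne)
    rw [lD_sub, LinearMap.sub_apply, h1, sub_self]
  -- the additive group of the `y`'s
  let B : AddSubgroup F :=
    { carrier := {d | ∃ ψ : Dual F₀ (ι → F₀), ψ w₀ = 0 ∧ d = lD ψ e}
      add_mem' := by
        rintro _ _ ⟨ψ, h1, rfl⟩ ⟨ψ', h2, rfl⟩
        exact ⟨ψ + ψ', by simp [h1, h2], by rw [lD_add, LinearMap.add_apply]⟩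
      zero_mem' := ⟨0, by simp, by rw [lD_zero, LinearMap.zero_apply]⟩
      neg_mem' := by
        rintro _ ⟨ψ, h1, rfl⟩
        refine ⟨-ψ, by simp [h1], ?_⟩
        have : -ψ = (0 : Dual F₀ (ι → F₀)) - ψ := by simp
        rw [this, lD_sub, lD_zero, LinearMap.sub_apply, LinearMap.zero_apply, zero_sub] }
  have hB : 60 < Nat.card B := by
    let K : Submodule F₀ (Dual F₀ (ι → F₀)) := LinearMap.ker (LinearMap.applyₗ (R := F₀) (M₂ := F₀) w₀)
    have hKmem : ∀ ψ : Dual F₀ (ι → F₀), ψ ∈ K ↔ ψ w₀ = 0 := fun ψ => by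
      simp [K]
    let f : K → B := fun ψ => ⟨lD ψ.1 e, ψ.1, (hKmem _).1 ψ.2, rfl⟩
    have hf : Function.Injective f := by
      intro ψ ψ' h1
      exact Subtype.ext (hinj _ _ (congrArg Subtype.val h1))
    have h1 : Nat.card K ≤ Nat.card B := Nat.card_le_card_of_injective f hf
    have h2 : Nat.card K = Nat.card F₀ ^ finrank F₀ K := Module.natCard_eq_pow_finrank (K := F₀) (V := K)
    have h4 : 6 ≤ finrank F₀ K := by
      have h5 := LinearMap.finrank_range_add_finrank_ker (LinearMap.applyₗ (R := F₀) (M₂ := F₀) w₀)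
      have h6 : finrank F₀ (LinearMap.range (LinearMap.applyₗ (R := F₀) (M₂ := F₀) w₀)) ≤ 1 := by
        have := Submodule.finrank_le (LinearMap.range (LinearMap.applyₗ (R := F₀) (M₂ := F₀) w₀))
        simpa using this
      rw [Subspace.dual_finrank_eq, finrank_fintype_fun_eq_card] at h5
      have h8 : finrank F₀ K = finrank F₀ (LinearMap.ker (LinearMap.applyₗ (R := F₀) (M₂ := F₀) w₀)) := rfl
      omega
    have h5 : 2 ≤ Nat.card F₀ := Finite.one_lt_card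
    have h6 : 64 ≤ Nat.card K := by
      rw [h2]
      calc 64 = 2 ^ 6 := by norm_num
        _ ≤ Nat.card F₀ ^ 6 := Nat.pow_le_pow_left h5 6
        _ ≤ Nat.card F₀ ^ finrank F₀ K := Nat.pow_le_pow_right (by omega) h4
    omega
  have hgen : ∀ W : Subfield F, (∀ d ∈ B, d ∈ W) → W = ⊤ := by
    intro W hW
    have h1 : lD ψ₁ e ∈ W := hW _ ⟨ψ₁, hψ₁, rfl⟩
    have h2 : lD ψ₁ e ≠ 0 := by
      intro h0
      apply hlam
      rw [h0]
      exact F₀.zero_mem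
    have h4 : F₀ ≤ W := by
      intro c hc
      have h5 : c * lD ψ₁ e ∈ W := by
        apply hW
        refine ⟨(⟨c, hc⟩ : F₀) • ψ₁, by simp [hψ₁], ?_⟩
        rw [lD_smul, LinearMap.smul_apply, smul_eq_mul]
      have h6 : c = c * lD ψ₁ e / lD ψ₁ e := by
        field_simp
      rw [h6]
      exact W.div_mem h5 h1
    rcases hdich W h4 with h5 | h5
    · exfalso
      exact hlam ((SetLike.ext_iff.1 h5 _).1 h1)
    · exact h5
  have hx : ∃ g ∈ M, Act e w g (x (1 : F)) := by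
    obtain ⟨h1, h2⟩ := h
    exact ⟨_, h2, act_tv_x h1 ha he rfl⟩
  have hy : ∀ d ∈ B, ∃ g ∈ M, Act e w g (y d) := by
    rintro _ ⟨ψ, h1, rfl⟩
    obtain ⟨h2, h4⟩ := hM w₀ ψ h1
    exact ⟨_, h4, act_tv_y h2⟩
  have hall := act_all hx B hy (by omega) hgen
  -- the dual basis
  obtain ⟨ψ₂, hψ₂, hψ₂w, -⟩ := exists_ne_vanish h3 w₀ w₀
  have hψ₂e := hvfe ψ₂ hψ₂
  obtain ⟨ψ₃, -, hψ₃⟩ := exists_dual_eq_one (show w₀ ∉ (⊥ : Submodule F₀ (ι → F₀)) by simpa using hw₀)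
  have hψ₂w' : lD ψ₂ w = 0 := by
    rw [hwdef, lD_lV, hψ₂w]
    simp
  have hψ₃w' : lD ψ₃ w = 1 := by
    rw [hwdef, lD_lV, hψ₃]
    simp
  let ε₁ : Dual F (ι → F) := (lD ψ₂ e)⁻¹ • lD ψ₂
  let ε₂ : Dual F (ι → F) := lD ψ₃ - (lD ψ₃ e) • ε₁
  have h11 : ε₁ e = 1 := by
    simp only [ε₁, LinearMap.smul_apply, smul_eq_mul]
    exact inv_mul_cancel₀ hψ₂e
  have h12 : ε₁ w = 0 := by
    simp only [ε₁, LinearMap.smul_apply, smul_eq_mul, hψ₂w', mul_zero]
  have h21 : ε₂ e = 0 := by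
    simp only [ε₂, LinearMap.sub_apply, LinearMap.smul_apply, smul_eq_mul, h11, mul_one, sub_self]
  have h22 : ε₂ w = 1 := by
    simp only [ε₂, LinearMap.sub_apply, LinearMap.smul_apply, smul_eq_mul, h12, mul_zero, sub_zero, hψ₃w']
  have hF : ∃ c : F, c ∉ F₀ := ⟨_, hlam⟩
  obtain ⟨t, ht, htact⟩ := hall (y (lD ψ₃ e))
  obtain ⟨ψ, hψ, hμ⟩ := no_extra hM hA h3 hw₀ hall h11 h12 h21 h22 hF hψ₂w hψ₂e ht htact
  have := hinj _ _ hμ
  rw [this, hψ] at hψ₃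
  exact zero_ne_one hψ₃

/-- **Full rank is impossible.** -/
theorem full_rank_contra [Fintype F] (hM : HasRat M F₀) (hA : ∀ c ∈ A M F₀, c ∈ F₀)
    (hdich : ∀ W : Subfield F, F₀ ≤ W → W = F₀ ∨ W = ⊤) (h7 : 7 ≤ Fintype.card ι) {v : ι → F} {φ : Dual F (ι → F)}
    (h : InM M v φ) (hvf : ∀ ψ : Dual F₀ (ι → F₀), ψ ≠ 0 → lD ψ v ≠ 0)
    (hφf : ∀ w₀ : ι → F₀, w₀ ≠ 0 → φ (lV w₀) ≠ 0) : False := by
  classical
  have h3 : 3 ≤ Fintype.card ι := by omega
  have hsingle : ∀ j : ι, (Pi.single j (1 : F₀) : ι → F₀) ≠ 0 := by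
    intro j h0
    have := congrFun h0 j
    simp at this
  have hproj : ∀ j : ι, (LinearMap.proj j : Dual F₀ (ι → F₀)) ≠ 0 := by
    intro j h0
    have := congrArg (fun ψ : Dual F₀ (ι → F₀) => ψ (Pi.single j 1)) h0
    simp at this
  have hv : ∀ j, v j ≠ 0 := by
    intro j
    have := hvf _ (hproj j)
    rwa [lD_proj] at this
  have hmem : ∀ i j : ι, i ≠ j → φ (lV (Pi.single j (1 : F₀))) * v i ∈ F₀ := by
    intro i j hij
    by_contra hc
    refine dickson_step hM hA hdich h7 h hvf (hsingle j) (ψ₁ := LinearMap.proj i) ?_ (hφf _ (hsingle j)) ?_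
    · simp [hij]
    · rwa [lD_proj]
  obtain ⟨k⟩ : Nonempty ι := Fintype.card_pos_iff.1 (by omega)
  have hratio : ∀ i, v i / v k ∈ F₀ := by
    intro i
    by_cases hik : i = k
    · subst hik
      rw [div_self (hv i)]
      exact F₀.one_mem
    obtain ⟨j, hj1, hj2⟩ : ∃ j, j ≠ i ∧ j ≠ k := by
      by_contra hc
      push Not at hc
      have : (Finset.univ : Finset ι) ⊆ {i, k} := by
        intro j _
        by_cases hj : j = i
        · simp [hj]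
        · simp [hc j hj]
      have h5 := Finset.card_le_card this
      have h6 : ({i, k} : Finset ι).card ≤ 2 := Finset.card_le_two
      rw [Finset.card_univ] at h5
      omega
    have h5 := hmem i j (Ne.symm hj1)
    have h6 := hmem k j (Ne.symm hj2)
    have h8 : v i / v k = (φ (lV (Pi.single j (1 : F₀))) * v i) / (φ (lV (Pi.single j (1 : F₀))) * v k) := by
      have := hφf _ (hsingle j)
      have := hv k
      field_simp
    rw [h8]
    exact F₀.div_mem h5 h6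
  obtain ⟨y₀, hy₀⟩ := exists_lV (fun i => v i / v k) hratio
  have hy₀0 : v = v k • lV y₀ := by
    rw [← hy₀]
    funext i
    have := hv k
    simp only [Pi.smul_apply, smul_eq_mul]
    field_simp
  obtain ⟨ψ, hψ, h1, -⟩ := exists_ne_vanish h3 y₀ y₀
  apply hvf ψ hψ
  rw [hy₀0, map_smul, lD_lV, h1]
  simp

/-- **Every transvection has a rational centre.** -/
theorem line_all [Fintype F] (hM : HasRat M F₀) (hA : ∀ c ∈ A M F₀, c ∈ F₀)
    (hdich : ∀ W : Subfield F, F₀ ≤ W → W = F₀ ∨ W = ⊤) (h7 : 7 ≤ Fintype.card ι) {v : ι → F} {φ : Dual F (ι → F)}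
    (h : InM M v φ) (hv0 : v ≠ 0) (hφ : φ ≠ 0) : ∃ (κ : F) (y₀ : ι → F₀), κ ≠ 0 ∧ v = κ • lV y₀ := by
  have h3 : 3 ≤ Fintype.card ι := by omega
  by_cases h1 : ∃ ψ : Dual F₀ (ι → F₀), ψ ≠ 0 ∧ lD ψ v = 0
  · obtain ⟨ψ, h2, h4⟩ := h1
    exact line_of_cov hM hA h3 hφ h h2 h4
  by_cases h2 : ∃ w₀ : ι → F₀, w₀ ≠ 0 ∧ φ (lV w₀) = 0
  · obtain ⟨w₀, h4, h5⟩ := h2
    exact line_of_vec hM hA h3 hv0 hφ h h4 h5
  push Not at h1 h2
  exact (full_rank_contra hM hA hdich h7 h h1 h2).elim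

end Cfsg.Agent.Lib.Classical.Sub.SLCore
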