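/-
Overgroups of the rational points in an orthogonal group: Eichler elements, the field of coefficients, generation when
the coefficients are everything.
-/
import Mathlib
import Cfsg.Agent.Lib.Classical.Sub.OBase
import Cfsg.Agent.Lib.Classical.Sub.SLCore

set_option autoImplicit false
set_option linter.unusedSectionVars false

namespace Cfsg.Agent.Lib.Classical.Sub.OElts

open scoped Matrix MatrixGroups
open Module Cfsg Cfsg.Geo QuadraticMap
open Cfsg.Agent.Lib.Classical.Orth.Basic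
open Cfsg.Agent.Lib.Classical.Orth.Siegel
open Cfsg.Agent.Lib.Classical.Orth.Simple
open Cfsg.Agent.Lib.Classical.Geo.Basic
open Cfsg.Agent.Lib.Classical.Geo.OPts
open Cfsg.Agent.Lib.Classical.Geo.OPair
open Cfsg.Agent.Lib.Classical.Sub.Rat
open Cfsg.Agent.Lib.Classical.Sub.OBase
open Cfsg.Agent.Lib.Classical.Geo.UPair (finrank_span_pair_le not_mem_singleton_symm not_mem_pair)

variable {ι : Type} [Fintype ι] [DecidableEq ι] {F : Type*} [Field F] [Fintype F]
  {Q : QuadraticForm F (ι → F)} {F₀ : Subfield F}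

set_option quotPrecheck false in
local notation "𝔣" => polar (⇑Q)

/-- `E(z, w) ∈ M`. -/
def InY (Q : QuadraticForm F (ι → F)) (M : Subgroup (GL ι F)) (z w : ι → F) : Prop :=
  ∃ (hz : Q z = 0) (h : polar (⇑Q) z w = 0), eG hz h ∈ M

variable {M : Subgroup (GL ι F)}

theorem pc {a b : ι → F} (h : 𝔣 a b = 0) : 𝔣 b a = 0 := by
  rw [polar_comm]
  exact h

theorem InY.congr {z z' w w' : ι → F} (h : InY Q M z w) (hz : z = z') (hw : w = w') : InY Q M z' w' := by
  subst hz hw
  exact h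

theorem InY.add {z y₁ y₂ : ι → F} (h₁ : InY Q M z y₁) (h₂ : InY Q M z y₂) : InY Q M z (y₁ + y₂) := by
  obtain ⟨hz, h1, m1⟩ := h₁
  obtain ⟨_, h2, m2⟩ := h₂
  refine ⟨hz, by rw [polar_add_right, h1, h2, add_zero], ?_⟩
  have e := eichlerIso_mul hz h1 h2
  rw [eG, ← e]
  exact M.mul_mem m1 m2

theorem InY.neg {z y : ι → F} (h : InY Q M z y) : InY Q M z (-y) := by
  obtain ⟨hz, h1, m1⟩ := h
  refine ⟨hz, by rw [polar_neg_right, h1, neg_zero], ?_⟩
  have e := eichlerIso_inv hz h1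
  rw [eG, ← e]
  exact M.inv_mem m1

theorem InY.sub {z y₁ y₂ : ι → F} (h₁ : InY Q M z y₁) (h₂ : InY Q M z y₂) : InY Q M z (y₁ - y₂) := by
  rw [sub_eq_add_neg]
  exact h₁.add h₂.neg

theorem InY.zero {z : ι → F} (hz : Q z = 0) : InY Q M z 0 := by
  have h : 𝔣 z 0 = 0 := by simp [polar]
  refine ⟨hz, h, ?_⟩
  rw [eG, eichlerIso_zero_right hz h]
  exact M.one_mem

theorem InY.zero_left (h : Q (0 : ι → F) = 0) (w : ι → F) : InY Q M 0 w := by
  have h0 : 𝔣 0 w = 0 := by simp [polar]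
  refine ⟨h, h0, ?_⟩
  rw [eG, eichlerIso_zero_left h h0]
  exact M.one_mem

theorem InY.conj {z w : ι → F} (h : InY Q M z w) (g : ↥(Cfsg.isometryGroup F (⇑Q))) (hg : (g : GL ι F) ∈ M) :
    InY Q M (act g z) (act g w) := by
  obtain ⟨hz, h1, m1⟩ := h
  have e := conj_eichlerIso g hz h1
  refine ⟨by rwa [Q_act], by rwa [polar_act], ?_⟩
  rw [eG, ← e]
  exact M.mul_mem (M.mul_mem hg m1) (M.inv_mem hg)

/-- The difference. -/
theorem InY.step {z w : ι → F} (h : InY Q M z w) (g : ↥(Cfsg.isometryGroup F (⇑Q))) (hg : (g : GL ι F) ∈ M)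
    (hgz : act g z = z) : InY Q M z (act g w - w) := by
  have h1 := h.conj g hg
  rw [hgz] at h1
  exact h1.sub h

/-- Scalars move across. -/
theorem InY.move {z w : ι → F} {t : F} (hz : Q z = 0) (h : InY Q M (t • z) w) : InY Q M z (t • w) := by
  obtain ⟨h1, h2, m⟩ := h
  have h3 : 𝔣 z (t • w) = 0 := by
    rw [polar_smul_left'] at h2
    rw [polar_smul_right', h2]
  refine ⟨hz, h3, ?_⟩
  rw [eG, ← eichlerIso_smul t hz h2 h1 h3]
  exact m

theorem InY.move' {z w : ι → F} {t : F} (hz : Q z = 0) (h : InY Q M z (t • w)) : InY Q M (t • z) w := by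
  obtain ⟨h1, h2, m⟩ := h
  have h3 : 𝔣 (t • z) w = 0 := by
    rw [polar_smul_right'] at h2
    rw [polar_smul_left', h2]
  have h4 : Q (t • z) = 0 := by rw [Q_smul, hz, mul_zero]
  refine ⟨h4, h3, ?_⟩
  rw [eG, eichlerIso_smul t hz h3 h4 h2]
  exact m

/-- The swap. -/
theorem InY.swap {z w : ι → F} (hw : Q w = 0) (h : InY Q M z w) : InY Q M w z := by
  obtain ⟨hz, h1, m⟩ := h
  have h2 : 𝔣 w (-z) = 0 := by rw [polar_neg_right, pc h1, neg_zero]
  have h3 : InY Q M w (-z) := by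
    refine ⟨hw, h2, ?_⟩
    rw [eG, ← eichler_swap hz hw h1 h2]
    exact m
  have h4 := h3.neg
  rwa [neg_neg] at h4

/-- The rational Eichler elements lie in `M`. -/
def HasRatO (Q : QuadraticForm F (ι → F)) (M : Subgroup (GL ι F)) (F₀ : Subfield F) : Prop :=
  ∀ a b : ι → F₀, Q (lV a) = 0 → polar (⇑Q) (lV a) (lV b) = 0 → InY Q M (lV a) (lV b)

section Rat

variable (hQ : (polarBilin Q).Nondegenerate) (hR : RatQ Q F₀) (hM : HasRatO Q M F₀)

/-- The coefficients of the rational root elements on a pair. -/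
def KS (Q : QuadraticForm F (ι → F)) (M : Subgroup (GL ι F)) (a b : ι → F₀) : Set F :=
  {κ | InY Q M (κ • lV a) (lV b)}

theorem Q_scale {x : ι → F} (h : Q x = 0) (t : F) : Q (t • x) = 0 := by
  rw [Q_smul, h, mul_zero]

theorem f_scale_left {x y : ι → F} (h : 𝔣 x y = 0) (t : F) : 𝔣 (t • x) y = 0 := by
  rw [polar_smul_left', h, mul_zero]

theorem f_scale_right {x y : ι → F} (h : 𝔣 x y = 0) (t : F) : 𝔣 x (t • y) = 0 := by
  rw [polar_smul_right', h, mul_zero]

/-- The basic step. -/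
theorem KS_step {a b c d : ι → F₀} {κ κ' : F} (hcc : Q (lV c) = 0) (hdd : Q (lV d) = 0)
    (hac : 𝔣 (lV a) (lV c) = 0) (had : 𝔣 (lV a) (lV d) = 0) (hbc : 𝔣 (lV b) (lV c) = 0)
    (hbd : 𝔣 (lV b) (lV d) = 1) (h : κ ∈ KS Q M a b) (h' : κ' ∈ KS Q M c d) :
    InY Q M (κ • lV a) (κ' • lV c) := by
  obtain ⟨h0, h1, hg⟩ := id h'
  have e1 : act (eichlerIso h0 h1) (κ • lV a) = κ • lV a := by
    rw [act_eichlerIso]
    simp only [polar_smul_left', polar_smul_right', pc hac, pc had, hdd]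
    simp
  have e2 : act (eichlerIso h0 h1) (lV b) - lV b = -(κ' • lV c) := by
    rw [act_eichlerIso]
    simp only [polar_smul_left', polar_smul_right', pc hbc, hdd, polar_comm (⇑Q) (lV d) (lV b), hbd]
    simp
  have h3 := InY.step h (eichlerIso h0 h1) hg e1
  rw [e2] at h3
  have h4 := h3.neg
  rwa [neg_neg] at h4

include hM in
/-- Rational scalars. -/
theorem coe_mem_KS {a b : ι → F₀} (haa : Q (lV a) = 0) (hab : 𝔣 (lV a) (lV b) = 0) (d : F₀) :
    (d : F) ∈ KS Q M a b := by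
  have h := hM (d • a) b (by rw [lV_smul]; exact Q_scale haa _) (by rw [lV_smul]; exact f_scale_left hab _)
  rwa [lV_smul] at h

theorem orth_span_pair {a c : ι → F₀} {x : ι → F} (h₁ : 𝔣 (lV a) x = 0) (h₂ : 𝔣 (lV c) x = 0) {s : ι → F₀}
    (hs : s ∈ Submodule.span F₀ {a, c}) : 𝔣 (lV s) x = 0 := by
  obtain ⟨α, β, rfl⟩ := Submodule.mem_span_pair.1 hs
  rw [lV_add, lV_smul, lV_smul, polar_add_left, polar_smul_left', polar_smul_left', h₁, h₂]
  ring

include hQ hR hM

/-- Change of the second vector. -/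
theorem KS_link {a b c : ι → F₀} {κ : F} (hbb : Q (lV b) = 0)
    (hcc : Q (lV c) = 0) (hab : 𝔣 (lV a) (lV b) = 0) (hac : 𝔣 (lV a) (lV c) = 0) (hbc : 𝔣 (lV b) (lV c) = 0)
    (hb : b ∉ Submodule.span F₀ {a, c}) (h : κ ∈ KS Q M a b) : κ ∈ KS Q M a c := by
  obtain ⟨d, hdd, h1, h2⟩ := exists_partner_rat hQ hR hb hbb
    (fun s hs => orth_span_pair hab (pc hbc) hs)
  have had := h2 a (Submodule.subset_span (by simp))
  have hcd := h2 c (Submodule.subset_span (by simp))
  have h3 := KS_step (κ' := 1) hcc hdd hac had hbc h1 h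
    (by simpa using coe_mem_KS hM (a := c) (b := d) hcc hcd (1 : F₀))
  exact h3.congr rfl (one_smul _ _)

omit hQ hR hM in
/-- The swap. -/
theorem KS_swap {a b : ι → F₀} {κ : F} (haa : Q (lV a) = 0) (hbb : Q (lV b) = 0)
    (h : κ ∈ KS Q M a b) : κ ∈ KS Q M b a := by
  have h1 : InY Q M (lV b) (κ • lV a) := InY.swap hbb h
  exact InY.move' hbb h1

/-- Change of the first vector. -/
theorem KS_link' {a b c : ι → F₀} {κ : F} (haa : Q (lV a) = 0) (hbb : Q (lV b) = 0)
    (hcc : Q (lV c) = 0) (hab : 𝔣 (lV a) (lV b) = 0) (hac : 𝔣 (lV a) (lV c) = 0) (hbc : 𝔣 (lV b) (lV c) = 0)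
    (ha : a ∉ Submodule.span F₀ {b, c}) (h : κ ∈ KS Q M a b) : κ ∈ KS Q M c b := by
  have h1 := KS_swap haa hbb h
  have h2 := KS_link hQ hR hM haa hcc (pc hab) hbc hac ha h1
  exact KS_swap hbb hcc h2

/-- All rational pairs have the same coefficients. -/
theorem KS_transit (hn : 11 ≤ Fintype.card ι) {a b a' b' : ι → F₀} {κ : F} (haa : Q (lV a) = 0)
    (hbb : Q (lV b) = 0) (hab : 𝔣 (lV a) (lV b) = 0) (ha0 : a ≠ 0) (hba : b ∉ Submodule.span F₀ {a})
    (ha'a' : Q (lV a') = 0) (hb'b' : Q (lV b') = 0) (ha'b' : 𝔣 (lV a') (lV b') = 0)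
    (h : κ ∈ KS Q M a b) : κ ∈ KS Q M a' b' := by
  classical
  have hS₁ : finrank F₀ (Submodule.span F₀ (Set.range ![a, b, a', b'])) ≤ 4 := by
    have := finrank_range_le_card (R := F₀) ![a, b, a', b']
    simpa [Set.finrank] using this
  obtain ⟨c, hcS, hcc, hc, -⟩ := exists_iso_perp hR (r := finrank F₀ F) rfl ![a, b, a', b']
    (Fin.elim0 : Fin 0 → ι → F) (Submodule.span F₀ (Set.range ![a, b, a', b'])) (by simp; omega)
  have hca : 𝔣 (lV c) (lV a) = 0 := hc 0
  have hcb : 𝔣 (lV c) (lV b) = 0 := hc 1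
  have hca' : 𝔣 (lV c) (lV a') = 0 := hc 2
  have hcb' : 𝔣 (lV c) (lV b') = 0 := hc 3
  have hmem : ∀ x ∈ ({a, b, a', b'} : Set (ι → F₀)), x ∈ Submodule.span F₀ (Set.range ![a, b, a', b']) := by
    rintro x (rfl | rfl | rfl | rfl)
    · exact Submodule.subset_span ⟨0, rfl⟩
    · exact Submodule.subset_span ⟨1, rfl⟩
    · exact Submodule.subset_span ⟨2, rfl⟩
    · exact Submodule.subset_span ⟨3, rfl⟩
  have hc1 : c ∉ Submodule.span F₀ {a, b} := fun hm => hcS
    ((Submodule.span_le.2 fun x hx => hmem x (by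
      rcases hx with rfl | rfl
      · simp
      · simp)) hm)
  have hc2 : c ∉ Submodule.span F₀ {a', b'} := fun hm => hcS
    ((Submodule.span_le.2 fun x hx => hmem x (by
      rcases hx with rfl | rfl
      · simp
      · simp)) hm)
  have hc3 : c ∉ Submodule.span F₀ {a} := fun hm => hc1 (Submodule.span_mono (by simp) hm)
  have hS₂ : finrank F₀ (Submodule.span F₀ (Set.range ![a, c, a'])) ≤ 3 := by
    have := finrank_range_le_card (R := F₀) ![a, c, a']
    simpa [Set.finrank] using this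
  obtain ⟨e, heS, hee, he, -⟩ := exists_iso_perp hR (r := finrank F₀ F) rfl ![a, c, a']
    (Fin.elim0 : Fin 0 → ι → F) (Submodule.span F₀ (Set.range ![a, c, a'])) (by simp; omega)
  have hea : 𝔣 (lV e) (lV a) = 0 := he 0
  have hec : 𝔣 (lV e) (lV c) = 0 := he 1
  have hea' : 𝔣 (lV e) (lV a') = 0 := he 2
  have he1 : e ∉ Submodule.span F₀ {c, a} := fun hm => heS
    ((Submodule.span_le.2 fun x hx => by
      rcases hx with rfl | rfl
      · exact Submodule.subset_span ⟨1, rfl⟩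
      · exact Submodule.subset_span ⟨0, rfl⟩) hm)
  have he2 : e ∉ Submodule.span F₀ {c, a'} := fun hm => heS
    ((Submodule.span_le.2 fun x hx => by
      rcases hx with rfl | rfl
      · exact Submodule.subset_span ⟨1, rfl⟩
      · exact Submodule.subset_span ⟨2, rfl⟩) hm)
  have hac : a ∉ Submodule.span F₀ {c} := not_mem_singleton_symm ha0 hc3
  have h1 : κ ∈ KS Q M a c := KS_link hQ hR hM hbb hcc hab (pc hca) (pc hcb)
    (not_mem_pair hba hc1) h
  have h2 : κ ∈ KS Q M e c := KS_link' hQ hR hM haa hcc hee (pc hca) (pc hea)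
    (pc hec) (not_mem_pair hac he1) h1
  have h3 : κ ∈ KS Q M a' c := KS_link' hQ hR hM hee hcc ha'a' hec hea' hca' he2 h2
  exact KS_link hQ hR hM hcc hb'b' (pc hca') ha'b' hcb' hc2 h3

omit hQ hR hM in
/-- The coefficients of all rational root elements. -/
def AsO (Q : QuadraticForm F (ι → F)) (M : Subgroup (GL ι F)) (F₀ : Subfield F) : Set F :=
  {κ | ∀ a b : ι → F₀, Q (lV a) = 0 → Q (lV b) = 0 → polar (⇑Q) (lV a) (lV b) = 0 → κ ∈ KS Q M a b}

theorem mem_AsO_of_pair (hn : 11 ≤ Fintype.card ι) {a b : ι → F₀} {κ : F} (haa : Q (lV a) = 0)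
    (hbb : Q (lV b) = 0) (hab : 𝔣 (lV a) (lV b) = 0) (ha0 : a ≠ 0) (hba : b ∉ Submodule.span F₀ {a})
    (h : κ ∈ KS Q M a b) : κ ∈ AsO Q M F₀ :=
  fun _ _ ha'a' hb'b' ha'b' => KS_transit hQ hR hM hn haa hbb hab ha0 hba ha'a' hb'b' ha'b' h

omit hQ hR hM in
theorem coe_mem_AsO (hM : HasRatO Q M F₀) (d : F₀) : (d : F) ∈ AsO Q M F₀ :=
  fun _ _ haa _ hab => coe_mem_KS hM haa hab d

omit hQ hR hM in
theorem add_mem_AsO {κ κ' : F} (h : κ ∈ AsO Q M F₀) (h' : κ' ∈ AsO Q M F₀) : κ + κ' ∈ AsO Q M F₀ := by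
  intro a b haa hbb hab
  have h1 := InY.swap hbb (h a b haa hbb hab)
  have h2 := InY.swap hbb (h' a b haa hbb hab)
  have h3 := (h1.add h2).swap (?_ : Q (κ • lV a + κ' • lV a) = 0)
  · show InY Q M ((κ + κ') • lV a) (lV b)
    rwa [add_smul]
  · rw [← add_smul]
    exact Q_scale haa _

omit hQ hR hM in
theorem neg_mem_AsO {κ : F} (h : κ ∈ AsO Q M F₀) : -κ ∈ AsO Q M F₀ := by
  intro a b haa hbb hab
  have h1 := InY.swap hbb (h a b haa hbb hab)
  have h3 := h1.neg.swap (?_ : Q (-(κ • lV a)) = 0)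
  · show InY Q M ((-κ) • lV a) (lV b)
    rwa [neg_smul]
  · rw [QuadraticMap.map_neg]
    exact Q_scale haa _

/-- The products. -/
theorem mul_mem_AsO (hn : 11 ≤ Fintype.card ι) {κ κ' : F} (h : κ ∈ AsO Q M F₀) (h' : κ' ∈ AsO Q M F₀) :
    κ' * κ ∈ AsO Q M F₀ := by
  obtain ⟨a, haS, haa, -, -⟩ := exists_iso_perp hR (r := finrank F₀ F) rfl (Fin.elim0 : Fin 0 → ι → F₀)
    (Fin.elim0 : Fin 0 → ι → F) ⊥ (by simp; omega)
  have ha0 : a ≠ 0 := by simpa using haS
  have hS1 : finrank F₀ (Submodule.span F₀ {a}) ≤ 1 := le_of_eq (finrank_span_singleton ha0)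
  obtain ⟨b, hbS, hbb, hb, -⟩ := exists_iso_perp hR (r := finrank F₀ F) rfl ![a]
    (Fin.elim0 : Fin 0 → ι → F) (Submodule.span F₀ {a}) (by simp; omega)
  have hba : 𝔣 (lV b) (lV a) = 0 := hb 0
  have hS2 : finrank F₀ (Submodule.span F₀ {a, b}) ≤ 2 := finrank_span_pair_le a b
  obtain ⟨c, hcS, hcc, hc, -⟩ := exists_iso_perp hR (r := finrank F₀ F) rfl ![a, b]
    (Fin.elim0 : Fin 0 → ι → F) (Submodule.span F₀ {a, b}) (by simp; omega)
  have hca : 𝔣 (lV c) (lV a) = 0 := hc 0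
  have hcb : 𝔣 (lV c) (lV b) = 0 := hc 1
  have hb2 : b ∉ Submodule.span F₀ {a, c} := not_mem_pair hbS hcS
  obtain ⟨d, hdd, h1, h2⟩ := exists_partner_rat hQ hR hb2 hbb
    (fun s hs => orth_span_pair (pc hba) hcb hs)
  have had := h2 a (Submodule.subset_span (by simp))
  have hcd := h2 c (Submodule.subset_span (by simp))
  have h3 := KS_step (a := a) (b := b) (c := c) (d := d) (κ := κ) (κ' := κ') hcc hdd
    (pc hca) had (pc hcb) h1 (h a b haa hbb (pc hba)) (h' c d hcc hdd hcd)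
  have h4 := InY.move' (Q_scale haa κ) h3
  have h5 : κ' * κ ∈ KS Q M a c := by
    show InY Q M ((κ' * κ) • lV a) (lV c)
    rwa [mul_smul]
  have hca' : c ∉ Submodule.span F₀ {a} := fun hm => hcS (Submodule.span_mono (by simp) hm)
  exact mem_AsO_of_pair hQ hR hM hn haa hcc (pc hca) ha0 hca' h5

/-- The field of coefficients. -/
noncomputable def subK (hn : 11 ≤ Fintype.card ι) : Subfield F where
  carrier := AsO Q M F₀
  mul_mem' := fun h h' => mul_mem_AsO hQ hR hM hn h' h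
  one_mem' := by
    have := coe_mem_AsO hM (1 : F₀)
    simpa using this
  add_mem' := add_mem_AsO
  zero_mem' := by
    have := coe_mem_AsO hM (0 : F₀)
    simpa using this
  neg_mem' := neg_mem_AsO
  inv_mem' := by
    intro c hc
    have h1' : (1 : F) ∈ AsO Q M F₀ := by
      have := coe_mem_AsO hM (1 : F₀)
      simpa using this
    by_cases hc0 : c = 0
    · subst hc0
      rw [inv_zero]
      have := coe_mem_AsO hM (0 : F₀)
      simpa using this
    have hpow : ∀ n : ℕ, c ^ n ∈ AsO Q M F₀ := by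
      intro n
      induction n with
      | zero =>
        rw [pow_zero]
        exact h1'
      | succ n ih =>
        rw [pow_succ]
        exact mul_mem_AsO hQ hR hM hn hc ih
    have h1 : c⁻¹ = c ^ (Fintype.card F - 2) := by
      have h2 := FiniteField.pow_card_sub_one_eq_one c hc0
      have h3 : 2 ≤ Fintype.card F := Fintype.one_lt_card
      have h4 : Fintype.card F - 1 = (Fintype.card F - 2) + 1 := by omega
      rw [h4, pow_succ] at h2
      exact (eq_inv_of_mul_eq_one_left h2).symm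
    rw [h1]
    exact hpow _

omit hM in
/-- The orthogonal of a rational vector is spanned by rational singular vectors. -/
theorem span_perp (hn : 5 ≤ Fintype.card ι) {p : ι → F₀} (hp0 : p ≠ 0) {y : ι → F} (hy : 𝔣 y (lV p) = 0) :
    y ∈ Submodule.span F (lV '' {x : ι → F₀ | x ∈ LinearMap.ker (cov hR p) ∧ Q (lV x) = 0}) := by
  classical
  set W := LinearMap.ker (cov hR p) with hW
  have hmemW : ∀ x : ι → F₀, 𝔣 (lV x) (lV p) = 0 → x ∈ W := by
    intro x hx
    rw [hW, LinearMap.mem_ker]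
    exact Subtype.ext hx
  obtain ⟨e, h', hee, hhh, h1, he, hh⟩ := exists_hyp_rat hQ hR ![p] (by simpa using hn)
  have heW : e ∈ W := hmemW _ (he 0)
  have hhW : h' ∈ W := hmemW _ (hh 0)
  -- a rational vector not orthogonal to `p`
  obtain ⟨u₀, hu₀⟩ : ∃ u₀ : ι → F₀, cov hR p u₀ ≠ 0 := by
    by_contra hcon
    push Not at hcon
    apply lV_ne_zero hp0
    apply eq_zero_of_rat hQ (F₀ := F₀)
    intro x
    exact congrArg (fun c : F₀ => (c : F)) (hcon x)
  set u := (cov hR p u₀)⁻¹ • u₀ with hu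
  have hcu : cov hR p u = 1 := by
    rw [hu, map_smul, smul_eq_mul, inv_mul_cancel₀ hu₀]
  set d : ι → F₀ := fun i => cov hR p (Pi.single i 1) with hd
  have hmem : ∀ i, (Pi.single i 1 : ι → F₀) - d i • u ∈ W := by
    intro i
    rw [hW, LinearMap.mem_ker, map_sub, map_smul, hcu, smul_eq_mul, mul_one]
    exact sub_self _
  have hext : y = ∑ i, y i • lV (Pi.single i (1 : F₀)) := by
    funext j
    simp only [Finset.sum_apply, Pi.smul_apply, lV_single, Pi.single_apply, smul_eq_mul, mul_ite, mul_one, mul_zero,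
      Finset.sum_ite_eq, Finset.mem_univ, if_true]
  have hsum : ∑ i, y i * (d i : F) = 0 := by
    have h2 : ∑ i, y i * (d i : F) = 𝔣 y (lV p) := by
      conv_rhs => rw [hext]
      have h3 := map_sum (fL Q (lV p)) (fun i => y i • lV (Pi.single i (1 : F₀))) Finset.univ
      simp only [fL_apply] at h3
      rw [h3]
      apply Finset.sum_congr rfl
      intro i _
      rw [polar_smul_left']
      rfl
    rw [h2, hy]
  have hy' : y = ∑ i, y i • lV ((Pi.single i 1 : ι → F₀) - d i • u) := by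
    have h2 : ∑ i, y i • lV ((Pi.single i 1 : ι → F₀) - d i • u) =
        ∑ i, y i • lV (Pi.single i (1 : F₀)) - (∑ i, y i * (d i : F)) • lV u := by
      rw [Finset.sum_smul, ← Finset.sum_sub_distrib]
      apply Finset.sum_congr rfl
      intro i _
      rw [lV_sub, lV_smul]
      module
    rw [h2, hsum, zero_smul, sub_zero, ← hext]
  rw [hy']
  refine Submodule.sum_mem _ fun i _ => Submodule.smul_mem _ _ ?_
  exact lV_mem_span (mem_span_cone hR heW hhW (hmem i) hee hhh h1)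

/-- Generation: the Eichler elements on a rational singular vector. -/
theorem rat_mem_pts (hn : 5 ≤ Fintype.card ι) (hAll : ∀ κ : F, κ ∈ AsO Q M F₀) {p : ι → F₀} (hp0 : p ≠ 0)
    (hpp : Q (lV p) = 0) : lV p ∈ pts (Q := Q) M := by
  have hmain : ∀ y' ∈ Submodule.span F (lV '' {x : ι → F₀ | x ∈ LinearMap.ker (cov hR p) ∧ Q (lV x) = 0}),
      ∀ t : F, InY Q M (lV p) (t • y') := by
    intro y' hy'
    induction hy' using Submodule.span_induction with
    | mem x hx =>
      obtain ⟨b, ⟨hb, hbb⟩, rfl⟩ := hx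
      have hbp : 𝔣 (lV b) (lV p) = 0 := congrArg (fun c : F₀ => (c : F)) (show cov hR p b = 0 from hb)
      intro t
      exact (hAll t b p hbb hpp hbp : InY Q M (t • lV b) (lV p)).swap hpp
    | zero =>
      intro t
      rw [smul_zero]
      exact InY.zero hpp
    | add a b _ _ h1 h2 =>
      intro t
      rw [smul_add]
      exact (h1 t).add (h2 t)
    | smul c a _ h1 =>
      intro t
      rw [smul_smul]
      exact h1 _
  refine ⟨hpp, fun b hb => ?_⟩
  have h2 := hmain b (span_perp hQ hR hn hp0 (pc hb)) 1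
  rw [one_smul] at h2
  obtain ⟨_, _, h3⟩ := h2
  exact h3

/-- **Generation**: everything. -/
theorem omega_le_of_top (hn : 5 ≤ Fintype.card ι) (hAll : ∀ κ : F, κ ∈ AsO Q M F₀) : omegaGL (⇑Q) ≤ M := by
  apply omegaGL_le hQ hn
  intro y hy
  obtain ⟨e, h', hee, hhh, h1, -, -⟩ := exists_hyp_rat hQ hR (Fin.elim0 : Fin 0 → ι → F₀) (by simp; omega)
  have he0 : e ≠ 0 := by
    rintro rfl
    rw [lV_zero] at h1
    simp [polar] at h1
  have hh0 : h' ≠ 0 := by
    rintro rfl
    rw [lV_zero] at h1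
    simp [polar] at h1
  exact pts_all hQ (rat_mem_pts hQ hR hM hn hAll he0 hee) (rat_mem_pts hQ hR hM hn hAll hh0 hhh)
    (by rw [h1]; exact one_ne_zero) hy

end Rat

end Cfsg.Agent.Lib.Classical.Sub.OElts
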