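/-
Overgroups of the rational points in an orthogonal group, when the coefficients are rational: an Eichler element
`E(a, b)` of `M` with `a, b` singular, orthogonal to a rational singular vector, has a rational plane.
-/
import Mathlib
import Cfsg.Agent.Lib.Classical.Sub.OElts

set_option autoImplicit false
set_option linter.unusedSectionVars false

namespace Cfsg.Agent.Lib.Classical.Sub.OLow

open scoped Matrix MatrixGroups
open Module Cfsg Cfsg.Geo QuadraticMap
open Cfsg.Agent.Lib.Classical.Orth.Basic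
open Cfsg.Agent.Lib.Classical.Orth.Siegel
open Cfsg.Agent.Lib.Classical.Orth.Simple
open Cfsg.Agent.Lib.Classical.Geo.OPts
open Cfsg.Agent.Lib.Classical.Geo.OPair
open Cfsg.Agent.Lib.Classical.Sub.Rat
open Cfsg.Agent.Lib.Classical.Sub.OBase
open Cfsg.Agent.Lib.Classical.Sub.OElts
open Cfsg.Agent.Lib.Classical.Geo.UPair (not_mem_singleton_symm not_mem_pair)

variable {ι : Type} [Fintype ι] [DecidableEq ι] {F : Type*} [Field F] [Fintype F]
  {Q : QuadraticForm F (ι → F)} {F₀ : Subfield F}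

set_option quotPrecheck false in
local notation "𝔣" => polar (⇑Q)

variable {M : Subgroup (GL ι F)}

theorem InY.self {a : ι → F} (ha : Q a = 0) (t : F) : InY Q M a (t • a) := by
  have h : 𝔣 a (t • a) = 0 := f_scale_right (polar_zero_of_singular ha) t
  refine ⟨ha, h, ?_⟩
  have e : eichlerIso ha h = 1 := by
    apply ext_act
    intro x
    rw [act_eichlerIso, act_one, Q_smul, ha, polar_smul_left', polar_comm (⇑Q) a x]
    module
  rw [eG, e]
  exact M.one_mem

section Low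

variable (hQ : (polarBilin Q).Nondegenerate) (hR : RatQ Q F₀)

include hQ hR

/-- Induction on the rational vectors orthogonal to a rational vector. -/
theorem perp_induction (hn : 5 ≤ Fintype.card ι) {z : ι → F₀} {P : (ι → F₀) → Prop} (h0 : P 0)
    (hadd : ∀ x y, P x → P y → P (x + y)) (hsmul : ∀ (c : F₀) x, P x → P (c • x))
    (hs : ∀ y, Q (lV y) = 0 → 𝔣 (lV y) (lV z) = 0 → P y) {x : ι → F₀} (hx : 𝔣 (lV x) (lV z) = 0) : P x := by
  classical
  set W := LinearMap.ker (cov hR z) with hW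
  have hmemW : ∀ x : ι → F₀, 𝔣 (lV x) (lV z) = 0 → x ∈ W := by
    intro x hx
    rw [hW, LinearMap.mem_ker]
    exact Subtype.ext hx
  obtain ⟨e, h', hee, hhh, h1, he, hh⟩ := exists_hyp_rat hQ hR ![z] (by simpa using hn)
  have hx' := mem_span_cone hR (hmemW _ (he 0)) (hmemW _ (hh 0)) (hmemW x hx) hee hhh h1
  clear hx
  induction hx' using Submodule.span_induction with
  | mem y hy =>
    have h2 : cov hR z y = 0 := hy.1
    exact hs y hy.2 (congrArg (fun c : F₀ => (c : F)) h2)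
  | zero => exact h0
  | add y y' _ _ h1 h2 => exact hadd _ _ h1 h2
  | smul d y _ h1 => exact hsmul _ _ h1

/-- Induction on the rational vectors. -/
theorem all_induction (hn : 3 ≤ Fintype.card ι) {P : (ι → F₀) → Prop} (h0 : P 0)
    (hadd : ∀ x y, P x → P y → P (x + y)) (hsmul : ∀ (c : F₀) x, P x → P (c • x))
    (hs : ∀ y, Q (lV y) = 0 → P y) (x : ι → F₀) : P x := by
  have hx' := all_span_cone hQ hR hn x
  induction hx' using Submodule.span_induction with
  | mem y hy => exact hs y hy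
  | zero => exact h0
  | add y y' _ _ h1 h2 => exact hadd _ _ h1 h2
  | smul d y _ h1 => exact hsmul _ _ h1

/-- The projection to the orthogonal of a rational singular vector. -/
theorem exists_proj {z : ι → F₀} (hzz : Q (lV z) = 0) (hz0 : z ≠ 0) :
    ∃ u₀ : ι → F₀, Q (lV u₀) = 0 ∧ 𝔣 (lV u₀) (lV z) = 1 ∧
      ∀ x : ι → F₀, 𝔣 (lV (x - rv hR x z • u₀)) (lV z) = 0 := by
  obtain ⟨u₀, hu₀u₀, hu₀z, -⟩ := exists_partner_rat hQ hR (x := z) (S := ⊥) (by simpa using hz0) hzz (by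
    intro s hs
    rw [Submodule.mem_bot] at hs
    rw [hs, lV_zero]
    simp [polar])
  have h1 : 𝔣 (lV u₀) (lV z) = 1 := by
    rw [polar_comm]
    exact hu₀z
  refine ⟨u₀, hu₀u₀, h1, fun x => ?_⟩
  rw [lV_sub, lV_smul, polar_sub_left, polar_smul_left', h1, rv_coe]
  ring

/-- A functional rational on the rational singular vectors of `z^⊥` comes from a rational vector, modulo `z`. -/
theorem riesz_perp (hn : 5 ≤ Fintype.card ι) {z : ι → F₀} (hzz : Q (lV z) = 0) (hz0 : z ≠ 0) {v : ι → F}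
    (h : ∀ y : ι → F₀, Q (lV y) = 0 → 𝔣 (lV y) (lV z) = 0 → 𝔣 (lV y) v ∈ F₀) : ∃ (u : ι → F₀) (s : F), v = lV u + s • lV z := by
  obtain ⟨u₀, -, hu₀z, hproj⟩ := exists_proj hQ hR hzz hz0
  have hall : ∀ x : ι → F₀, 𝔣 (lV x) (lV z) = 0 → 𝔣 (lV x) v ∈ F₀ := by
    intro x hx
    refine perp_induction hQ hR hn (P := fun x => 𝔣 (lV x) v ∈ F₀) ?_ ?_ ?_ h hx
    · rw [lV_zero]
      simp [polar, F₀.zero_mem]
    · intro a b h1 h2
      rw [lV_add, polar_add_left]
      exact F₀.add_mem h1 h2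
    · intro c a h1
      rw [lV_smul, polar_smul_left']
      exact F₀.mul_mem c.2 h1
  set s := 𝔣 (lV u₀) v with hs
  have hΦ : ∀ x : ι → F₀, (fL Q v - s • fL Q (lV z)) (lV x) = 𝔣 (lV (x - rv hR x z • u₀)) v := by
    intro x
    rw [lV_sub, lV_smul, polar_sub_left, polar_smul_left', rv_coe, ← hs]
    simp only [LinearMap.sub_apply, LinearMap.smul_apply, fL_apply, smul_eq_mul]
    ring
  obtain ⟨ψ, hψ⟩ := exists_lD (fL Q v - s • fL Q (lV z)) (fun x => by
    rw [hΦ]
    exact hall _ (hproj x))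
  obtain ⟨u, hu⟩ := riesz hQ hR ψ
  refine ⟨u, s, ?_⟩
  have h1 : lV u = v - s • lV z := by
    apply eq_of_rat hQ (F₀ := F₀)
    intro x
    rw [hu, polar_sub_right, polar_smul_right', ← lD_lV, ← hψ]
    simp only [LinearMap.sub_apply, LinearMap.smul_apply, fL_apply, smul_eq_mul]
  rw [h1]
  abel

/-- A vector orthogonal to the rational singular vectors of `z^⊥` is a multiple of `z`. -/
theorem perp_eq (hn : 5 ≤ Fintype.card ι) {z : ι → F₀} (hzz : Q (lV z) = 0) (hz0 : z ≠ 0) {v : ι → F}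
    (h : ∀ y : ι → F₀, Q (lV y) = 0 → 𝔣 (lV y) (lV z) = 0 → 𝔣 (lV y) v = 0) : ∃ s : F, v = s • lV z := by
  obtain ⟨u₀, -, hu₀z, hproj⟩ := exists_proj hQ hR hzz hz0
  have hall : ∀ x : ι → F₀, 𝔣 (lV x) (lV z) = 0 → 𝔣 (lV x) v = 0 := by
    intro x hx
    refine perp_induction hQ hR hn (P := fun x => 𝔣 (lV x) v = 0) ?_ ?_ ?_ h hx
    · rw [lV_zero]
      simp [polar]
    · intro a b h1 h2
      rw [lV_add, polar_add_left, h1, h2, add_zero]
    · intro c a h1
      rw [lV_smul, polar_smul_left', h1, mul_zero]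
  refine ⟨𝔣 (lV u₀) v, ?_⟩
  rw [← sub_eq_zero]
  apply eq_zero_of_rat hQ (F₀ := F₀)
  intro x
  have h1 := hall _ (hproj x)
  rw [lV_sub, lV_smul, polar_sub_left, polar_smul_left', rv_coe] at h1
  rw [polar_sub_right, polar_smul_right']
  linear_combination h1

variable (hM : HasRatO Q M F₀)

include hM

/-- The low rank relation. -/
theorem low_core (hn : 11 ≤ Fintype.card ι) (hAs : ∀ κ ∈ AsO Q M F₀, κ ∈ F₀) {z y₃ : ι → F₀} {w : ι → F}
    (hzz : Q (lV z) = 0) (hz0 : z ≠ 0) (hY : InY Q M (lV z) w) (hy₃ : Q (lV y₃) = 0)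
    (hzy₃ : 𝔣 (lV y₃) (lV z) = 0) : 𝔣 (lV y₃) w ∈ F₀ := by
  classical
  have hS : finrank F₀ (Submodule.span F₀ {z, y₃}) ≤ 2 := finrank_span_pair_le z y₃
  obtain ⟨y₂, hy₂S, hy₂y₂, hy₂, -⟩ := exists_iso_perp hR (r := finrank F₀ F) rfl ![z, y₃]
    (Fin.elim0 : Fin 0 → ι → F) (Submodule.span F₀ {z, y₃}) (by simp; omega)
  have hy₂z : 𝔣 (lV y₂) (lV z) = 0 := hy₂ 0
  have hy₂y₃ : 𝔣 (lV y₂) (lV y₃) = 0 := hy₂ 1
  obtain ⟨d, hdd, h1, h2⟩ := exists_partner_rat hQ hR hy₂S hy₂y₂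
    (fun u hu => orth_span_pair (pc hy₂z) (pc hy₂y₃) hu)
  have hzd := h2 z (Submodule.subset_span (by simp))
  have hy₃d := h2 y₃ (Submodule.subset_span (by simp))
  have hS1 : finrank F₀ (Submodule.span F₀ {z}) ≤ 1 := le_of_eq (finrank_span_singleton hz0)
  obtain ⟨y₅, hy₅S, hy₅y₅, hy₅, -⟩ := exists_iso_perp hR (r := finrank F₀ F) rfl ![z, y₂, y₃, d]
    (Fin.elim0 : Fin 0 → ι → F) (Submodule.span F₀ {z}) (by simp; omega)
  have hy₅z : 𝔣 (lV y₅) (lV z) = 0 := hy₅ 0
  have hy₅y₂ : 𝔣 (lV y₅) (lV y₂) = 0 := hy₅ 1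
  have hy₅y₃ : 𝔣 (lV y₅) (lV y₃) = 0 := hy₅ 2
  have hy₅d : 𝔣 (lV y₅) (lV d) = 0 := hy₅ 3
  -- the first step
  obtain ⟨h0, h0', hg₁⟩ := hM y₂ y₃ hy₂y₂ hy₂y₃
  have hfix₁ : act (eichlerIso h0 h0') (lV z) = lV z := by
    rw [act_eichlerIso, hy₂z, hzy₃]
    simp
  have hA := InY.step hY (eichlerIso h0 h0') hg₁ hfix₁
  set A := 𝔣 (lV y₃) w with hAdef
  set B := 𝔣 (lV y₂) w with hBdef
  have e1 : act (eichlerIso h0 h0') w - w = B • lV y₃ - A • lV y₂ := by
    rw [act_eichlerIso, hy₃]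
    simp only [zero_mul, zero_smul, sub_zero, ← hAdef, ← hBdef]
    abel
  rw [e1] at hA
  -- the second step
  obtain ⟨h5, h5', hg₂⟩ := hM y₅ d hy₅y₅ hy₅d
  have hfix₂ : act (eichlerIso h5 h5') (lV z) = lV z := by
    rw [act_eichlerIso, hy₅z, polar_comm (⇑Q) (lV d) (lV z), hzd]
    simp
  have hB := InY.step hA (eichlerIso h5 h5') hg₂ hfix₂
  have e2 : act (eichlerIso h5 h5') (B • lV y₃ - A • lV y₂) - (B • lV y₃ - A • lV y₂) = A • lV y₅ := by
    rw [act_eichlerIso, hdd]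
    have e3 : 𝔣 (lV y₅) (B • lV y₃ - A • lV y₂) = 0 := by
      rw [polar_sub_right, polar_smul_right', polar_smul_right', hy₅y₃, hy₅y₂]
      ring
    have e4 : 𝔣 (lV d) (B • lV y₃ - A • lV y₂) = -A := by
      rw [polar_sub_right, polar_smul_right', polar_smul_right', polar_comm (⇑Q) (lV d) (lV y₃), hy₃d,
        polar_comm (⇑Q) (lV d) (lV y₂), h1]
      ring
    rw [e3, e4]
    simp only [zero_smul, zero_mul, add_zero, sub_zero, neg_smul, sub_neg_eq_add]
    abel
  rw [e2] at hB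
  have hE : InY Q M (A • lV y₅) (lV z) := hB.swap (Q_scale hy₅y₅ A)
  have hy₅0 : y₅ ≠ 0 := by
    rintro rfl
    exact hy₅S (Submodule.zero_mem _)
  exact hAs _ (mem_AsO_of_pair hQ hR hM hn hy₅y₅ hzz hy₅z hy₅0 (not_mem_singleton_symm hz0 hy₅S) hE)

/-- **An Eichler element of `M` on singular vectors, orthogonal to a rational singular vector, has a rational plane.** -/
theorem low_rat_E (hn : 11 ≤ Fintype.card ι) (hAs : ∀ κ ∈ AsO Q M F₀, κ ∈ F₀) {a b : ι → F} (hbb : Q b = 0)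
    (ha0 : a ≠ 0) (hba : b ∉ Submodule.span F {a}) (hY : InY Q M a b) {z : ι → F₀} (hzz : Q (lV z) = 0) (hz0 : z ≠ 0)
    (hza : 𝔣 (lV z) a = 0) (hzb : 𝔣 (lV z) b = 0) :
    ∃ u₁ u₂ : ι → F₀, a ∈ Submodule.span F {lV u₁, lV u₂} ∧ b ∈ Submodule.span F {lV u₁, lV u₂} := by
  classical
  obtain ⟨haa, hab, hg⟩ := id hY
  have hb0 : b ≠ 0 := by
    rintro rfl
    exact hba (Submodule.zero_mem _)
  -- independence
  have hind : ∀ α β : F, α • b - β • a = 0 → α = 0 ∧ β = 0 := by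
    intro α β h
    have hα : α = 0 := by
      by_contra hα
      apply hba
      have e : b = (β / α) • a := by
        have h1 : α • b = β • a := sub_eq_zero.1 h
        rw [← one_smul F b, ← div_self hα, div_eq_mul_inv, mul_comm, mul_smul, h1, smul_smul]
        congr 1
        field_simp
      rw [e]
      exact Submodule.smul_mem _ _ (Submodule.mem_span_singleton_self a)
    subst hα
    refine ⟨rfl, ?_⟩
    rw [zero_smul, zero_sub, neg_eq_zero] at h
    exact (smul_eq_zero.1 h).resolve_right ha0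
  set g := eichlerIso haa hab with hgdef
  -- the vectors
  let wv : (ι → F₀) → ι → F := fun y => 𝔣 a (lV y) • b - 𝔣 b (lV y) • a
  have hwv : ∀ y, act g (lV y) - lV y = wv y := by
    intro y
    rw [hgdef, act_eichlerIso, hbb]
    simp only [zero_mul, zero_smul, sub_zero, wv]
    abel
  have hwv0 : wv 0 = 0 := by
    simp only [wv, lV_zero]
    simp [polar]
  have hwvadd : ∀ x y, wv (x + y) = wv x + wv y := by
    intro x y
    simp only [wv, lV_add, polar_add_right]
    module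
  have hwvsmul : ∀ (c : F₀) x, wv (c • x) = (c : F) • wv x := by
    intro c x
    simp only [wv, lV_smul, polar_smul_right']
    module
  -- the basic relation
  have key : ∀ {z' : ι → F₀}, Q (lV z') = 0 → z' ≠ 0 → 𝔣 (lV z') a = 0 → 𝔣 (lV z') b = 0 →
      ∀ y y₃ : ι → F₀, Q (lV y) = 0 → Q (lV y₃) = 0 → 𝔣 (lV y) (lV z') = 0 → 𝔣 (lV y₃) (lV z') = 0 →
        𝔣 (lV y₃) (wv y) ∈ F₀ := by
    intro z' hz'z' hz'0 hz'a hz'b y y₃ hy hy₃ hyz' hy₃z'
    have h1 : InY Q M (lV z') (lV y) := (hM y z' hy hyz').swap hz'z'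
    have hfix : act g (lV z') = lV z' := by
      rw [hgdef, act_eichlerIso, hbb, pc hz'a, pc hz'b]
      simp
    have h2 := h1.step g hg hfix
    rw [hwv] at h2
    exact low_core hQ hR hM hn hAs hz'z' hz'0 h2 hy₃ hy₃z'
  have hn5 : 5 ≤ Fintype.card ι := by omega
  -- extension to the orthogonal of `z`
  have hext : ∀ y : ι → F₀, 𝔣 (lV y) (lV z) = 0 → ∀ y₃ : ι → F₀, Q (lV y₃) = 0 → 𝔣 (lV y₃) (lV z) = 0 →
      𝔣 (lV y₃) (wv y) ∈ F₀ := by
    intro y hy y₃ hy₃ hy₃z
    refine perp_induction hQ hR hn5 (z := z) (P := fun y => 𝔣 (lV y₃) (wv y) ∈ F₀) ?_ ?_ ?_ ?_ hy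
    · rw [hwv0]
      simp [polar, F₀.zero_mem]
    · intro c d h1 h2
      simp only [hwvadd, polar_add_right]
      exact F₀.add_mem h1 h2
    · intro c d h1
      simp only [hwvsmul, polar_smul_right']
      exact F₀.mul_mem c.2 h1
    · intro y' hy' hy'z
      exact key hzz hz0 hza hzb y' y₃ hy' hy₃ hy'z hy₃z
  by_cases hcase : ∃ y₀ y₁ : ι → F₀, 𝔣 (lV y₀) (lV z) = 0 ∧ 𝔣 (lV y₁) (lV z) = 0 ∧ 𝔣 (lV y₁) (wv y₀) ≠ 0
  · obtain ⟨y₀, y₁, hy₀, hy₁, hD⟩ := hcase
    obtain ⟨u₀, s₀, hu₀⟩ := riesz_perp hQ hR hn5 hzz hz0 (fun y hy hyz => hext y₀ hy₀ y hy hyz)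
    obtain ⟨u₁, s₁, hu₁⟩ := riesz_perp hQ hR hn5 hzz hz0 (fun y hy hyz => hext y₁ hy₁ y hy hyz)
    set A₀ := 𝔣 a (lV y₀) with hA₀
    set B₀ := 𝔣 b (lV y₀) with hB₀
    set A₁ := 𝔣 a (lV y₁) with hA₁
    set B₁ := 𝔣 b (lV y₁) with hB₁
    have hDe : 𝔣 (lV y₁) (wv y₀) = A₀ * B₁ - B₀ * A₁ := by
      simp only [wv]
      rw [polar_sub_right, polar_smul_right', polar_smul_right', polar_comm (⇑Q) (lV y₁) b, polar_comm (⇑Q) (lV y₁) a]
    rw [hDe] at hD
    set D := A₀ * B₁ - B₀ * A₁ with hDdef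
    have ha' : a = D⁻¹ • (A₁ • wv y₀ - A₀ • wv y₁) := by
      have e : A₁ • wv y₀ - A₀ • wv y₁ = D • a := by
        simp only [wv, ← hA₀, ← hB₀, ← hA₁, ← hB₁, hDdef]
        module
      rw [e, smul_smul, inv_mul_cancel₀ hD, one_smul]
    have hb' : b = D⁻¹ • (B₁ • wv y₀ - B₀ • wv y₁) := by
      have e : B₁ • wv y₀ - B₀ • wv y₁ = D • b := by
        simp only [wv, ← hA₀, ← hB₀, ← hA₁, ← hB₁, hDdef]
        module
      rw [e, smul_smul, inv_mul_cancel₀ hD, one_smul]
    -- everything is rational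
    have hrat : ∀ y y₃ : ι → F₀, Q (lV y) = 0 → Q (lV y₃) = 0 → 𝔣 (lV y₃) (wv y) ∈ F₀ := by
      intro y y₃ hy hy₃
      obtain ⟨z', hz'S, hz'z', hz', -⟩ := exists_iso_perp hR (r := finrank F₀ F) rfl ![z, u₀, u₁, y, y₃]
        (Fin.elim0 : Fin 0 → ι → F) ⊥ (by simp; omega)
      have hz'0 : z' ≠ 0 := by simpa using hz'S
      have h2 : 𝔣 (lV z') (lV z) = 0 := hz' 0
      have h3 : 𝔣 (lV z') (lV u₀) = 0 := hz' 1
      have h4 : 𝔣 (lV z') (lV u₁) = 0 := hz' 2
      have h5 : 𝔣 (lV z') (lV y) = 0 := hz' 3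
      have h6 : 𝔣 (lV z') (lV y₃) = 0 := hz' 4
      have h7 : 𝔣 (lV z') (wv y₀) = 0 := by
        rw [hu₀, polar_add_right, polar_smul_right', h2, h3]
        ring
      have h8 : 𝔣 (lV z') (wv y₁) = 0 := by
        rw [hu₁, polar_add_right, polar_smul_right', h2, h4]
        ring
      have h9 : 𝔣 (lV z') a = 0 := by
        rw [ha', polar_smul_right', polar_sub_right, polar_smul_right', polar_smul_right', h7, h8]
        ring
      have h10 : 𝔣 (lV z') b = 0 := by
        rw [hb', polar_smul_right', polar_sub_right, polar_smul_right', polar_smul_right', h7, h8]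
        ring
      exact key hz'z' hz'0 h9 h10 y y₃ hy hy₃ (pc h5) (pc h6)
    have hrat' : ∀ y : ι → F₀, ∃ u : ι → F₀, wv y = lV u := by
      intro y
      have h3 : ∀ y₃ : ι → F₀, Q (lV y₃) = 0 → 𝔣 (lV y₃) (wv y) ∈ F₀ := by
        intro y₃ hy₃
        refine all_induction hQ hR (by omega) (P := fun y => 𝔣 (lV y₃) (wv y) ∈ F₀) ?_ ?_ ?_ ?_ y
        · rw [hwv0]
          simp [polar, F₀.zero_mem]
        · intro c d h1 h2
          simp only [hwvadd, polar_add_right]
          exact F₀.add_mem h1 h2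
        · intro c d h1
          simp only [hwvsmul, polar_smul_right']
          exact F₀.mul_mem c.2 h1
        · intro y' hy'
          exact hrat y' y₃ hy' hy₃
      obtain ⟨u, hu⟩ := line_of_rel hQ hR (by omega) (t := 1) one_ne_zero (v := wv y) (fun y₃ hy₃ => by
        rw [mul_one]
        exact h3 y₃ hy₃)
      exact ⟨u, by rw [hu, inv_one, one_smul]⟩
    obtain ⟨v₀, hv₀⟩ := hrat' y₀
    obtain ⟨v₁, hv₁⟩ := hrat' y₁
    refine ⟨v₀, v₁, ?_, ?_⟩
    · rw [ha', hv₀, hv₁]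
      exact Submodule.smul_mem _ _ (Submodule.sub_mem _
        (Submodule.smul_mem _ _ (Submodule.subset_span (by simp)))
        (Submodule.smul_mem _ _ (Submodule.subset_span (by simp))))
    · rw [hb', hv₀, hv₁]
      exact Submodule.smul_mem _ _ (Submodule.sub_mem _
        (Submodule.smul_mem _ _ (Submodule.subset_span (by simp)))
        (Submodule.smul_mem _ _ (Submodule.subset_span (by simp))))
  · push Not at hcase
    -- there is a vector not annihilated
    obtain ⟨y₀, hy₀, hne⟩ : ∃ y₀ : ι → F₀, 𝔣 (lV y₀) (lV z) = 0 ∧ wv y₀ ≠ 0 := by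
      by_contra hcon
      push Not at hcon
      have h1 : ∀ y : ι → F₀, 𝔣 (lV y) (lV z) = 0 → 𝔣 a (lV y) = 0 ∧ 𝔣 b (lV y) = 0 :=
        fun y hy => hind _ _ (hcon y hy)
      obtain ⟨s, hs⟩ := perp_eq hQ hR hn5 hzz hz0 (v := a) (fun y _ hyz => pc (h1 y hyz).1)
      obtain ⟨s', hs'⟩ := perp_eq hQ hR hn5 hzz hz0 (v := b) (fun y _ hyz => pc (h1 y hyz).2)
      have hs0 : s ≠ 0 := by
        rintro rfl
        apply ha0
        rw [hs, zero_smul]
      apply hba
      have e : b = (s' / s) • a := by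
        rw [hs, hs', smul_smul]
        congr 1
        field_simp
      rw [e]
      exact Submodule.smul_mem _ _ (Submodule.mem_span_singleton_self a)
    obtain ⟨s, hs⟩ := perp_eq hQ hR hn5 hzz hz0 (v := wv y₀) (fun y _ hyz => hcase y₀ y hy₀ hyz)
    have hs0 : s ≠ 0 := by
      rintro rfl
      apply hne
      rw [hs, zero_smul]
    set A₀ := 𝔣 a (lV y₀) with hA₀
    set B₀ := 𝔣 b (lV y₀) with hB₀
    have hrel : A₀ • b - B₀ • a = s • lV z := hs
    -- the low step
    have hlow : ∀ {t : F} {v : ι → F}, InY Q M (lV z) (t • v) → t ≠ 0 →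
        ∃ (u : ι → F₀) (s' : F), v = t⁻¹ • lV u + s' • lV z := by
      intro t v hv ht
      obtain ⟨u, s', hu⟩ := riesz_perp hQ hR hn5 hzz hz0 (fun y hy hyz =>
        low_core hQ hR hM hn hAs hzz hz0 hv hy hyz)
      refine ⟨u, t⁻¹ * s', ?_⟩
      rw [← one_smul F v, ← inv_mul_cancel₀ ht, mul_smul, hu, smul_add, mul_smul]
    by_cases hA0 : A₀ = 0
    · -- `a` is a multiple of `z`
      have hB0 : B₀ ≠ 0 := by
        rintro h0
        apply hne
        show A₀ • b - B₀ • a = 0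
        rw [hA0, h0]
        simp
      set t := -(s / B₀) with ht
      have ht0 : t ≠ 0 := neg_ne_zero.2 (div_ne_zero hs0 hB0)
      have hae : a = t • lV z := by
        have h1 : -(B₀ • a) = s • lV z := by
          rw [← hrel, hA0]
          simp
        have h2 : a = B₀⁻¹ • (B₀ • a) := by
          rw [smul_smul, inv_mul_cancel₀ hB0, one_smul]
        rw [h2, ← neg_neg (B₀ • a), h1, ht, smul_neg, neg_smul, smul_smul]
        congr 2
        field_simp
      rw [hae] at hY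
      obtain ⟨u, s', hu⟩ := hlow (InY.move hzz hY) ht0
      set T := Submodule.span F {lV u, lV z} with hT
      have h1 : lV u ∈ T := Submodule.subset_span (by simp)
      have h2 : lV z ∈ T := Submodule.subset_span (by simp)
      refine ⟨u, z, ?_, ?_⟩
      · rw [hae]
        exact T.smul_mem _ h2
      · rw [hu]
        exact T.add_mem (T.smul_mem _ h1) (T.smul_mem _ h2)
    · set t := s / A₀ with ht
      have ht0 : t ≠ 0 := div_ne_zero hs0 hA0
      have hbe : b = t • lV z + (B₀ / A₀) • a := by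
        have h1 : A₀ • b = s • lV z + B₀ • a := by
          rw [← hrel]
          abel
        have h2 : b = A₀⁻¹ • (A₀ • b) := by
          rw [smul_smul, inv_mul_cancel₀ hA0, one_smul]
        rw [h2, h1, smul_add, smul_smul, smul_smul, ht]
        congr 2
        · field_simp
        · field_simp
      have h1 : InY Q M a (t • lV z) := by
        have h2 := hY.sub (InY.self (M := M) haa (B₀ / A₀))
        rwa [hbe, add_sub_cancel_right] at h2
      have h2 : InY Q M (lV z) (t • a) := (InY.move' haa h1).swap hzz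
      obtain ⟨u, s', hu⟩ := hlow h2 ht0
      set T := Submodule.span F {lV u, lV z} with hT
      have h3 : lV u ∈ T := Submodule.subset_span (by simp)
      have h4 : lV z ∈ T := Submodule.subset_span (by simp)
      have h5 : a ∈ T := by
        rw [hu]
        exact T.add_mem (T.smul_mem _ h3) (T.smul_mem _ h4)
      refine ⟨u, z, h5, ?_⟩
      rw [hbe]
      exact T.add_mem (T.smul_mem _ h4) (T.smul_mem _ h5)

end Low

/-- Two rational planes through a vector: the vector is on a rational line. -/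
theorem rat_line_aux {a : ι → F} {u₁ u₂ v₁ v₂ : ι → F₀} (ha0 : a ≠ 0)
    (ha₁ : a ∈ Submodule.span F {lV u₁, lV u₂}) (ha₂ : a ∈ Submodule.span F {lV v₁, lV v₂})
    (h : u₁ ∉ Submodule.span F₀ {v₁, v₂}) : ∃ (κ : F) (y₀ : ι → F₀), κ ≠ 0 ∧ a = κ • lV y₀ := by
  obtain ⟨ψ, hψ0, hψ1⟩ := Cfsg.Agent.Lib.Classical.Geo.Basic.exists_dual_eq_one h
  have h1 : lD ψ a = 0 := by
    obtain ⟨γ, ε, rfl⟩ := Submodule.mem_span_pair.1 ha₂
    rw [map_add, map_smul, map_smul, lD_lV, lD_lV, hψ0 v₁ (Submodule.subset_span (by simp)),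
      hψ0 v₂ (Submodule.subset_span (by simp))]
    simp
  obtain ⟨α, β, hab⟩ := Submodule.mem_span_pair.1 ha₁
  have h2 : α + β * (ψ u₂ : F) = 0 := by
    rw [← hab, map_add, map_smul, map_smul, lD_lV, lD_lV, hψ1] at h1
    simpa using h1
  have h3 : a = β • lV (u₂ - ψ u₂ • u₁) := by
    rw [← hab, lV_sub, lV_smul, smul_sub, smul_smul]
    have : α = -(β * (ψ u₂ : F)) := by linear_combination h2
    rw [this, neg_smul]
    abel
  refine ⟨β, _, ?_, h3⟩
  rintro rfl
  apply ha0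
  rw [h3, zero_smul]

theorem rat_line {a b b' : ι → F} {u₁ u₂ v₁ v₂ : ι → F₀} (hind : LinearIndependent F ![a, b, b'])
    (ha₁ : a ∈ Submodule.span F {lV u₁, lV u₂}) (hb₁ : b ∈ Submodule.span F {lV u₁, lV u₂})
    (ha₂ : a ∈ Submodule.span F {lV v₁, lV v₂}) (hb₂ : b' ∈ Submodule.span F {lV v₁, lV v₂}) :
    ∃ (κ : F) (y₀ : ι → F₀), κ ≠ 0 ∧ a = κ • lV y₀ := by
  have ha0 : a ≠ 0 := by
    have := hind.ne_zero 0
    simpa using this
  by_cases h1 : u₁ ∈ Submodule.span F₀ {v₁, v₂}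
  · by_cases h2 : u₂ ∈ Submodule.span F₀ {v₁, v₂}
    · exfalso
      have hl : ∀ u ∈ Submodule.span F₀ {v₁, v₂}, lV u ∈ Submodule.span F {lV v₁, lV v₂} := by
        intro u hu
        obtain ⟨α, β, rfl⟩ := Submodule.mem_span_pair.1 hu
        rw [lV_add, lV_smul, lV_smul]
        exact Submodule.add_mem _ (Submodule.smul_mem _ _ (Submodule.subset_span (by simp)))
          (Submodule.smul_mem _ _ (Submodule.subset_span (by simp)))
      have hle : Submodule.span F {lV u₁, lV u₂} ≤ Submodule.span F {lV v₁, lV v₂} := by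
        rw [Submodule.span_le]
        rintro x (rfl | rfl)
        · exact hl _ h1
        · exact hl _ h2
      have hle2 : Submodule.span F (Set.range ![a, b, b']) ≤ Submodule.span F {lV v₁, lV v₂} := by
        rw [Submodule.span_le]
        rintro x ⟨i, rfl⟩
        fin_cases i
        · exact ha₂
        · exact hle hb₁
        · exact hb₂
      have h3 := Submodule.finrank_mono hle2
      rw [finrank_span_eq_card hind] at h3
      have h4 := finrank_span_pair_le (lV v₁) (lV v₂)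
      simp at h3
      omega
    · rw [Set.pair_comm] at ha₁
      exact rat_line_aux ha0 ha₁ ha₂ h2
  · exact rat_line_aux ha0 ha₁ ha₂ h1

end Cfsg.Agent.Lib.Classical.Sub.OLow
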