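/-
A quadratic extension field acting on an orthogonal space, compatibly with the quadratic form: the data, singular vectors
with prescribed pairings.
-/
import Mathlib
import Cfsg.Agent.Lib.Classical.Sub.OLow

set_option autoImplicit false
set_option linter.unusedSectionVars false

namespace Cfsg.Agent.Lib.Classical.Sub.HO

open scoped Matrix MatrixGroups
open Module Cfsg Cfsg.Geo QuadraticMap
open Cfsg.Agent.Lib.Classical.Orth.Basic
open Cfsg.Agent.Lib.Classical.Orth.Simple
open Cfsg.Agent.Lib.Classical.Witt.Hyp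
open Cfsg.Agent.Lib.Classical.Geo.OLine (riesz)
open Cfsg.Agent.Lib.Classical.Geo.UPair (finrank_span_pair_le)

variable {ι : Type} [Fintype ι] [DecidableEq ι] {F : Type*} [Field F] [Fintype F]
  {Q : QuadraticForm F (ι → F)}

set_option quotPrecheck false in
local notation "𝔣" => polar (⇑Q)

/-- A singular vector with prescribed pairings against a subspace whose radical is singular. -/
theorem exists_shift (hQ : (polarBilin Q).Nondegenerate) {L : Submodule F (ι → F)}
    (hL : 2 * finrank F L + 2 ≤ Fintype.card ι) (hrad : ∀ e ∈ L, (∀ l ∈ L, 𝔣 l e = 0) → Q e = 0) (w₀ : ι → F)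
    (hw₀ : ∃ l ∈ L, 𝔣 l w₀ ≠ 0) : ∃ w, Q w = 0 ∧ ∀ l ∈ L, 𝔣 l w = 𝔣 l w₀ := by
  by_cases hcase : ∃ e ∈ L, (∀ l ∈ L, 𝔣 l e = 0) ∧ 𝔣 e w₀ ≠ 0
  · obtain ⟨e, heL, he, hew⟩ := hcase
    have hee := hrad e heL he
    refine ⟨w₀ + (-(Q w₀ / 𝔣 e w₀)) • e, ?_, fun l hl => ?_⟩
    · rw [Q_add, Q_smul, hee, polar_smul_right', polar_comm (⇑Q) w₀ e]
      field_simp
      ring
    · rw [polar_add_right, polar_smul_right', he l hl]
      ring
  · push Not at hcase
    set B : LinearMap.BilinForm F (ι → F) := polarBilin Q with hB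
    have hBnd : B.Nondegenerate := hQ
    have hsymm : B.IsSymm := ⟨fun x y => by
      simp only [hB, polarBilin_apply_apply, RingHom.id_apply]; exact polar_comm _ _ _⟩
    have hrefl : B.IsRefl := hsymm.isRefl
    set P := B.orthogonal L with hP
    have hPmem : ∀ x, x ∈ P ↔ ∀ l ∈ L, 𝔣 l x = 0 := fun x => by
      constructor
      · intro h l hl
        have : B l x = 0 := h l hl
        rwa [hB, polarBilin_apply_apply] at this
      · intro h l hl
        exact h l hl
    have hfP : finrank F P + finrank F L = Fintype.card ι := by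
      have h6 := LinearMap.BilinForm.finrank_orthogonal hBnd L
      rw [Module.finrank_fintype_fun_eq_card, ← hP] at h6
      have : finrank F L ≤ finrank F (ι → F) := Submodule.finrank_le L
      rw [Module.finrank_fintype_fun_eq_card] at this
      omega
    set R := L ⊓ P with hR
    have hRlt : finrank F R < finrank F L := by
      apply Submodule.finrank_lt_finrank_of_lt
      refine lt_of_le_of_ne inf_le_left ?_
      intro he
      obtain ⟨l, hl, hlw⟩ := hw₀
      have hlR : l ∈ R := by rw [he]; exact hl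
      exact hlw (hcase l hl ((hPmem l).1 hlR.2))
    obtain ⟨q, hq⟩ := Submodule.exists_isCompl R
    have hfq : finrank F R + finrank F q = Fintype.card ι := by
      rw [Submodule.finrank_add_eq_of_isCompl hq, Module.finrank_fintype_fun_eq_card]
    have hfY : 3 ≤ finrank F ↥(P ⊓ q) := by
      have h1 := Submodule.finrank_sup_add_finrank_inf_eq P q
      have h2 : finrank F ↥(P ⊔ q) ≤ Fintype.card ι := by
        have := Submodule.finrank_le (P ⊔ q)
        rwa [Module.finrank_fintype_fun_eq_card] at this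
      omega
    obtain ⟨⟨e, he⟩, he0, hQe⟩ := exists_singular_of_three_le (Q.comp (P ⊓ q).subtype) hfY
    have he0' : e ≠ 0 := fun h => he0 (Subtype.ext h)
    have hee : Q e = 0 := hQe
    have heL : e ∉ L := by
      intro h
      apply he0'
      have h1 : e ∈ R ⊓ q := ⟨⟨h, he.1⟩, he.2⟩
      rw [hq.inf_eq_bot] at h1
      exact h1
    obtain ⟨f₀, hf₀, hef₀⟩ := riesz hQ heL
    have hP' : ∀ l ∈ L, 𝔣 l e = 0 := (hPmem e).1 he.1
    set f := f₀ - Q f₀ • e with hf
    have hff : Q f = 0 := by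
      rw [hf, Q_sub, Q_smul, hee, polar_smul_right', polar_comm (⇑Q) f₀ e, hef₀]
      ring
    have hfL : ∀ l ∈ L, 𝔣 l f = 0 := fun l hl => by
      rw [hf, polar_sub_right, polar_smul_right', hf₀ l hl, hP' l hl]
      ring
    have hef : 𝔣 e f = 1 := by
      rw [hf, polar_sub_right, polar_smul_right', polar_zero_of_singular hee, hef₀]
      ring
    set β := 1 - 𝔣 w₀ e with hβ
    set α := -Q w₀ - β * 𝔣 w₀ f with hα
    refine ⟨w₀ + (α • e + β • f), ?_, fun l hl => ?_⟩
    · rw [Q_add, Q_add, Q_smul, Q_smul, hee, hff, polar_add_right, polar_smul_left', polar_smul_right',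
        polar_smul_right', polar_smul_right', hef]
      rw [hα, hβ]
      ring
    · rw [polar_add_right, polar_add_right, polar_smul_right', polar_smul_right', hP' l hl, hfL l hl]
      ring

/-- A quadratic extension acting on the space, compatibly with the quadratic form. -/
structure HD (Q : QuadraticForm F (ι → F)) (T : (ι → F) →ₗ[F] (ι → F)) (t n : F) : Prop where
  sq : ∀ x, T (T x) = t • T x - n • x
  adj : ∀ x y, polar (⇑Q) (T x) y = t * polar (⇑Q) x y - polar (⇑Q) x (T y)
  nrm : ∀ x, Q (T x) = n * Q x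
  tr : ∀ x, polar (⇑Q) x (T x) = t * Q x
  irr : ∀ a b : F, a * a + a * b * t + b * b * n = 0 → a = 0 ∧ b = 0

/-- Subspaces stable under the extension. -/
def Stable (T : (ι → F) →ₗ[F] (ι → F)) (L : Submodule F (ι → F)) : Prop := ∀ x ∈ L, T x ∈ L

/-- The line over the extension through a vector. -/
def K1 (T : (ι → F) →ₗ[F] (ι → F)) (a : ι → F) : Submodule F (ι → F) := Submodule.span F {a, T a}

theorem Stable.sup {T : (ι → F) →ₗ[F] (ι → F)} {L L' : Submodule F (ι → F)} (h : Stable T L) (h' : Stable T L') :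
    Stable T (L ⊔ L') := by
  intro x hx
  obtain ⟨y, hy, z, hz, rfl⟩ := Submodule.mem_sup.1 hx
  rw [map_add]
  exact Submodule.add_mem_sup (h y hy) (h' z hz)

theorem self_mem_K1 (T : (ι → F) →ₗ[F] (ι → F)) (a : ι → F) : a ∈ K1 T a := Submodule.subset_span (by simp)

theorem T_mem_K1 (T : (ι → F) →ₗ[F] (ι → F)) (a : ι → F) : T a ∈ K1 T a := Submodule.subset_span (by simp)

theorem mem_K1 {T : (ι → F) →ₗ[F] (ι → F)} {a x : ι → F} : x ∈ K1 T a ↔ ∃ c d : F, c • a + d • T a = x :=
  Submodule.mem_span_pair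

theorem finrank_K1_le (T : (ι → F) →ₗ[F] (ι → F)) (a : ι → F) : finrank F (K1 T a) ≤ 2 := finrank_span_pair_le _ _

variable {T : (ι → F) →ₗ[F] (ι → F)} {t n : F}

namespace HD

variable (D : HD Q T t n)

include D

theorem adj' (x y : ι → F) : 𝔣 x (T y) = t * 𝔣 x y - 𝔣 (T x) y := by
  rw [D.adj]
  ring

theorem nn (x y : ι → F) : 𝔣 (T x) (T y) = n * 𝔣 x y := by
  rw [D.adj, D.sq, polar_sub_right, polar_smul_right', polar_smul_right']
  ring

theorem n_ne : n ≠ 0 := by
  intro h
  have := (D.irr 0 1 (by rw [h]; ring)).2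
  exact one_ne_zero this

theorem sep : (2 : F) ≠ 0 ∨ t ≠ 0 := by
  by_contra hcon
  push Not at hcon
  obtain ⟨h2, ht⟩ := hcon
  haveI : CharP F 2 := CharTwo.of_one_ne_zero_of_two_eq_zero one_ne_zero h2
  have hc : ringChar F = 2 := ringChar.eq F 2
  obtain ⟨s, hs⟩ := FiniteField.isSquare_of_char_two hc n
  have := (D.irr s 1 (by
    rw [ht, hs]
    have : s * s + s * 1 * 0 + 1 * 1 * (s * s) = 2 * (s * s) := by ring
    rw [this, h2, zero_mul])).2
  exact one_ne_zero this

theorem Q_k (a b : F) (x : ι → F) : Q (a • x + b • T x) = (a * a + a * b * t + b * b * n) * Q x := by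
  rw [Q_add, Q_smul, Q_smul, D.nrm, polar_smul_left', polar_smul_right', D.tr]
  ring

theorem inv_k (a b : F) (x : ι → F) :
    (a + b * t) • (a • x + b • T x) - b • T (a • x + b • T x) = (a * a + a * b * t + b * b * n) • x := by
  simp only [map_add, map_smul, D.sq]
  module

/-- Independence over the extension, modulo a stable subspace. -/
theorem KI {L : Submodule F (ι → F)} (hL : Stable T L) {x : ι → F} (hx : x ∉ L) {a b : F}
    (h : a • x + b • T x ∈ L) : a = 0 ∧ b = 0 := by
  by_contra hcon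
  have hN : a * a + a * b * t + b * b * n ≠ 0 := fun e => hcon (D.irr a b e)
  apply hx
  have h2 : (a * a + a * b * t + b * b * n) • x ∈ L := by
    rw [← D.inv_k a b x]
    exact L.sub_mem (L.smul_mem _ h) (L.smul_mem _ (hL _ h))
  exact (Submodule.smul_mem_iff _ hN).1 h2

theorem stable_K1 (a : ι → F) : Stable T (K1 T a) := by
  intro x hx
  obtain ⟨c, d, rfl⟩ := mem_K1.1 hx
  rw [map_add, map_smul, map_smul, D.sq]
  refine Submodule.add_mem _ (Submodule.smul_mem _ _ (T_mem_K1 T a)) (Submodule.smul_mem _ _ ?_)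
  exact Submodule.sub_mem _ (Submodule.smul_mem _ _ (T_mem_K1 T a)) (Submodule.smul_mem _ _ (self_mem_K1 T a))

theorem stable_bot : Stable T (⊥ : Submodule F (ι → F)) := by
  intro x hx
  rw [Submodule.mem_bot] at hx ⊢
  rw [hx, map_zero]

/-- The radical of a stable subspace is singular. -/
theorem Q_rad {L : Submodule F (ι → F)} (hL : Stable T L) {e : ι → F} (he : e ∈ L) (h : ∀ l ∈ L, 𝔣 l e = 0) :
    Q e = 0 := by
  have h1 : 𝔣 e e = 0 := h e he
  have h2 : 𝔣 (T e) e = 0 := h _ (hL e he)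
  rw [polar_self_eq] at h1
  rw [polar_comm, D.tr] at h2
  rcases D.sep with h3 | h3
  · exact (mul_eq_zero.1 h1).resolve_left h3
  · exact (mul_eq_zero.1 h2).resolve_left h3

/-- A singular vector with prescribed pairings against a small stable subspace. -/
theorem exists_sing (hQ : (polarBilin Q).Nondegenerate) (hn : 14 ≤ Fintype.card ι) {L : Submodule F (ι → F)}
    (hs : Stable T L) (hf : finrank F L ≤ 6) (w₀ : ι → F) (h : ∃ l ∈ L, 𝔣 l w₀ ≠ 0) :
    ∃ w, Q w = 0 ∧ ∀ l ∈ L, 𝔣 l w = 𝔣 l w₀ :=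
  exists_shift hQ (by omega) (fun _ he hl => D.Q_rad hs he hl) w₀ h

/-- A singular vector orthogonal to `X`, and with value one on `u`. -/
theorem exists_one (hQ : (polarBilin Q).Nondegenerate) (hn : 14 ≤ Fintype.card ι) {L X : Submodule F (ι → F)}
    (hs : Stable T L) (hf : finrank F L ≤ 6) (hX : X ≤ L) {u : ι → F} (hu : u ∈ L) (huX : u ∉ X) :
    ∃ w, Q w = 0 ∧ (∀ x ∈ X, 𝔣 x w = 0) ∧ 𝔣 u w = 1 := by
  obtain ⟨w₀, h0, h1⟩ := riesz hQ huX
  obtain ⟨w, hw, hp⟩ := D.exists_sing hQ hn hs hf w₀ ⟨u, hu, by rw [h1]; exact one_ne_zero⟩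
  exact ⟨w, hw, fun x hx => by rw [hp x (hX hx), h0 x hx], by rw [hp u hu, h1]⟩

/-- A singular vector orthogonal to `X`, with value one on `u₁` and `u₂`. -/
theorem exists_two (hQ : (polarBilin Q).Nondegenerate) (hn : 14 ≤ Fintype.card ι) {L X : Submodule F (ι → F)}
    (hs : Stable T L) (hf : finrank F L ≤ 6) (hX : X ≤ L) {u₁ u₂ : ι → F} (hu₁ : u₁ ∈ L) (hu₂ : u₂ ∈ L)
    (h₁ : u₁ ∉ X ⊔ Submodule.span F {u₂}) (h₂ : u₂ ∉ X ⊔ Submodule.span F {u₁}) :
    ∃ w, Q w = 0 ∧ (∀ x ∈ X, 𝔣 x w = 0) ∧ 𝔣 u₁ w = 1 ∧ 𝔣 u₂ w = 1 := by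
  obtain ⟨w₁, a0, a1⟩ := riesz hQ h₁
  obtain ⟨w₂, b0, b1⟩ := riesz hQ h₂
  have a2 : 𝔣 u₂ w₁ = 0 := a0 _ (Submodule.mem_sup_right (Submodule.mem_span_singleton_self _))
  have b2 : 𝔣 u₁ w₂ = 0 := b0 _ (Submodule.mem_sup_right (Submodule.mem_span_singleton_self _))
  obtain ⟨w, hw, hp⟩ := D.exists_sing hQ hn hs hf (w₁ + w₂) ⟨u₁, hu₁, by
    rw [polar_add_right, a1, b2, add_zero]; exact one_ne_zero⟩
  refine ⟨w, hw, fun x hx => ?_, ?_, ?_⟩
  · rw [hp x (hX hx), polar_add_right, a0 x (Submodule.mem_sup_left hx), b0 x (Submodule.mem_sup_left hx), add_zero]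
  · rw [hp _ hu₁, polar_add_right, a1, b2, add_zero]
  · rw [hp _ hu₂, polar_add_right, a2, b1, zero_add]

omit D in
/-- A vector orthogonal to a small subspace and outside it. -/
theorem exists_perp_not_mem (hQ : (polarBilin Q).Nondegenerate) {L : Submodule F (ι → F)}
    (hL : 2 * finrank F L < Fintype.card ι) : ∃ z, (∀ l ∈ L, 𝔣 l z = 0) ∧ z ∉ L := by
  set B : LinearMap.BilinForm F (ι → F) := polarBilin Q with hB
  have hBnd : B.Nondegenerate := hQ
  set P := B.orthogonal L with hP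
  have hfP : finrank F P + finrank F L = Fintype.card ι := by
    have h6 := LinearMap.BilinForm.finrank_orthogonal hBnd L
    rw [Module.finrank_fintype_fun_eq_card, ← hP] at h6
    have : finrank F L ≤ finrank F (ι → F) := Submodule.finrank_le L
    rw [Module.finrank_fintype_fun_eq_card] at this
    omega
  obtain ⟨z, hz, hzL⟩ : ∃ z ∈ P, z ∉ L := by
    by_contra hcon
    push Not at hcon
    have := Submodule.finrank_mono (show P ≤ L from hcon)
    omega
  refine ⟨z, fun l hl => ?_, hzL⟩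
  have : B l z = 0 := hz l hl
  rwa [hB, polarBilin_apply_apply] at this

/-- **Lemma E**: a singular vector orthogonal to a stable subspace of dimension at most four, outside of it. -/
theorem exists_perp_sing (hQ : (polarBilin Q).Nondegenerate) (hn : 14 ≤ Fintype.card ι) {X : Submodule F (ι → F)}
    (hs : Stable T X) (hf : finrank F X ≤ 4) :
    ∃ y, Q y = 0 ∧ (∀ x ∈ X, 𝔣 x y = 0) ∧ y ∉ X := by
  obtain ⟨z, hz, hzX⟩ := exists_perp_not_mem hQ (L := X) (by omega)
  have hsL : Stable T (X ⊔ K1 T z) := hs.sup (D.stable_K1 z)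
  have hfL : finrank F ↥(X ⊔ K1 T z) ≤ 6 := by
    have h1 := Submodule.finrank_add_le_finrank_add_finrank X (K1 T z)
    have h2 := finrank_K1_le T z
    omega
  obtain ⟨y, hy, hyX, hyz⟩ := D.exists_one hQ hn hsL hfL le_sup_left
    (Submodule.mem_sup_right (self_mem_K1 T z)) hzX
  refine ⟨y, hy, hyX, fun hmem => ?_⟩
  have := hz y hmem
  rw [polar_comm] at this
  rw [this] at hyz
  exact zero_ne_one hyz

omit D in
/-- Vectors orthogonal to a subspace are spanned by singular vectors, given a hyperbolic pair. -/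
theorem mem_span_sing {W : Submodule F (ι → F)} {e h' x : ι → F} (he : e ∈ W) (hh : h' ∈ W) (hx : x ∈ W)
    (hee : Q e = 0) (hhh : Q h' = 0) (h1 : 𝔣 e h' = 1) :
    x ∈ Submodule.span F {y | y ∈ W ∧ Q y = 0} := by
  set I := Submodule.span F {y | y ∈ W ∧ Q y = 0} with hI
  have he' : e ∈ I := Submodule.subset_span ⟨he, hee⟩
  have hh' : h' ∈ I := Submodule.subset_span ⟨hh, hhh⟩
  have key : ∀ z ∈ W, 𝔣 z e ≠ 0 → z ∈ I := by
    intro z hz hne
    have h2 : Q (z - (Q z / 𝔣 z e) • e) = 0 := by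
      rw [Q_sub, Q_smul, hee, polar_smul_right']
      field_simp
      ring
    have h3 : z - (Q z / 𝔣 z e) • e ∈ I :=
      Submodule.subset_span ⟨W.sub_mem hz (W.smul_mem _ he), h2⟩
    have h4 := I.add_mem h3 (I.smul_mem (Q z / 𝔣 z e) he')
    simpa using h4
  by_cases hxe : 𝔣 x e = 0
  · have h5 : x + h' ∈ I := key _ (W.add_mem hx hh) (by
      rw [polar_add_left, hxe, zero_add, polar_comm, h1]
      exact one_ne_zero)
    have h6 := I.sub_mem h5 hh'
    simpa using h6
  · exact key x hx hxe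

end HD

end Cfsg.Agent.Lib.Classical.Sub.HO
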