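/-
A quadratic extension field acting on an orthogonal space: an overgroup of the Eichler elements along the lines over the
extension, containing one further Eichler element, contains `Ω`.
-/
import Mathlib
import Cfsg.Agent.Lib.Classical.Sub.HOBase

set_option autoImplicit false
set_option linter.unusedSectionVars false

namespace Cfsg.Agent.Lib.Classical.Sub.HO

open scoped Matrix MatrixGroups
open Module Cfsg Cfsg.Geo QuadraticMap
open Cfsg.Agent.Lib.Classical.Orth.Basic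
open Cfsg.Agent.Lib.Classical.Orth.Siegel
open Cfsg.Agent.Lib.Classical.Orth.Simple
open Cfsg.Agent.Lib.Classical.Geo.Basic
open Cfsg.Agent.Lib.Classical.Geo.OPts
open Cfsg.Agent.Lib.Classical.Sub.OElts
open Cfsg.Agent.Lib.Classical.Sub.OLow

variable {ι : Type} [Fintype ι] [DecidableEq ι] {F : Type*} [Field F] [Fintype F]
  {Q : QuadraticForm F (ι → F)} {M : Subgroup (GL ι F)} {T : (ι → F) →ₗ[F] (ι → F)} {t n : F}

set_option quotPrecheck false in
local notation "𝔣" => polar (⇑Q)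

/-- All the scalar multiples. -/
def PP (Q : QuadraticForm F (ι → F)) (M : Subgroup (GL ι F)) (A x : ι → F) : Prop :=
  ∀ c : F, InY Q M A (c • x)

theorem PP.add {A x y : ι → F} (h : PP Q M A x) (h' : PP Q M A y) : PP Q M A (x + y) := by
  intro c
  rw [smul_add]
  exact (h c).add (h' c)

theorem PP.smul {A x : ι → F} (h : PP Q M A x) (d : F) : PP Q M A (d • x) := by
  intro c
  rw [smul_smul]
  exact h _

theorem PP.zero {A : ι → F} (hA : Q A = 0) : PP Q M A 0 := by
  intro c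
  rw [smul_zero]
  exact InY.zero hA

theorem PP.self {A : ι → F} (hA : Q A = 0) : PP Q M A A := fun c => InY.self hA c

theorem PP.one {A x : ι → F} (h : PP Q M A x) : InY Q M A x := by
  have := h 1
  rwa [one_smul] at this

theorem PP.swap {A x : ι → F} (hx : Q x = 0) (h : PP Q M A x) : PP Q M x A := fun c =>
  InY.move hx (InY.swap (Q_scale hx c) (h c))

theorem PP.of_zero (hA : Q (0 : ι → F) = 0) (x : ι → F) : PP Q M 0 x := fun c => InY.zero_left hA _

/-- The commutator rule. -/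
theorem PP.rule {A B C D : ι → F} (hB : InY Q M A B) (hCD : PP Q M C D) (hAC : 𝔣 A C = 0) (hAD : 𝔣 A D = 0)
    (hBC : 𝔣 B C = 0) (hDD : Q D = 0) (hBD : 𝔣 B D ≠ 0) : PP Q M A C := by
  intro c
  set d := -(c / 𝔣 B D) with hd
  obtain ⟨h0, h1, hg⟩ := hCD d
  have e1 : act (eichlerIso h0 h1) A = A := by
    rw [act_eichlerIso, polar_smul_left', polar_comm (⇑Q) C A, polar_comm (⇑Q) D A, hAC, hAD, Q_smul, hDD]
    simp
  have e2 : act (eichlerIso h0 h1) B - B = c • C := by
    rw [act_eichlerIso, polar_smul_left', polar_comm (⇑Q) C B, polar_comm (⇑Q) D B, hBC, Q_smul, hDD, hd]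
    have : -(c / 𝔣 B D) * 𝔣 B D = -c := by
      field_simp
    rw [this]
    simp
  have h3 := InY.step hB (eichlerIso h0 h1) hg e1
  rwa [e2] at h3

/-- The Eichler elements along the lines over the extension. -/
def HasRoot (Q : QuadraticForm F (ι → F)) (M : Subgroup (GL ι F)) (T : (ι → F) →ₗ[F] (ι → F)) : Prop :=
  ∀ (y : ι → F) (hy : Q y = 0) (c : F) (h : polar (⇑Q) y (c • T y) = 0), eG hy h ∈ M

section Core

variable (D : HD Q T t n) (hQ : (polarBilin Q).Nondegenerate) (hn : 14 ≤ Fintype.card ι)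
  (hRoot : HasRoot Q M T)

include D hRoot

theorem PP.root {y : ι → F} (hy : Q y = 0) : PP Q M y (T y) := by
  intro c
  have h : 𝔣 y (c • T y) = 0 := by
    rw [polar_smul_right', D.tr, hy]
    ring
  exact ⟨hy, h, hRoot y hy c h⟩

theorem PP.k {y : ι → F} (hy : Q y = 0) (a b : F) : PP Q M y (a • y + b • T y) :=
  ((PP.self hy).smul a).add ((PP.root D hRoot hy).smul b)

theorem PP.mem_K1 {y x : ι → F} (hy : Q y = 0) (hx : x ∈ K1 T y) : PP Q M y x := by
  obtain ⟨a, b, rfl⟩ := Cfsg.Agent.Lib.Classical.Sub.HO.mem_K1.1 hx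
  exact PP.k D hRoot hy a b

omit hRoot in
/-- Symmetry of the lines over the extension. -/
theorem K1_symm {a b : ι → F} (ha : a ≠ 0) (h : a ∈ K1 T b) : b ∈ K1 T a := by
  obtain ⟨c, d, rfl⟩ := Cfsg.Agent.Lib.Classical.Sub.HO.mem_K1.1 h
  have hN : c * c + c * d * t + d * d * n ≠ 0 := by
    intro e
    obtain ⟨h1, h2⟩ := D.irr c d e
    apply ha
    rw [h1, h2]
    simp
  have h2 : (c * c + c * d * t + d * d * n) • b ∈ K1 T (c • b + d • T b) := by
    rw [← D.inv_k c d b]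
    exact Submodule.sub_mem _ (Submodule.smul_mem _ _ (self_mem_K1 _ _)) (Submodule.smul_mem _ _ (T_mem_K1 _ _))
  exact (Submodule.smul_mem_iff _ hN).1 h2

omit hRoot in
/-- Orthogonality to a line over the extension. -/
theorem perp_T {A x : ι → F} (h1 : 𝔣 A x = 0) (h2 : 𝔣 (T A) x = 0) : 𝔣 A (T x) = 0 := by
  rw [D.adj', h1, h2]
  ring

omit hRoot in
theorem perp_K1 {A x l : ι → F} (h1 : 𝔣 A x = 0) (h2 : 𝔣 (T A) x = 0) (hl : l ∈ K1 T A) : 𝔣 l x = 0 := by
  obtain ⟨a, b, rfl⟩ := Cfsg.Agent.Lib.Classical.Sub.HO.mem_K1.1 hl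
  rw [polar_add_left, polar_smul_left', polar_smul_left', h1, h2]
  ring

omit hRoot in
theorem QT {x : ι → F} (hx : Q x = 0) : Q (T x) = 0 := by
  rw [D.nrm, hx, mul_zero]

include hQ hn

/-- The first step: from an arbitrary further Eichler element to a full line. -/
theorem first_step {A B : ι → F} (hB : B ∉ K1 T A) (h : InY Q M A B) :
    ∃ x, Q x = 0 ∧ 𝔣 A x = 0 ∧ 𝔣 (T A) x = 0 ∧ x ∉ K1 T A ∧ PP Q M A x := by
  have hs1 := D.stable_K1 (Q := Q) A
  have hs2 := D.stable_K1 (Q := Q) B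
  set L₂ := K1 T A ⊔ K1 T B with hL₂
  have hsL₂ : Stable T L₂ := hs1.sup hs2
  have hfL₂ : finrank F L₂ ≤ 4 := by
    have h1 : finrank F L₂ ≤ _ := Submodule.finrank_add_le_finrank_add_finrank (K1 T A) (K1 T B)
    have h2 := finrank_K1_le T A
    have h3 := finrank_K1_le T B
    omega
  obtain ⟨z, hz, hzL⟩ := HD.exists_perp_not_mem hQ (L := L₂) (by omega)
  set L := L₂ ⊔ K1 T z with hL
  have hsL : Stable T L := hsL₂.sup (D.stable_K1 z)
  have hfL : finrank F L ≤ 6 := by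
    have h1 : finrank F L ≤ _ := Submodule.finrank_add_le_finrank_add_finrank L₂ (K1 T z)
    have h2 := finrank_K1_le T z
    omega
  have hA1 : K1 T A ≤ L₂ := le_sup_left
  have hBL : B ∈ L₂ := Submodule.mem_sup_right (self_mem_K1 T B)
  have hTBL : T B ∈ L₂ := Submodule.mem_sup_right (T_mem_K1 T B)
  set X := K1 T A ⊔ Submodule.span F {B} with hX
  have hXL₂ : X ≤ L₂ := sup_le hA1 ((Submodule.span_singleton_le_iff_mem _ _).2 hBL)
  have h₁ : T B ∉ X ⊔ Submodule.span F {z} := by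
    intro hmem
    obtain ⟨x', hx', y', hy', e⟩ := Submodule.mem_sup.1 hmem
    obtain ⟨c, rfl⟩ := Submodule.mem_span_singleton.1 hy'
    have hcz : c • z ∈ L₂ := by
      have : c • z = T B - x' := by rw [← e]; abel
      rw [this]
      exact L₂.sub_mem hTBL (hXL₂ hx')
    have hc : c = 0 := by
      by_contra hc
      exact hzL ((Submodule.smul_mem_iff _ hc).1 hcz)
    rw [hc, zero_smul, add_zero] at e
    obtain ⟨s, hs, y'', hy'', rfl⟩ := Submodule.mem_sup.1 hx'
    obtain ⟨d, rfl⟩ := Submodule.mem_span_singleton.1 hy''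
    have h3 : (-d) • B + (1 : F) • T B ∈ K1 T A := by
      have : (-d) • B + (1 : F) • T B = s := by rw [← e]; module
      rw [this]
      exact hs
    exact one_ne_zero (D.KI hs1 hB h3).2
  have h₂ : z ∉ X ⊔ Submodule.span F {T B} := by
    intro hmem
    exact hzL (sup_le hXL₂ ((Submodule.span_singleton_le_iff_mem _ _).2 hTBL) hmem)
  obtain ⟨x, hx, hxX, hx1, hx2⟩ := D.exists_two hQ hn hsL hfL (hXL₂.trans le_sup_left)
    (Submodule.mem_sup_left hTBL) (Submodule.mem_sup_right (self_mem_K1 T z)) h₁ h₂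
  have hAX : A ∈ X := Submodule.mem_sup_left (self_mem_K1 T A)
  have hTAX : T A ∈ X := Submodule.mem_sup_left (T_mem_K1 T A)
  have hBX : B ∈ X := Submodule.mem_sup_right (Submodule.mem_span_singleton_self B)
  have hAx := hxX A hAX
  have hTAx := hxX _ hTAX
  have hBx := hxX B hBX
  refine ⟨x, hx, hAx, hTAx, fun hmem => ?_, ?_⟩
  · have := hz x (hA1 hmem)
    rw [polar_comm, hx2] at this
    exact one_ne_zero this
  · refine PP.rule h (PP.root D hRoot hx) hAx (perp_T D hAx hTAx) hBx (QT D hx) ?_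
    rw [D.adj', hBx, hx1]
    simp

/-- The basic step inside the orthogonal complement of a line. -/
theorem step_G {A y x : ι → F} (hy : Q y = 0) (hx : Q x = 0) (hAx : 𝔣 A x = 0) (hTAx : 𝔣 (T A) x = 0)
    (hAy : 𝔣 A y = 0) (hTAy : 𝔣 (T A) y = 0) (hyA : y ∉ K1 T A) (hxAy : x ∉ K1 T A ⊔ K1 T y)
    (h : PP Q M A y) : PP Q M A x := by
  have hs1 := D.stable_K1 (Q := Q) A
  have hs2 := D.stable_K1 (Q := Q) y
  set L₂ := K1 T A ⊔ K1 T y with hL₂
  have hsL₂ : Stable T L₂ := hs1.sup hs2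
  set L := L₂ ⊔ K1 T x with hL
  have hsL : Stable T L := hsL₂.sup (D.stable_K1 x)
  have hfL : finrank F L ≤ 6 := by
    have h1 : finrank F L ≤ _ := Submodule.finrank_add_le_finrank_add_finrank L₂ (K1 T x)
    have h2 := finrank_K1_le T x
    have h3 : finrank F L₂ ≤ _ := Submodule.finrank_add_le_finrank_add_finrank (K1 T A) (K1 T y)
    have h4 := finrank_K1_le T A
    have h5 := finrank_K1_le T y
    omega
  have hyL₂ : y ∈ L₂ := Submodule.mem_sup_right (self_mem_K1 T y)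
  have hTyL₂ : T y ∈ L₂ := Submodule.mem_sup_right (T_mem_K1 T y)
  set X := (K1 T A ⊔ Submodule.span F {y}) ⊔ Submodule.span F {x} with hX
  have hXL : X ≤ L := by
    refine sup_le (sup_le (le_sup_left.trans le_sup_left) ?_) ?_
    · exact (Submodule.span_singleton_le_iff_mem _ _).2 (Submodule.mem_sup_left hyL₂)
    · exact (Submodule.span_singleton_le_iff_mem _ _).2 (Submodule.mem_sup_right (self_mem_K1 T x))
  have h₁ : T y ∉ X ⊔ Submodule.span F {T x} := by
    intro hmem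
    obtain ⟨x₁, hx₁, y₁, hy₁, e⟩ := Submodule.mem_sup.1 hmem
    obtain ⟨c, rfl⟩ := Submodule.mem_span_singleton.1 hy₁
    obtain ⟨x₂, hx₂, y₂, hy₂, rfl⟩ := Submodule.mem_sup.1 hx₁
    obtain ⟨b, rfl⟩ := Submodule.mem_span_singleton.1 hy₂
    obtain ⟨s, hs, y₃, hy₃, rfl⟩ := Submodule.mem_sup.1 hx₂
    obtain ⟨a, rfl⟩ := Submodule.mem_span_singleton.1 hy₃
    have h3 : b • x + c • T x ∈ L₂ := by
      have : b • x + c • T x = T y - s - a • y := by rw [← e]; abel
      rw [this]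
      exact L₂.sub_mem (L₂.sub_mem hTyL₂ (Submodule.mem_sup_left hs)) (L₂.smul_mem _ hyL₂)
    obtain ⟨rfl, rfl⟩ := D.KI hsL₂ hxAy h3
    have h4 : (-a) • y + (1 : F) • T y ∈ K1 T A := by
      have : (-a) • y + (1 : F) • T y = s := by rw [← e]; module
      rw [this]
      exact hs
    exact one_ne_zero (D.KI hs1 hyA h4).2
  have h₂ : T x ∉ X ⊔ Submodule.span F {T y} := by
    intro hmem
    obtain ⟨x₁, hx₁, y₁, hy₁, e⟩ := Submodule.mem_sup.1 hmem
    obtain ⟨c, rfl⟩ := Submodule.mem_span_singleton.1 hy₁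
    obtain ⟨x₂, hx₂, y₂, hy₂, rfl⟩ := Submodule.mem_sup.1 hx₁
    obtain ⟨b, rfl⟩ := Submodule.mem_span_singleton.1 hy₂
    obtain ⟨s, hs, y₃, hy₃, rfl⟩ := Submodule.mem_sup.1 hx₂
    obtain ⟨a, rfl⟩ := Submodule.mem_span_singleton.1 hy₃
    have h3 : (-b) • x + (1 : F) • T x ∈ L₂ := by
      have : (-b) • x + (1 : F) • T x = s + a • y + c • T y := by rw [← e]; module
      rw [this]
      exact L₂.add_mem (L₂.add_mem (Submodule.mem_sup_left hs) (L₂.smul_mem _ hyL₂)) (L₂.smul_mem _ hTyL₂)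
    exact one_ne_zero (D.KI hsL₂ hxAy h3).2
  obtain ⟨w, hw, hwX, hw1, hw2⟩ := D.exists_two hQ hn hsL hfL hXL
    (Submodule.mem_sup_left hTyL₂) (Submodule.mem_sup_right (T_mem_K1 T x)) h₁ h₂
  have hAX : A ∈ X := Submodule.mem_sup_left (Submodule.mem_sup_left (self_mem_K1 T A))
  have hTAX : T A ∈ X := Submodule.mem_sup_left (Submodule.mem_sup_left (T_mem_K1 T A))
  have hyX : y ∈ X := Submodule.mem_sup_left (Submodule.mem_sup_right (Submodule.mem_span_singleton_self y))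
  have hxX : x ∈ X := Submodule.mem_sup_right (Submodule.mem_span_singleton_self x)
  have hAw := hwX A hAX
  have hTAw := hwX _ hTAX
  have hyw := hwX y hyX
  have hxw := hwX x hxX
  have hPw : PP Q M A w := by
    refine PP.rule h.one (PP.root D hRoot hw) hAw (perp_T D hAw hTAw) hyw (QT D hw) ?_
    rw [D.adj', hyw, hw1]
    simp
  refine PP.rule hPw.one (PP.root D hRoot hx) hAx (perp_T D hAx hTAx) ?_ (QT D hx) ?_
  · rw [polar_comm]
    exact hxw
  · rw [polar_comm, hw2]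
    exact one_ne_zero

/-- A line with one singular direction contains all the others. -/
theorem all_perp {A y x : ι → F} (hAA : Q A = 0) (hy : Q y = 0) (hx : Q x = 0) (hAx : 𝔣 A x = 0) (hTAx : 𝔣 (T A) x = 0)
    (hAy : 𝔣 A y = 0) (hTAy : 𝔣 (T A) y = 0) (hyA : y ∉ K1 T A) (h : PP Q M A y) : PP Q M A x := by
  by_cases hx1 : x ∈ K1 T A
  · exact PP.mem_K1 D hRoot hAA hx1
  have hs1 := D.stable_K1 (Q := Q) A
  have hs2 := D.stable_K1 (Q := Q) y
  by_cases hx2 : x ∈ K1 T A ⊔ K1 T y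
  swap
  · exact step_G D hQ hn hRoot hy hx hAx hTAx hAy hTAy hyA hx2 h
  have hfL₂ : finrank F ↥(K1 T A ⊔ K1 T y) ≤ 4 := by
    have h1 := Submodule.finrank_add_le_finrank_add_finrank (K1 T A) (K1 T y)
    have h2 := finrank_K1_le T A
    have h3 := finrank_K1_le T y
    omega
  obtain ⟨x₂, hx₂, hx₂L, hx₂n⟩ := D.exists_perp_sing hQ hn (hs1.sup hs2) hfL₂
  have hAx₂ := hx₂L A (Submodule.mem_sup_left (self_mem_K1 T A))
  have hTAx₂ := hx₂L _ (Submodule.mem_sup_left (T_mem_K1 T A))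
  have hx₂A : x₂ ∉ K1 T A := fun hm => hx₂n (Submodule.mem_sup_left hm)
  have hP₂ : PP Q M A x₂ := step_G D hQ hn hRoot hy hx₂ hAx₂ hTAx₂ hAy hTAy hyA hx₂n h
  obtain ⟨s, hs, y', hy', rfl⟩ := Submodule.mem_sup.1 hx2
  obtain ⟨c, d, rfl⟩ := Cfsg.Agent.Lib.Classical.Sub.HO.mem_K1.1 hy'
  have hyn : y ∉ K1 T A ⊔ K1 T x₂ := by
    intro hm
    obtain ⟨s', hs', z', hz', e⟩ := Submodule.mem_sup.1 hm
    obtain ⟨c', d', rfl⟩ := Cfsg.Agent.Lib.Classical.Sub.HO.mem_K1.1 hz'
    have h3 : c' • x₂ + d' • T x₂ ∈ K1 T A ⊔ K1 T y := by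
      have : c' • x₂ + d' • T x₂ = y - s' := by rw [← e]; abel
      rw [this]
      exact Submodule.sub_mem _ (Submodule.mem_sup_right (self_mem_K1 T y)) (Submodule.mem_sup_left hs')
    obtain ⟨rfl, rfl⟩ := D.KI (hs1.sup hs2) hx₂n h3
    apply hyA
    rw [← e]
    simpa using hs'
  have hy'n : c • y + d • T y ∉ K1 T A ⊔ K1 T x₂ := by
    intro hm
    obtain ⟨rfl, rfl⟩ := D.KI (hs1.sup (D.stable_K1 x₂)) hyn hm
    apply hx1
    simpa using hs
  have hQy' : Q (c • y + d • T y) = 0 := by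
    rw [D.Q_k, hy, mul_zero]
  have hAy' : 𝔣 A (c • y + d • T y) = 0 := by
    rw [polar_add_right, polar_smul_right', polar_smul_right', perp_T D hAy hTAy, hAy]
    ring
  have hTAy' : 𝔣 (T A) (c • y + d • T y) = 0 := by
    rw [polar_add_right, polar_smul_right', polar_smul_right', D.nn, hTAy, hAy]
    ring
  have hP₃ : PP Q M A (c • y + d • T y) :=
    step_G D hQ hn hRoot hx₂ hQy' hAy' hTAy' hAx₂ hTAx₂ hx₂A hy'n hP₂
  exact (PP.mem_K1 D hRoot hAA hs).add hP₃

/-- Existence of a line orthogonal to the given one. -/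
def Good (Q : QuadraticForm F (ι → F)) (M : Subgroup (GL ι F)) (T : (ι → F) →ₗ[F] (ι → F)) (A : ι → F) : Prop :=
  ∃ x, Q x = 0 ∧ polar (⇑Q) A x = 0 ∧ polar (⇑Q) (T A) x = 0 ∧ x ∉ K1 T A ∧ PP Q M A x

/-- Propagation of goodness. -/
theorem good_all {A C : ι → F} (hAA : Q A = 0) (hA0 : A ≠ 0) (hCC : Q C = 0) (hg : Good Q M T A) : Good Q M T C := by
  obtain ⟨x, hx, hAx, hTAx, hxA, hPx⟩ := hg
  have hs1 := D.stable_K1 (Q := Q) A
  have hs2 := D.stable_K1 (Q := Q) C
  have hfL₂ : finrank F ↥(K1 T A ⊔ K1 T C) ≤ 4 := by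
    have h1 := Submodule.finrank_add_le_finrank_add_finrank (K1 T A) (K1 T C)
    have h2 := finrank_K1_le T A
    have h3 := finrank_K1_le T C
    omega
  obtain ⟨y, hy, hyL, hyn⟩ := D.exists_perp_sing hQ hn (hs1.sup hs2) hfL₂
  have hAy := hyL A (Submodule.mem_sup_left (self_mem_K1 T A))
  have hTAy := hyL _ (Submodule.mem_sup_left (T_mem_K1 T A))
  have hCy := hyL C (Submodule.mem_sup_right (self_mem_K1 T C))
  have hTCy := hyL _ (Submodule.mem_sup_right (T_mem_K1 T C))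
  have hyA : y ∉ K1 T A := fun hm => hyn (Submodule.mem_sup_left hm)
  have hyC : y ∉ K1 T C := fun hm => hyn (Submodule.mem_sup_right hm)
  have hPAy : PP Q M A y := all_perp D hQ hn hRoot hAA hx hy hAy hTAy hAx hTAx hxA hPx
  have hPyA : PP Q M y A := hPAy.swap hy
  have hyA' : 𝔣 y A = 0 := by rw [polar_comm]; exact hAy
  have hTyA : 𝔣 (T y) A = 0 := by
    rw [D.adj, hyA', polar_comm (⇑Q) y (T A), hTAy]
    ring
  have hAny : A ∉ K1 T y := fun hm => hyA (K1_symm D hA0 hm)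
  have hyC' : 𝔣 y C = 0 := by rw [polar_comm]; exact hCy
  have hTyC : 𝔣 (T y) C = 0 := by
    rw [D.adj, hyC', polar_comm (⇑Q) y (T C), hTCy]
    ring
  have hPyC : PP Q M y C := all_perp D hQ hn hRoot hy hAA hCC hyC' hTyC hyA' hTyA hAny hPyA
  exact ⟨y, hy, hCy, hTCy, hyC, hPyC.swap hCC⟩

/-- All the singular pairs. -/
theorem all_pp (hgood : ∀ C, Q C = 0 → Good Q M T C) {A C : ι → F} (hAA : Q A = 0) (hCC : Q C = 0)
    (hAC : 𝔣 A C = 0) : PP Q M A C := by
  have hs1 := D.stable_K1 (Q := Q) A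
  have hs2 := D.stable_K1 (Q := Q) C
  have hsL₂ := hs1.sup hs2
  have hfL₂ : finrank F ↥(K1 T A ⊔ K1 T C) ≤ 4 := by
    have h1 := Submodule.finrank_add_le_finrank_add_finrank (K1 T A) (K1 T C)
    have h2 := finrank_K1_le T A
    have h3 := finrank_K1_le T C
    omega
  obtain ⟨B, hB, hBL, hBn⟩ := D.exists_perp_sing hQ hn hsL₂ hfL₂
  have hfL : finrank F ↥((K1 T A ⊔ K1 T C) ⊔ K1 T B) ≤ 6 := by
    have h1 := Submodule.finrank_add_le_finrank_add_finrank (K1 T A ⊔ K1 T C) (K1 T B)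
    have h2 := finrank_K1_le T B
    omega
  obtain ⟨E, hE, hEL, hBE⟩ := D.exists_one hQ hn (hsL₂.sup (D.stable_K1 B)) hfL le_sup_left
    (Submodule.mem_sup_right (self_mem_K1 T B)) hBn
  have hAB := hBL A (Submodule.mem_sup_left (self_mem_K1 T A))
  have hTAB := hBL _ (Submodule.mem_sup_left (T_mem_K1 T A))
  have hCB := hBL C (Submodule.mem_sup_right (self_mem_K1 T C))
  have hAE := hEL A (Submodule.mem_sup_left (self_mem_K1 T A))
  have hTCE := hEL _ (Submodule.mem_sup_right (T_mem_K1 T C))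
  have hTCE' := hEL _ (Submodule.mem_sup_right (self_mem_K1 T C))
  obtain ⟨x, hx, hAx, hTAx, hxA, hPx⟩ := hgood A hAA
  obtain ⟨x', hx', hCx', hTCx', hxC', hPx'⟩ := hgood C hCC
  have hPAB : PP Q M A B := all_perp D hQ hn hRoot hAA hx hB hAB hTAB hAx hTAx hxA hPx
  have hPCE : PP Q M C E := all_perp D hQ hn hRoot hCC hx' hE hTCE' hTCE hCx' hTCx' hxC' hPx'
  refine PP.rule hPAB.one hPCE hAC hAE ?_ hE ?_
  · rw [polar_comm]
    exact hCB
  · rw [hBE]
    exact one_ne_zero

/-- **The core**: one further Eichler element gives everything. -/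
theorem core {A B : ι → F} (hAA : Q A = 0) (hA0 : A ≠ 0) (hB : B ∉ K1 T A) (h : InY Q M A B) :
    omegaGL (⇑Q) ≤ M := by
  have hg : Good Q M T A := first_step D hQ hn hRoot hB h
  have hgood : ∀ C, Q C = 0 → Good Q M T C := fun C hC => good_all D hQ hn hRoot hAA hA0 hC hg
  apply omegaGL_le hQ (by omega)
  intro a ha
  refine ⟨ha, fun b hb => ?_⟩
  have hs1 := D.stable_K1 (Q := Q) a
  obtain ⟨e, he, heL, hen⟩ := D.exists_perp_sing hQ hn hs1 (by have := finrank_K1_le T a; omega)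
  have hfL : finrank F ↥(K1 T a ⊔ K1 T e) ≤ 6 := by
    have h1 := Submodule.finrank_add_le_finrank_add_finrank (K1 T a) (K1 T e)
    have h2 := finrank_K1_le T a
    have h3 := finrank_K1_le T e
    omega
  obtain ⟨e', he', he'L, hee'⟩ := D.exists_one hQ hn (hs1.sup (D.stable_K1 e)) hfL le_sup_left
    (Submodule.mem_sup_right (self_mem_K1 T e)) hen
  set W : Submodule F (ι → F) := LinearMap.ker ((polarBilin Q) a) with hW
  have hmemW : ∀ x, x ∈ W ↔ 𝔣 a x = 0 := fun x => by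
    rw [hW, LinearMap.mem_ker, polarBilin_apply_apply]
  have hspan := HD.mem_span_sing ((hmemW e).2 (heL a (self_mem_K1 T a))) ((hmemW e').2 (he'L a (self_mem_K1 T a)))
    ((hmemW b).2 hb) he he' hee'
  have hPP : ∀ x ∈ Submodule.span F {y | y ∈ W ∧ Q y = 0}, PP Q M a x := by
    intro x hx
    induction hx using Submodule.span_induction with
    | mem x hx => exact all_pp D hQ hn hRoot hgood ha hx.2 ((hmemW x).1 hx.1)
    | zero => exact PP.zero ha
    | add x y _ _ h1 h2 => exact h1.add h2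
    | smul c x _ h1 => exact h1.smul c
  obtain ⟨_, _, m⟩ := (hPP b hspan).one
  exact m

/-- The rigidity: a linear map preserving all the singular lines over the extension lies in the extension. -/
theorem lin_rigid {T' : (ι → F) →ₗ[F] (ι → F)} (h : ∀ u, Q u = 0 → T' u ∈ K1 T u) :
    ∃ a b : F, ∀ x, T' x = a • x + b • T x := by
  have hb := D.stable_bot (Q := Q)
  have hcl : ∀ {u v : ι → F} {a b c d : F}, Q u = 0 → Q v = 0 → u ≠ 0 → 𝔣 u v = 0 → v ∉ K1 T u →
      T' u = a • u + b • T u → T' v = c • v + d • T v → a = c ∧ b = d := by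
    intro u v a b c d hu hv hu0 huv hvu e1 e2
    have hQuv : Q (u + v) = 0 := by rw [Q_add, hu, hv, huv]; ring
    obtain ⟨e, f, ef⟩ := mem_K1.1 (h _ hQuv)
    have e3 : a • u + b • T u + (c • v + d • T v) = e • (u + v) + f • T (u + v) := by
      rw [ef, map_add, e1, e2]
    rw [map_add] at e3
    have h3 : (c - e) • v + (d - f) • T v ∈ K1 T u := by
      have : (c - e) • v + (d - f) • T v = (e - a) • u + (f - b) • T u := by
        have h5 : (c - e) • v + (d - f) • T v - ((e - a) • u + (f - b) • T u) =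
          (a • u + b • T u + (c • v + d • T v)) - (e • (u + v) + f • (T u + T v)) := by module
        rw [← sub_eq_zero, h5, e3, sub_self]
      rw [this]
      exact Submodule.add_mem _ (Submodule.smul_mem _ _ (self_mem_K1 T u)) (Submodule.smul_mem _ _ (T_mem_K1 T u))
    obtain ⟨h5, h6⟩ := D.KI (D.stable_K1 u) hvu h3
    have hce : c = e := sub_eq_zero.1 h5
    have hdf : d = f := sub_eq_zero.1 h6
    have h7 : (e - a) • u + (f - b) • T u ∈ (⊥ : Submodule F (ι → F)) := by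
      rw [Submodule.mem_bot]
      have h5' : (e - a) • u + (f - b) • T u =
          (a • u + b • T u + (c • v + d • T v)) - (a • u + b • T u + (c • v + d • T v)) +
            ((e • (u + v) + f • (T u + T v)) - (a • u + b • T u + (c • v + d • T v))) := by
        rw [hce, hdf]
        module
      rw [h5', e3]
      simp
    have hu' : u ∉ (⊥ : Submodule F (ι → F)) := by
      rw [Submodule.mem_bot]
      exact hu0
    obtain ⟨h8, h9⟩ := D.KI hb hu' h7
    exact ⟨by rw [hce]; exact (sub_eq_zero.1 h8).symm, by rw [hdf]; exact (sub_eq_zero.1 h9).symm⟩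
  obtain ⟨u₀, hu₀, -, hu₀n⟩ := D.exists_perp_sing hQ hn hb (by simp)
  have hu₀0 : u₀ ≠ 0 := fun e => hu₀n (by rw [e]; exact Submodule.zero_mem _)
  obtain ⟨a₀, b₀, e₀⟩ := mem_K1.1 (h _ hu₀)
  have hall : ∀ u, Q u = 0 → T' u = a₀ • u + b₀ • T u := by
    intro u hu
    by_cases hu0 : u = 0
    · simp [hu0]
    have hs1 := D.stable_K1 (Q := Q) u₀
    have hs2 := D.stable_K1 (Q := Q) u
    have hfL₂ : finrank F ↥(K1 T u₀ ⊔ K1 T u) ≤ 4 := by
      have h1 := Submodule.finrank_add_le_finrank_add_finrank (K1 T u₀) (K1 T u)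
      have h2 := finrank_K1_le T u₀
      have h3 := finrank_K1_le T u
      omega
    obtain ⟨y, hy, hyL, hyn⟩ := D.exists_perp_sing hQ hn (hs1.sup hs2) hfL₂
    obtain ⟨c, d, ecd⟩ := mem_K1.1 (h _ hy)
    obtain ⟨a, b, eab⟩ := mem_K1.1 (h _ hu)
    have h1 := hcl hu₀ hy hu₀0 (hyL _ (Submodule.mem_sup_left (self_mem_K1 T u₀)))
      (fun hm => hyn (Submodule.mem_sup_left hm)) e₀.symm ecd.symm
    have h2 := hcl hu hy hu0 (hyL _ (Submodule.mem_sup_right (self_mem_K1 T u)))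
      (fun hm => hyn (Submodule.mem_sup_right hm)) eab.symm ecd.symm
    rw [← eab, h1.1, h1.2, h2.1, h2.2]
  refine ⟨a₀, b₀, fun x => ?_⟩
  obtain ⟨e, he, -, hen⟩ := D.exists_perp_sing hQ hn hb (by simp)
  have hfL : finrank F ↥((⊥ : Submodule F (ι → F)) ⊔ K1 T e) ≤ 6 := by
    rw [bot_sup_eq]
    have := finrank_K1_le T e
    omega
  obtain ⟨e', he', -, hee'⟩ := D.exists_one hQ hn (hb.sup (D.stable_K1 e)) hfL le_sup_left
    (Submodule.mem_sup_right (self_mem_K1 T e)) hen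
  have hspan := HD.mem_span_sing (W := ⊤) (x := x) trivial trivial trivial he he' hee'
  induction hspan using Submodule.span_induction with
  | mem x hx => exact hall x hx.2
  | zero => simp
  | add x y _ _ h1 h2 =>
    rw [map_add, h1, h2, map_add]
    module
  | smul c x _ h1 =>
    rw [map_smul, h1, map_smul]
    module

end Core

end Cfsg.Agent.Lib.Classical.Sub.HO
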