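/-
Maximality of the normaliser of a quadratic extension field, preserving the quadratic form up to norms, in `Ω`: the groups
`GU_{n/2}(q)` inside `Ω_n(q)`.
-/
import Mathlib
import Cfsg.Agent.Lib.Classical.Sub.HOCore

set_option autoImplicit false
set_option linter.unusedSectionVars false

namespace Cfsg.Agent.Lib.Classical.Sub.HO

open scoped Matrix MatrixGroups
open Module Cfsg Cfsg.Geo QuadraticMap
open Cfsg.Agent.Lib.Classical.Orth.Basic
open Cfsg.Agent.Lib.Classical.Orth.Siegel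
open Cfsg.Agent.Lib.Classical.Orth.Simple
open Cfsg.Agent.Lib.Classical.Geo.Basic
open Cfsg.Agent.Lib.Classical.Geo.OPts
open Cfsg.Agent.Lib.Classical.Sub.OElts
open Cfsg.Agent.Lib.Classical.Sub.OLow

variable {ι : Type} [Fintype ι] [DecidableEq ι] {F : Type*} [Field F] [Fintype F]
  {Q : QuadraticForm F (ι → F)} {M : Subgroup (GL ι F)} {T : (ι → F) →ₗ[F] (ι → F)} {t n : F}

set_option quotPrecheck false in
local notation "𝔣" => polar (⇑Q)

local notation "Mt" => Matrix ι ι F

theorem mat_ext {A B : Mt} (h : ∀ x : ι → F, A *ᵥ x = B *ᵥ x) : A = B :=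
  Matrix.ext_of_mulVec_single (fun _ => h _)

/-- A criterion for the normaliser. -/
theorem mem_normalizer_of {θ : Mt} {K : Subalgebra F Mt} (hK : ∀ k, k ∈ K ↔ ∃ a b : F, k = a • (1 : Mt) + b • θ)
    {g : GL ι F} {a₀ b₀ : F} (h : (g : Mt) * θ * ((g⁻¹ : GL ι F) : Mt) = a₀ • (1 : Mt) + b₀ • θ) (hb₀ : b₀ ≠ 0) :
    g ∈ subalgebraNormalizer K := by
  set G : Mt := (g : Mt) with hG
  set G' : Mt := ((g⁻¹ : GL ι F) : Mt) with hG'
  have h1 : G * G' = 1 := by
    rw [hG, hG', ← Units.val_mul, mul_inv_cancel, Units.val_one]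
  have h2 : G' * G = 1 := by
    rw [hG, hG', ← Units.val_mul, inv_mul_cancel, Units.val_one]
  have e1 : θ = a₀ • (1 : Mt) + b₀ • (G' * θ * G) := by
    have h3 : G' * (G * θ * G') * G = θ := by
      calc G' * (G * θ * G') * G = (G' * G) * θ * (G' * G) := by simp only [mul_assoc]
        _ = θ := by rw [h2, one_mul, mul_one]
    rw [h] at h3
    have h4 : G' * (a₀ • (1 : Mt) + b₀ • θ) * G = a₀ • (G' * G) + b₀ • (G' * θ * G) := by
      simp only [Matrix.mul_add, Matrix.add_mul, Matrix.mul_smul, Matrix.smul_mul, mul_one]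
    rw [h4, h2] at h3
    exact h3.symm
  intro k
  change k ∈ K ↔ G * k * G' ∈ K
  constructor
  · intro hk
    obtain ⟨a, b, rfl⟩ := (hK k).1 hk
    refine (hK _).2 ⟨a + b * a₀, b * b₀, ?_⟩
    have : G * (a • (1 : Mt) + b • θ) * G' = a • (G * G') + b • (G * θ * G') := by
      simp only [Matrix.mul_add, Matrix.add_mul, Matrix.mul_smul, Matrix.smul_mul, mul_one]
    rw [this, h1, h]
    module
  · intro hk
    obtain ⟨a, b, e⟩ := (hK _).1 hk
    refine (hK _).2 ⟨a + b * (-(b₀⁻¹ * a₀)), b * b₀⁻¹, ?_⟩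
    have e2 : G' * θ * G = (-(b₀⁻¹ * a₀)) • (1 : Mt) + b₀⁻¹ • θ := by
      have : b₀⁻¹ • θ = (b₀⁻¹ * a₀) • (1 : Mt) + (b₀⁻¹ * b₀) • (G' * θ * G) := by
        conv_lhs => rw [e1]
        module
      rw [this, inv_mul_cancel₀ hb₀]
      module
    have e3 : k = G' * (G * k * G') * G := by
      calc k = (G' * G) * k * (G' * G) := by rw [h2, one_mul, mul_one]
        _ = G' * (G * k * G') * G := by simp only [mul_assoc]
    rw [e3, e]
    have : G' * (a • (1 : Mt) + b • θ) * G = a • (G' * G) + b • (G' * θ * G) := by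
      simp only [Matrix.mul_add, Matrix.add_mul, Matrix.mul_smul, Matrix.smul_mul, mul_one]
    rw [this, h2, e2]
    module

/-- The Eichler elements along lines over the extension commute with the extension. -/
theorem eG_comm (D : HD Q T t n) {θ : Mt} (hT : ∀ x, T x = θ *ᵥ x) {y : ι → F} (hy : Q y = 0) (c : F)
    (h : 𝔣 y (c • T y) = 0) : (eG hy h : Mt) * θ = θ * (eG hy h : Mt) := by
  apply mat_ext
  intro x
  rw [← Matrix.mulVec_mulVec, ← Matrix.mulVec_mulVec, ← hT x, eG_mulVec, eG_mulVec, ← hT]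
  have hQ0 : Q (c • T y) = 0 := by
    rw [Q_smul, D.nrm, hy]
    ring
  rw [hQ0]
  simp only [zero_mul, zero_smul, sub_zero, polar_smul_left', map_add, map_sub, map_smul, D.sq, D.adj' y x, D.nn y x]
  module

/-- The maximality. -/
theorem isMaximal_HD (hQ : (polarBilin Q).Nondegenerate) (hn : 14 ≤ Fintype.card ι) (D : HD Q T t n) {θ : Mt}
    (hT : ∀ x, T x = θ *ᵥ x) {K : Subalgebra F Mt} (hK : ∀ k, k ∈ K ↔ ∃ a b : F, k = a • (1 : Mt) + b • θ)
    (hθ : ∀ a : F, θ ≠ a • (1 : Mt)) :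
    IsMaximalIn (omegaGL (⇑Q)) (subalgebraNormalizer K ⊓ omegaGL (⇑Q)) := by
  have hn5 : 5 ≤ Fintype.card ι := by omega
  have hθK : θ ∈ K := (hK θ).2 ⟨0, 1, by simp⟩
  -- the root elements
  have hroots : ∀ (y : ι → F) (hy : Q y = 0) (c : F) (h : 𝔣 y (c • T y) = 0),
      eG hy h ∈ subalgebraNormalizer K ⊓ omegaGL (⇑Q) := by
    intro y hy c h
    refine ⟨mem_normalizer_of hK (a₀ := 0) (b₀ := 1) ?_ one_ne_zero, eG_mem_omegaGL hQ hn5 _ _⟩
    rw [eG_comm D hT hy c h, mul_assoc, ← Units.val_mul, mul_inv_cancel, Units.val_one, mul_one]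
    simp
  have hb := D.stable_bot (Q := Q)
  refine ⟨lt_of_le_not_ge inf_le_right fun hle => ?_, ?_⟩
  · -- strictness
    obtain ⟨a, ha, -, han⟩ := D.exists_perp_sing hQ hn hb (by simp)
    have ha0 : a ≠ 0 := fun e => han (by rw [e]; exact Submodule.zero_mem _)
    have hsa := D.stable_K1 (Q := Q) a
    obtain ⟨b, hb', hbL, hbn⟩ := D.exists_perp_sing hQ hn hsa (by have := finrank_K1_le T a; omega)
    have hb0 : b ≠ 0 := fun e => hbn (by rw [e]; exact Submodule.zero_mem _)
    have hab := hbL a (self_mem_K1 T a)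
    have hTab := hbL _ (T_mem_K1 T a)
    have hsb := D.stable_K1 (Q := Q) b
    have haX : a ∉ Submodule.span F {T a} ⊔ K1 T b := by
      intro hm
      obtain ⟨x', hx', y', hy', e⟩ := Submodule.mem_sup.1 hm
      obtain ⟨c, rfl⟩ := Submodule.mem_span_singleton.1 hx'
      have e' : y' = a - c • T a := by
        rw [eq_sub_iff_add_eq, add_comm]
        exact e
      have h3 : (1 : F) • a + (-c) • T a ∈ K1 T b := by
        have : (1 : F) • a + (-c) • T a = y' := by rw [e']; module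
        rw [this]
        exact hy'
      have hnb : a ∉ K1 T b := fun hm' => hbn (K1_symm D ha0 hm')
      exact one_ne_zero (D.KI hsb hnb h3).1
    obtain ⟨x, hx0, hx1⟩ := Cfsg.Agent.Lib.Classical.Geo.OLine.riesz hQ haX
    have hTax := hx0 _ (Submodule.mem_sup_left (Submodule.mem_span_singleton_self _))
    have hbx := hx0 _ (Submodule.mem_sup_right (self_mem_K1 T b))
    have hTbx := hx0 _ (Submodule.mem_sup_right (T_mem_K1 T b))
    have hN := (hle (eG_mem_omegaGL hQ hn5 ha hab)).1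
    have hm := (hN θ).1 hθK
    obtain ⟨a₀, b₀, e⟩ := (hK _).1 hm
    -- apply to `x`
    set G : Mt := (eG ha hab : Mt) with hG
    have e1 : G * θ = (a₀ • (1 : Mt) + b₀ • θ) * G := by
      rw [← e, mul_assoc, ← Units.val_mul, inv_mul_cancel, Units.val_one, mul_one]
    have e2 : G *ᵥ (θ *ᵥ x) = (a₀ • (1 : Mt) + b₀ • θ) *ᵥ (G *ᵥ x) := by
      rw [Matrix.mulVec_mulVec, Matrix.mulVec_mulVec, e1]
    rw [← hT x] at e2
    have hGx : G *ᵥ x = x + b := by
      rw [hG, eG_mulVec, hx1, hbx, hb']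
      simp
    have hGTx : G *ᵥ (T x) = T x + t • b := by
      rw [hG, eG_mulVec, D.adj' a x, hx1, hTax, D.adj' b x, hbx, hTbx, hb']
      simp
    have hAct : ∀ v : ι → F, (a₀ • (1 : Mt) + b₀ • θ) *ᵥ v = a₀ • v + b₀ • T v := by
      intro v
      rw [Matrix.add_mulVec, Matrix.smul_mulVec, Matrix.smul_mulVec, Matrix.one_mulVec, hT]
    rw [hGx, hGTx, hAct, map_add] at e2
    have hax : 𝔣 a (T x) = t := by
      rw [D.adj' a x, hx1, hTax]
      ring
    have hab2 : 𝔣 a (T b) = 0 := by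
      rw [D.adj' a b, hab, hTab]
      ring
    have p1 := congrArg (fun v => 𝔣 a v) e2
    simp only [polar_add_right, polar_smul_right', hab, hax, hx1, hab2] at p1
    have p2 := congrArg (fun v => 𝔣 (T a) v) e2
    simp only [polar_add_right, polar_smul_right', hTab, hTax, D.nn a x, D.nn a b, hx1, hab] at p2
    have hb1 : b₀ = 1 := by
      have h5 : (b₀ - 1) * n = 0 := by linear_combination -p2
      have h6 := (mul_eq_zero.1 h5).resolve_right D.n_ne
      exact sub_eq_zero.1 h6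
    have ha1 : a₀ = 0 := by
      rw [hb1] at p1
      linear_combination -p1
    rw [hb1, ha1] at e2
    have h7 : (-t) • b + (1 : F) • T b ∈ (⊥ : Submodule F (ι → F)) := by
      rw [Submodule.mem_bot]
      have h8 : (-t) • b + (1 : F) • T b =
          ((0 : F) • (x + b) + (1 : F) • (T x + T b)) - (T x + t • b) := by module
      rw [h8, ← e2, sub_self]
    have hbb : b ∉ (⊥ : Submodule F (ι → F)) := by
      rw [Submodule.mem_bot]
      exact hb0
    exact one_ne_zero (D.KI hb hbb h7).2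
  · intro M' hHM hMS
    by_cases hMH : M' ≤ subalgebraNormalizer K ⊓ omegaGL (⇑Q)
    · exact Or.inl (le_antisymm hMH hHM)
    right
    apply le_antisymm hMS
    obtain ⟨g, hgM, hgH⟩ := SetLike.not_le_iff_exists.1 hMH
    have hgΩ := hMS hgM
    have hRoot : HasRoot Q M' T := fun y hy c h => hHM (hroots y hy c h)
    set g₀ : ↥(Cfsg.isometryGroup F (⇑Q)) := ⟨g, omegaGL_le_iso hgΩ⟩ with hg₀def
    have hg₀ : (g₀ : GL ι F) ∈ M' := hgM
    set G : Mt := (g : Mt) with hG
    set G' : Mt := ((g⁻¹ : GL ι F) : Mt) with hG'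
    have h1 : G * G' = 1 := by
      rw [hG, hG', ← Units.val_mul, mul_inv_cancel, Units.val_one]
    have h2 : G' * G = 1 := by
      rw [hG, hG', ← Units.val_mul, inv_mul_cancel, Units.val_one]
    set T' : (ι → F) →ₗ[F] (ι → F) := Matrix.mulVecLin (G * θ * G') with hT'
    by_cases hc : ∀ u, Q u = 0 → T' u ∈ K1 T u
    · obtain ⟨a₀, b₀, h⟩ := lin_rigid D hQ hn hRoot hc
      have e : G * θ * G' = a₀ • (1 : Mt) + b₀ • θ := by
        apply mat_ext
        intro x
        have := h x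
        rw [Matrix.add_mulVec, Matrix.smul_mulVec, Matrix.smul_mulVec, Matrix.one_mulVec, ← hT]
        exact this
      have hb₀ : b₀ ≠ 0 := by
        rintro rfl
        apply hθ a₀
        have h3 : G' * (G * θ * G') * G = θ := by
          calc G' * (G * θ * G') * G = (G' * G) * θ * (G' * G) := by simp only [mul_assoc]
            _ = θ := by rw [h2, one_mul, mul_one]
        rw [e] at h3
        rw [← h3]
        simp only [zero_smul, add_zero, Matrix.mul_smul, Matrix.smul_mul, mul_one, h2]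
      exact absurd ⟨mem_normalizer_of hK e hb₀, hgΩ⟩ hgH
    · push Not at hc
      obtain ⟨u, hu, hun⟩ := hc
      have hu0 : u ≠ 0 := by
        rintro rfl
        apply hun
        rw [map_zero]
        exact Submodule.zero_mem _
      set y := act g₀⁻¹ u with hy'
      have hy : Q y = 0 := by
        rw [hy', Q_act]
        exact hu
      have h3 : InY Q M' (act g₀ y) (act g₀ (T y)) := (PP.root D hRoot hy).one.conj g₀ hg₀
      have e1 : act g₀ y = u := act_act_inv g₀ u
      have e2 : act g₀ (T y) = T' u := by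
        have : y = G' *ᵥ u := rfl
        change G *ᵥ (T y) = (G * θ * G') *ᵥ u
        rw [this, hT, Matrix.mulVec_mulVec, Matrix.mulVec_mulVec, mul_assoc]
      rw [e1, e2] at h3
      exact core D hQ hn hRoot hu hu0 hun h3

/-- The data of a field of degree two, compatible with the quadratic form. -/
theorem exists_HD (hQ : (polarBilin Q).Nondegenerate) [Nonempty ι] {K : Subalgebra F Mt} (hK : IsFieldSubalgebra 2 K)
    (hac : IsAdjointClosedFor (polar (⇑Q)) K) (hnsa : ¬ IsSelfAdjointFor (polar (⇑Q)) K)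
    (hsc : ∀ k ∈ K, ∃ c : F, ∀ v : ι → F, Q (k *ᵥ v) = c * Q v) :
    ∃ (θ : Mt) (t n : F), HD Q (Matrix.mulVecLin θ) t n ∧ (∀ k, k ∈ K ↔ ∃ a b : F, k = a • (1 : Mt) + b • θ) ∧
      ∀ a : F, θ ≠ a • (1 : Mt) := by
  unfold IsSelfAdjointFor at hnsa
  push Not at hnsa
  obtain ⟨θ, hθK, u₀, v₀, hne⟩ := hnsa
  obtain ⟨θ', hθ'K, hadj⟩ := hac θ hθK
  have hpz : ∀ A B : Mt, (∀ x y, 𝔣 x (A *ᵥ y) = 𝔣 x (B *ᵥ y)) → A = B := by
    intro A B h
    apply mat_ext
    intro y
    rw [← sub_eq_zero]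
    apply hQ.2
    intro x
    rw [polarBilin_apply_apply, polar_sub_right, h, sub_self]
  have hθs : ∀ a : F, θ ≠ a • (1 : Mt) := by
    rintro a rfl
    apply hne
    simp only [Matrix.smul_mulVec, Matrix.one_mulVec, polar_smul_left', polar_smul_right']
  have hind : ∀ a b : F, a • (1 : Mt) + b • θ = 0 → a = 0 ∧ b = 0 := by
    intro a b h
    by_cases hb : b = 0
    · subst hb
      rw [zero_smul, add_zero] at h
      exact ⟨(smul_eq_zero.1 h).resolve_right one_ne_zero, rfl⟩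
    · exfalso
      apply hθs (-(b⁻¹ * a))
      have h2 : b⁻¹ • (a • (1 : Mt) + b • θ) = 0 := by rw [h, smul_zero]
      rw [smul_add, smul_smul, smul_smul, inv_mul_cancel₀ hb, one_smul] at h2
      rw [neg_smul, eq_neg_iff_add_eq_zero, add_comm]
      exact h2
  -- the span
  have hspan : ∀ k ∈ K, ∃ a b : F, k = a • (1 : Mt) + b • θ := by
    intro k hk
    have hli : LinearIndependent F ![(1 : K), (⟨θ, hθK⟩ : K)] := by
      rw [LinearIndependent.pair_iff]
      intro s t h
      exact hind s t (congrArg Subtype.val h)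
    have htop := hli.span_eq_top_of_card_eq_finrank' (by simp [hK.finrank_eq])
    have hmem : (⟨k, hk⟩ : K) ∈ Submodule.span F (Set.range ![(1 : K), (⟨θ, hθK⟩ : K)]) := by
      rw [htop]
      trivial
    simp only [Matrix.range_cons, Matrix.range_empty, Set.union_empty, Set.singleton_union] at hmem
    obtain ⟨a, b, e⟩ := Submodule.mem_span_pair.1 hmem
    exact ⟨a, b, (congrArg Subtype.val e).symm⟩
  obtain ⟨α, β, hθ'⟩ := hspan θ' hθ'K
  have hadj2 : ∀ u v, 𝔣 (θ' *ᵥ u) v = 𝔣 u (θ *ᵥ v) := by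
    intro u v
    rw [polar_comm, ← hadj, polar_comm]
  have hθ'v : ∀ v, θ' *ᵥ v = α • v + β • (θ *ᵥ v) := by
    intro v
    rw [hθ', Matrix.add_mulVec, Matrix.smul_mulVec, Matrix.smul_mulVec, Matrix.one_mulVec]
  have hrel : θ = α • (1 : Mt) + β • θ' := by
    apply hpz
    intro x y
    rw [Matrix.add_mulVec, Matrix.smul_mulVec, Matrix.smul_mulVec, Matrix.one_mulVec, ← hadj2, hθ'v,
      polar_add_left, polar_add_right, polar_smul_left', polar_smul_left', polar_smul_right', polar_smul_right', hadj]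
  have hrel2 : (α + β * α) • (1 : Mt) + (β * β - 1) • θ = 0 := by
    have h3 : (α + β * α) • (1 : Mt) + (β * β - 1) • θ = (α • (1 : Mt) + β • θ') - θ := by
      rw [hθ']
      module
    rw [h3, ← hrel, sub_self]
  obtain ⟨h4, h5⟩ := hind _ _ hrel2
  have hθne : θ' ≠ θ := by
    intro e
    apply hne
    rw [hadj, e]
  have hβ : β = -1 := by
    by_contra hcon
    have h6 : (β - 1) * (β + 1) = 0 := by linear_combination h5
    have h7 : β + 1 ≠ 0 := fun h8 => hcon (eq_neg_of_add_eq_zero_left h8)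
    have h8 : β = 1 := sub_eq_zero.1 ((mul_eq_zero.1 h6).resolve_right h7)
    rw [h8] at h4 hcon
    by_cases h2 : (2 : F) = 0
    · apply hcon
      linear_combination h2
    · have h9 : α = 0 := by
        have : 2 * α = 0 := by linear_combination h4
        exact (mul_eq_zero.1 this).resolve_left h2
      apply hθne
      rw [hθ', h9, h8]
      module
  set t := α with ht
  have hθ'2 : θ' = t • (1 : Mt) - θ := by
    rw [hθ', hβ]
    module
  have hθ'v2 : ∀ v, θ' *ᵥ v = t • v - θ *ᵥ v := by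
    intro v
    rw [hθ'v, hβ]
    module
  obtain ⟨n, b, hX⟩ := hspan (θ * θ') (K.mul_mem hθK hθ'K)
  have hb0 : b = 0 := by
    by_contra hb
    apply hθne
    apply hpz
    intro x y
    have e1 : 𝔣 ((θ * θ') *ᵥ x) y = 𝔣 x ((θ * θ') *ᵥ y) := by
      rw [← Matrix.mulVec_mulVec, ← Matrix.mulVec_mulVec, hadj, hadj2]
    rw [hX, Matrix.add_mulVec, Matrix.add_mulVec, Matrix.smul_mulVec, Matrix.smul_mulVec, Matrix.smul_mulVec,
      Matrix.smul_mulVec, Matrix.one_mulVec, Matrix.one_mulVec, polar_add_left, polar_add_right, polar_smul_left',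
      polar_smul_left', polar_smul_right', polar_smul_right', hadj] at e1
    have e2 : b * 𝔣 x (θ' *ᵥ y) = b * 𝔣 x (θ *ᵥ y) := by linear_combination e1
    exact mul_left_cancel₀ hb e2
  rw [hb0, zero_smul, add_zero] at hX
  have hsqm : θ * θ = t • θ - n • (1 : Mt) := by
    have h3 : θ * θ' = t • θ - θ * θ := by
      rw [hθ'2, Matrix.mul_sub, Matrix.mul_smul, mul_one]
    rw [hX] at h3
    rw [h3]
    module
  have hsq : ∀ x, θ *ᵥ (θ *ᵥ x) = t • (θ *ᵥ x) - n • x := by
    intro x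
    rw [Matrix.mulVec_mulVec, hsqm, Matrix.sub_mulVec, Matrix.smul_mulVec, Matrix.smul_mulVec, Matrix.one_mulVec]
  have hadjt : ∀ x y, 𝔣 (θ *ᵥ x) y = t * 𝔣 x y - 𝔣 x (θ *ᵥ y) := by
    intro x y
    rw [hadj, hθ'v2, polar_sub_right, polar_smul_right']
  have hnn : ∀ x y, 𝔣 (θ *ᵥ x) (θ *ᵥ y) = n * 𝔣 x y := by
    intro x y
    rw [hadjt, hsq, polar_sub_right, polar_smul_right', polar_smul_right']
    ring
  obtain ⟨x₁, y₁, hxy⟩ : ∃ x y, 𝔣 x y ≠ 0 := by
    by_contra hcon
    push Not at hcon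
    apply hne
    rw [hcon, hcon]
  -- polarising
  have hpolar : ∀ (S : Mt) (c : F), (∀ v, Q (S *ᵥ v) = c * Q v) → ∀ x y, 𝔣 (S *ᵥ x) (S *ᵥ y) = c * 𝔣 x y := by
    intro S c h x y
    simp only [polar]
    rw [← Matrix.mulVec_add, h, h, h]
    ring
  have hnrm : ∀ x, Q (θ *ᵥ x) = n * Q x := by
    obtain ⟨c, hc⟩ := hsc θ hθK
    have h6 := hpolar θ c hc x₁ y₁
    rw [hnn] at h6
    have h7 : n = c := mul_right_cancel₀ hxy h6
    rw [h7]
    exact hc
  have htr : ∀ x, 𝔣 x (θ *ᵥ x) = t * Q x := by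
    obtain ⟨c, hc⟩ := hsc (1 + θ) (K.add_mem K.one_mem hθK)
    have hS : ∀ v, (1 + θ) *ᵥ v = v + θ *ᵥ v := by
      intro v
      rw [Matrix.add_mulVec, Matrix.one_mulVec]
    have h6 := hpolar _ c hc x₁ y₁
    rw [hS, hS, polar_add_left, polar_add_right, polar_add_right, hnn, hadjt] at h6
    have h7 : 1 + t + n = c := by
      apply mul_right_cancel₀ hxy
      linear_combination h6
    intro x
    have h8 := hc x
    rw [hS, Q_add, hnrm, ← h7] at h8
    linear_combination h8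
  have hirr : ∀ a b : F, a * a + a * b * t + b * b * n = 0 → a = 0 ∧ b = 0 := by
    intro a b h
    set Z : Mt := a • (1 : Mt) + b • θ with hZ
    set Z' : Mt := a • (1 : Mt) + b • θ' with hZ'
    have hZK : Z ∈ K := K.add_mem (K.smul_mem K.one_mem _) (K.smul_mem hθK _)
    have hZZ : Z * Z' = 0 := by
      have e1 : Z * Z' = (a * a) • (1 : Mt) + (a * b) • θ' + (a * b) • θ + (b * b) • (θ * θ') := by
        rw [hZ, hZ']
        simp only [Matrix.mul_add, Matrix.add_mul, Matrix.mul_smul, Matrix.smul_mul, mul_one, one_mul, smul_smul, smul_add]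
        module
      rw [e1, hX, hθ'2]
      have e2 : (a * a) • (1 : Mt) + (a * b) • (t • (1 : Mt) - θ) + (a * b) • θ + (b * b) • n • (1 : Mt) =
          (a * a + a * b * t + b * b * n) • (1 : Mt) := by module
      rw [e2, h, zero_smul]
    by_cases hZ0 : Z = 0
    · exact hind a b hZ0
    exfalso
    obtain ⟨y, hy, hZy⟩ := hK.inv Z hZK hZ0
    have hZ'0 : Z' = 0 := by
      have e1 : Z' = (y * Z) * Z' := by
        rw [hK.comm y hy Z hZK, hZy, one_mul]
      rw [e1, mul_assoc, hZZ, mul_zero]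
    have e3 : (a + b * t) • (1 : Mt) + (-b) • θ = 0 := by
      rw [← hZ'0, hZ', hθ'2]
      module
    obtain ⟨h8, h9⟩ := hind _ _ e3
    have hb' : b = 0 := neg_eq_zero.1 h9
    rw [hb', zero_mul, add_zero] at h8
    apply hZ0
    rw [hZ, h8, hb']
    simp
  refine ⟨θ, t, n, ⟨?_, ?_, ?_, ?_, hirr⟩, fun k => ⟨hspan k, ?_⟩, hθs⟩
  · exact hsq
  · exact hadjt
  · exact hnrm
  · exact htr
  · rintro ⟨a, b, rfl⟩
    exact K.add_mem (K.smul_mem K.one_mem _) (K.smul_mem hθK _)

/-- **Maximality of the unitary subgroups of orthogonal groups.** -/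
theorem isMaximal_K (hn : 13 ≤ Fintype.card ι) (heven : Even (Fintype.card ι)) {Q₀ : (ι → F) → F}
    (hQ₀ : IsNondegenerateQuadraticForm Q₀) {K : Subalgebra F Mt} (hK : IsFieldSubalgebra 2 K)
    (hac : IsAdjointClosedFor (polar Q₀) K) (hnsa : ¬ IsSelfAdjointFor (polar Q₀) K)
    (hsc : ∀ k ∈ K, ∃ c : F, ∀ v : ι → F, Q₀ (k *ᵥ v) = c * Q₀ v) :
    IsMaximalIn (omegaGL Q₀) (subalgebraNormalizer K ⊓ omegaGL Q₀) := by
  haveI : Nonempty ι := by
    apply Fintype.card_pos_iff.1
    omega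
  obtain ⟨Qf, rfl, hnd⟩ := exists_quadraticForm hQ₀
  obtain ⟨θ, t, n, D, hK', hθ⟩ := exists_HD hnd hK hac hnsa hsc
  have hn14 : 14 ≤ Fintype.card ι := by
    obtain ⟨k, hk⟩ := heven
    omega
  exact isMaximal_HD hnd hn14 D (fun x => rfl) hK' hθ

end Cfsg.Agent.Lib.Classical.Sub.HO
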