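/-
A quadratic extension field acting on a symplectic space, with its non-trivial automorphism induced by the adjoint: the
associated quadratic form, the unitary transvections, the involutions of hyperbolic planes.
-/
import Mathlib
import Cfsg.Agent.Lib.Classical.Sub.HOMain
import Cfsg.Agent.Lib.Classical.Geo.SympPair

set_option autoImplicit false
set_option linter.unusedSectionVars false

namespace Cfsg.Agent.Lib.Classical.Sub.HS

open scoped Matrix MatrixGroups
open Module Cfsg Cfsg.Geo QuadraticMap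
open Cfsg.Agent.Lib.Classical.Orth.Basic
open Cfsg.Agent.Lib.Classical.Geo.Basic
open Cfsg.Agent.Lib.Classical.Geo.SympPair
open Cfsg.Agent.Lib.Classical.Geo.SympSim (gl_ext)
open Cfsg.Agent.Lib.Classical.Symp.SpGL Cfsg.Agent.Lib.Classical.Symp.Basic
open Cfsg.Agent.Lib.Classical.Sub.HO

variable {m : ℕ} {F : Type*} [Field F] [Fintype F]

local notation "V" => (Fin m ⊕ Fin m → F)
local notation "B" => sympForm m F
local notation "Mt" => Matrix (Fin m ⊕ Fin m) (Fin m ⊕ Fin m) F

/-- A pure element of a quadratic extension acting on the symplectic space. -/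
structure SD (T : V →ₗ[F] V) (d : F) : Prop where
  sq : ∀ x, T (T x) = d • x
  adj : ∀ x y, B (T x) y = - B x (T y)
  nonsq : ∀ a : F, a * a ≠ d
  two : (2 : F) ≠ 0

variable {T : (Fin m ⊕ Fin m → F) →ₗ[F] (Fin m ⊕ Fin m → F)} {d : F}

namespace SD

variable (D : SD T d)

include D

theorem d_ne : d ≠ 0 := fun h => D.nonsq 0 (by rw [h, zero_mul])

theorem adj' (x y : V) : B x (T y) = - B (T x) y := by
  rw [D.adj, neg_neg]

theorem symm (x y : V) : B (T x) y = B (T y) x := by
  rw [D.adj, sympForm_swap x (T y), neg_neg]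

theorem tt (x y : V) : B (T x) (T y) = - (d * B x y) := by
  rw [D.adj, D.sq, B_smul_right]

theorem self_T (x : V) : B x (T x) = - B (T x) x := D.adj' x x

theorem T_inj {x : V} (h : T x = 0) : x = 0 := by
  have h1 := D.sq x
  rw [h, map_zero] at h1
  exact (smul_eq_zero.1 h1.symm).resolve_left D.d_ne

end SD

/-- The quadratic form of the hermitian form. -/
noncomputable def QT (T : V →ₗ[F] V) (D : SD T d) : QuadraticForm F V where
  toFun x := B (T x) x
  toFun_smul c x := by
    rw [map_smul, B_smul_left, B_smul_right, smul_eq_mul]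
    ring
  exists_companion' := ⟨LinearMap.mk₂ F (fun x y => 2 * B (T x) y)
    (fun a b c => by rw [map_add, B_add_left]; ring)
    (fun c a b => by rw [map_smul, B_smul_left, smul_eq_mul]; ring)
    (fun a b c => by rw [B_add_right]; ring)
    (fun c a b => by rw [B_smul_right, smul_eq_mul]; ring),
    fun x y => by
      simp only [LinearMap.mk₂_apply, map_add, B_add_left, B_add_right, smul_eq_mul]
      rw [D.symm y x]
      ring⟩

namespace SD

variable (D : SD T d)

@[simp] theorem QT_apply (x : V) : QT T D x = B (T x) x := rfl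

theorem pol (x y : V) : polar (⇑(QT T D)) x y = 2 * B (T x) y := by
  simp only [polar, QT_apply, map_add, B_add_left, B_add_right]
  rw [D.symm y x]
  ring

theorem pol_T (x y : V) : polar (⇑(QT T D)) (T x) y = 2 * d * B x y := by
  rw [D.pol, D.sq, B_smul_left]
  ring

theorem hd : HD (QT T D) T 0 (-d) where
  sq x := by
    rw [D.sq]
    module
  adj x y := by
    simp only [D.pol, D.sq, B_smul_left, D.tt]
    ring
  nrm x := by
    rw [QT_apply, QT_apply, D.sq, B_smul_left, D.self_T]
    ring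
  tr x := by
    rw [D.pol, sympForm_self, QT_apply]
    ring
  irr a b h := by
    have h1 : a * a = b * b * d := by linear_combination h
    by_cases hb : b = 0
    · subst hb
      simp only [zero_mul] at h1
      exact ⟨mul_self_eq_zero.1 h1, rfl⟩
    · exfalso
      apply D.nonsq (a / b)
      field_simp
      linear_combination h1

theorem nd : (polarBilin (QT T D)).Nondegenerate := by
  apply Cfsg.Agent.Lib.Classical.Witt.Hyp.nondeg_of_polarNondeg
  intro x hx
  apply D.T_inj
  apply (sympBilin_nondegenerate (m := m) (F := F)).1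
  intro y
  have h1 := hx y
  rw [D.pol] at h1
  exact (mul_eq_zero.1 h1).resolve_left D.two

/-- Orthogonality to a stable subspace. -/
theorem perp_of_stable {L : Submodule F V} (hs : Stable T L) {y : V}
    (h : ∀ l ∈ L, polar (⇑(QT T D)) l y = 0) (l : V) (hl : l ∈ L) : B l y = 0 := by
  have h1 := h _ (hs l hl)
  rw [D.pol_T] at h1
  exact (mul_eq_zero.1 h1).resolve_left (mul_ne_zero D.two D.d_ne)

include D in
theorem T_not_mem {X : Submodule F V} (hs : Stable T X) {u : V} (h : u ∉ X) : T u ∉ X := by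
  intro hm
  apply h
  have h1 := hs _ hm
  rw [D.sq] at h1
  exact (Submodule.smul_mem_iff _ D.d_ne).1 h1

variable (hn : 7 ≤ m)

include hn in
theorem card14 : 14 ≤ Fintype.card (Fin m ⊕ Fin m) := by
  simp
  omega

include D hn

/-- A singular vector orthogonal to a stable subspace and outside of it. -/
theorem exists_perp {L : Submodule F V} (hs : Stable T L) (hf : finrank F L ≤ 4) :
    ∃ y, B (T y) y = 0 ∧ (∀ l ∈ L, B l y = 0) ∧ y ∉ L := by
  obtain ⟨y, hy, h1, h2⟩ := D.hd.exists_perp_sing D.nd (card14 hn) hs hf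
  exact ⟨y, hy, D.perp_of_stable hs h1, h2⟩

/-- A singular vector orthogonal to a stable subspace `X`, with value one on `u`. -/
theorem exists_one' {L X : Submodule F V} (hs : Stable T L) (hf : finrank F L ≤ 6) (hXs : Stable T X) (hX : X ≤ L)
    {u : V} (hu : u ∈ L) (huX : u ∉ X) : ∃ y, B (T y) y = 0 ∧ (∀ x ∈ X, B x y = 0) ∧ B u y = 1 := by
  obtain ⟨w, hw, hwX, hw1⟩ := D.hd.exists_one D.nd (card14 hn) hs hf hX (hs u hu) (D.T_not_mem hXs huX)
  rw [D.pol_T] at hw1
  have h2d : 2 * d ≠ 0 := mul_ne_zero D.two D.d_ne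
  refine ⟨(2 * d) • w, ?_, fun x hx => ?_, ?_⟩
  · rw [map_smul, B_smul_left, B_smul_right]
    have : B (T w) w = 0 := hw
    rw [this]
    ring
  · rw [B_smul_right, D.perp_of_stable hXs hwX x hx, mul_zero]
  · rw [B_smul_right]
    exact hw1

/-- A singular vector orthogonal to a stable subspace `X`, with value one on `u₁` and `u₂`. -/
theorem exists_two' {L X : Submodule F V} (hs : Stable T L) (hf : finrank F L ≤ 6) (hXs : Stable T X) (hX : X ≤ L)
    {u₁ u₂ : V} (hu₁ : u₁ ∈ L) (hu₂ : u₂ ∈ L) (h₁ : u₁ ∉ X ⊔ Submodule.span F {u₂})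
    (h₂ : u₂ ∉ X ⊔ Submodule.span F {u₁}) :
    ∃ y, B (T y) y = 0 ∧ (∀ x ∈ X, B x y = 0) ∧ B u₁ y = 1 ∧ B u₂ y = 1 := by
  have key : ∀ {a b : V}, a ∉ X ⊔ Submodule.span F {b} → T a ∉ X ⊔ Submodule.span F {T b} := by
    intro a b ha hm
    obtain ⟨x', hx', y', hy', e⟩ := Submodule.mem_sup.1 hm
    obtain ⟨c, rfl⟩ := Submodule.mem_span_singleton.1 hy'
    apply ha
    have h1 := congrArg T e
    rw [map_add, map_smul, D.sq, D.sq] at h1
    have h2 : a = d⁻¹ • T x' + c • b := by
      have h3 : d • a = d • (d⁻¹ • T x' + c • b) := by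
        rw [← h1, smul_add, smul_smul d d⁻¹, mul_inv_cancel₀ D.d_ne, one_smul, smul_comm]
      exact smul_right_injective _ D.d_ne h3
    rw [h2]
    exact Submodule.add_mem_sup (X.smul_mem _ (hXs _ hx')) (Submodule.smul_mem _ _ (Submodule.mem_span_singleton_self _))
  obtain ⟨w, hw, hwX, hw1, hw2⟩ := D.hd.exists_two D.nd (card14 hn) hs hf hX (hs _ hu₁) (hs _ hu₂) (key h₁) (key h₂)
  rw [D.pol_T] at hw1 hw2
  refine ⟨(2 * d) • w, ?_, fun x hx => ?_, ?_, ?_⟩
  · rw [map_smul, B_smul_left, B_smul_right]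
    have : B (T w) w = 0 := hw
    rw [this]
    ring
  · rw [B_smul_right, D.perp_of_stable hXs hwX x hx, mul_zero]
  · rw [B_smul_right]
    exact hw1
  · rw [B_smul_right]
    exact hw2

/-- A vector orthogonal to a small stable subspace, outside of it. -/
theorem exists_perp_nm {L : Submodule F V} (hs : Stable T L) (hf : finrank F L ≤ 6) :
    ∃ z, (∀ l ∈ L, B l z = 0) ∧ z ∉ L := by
  have := card14 hn
  obtain ⟨z, h1, h2⟩ := HD.exists_perp_not_mem (Q := QT T D) D.nd (L := L) (by omega)
  exact ⟨z, D.perp_of_stable hs h1, h2⟩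

end SD

theorem K1_le {x u : V} (D : SD T d) (hx : x ∈ K1 T u) : K1 T x ≤ K1 T u := by
  rw [K1, Submodule.span_le]
  rintro y (rfl | rfl)
  · exact hx
  · exact D.hd.stable_K1 u _ hx

theorem K1_B {u x : V} (D : SD T d) (hu : B (T u) u = 0) (hx : x ∈ K1 T u) : B u x = 0 := by
  obtain ⟨a, b, rfl⟩ := mem_K1.1 hx
  rw [B_add_right, B_smul_right, B_smul_right, sympForm_self, D.self_T, hu]
  ring

theorem gt_gt_comm {a b : V} (h : B a b = 0) (c e : F) : gt a c * gt b e = gt b e * gt a c := by
  apply gl_ext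
  intro x
  have h' : B b a = 0 := B_swap_zero h
  simp only [Units.val_mul, ← Matrix.mulVec_mulVec, gt_mulVec, B_add_left, B_smul_left, h, h', mul_zero, add_zero]
  abel

/-- The commutator of two short root elements with the same centre. -/
theorem comm_EE {u a b : V} (ha : B u a = 0) (hb : B u b = 0) :
    E u a ha * E u b hb = gt u (2 * B b a) * (E u b hb * E u a ha) := by
  apply gl_ext
  intro x
  have ha' : B a u = 0 := B_swap_zero ha
  have hb' : B b u = 0 := B_swap_zero hb
  have e1 : B a b = - B b a := sympForm_swap _ _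
  simp only [Units.val_mul, ← Matrix.mulVec_mulVec, E_mulVec, gt_mulVec, B_add_left, B_smul_left, sympForm_self, ha, hb,
    ha', hb', e1]
  module

/-- The unitary transvection. -/
noncomputable def tau (T : V →ₗ[F] V) (d : F) (u : V) (c : F) : GL (Fin m ⊕ Fin m) F :=
  gt u (c * d) * gt (T u) (-c)

theorem tau_mem (u : V) (c : F) : tau T d u c ∈ spGL m F := mul_mem (gt_mem _ _) (gt_mem _ _)

theorem tau_mulVec {u : V} (hu : B (T u) u = 0) (c : F) (x : V) :
    ((tau T d u c : GL _ F) : Mt) *ᵥ x = x + (c * d * B x u) • u - (c * B x (T u)) • T u := by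
  rw [tau, Units.val_mul, ← Matrix.mulVec_mulVec, gt_mulVec, gt_mulVec, B_add_left, B_smul_left, hu]
  simp only [mul_zero, add_zero]
  module

/-- The unitary transvection commutes with the extension. -/
theorem tau_comm (D : SD T d) {θ : Mt} (hT : ∀ x, T x = θ *ᵥ x) {u : V} (hu : B (T u) u = 0) (c : F) :
    ((tau T d u c : GL _ F) : Mt) * θ = θ * ((tau T d u c : GL _ F) : Mt) := by
  apply mat_ext
  intro x
  rw [← Matrix.mulVec_mulVec, ← Matrix.mulVec_mulVec, ← hT x, tau_mulVec hu, ← hT, tau_mulVec hu]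
  simp only [map_add, map_sub, map_smul, D.sq, D.tt x u, D.adj' x u]
  module

/-- The involution of a hyperbolic plane. -/
noncomputable def iP (X Z : V) : GL (Fin m ⊕ Fin m) F :=
  (gt X (B X Z)⁻¹ * gt Z (2 * (B X Z)⁻¹)) ^ 2

theorem iP_mem (X Z : V) : iP X Z ∈ spGL m F := pow_mem (mul_mem (gt_mem _ _) (gt_mem _ _)) 2

theorem iP_mulVec {X Z : V} (hs : B X Z ≠ 0) (x : V) :
    ((iP X Z : GL _ F) : Mt) *ᵥ x = x - (2 * (B X Z)⁻¹ * B x Z) • X + (2 * (B X Z)⁻¹ * B x X) • Z := by
  set s := B X Z with hsdef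
  set i := s⁻¹ with hi
  have his : i * s = 1 := inv_mul_cancel₀ hs
  have hZX : B Z X = -s := sympForm_swap _ _
  have hR : ∀ y : V, ((gt X i * gt Z (2 * i) : GL _ F) : Mt) *ᵥ y =
      y + (2 * i * B y Z) • Z + (i * B y X - 2 * i * B y Z) • X := by
    intro y
    rw [Units.val_mul, ← Matrix.mulVec_mulVec, gt_mulVec, gt_mulVec, B_add_left, B_smul_left, hZX]
    have e : i * (B y X + 2 * i * B y Z * -s) = i * B y X - 2 * i * B y Z := by
      linear_combination (-2 * i * B y Z) * his
    rw [e]
  rw [iP, pow_two, Units.val_mul, ← Matrix.mulVec_mulVec, ← hsdef, ← hi, hR, hR]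
  have e1 : B (x + (2 * i * B x Z) • Z + (i * B x X - 2 * i * B x Z) • X) X = B x X - 2 * B x Z := by
    rw [B_add_left, B_add_left, B_smul_left, B_smul_left, sympForm_self, hZX]
    linear_combination (-2 * B x Z) * his
  have e2 : B (x + (2 * i * B x Z) • Z + (i * B x X - 2 * i * B x Z) • X) Z = B x X - B x Z := by
    rw [B_add_left, B_add_left, B_smul_left, B_smul_left, sympForm_self, ← hsdef]
    linear_combination (B x X - 2 * B x Z) * his
  rw [e1, e2]
  module

end Cfsg.Agent.Lib.Classical.Sub.HS
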