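/-
A quadratic extension field acting on a symplectic space: an overgroup of the unitary group containing one symplectic
transvection contains all of them.
-/
import Mathlib
import Cfsg.Agent.Lib.Classical.Sub.HSBase

set_option autoImplicit false
set_option linter.unusedSectionVars false

namespace Cfsg.Agent.Lib.Classical.Sub.HS

open scoped Matrix MatrixGroups
open Module Cfsg Cfsg.Geo QuadraticMap
open Cfsg.Agent.Lib.Classical.Orth.Basic
open Cfsg.Agent.Lib.Classical.Geo.Basic
open Cfsg.Agent.Lib.Classical.Geo.SympPair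
open Cfsg.Agent.Lib.Classical.Geo.SympSim (gl_ext)
open Cfsg.Agent.Lib.Classical.Symp.SpGL Cfsg.Agent.Lib.Classical.Symp.Basic
open Cfsg.Agent.Lib.Classical.Sub.HO

variable {m : ℕ} {F : Type*} [Field F] [Fintype F]

local notation "V" => (Fin m ⊕ Fin m → F)
local notation "B" => sympForm m F
local notation "Mt" => Matrix (Fin m ⊕ Fin m) (Fin m ⊕ Fin m) F

variable {T : (Fin m ⊕ Fin m → F) →ₗ[F] (Fin m ⊕ Fin m → F)} {d : F}
  {M : Subgroup (GL (Fin m ⊕ Fin m) F)}

/-- The group contains the unitary transvections. -/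
def HasTau (M : Subgroup (GL (Fin m ⊕ Fin m) F)) (T : (Fin m ⊕ Fin m → F) →ₗ[F] (Fin m ⊕ Fin m → F)) (d : F) : Prop :=
  ∀ u, sympForm m F (T u) u = 0 → ∀ c, tau T d u c ∈ M

namespace SD

variable (D : SD T d)

include D

/-- The other vector of the extension line. -/
theorem xi_sing {y : V} (hy : B (T y) y = 0) (a b : F) : B (T (a • y + b • T y)) (a • y + b • T y) = 0 := by
  have := D.hd.Q_k a b y
  simp only [QT_apply] at this
  rw [this, hy, mul_zero]

theorem nonsq' (β : F) : d - β * β ≠ 0 := fun h => D.nonsq β (by linear_combination -h)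

/-- The image of a vector under a unitary transvection with pairing one. -/
theorem tau_one {y u : V} (hy : B (T y) y = 0) (c : F) (h : B u y = 1) :
    ((tau T d y c : GL _ F) : Mt) *ᵥ u = u + c • (d • y - (B u (T y)) • T y) := by
  rw [tau_mulVec hy, h]
  module

theorem tau_perp {y u : V} (hy : B (T y) y = 0) (c : F) (h : B u y = 0) (h' : B u (T y) = 0) :
    ((tau T d y c : GL _ F) : Mt) *ᵥ u = u := by
  rw [tau_mulVec hy, h, h']
  simp

/-- The form on the vector `ξ`. -/
theorem xi_pair {y u : V} (hy : B (T y) y = 0) (h : B u y = 1) :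
    B u (d • y - (B u (T y)) • T y) = d - B u (T y) * B u (T y) := by
  rw [B_sub_right, B_smul_right, B_smul_right, h]
  ring

theorem xi_perp {y : V} (hy : B (T y) y = 0) (β : F) :
    B (d • y - β • T y) y = 0 ∧ B (d • y - β • T y) (T y) = 0 := by
  have h1 : B y (T y) = 0 := by rw [D.self_T, hy, neg_zero]
  constructor
  · rw [B_sub_left, B_smul_left, B_smul_left, sympForm_self, hy]
    ring
  · rw [B_sub_left, B_smul_left, B_smul_left, sympForm_self, h1]
    ring

variable (hn : 7 ≤ m)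

include hn

/-- From one transvection to all the transvections with the same centre. -/
theorem vecs_of_gt (hM : HasTau M T d) {u : V} (hu : B (T u) u = 0) (hu0 : u ≠ 0) {κ : F} (hκ : κ ≠ 0)
    (hg : gt u κ ∈ M) : u ∈ vecs M := by
  have hs := D.hd.stable_K1 (Q := QT T D) u
  have hb := D.hd.stable_bot (Q := QT T D)
  obtain ⟨y, hy, -, huy⟩ := D.exists_one' hn hs (by have := finrank_K1_le T u; omega) hb bot_le (self_mem_K1 T u)
    (by rwa [Submodule.mem_bot])
  set β := B u (T y) with hβ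
  set ξ := d • y - β • T y with hξ
  have hν := D.nonsq' β
  have hup : B u ξ = d - β * β := D.xi_pair hy huy
  have hξu : B ξ u = -(d - β * β) := by rw [sympForm_swap, hup]
  obtain ⟨p1, p2⟩ := D.xi_perp hy β
  rw [← hξ] at p1 p2
  -- the transvections `tau y c` move `u` along `ξ`
  have hmove : ∀ c c' : F, ((tau T d y c : GL _ F) : Mt) *ᵥ (u + c' • ξ) = u + (c' + c) • ξ := by
    intro c c'
    rw [Matrix.mulVec_add, Matrix.mulVec_smul, D.tau_one hy c huy, D.tau_perp hy c p1 p2, ← hβ, ← hξ]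
    module
  have hsq : ∀ r : F, r ≠ 0 → gt u (r ^ 2 * κ) ∈ M := by
    intro r hr
    set c := (1 - r) / (κ * (d - β * β)) with hc
    have hcr : 1 - κ * c * (d - β * β) = r := by
      have : c * (κ * (d - β * β)) = 1 - r := div_mul_cancel₀ _ (mul_ne_zero hκ hν)
      linear_combination -this
    have e1 : gt (u + c • ξ) κ ∈ M := by
      have h := hmove c 0
      rw [zero_smul, add_zero, zero_add] at h
      rw [← h, ← conj_gt (tau_mem y c)]
      exact mul_mem (mul_mem (hM y hy c) hg) (inv_mem (hM y hy c))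
    have e2 : gt (r • (u + (c / r) • ξ)) κ ∈ M := by
      have h : ((gt u κ : GL _ F) : Mt) *ᵥ (u + c • ξ) = r • (u + (c / r) • ξ) := by
        rw [gt_mulVec, B_add_left, B_smul_left, sympForm_self, hξu, smul_add, smul_smul, mul_div_cancel₀ _ hr, ← hcr]
        module
      rw [← h, ← conj_gt (gt_mem u κ)]
      exact mul_mem (mul_mem hg e1) (inv_mem hg)
    rw [gt_smul] at e2
    have h := hmove (-(c / r)) (c / r)
    rw [add_neg_cancel, zero_smul, add_zero] at h
    have e3 := conj_gt (tau_mem (T := T) (d := d) y (-(c / r))) (u + (c / r) • ξ) (r ^ 2 * κ)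
    rw [h] at e3
    rw [← e3]
    exact mul_mem (mul_mem (hM y hy _) e2) (inv_mem (hM y hy _))
  have hsq' : ∀ r : F, gt u (r ^ 2 * κ) ∈ M := by
    intro r
    by_cases hr : r = 0
    · rw [hr]
      simp only [ne_eq, OfNat.ofNat_ne_zero, not_false_eq_true, zero_pow, zero_mul, gt_zero_right]
      exact one_mem _
    · exact hsq r hr
  intro s
  have h2 := D.two
  set p := (s / κ + 1) / 2 with hp
  set r := (s / κ - 1) / 2 with hr
  have e : s = p ^ 2 * κ + -(r ^ 2 * κ) := by
    rw [hp, hr]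
    field_simp
    ring
  rw [e, ← gt_mul, ← gt_inv]
  exact mul_mem (hsq' p) (inv_mem (hsq' r))

/-- Moving along a unitary transvection. -/
theorem vecs_step (hM : HasTau M T d) {u y : V} (hu : u ∈ vecs M) (hy : B (T y) y = 0) (h1 : B u y ≠ 0)
    (h2 : B u (T y) = 0) (hMs : M ≤ spGL m F) : y ∈ vecs M := by
  have e : ((tau T d y 1 : GL _ F) : Mt) *ᵥ u = u + (d * B u y) • y := by
    rw [tau_mulVec hy, h2]
    module
  have h3 : u + (d * B u y) • y ∈ vecs M := by
    rw [← e]
    exact mulVec_mem_vecs hu (hM y hy 1) (tau_mem y 1)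
  have hd0 : d * B u y ≠ 0 := mul_ne_zero D.d_ne h1
  have h4 : B (u + (d * B u y) • y) u ≠ 0 := by
    rw [B_add_left, sympForm_self, B_smul_left, zero_add, sympForm_swap y u]
    exact mul_ne_zero hd0 (neg_ne_zero.2 h1)
  have h5 := smul_mem_vecs (add_smul_mem_vecs h3 hu h4 (-1)) (d * B u y)⁻¹
  have e2 : (d * B u y)⁻¹ • (u + (d * B u y) • y + (-1 : F) • u) = y := by
    have : u + (d * B u y) • y + (-1 : F) • u = (d * B u y) • y := by module
    rw [this, smul_smul, inv_mul_cancel₀ hd0, one_smul]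
  rwa [e2] at h5

omit hn in
theorem not_mem_aux {a b : V} (hb : a ∉ K1 T b) :
    T a ∉ Submodule.span F {a} ⊔ Submodule.span F {b} ⊔ Submodule.span F {T b} := by
  intro hm
  obtain ⟨p, hp, q, hq, e⟩ := Submodule.mem_sup.1 hm
  obtain ⟨r, hr, s, hs, rfl⟩ := Submodule.mem_sup.1 hp
  obtain ⟨α, rfl⟩ := Submodule.mem_span_singleton.1 hr
  obtain ⟨β, rfl⟩ := Submodule.mem_span_singleton.1 hs
  obtain ⟨γ, rfl⟩ := Submodule.mem_span_singleton.1 hq
  have h3 : (-α) • a + (1 : F) • T a ∈ K1 T b := by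
    have : (-α) • a + (1 : F) • T a = β • b + γ • T b := by
      rw [← e]
      module
    rw [this]
    exact mem_K1.2 ⟨β, γ, rfl⟩
  exact one_ne_zero (D.hd.KI (Q := QT T D) (D.hd.stable_K1 (Q := QT T D) b) hb h3).2

/-- A singular vector linked to two given ones, in pairing. -/
theorem exists_link {u y : V} (hu0 : u ≠ 0) (hy : y ∉ K1 T u) :
    ∃ w, B (T w) w = 0 ∧ B u w ≠ 0 ∧ B u (T w) = 0 ∧ B y w ≠ 0 ∧ B y (T w) = 0 := by
  have hsu := D.hd.stable_K1 (Q := QT T D) u
  have hsy := D.hd.stable_K1 (Q := QT T D) y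
  have huy : u ∉ K1 T y := fun h => hy (K1_symm D.hd hu0 h)
  have hfin : finrank F ↥(K1 T u ⊔ K1 T y) ≤ 6 := by
    have h1 := Submodule.finrank_add_le_finrank_add_finrank (K1 T u) (K1 T y)
    have h2 := finrank_K1_le T u
    have h3 := finrank_K1_le T y
    omega
  obtain ⟨w, hw, hX, h1, h2⟩ := D.hd.exists_two (Q := QT T D) D.nd (card14 hn) (L := K1 T u ⊔ K1 T y)
    (X := Submodule.span F {u} ⊔ Submodule.span F {y}) (u₁ := T u) (u₂ := T y) (hsu.sup hsy) hfin
    (sup_le_sup ((Submodule.span_singleton_le_iff_mem _ _).2 (self_mem_K1 T u))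
      ((Submodule.span_singleton_le_iff_mem _ _).2 (self_mem_K1 T y)))
    (Submodule.mem_sup_left (T_mem_K1 T u)) (Submodule.mem_sup_right (T_mem_K1 T y))
    (D.not_mem_aux huy) (by rw [sup_comm (Submodule.span F {u})]; exact D.not_mem_aux hy)
  rw [D.pol_T] at h1 h2
  have h3 := hX u (Submodule.mem_sup_left (Submodule.mem_span_singleton_self _))
  have h4 := hX y (Submodule.mem_sup_right (Submodule.mem_span_singleton_self _))
  rw [D.pol] at h3 h4
  have h3' := (mul_eq_zero.1 h3).resolve_left D.two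
  have h4' := (mul_eq_zero.1 h4).resolve_left D.two
  refine ⟨w, hw, ?_, ?_, ?_, ?_⟩
  · intro h0
    rw [h0, mul_zero] at h1
    exact zero_ne_one h1
  · rw [D.adj', h3', neg_zero]
  · intro h0
    rw [h0, mul_zero] at h2
    exact zero_ne_one h2
  · rw [D.adj', h4', neg_zero]

variable (hM : HasTau M T d) (hMs : M ≤ spGL m F)

include hM hMs

theorem vecs_sing {u₀ y : V} (hu : u₀ ∈ vecs M) (hu0 : u₀ ≠ 0) (hy : B (T y) y = 0) (hyn : y ∉ K1 T u₀) :
    y ∈ vecs M := by
  obtain ⟨w, hw, a1, a2, a3, a4⟩ := D.exists_link hn hu0 hyn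
  have hw' := D.vecs_step hn hM hu hw a1 a2 hMs
  refine D.vecs_step hn hM hw' hy ?_ ?_ hMs
  · rw [sympForm_swap]
    exact neg_ne_zero.2 a3
  · rw [sympForm_swap, D.adj, a4, neg_zero, neg_zero]

theorem vecs_sing' {u₀ y : V} (hu : u₀ ∈ vecs M) (hu0 : u₀ ≠ 0) (hy : B (T y) y = 0) : y ∈ vecs M := by
  by_cases hyn : y ∈ K1 T u₀
  · by_cases hy0 : y = 0
    · intro c
      rw [hy0, gt_zero_left]
      exact one_mem _
    obtain ⟨y₂, hy₂, -, hn₂⟩ := D.exists_perp hn (D.hd.stable_K1 (Q := QT T D) u₀)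
      (by have := finrank_K1_le T u₀; omega)
    have h2 := D.vecs_sing hn hM hMs hu hu0 hy₂ hn₂
    have hy20 : y₂ ≠ 0 := by
      rintro rfl
      exact hn₂ (Submodule.zero_mem _)
    refine D.vecs_sing hn hM hMs h2 hy20 hy fun hm => hn₂ ?_
    exact K1_le D hyn (K1_symm D.hd hy0 hm)
  · exact D.vecs_sing hn hM hMs hu hu0 hy hyn

theorem vecs_all {u₀ : V} (hu : u₀ ∈ vecs M) (hu0 : u₀ ≠ 0) (x : V) : x ∈ vecs M := by
  by_cases hx : B (T x) x = 0
  · exact D.vecs_sing' hn hM hMs hu hu0 hx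
  have hx0 : x ≠ 0 := by
    rintro rfl
    apply hx
    rw [map_zero]
    exact B_zero_left _
  have hbs := D.hd.stable_bot (Q := QT T D)
  have hxb : x ∉ (⊥ : Submodule F V) := by rwa [Submodule.mem_bot]
  obtain ⟨w, hw, -, h1, h2⟩ := D.hd.exists_two (Q := QT T D) D.nd (card14 hn) (L := K1 T x)
    (X := ⊥) (u₁ := (B (T x) x)⁻¹ • x) (u₂ := T x) (D.hd.stable_K1 (Q := QT T D) x)
    (by have := finrank_K1_le T x; omega) bot_le
    (Submodule.smul_mem _ _ (self_mem_K1 T x)) (T_mem_K1 T x)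
    (by
      rw [bot_sup_eq]
      intro hm
      obtain ⟨c, e⟩ := Submodule.mem_span_singleton.1 hm
      have h3 : (B (T x) x)⁻¹ • x + (-c) • T x ∈ (⊥ : Submodule F V) := by
        rw [Submodule.mem_bot, ← e]
        module
      exact inv_ne_zero hx (D.hd.KI (Q := QT T D) hbs hxb h3).1)
    (by
      rw [bot_sup_eq]
      intro hm
      obtain ⟨c, e⟩ := Submodule.mem_span_singleton.1 hm
      generalize (B (T x) x)⁻¹ = i at e
      have h3 : (-(c * i)) • x + (1 : F) • T x ∈ (⊥ : Submodule F V) := by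
        rw [Submodule.mem_bot, ← e]
        module
      exact one_ne_zero (D.hd.KI (Q := QT T D) hbs hxb h3).2)
  rw [D.pol_T] at h2
  have h1' : 2 * B (T x) w = B (T x) x := by
    rw [polar_smul_left', D.pol] at h1
    field_simp at h1
    linear_combination h1
  have hw' : w ∈ vecs M := D.vecs_sing' hn hM hMs hu hu0 hw
  have hy₂ : B (T (x - w)) (x - w) = 0 := by
    have hww : B (T w) w = 0 := hw
    rw [map_sub, B_sub_left, B_sub_right, B_sub_right, hww, D.symm w x]
    linear_combination -h1'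
  have hy' : x - w ∈ vecs M := D.vecs_sing' hn hM hMs hu hu0 hy₂
  have hne : B w (x - w) ≠ 0 := by
    rw [B_sub_right, sympForm_self, sub_zero, sympForm_swap]
    intro h0
    have h3 : B x w = 0 := neg_eq_zero.1 h0
    rw [h3, mul_zero] at h2
    exact zero_ne_one h2
  have := add_smul_mem_vecs hw' hy' hne 1
  have e : w + (1 : F) • (x - w) = x := by module
  rwa [e] at this

/-- One transvection is enough. -/
theorem spGL_le_of_gt {u : V} (hu : B (T u) u = 0) (hu0 : u ≠ 0) {κ : F} (hκ : κ ≠ 0) (hg : gt u κ ∈ M) :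
    spGL m F ≤ M :=
  spGL_le_of_vecs (D.vecs_all hn hM hMs (D.vecs_of_gt hn hM hu hu0 hκ hg) hu0)

end SD

end Cfsg.Agent.Lib.Classical.Sub.HS
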