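/-
A quadratic extension field acting on a symplectic space: from an involution of a hyperbolic plane to a transvection.
-/
import Mathlib
import Cfsg.Agent.Lib.Classical.Sub.HSStep

set_option autoImplicit false
set_option linter.unusedSectionVars false

namespace Cfsg.Agent.Lib.Classical.Sub.HS

open scoped Matrix MatrixGroups
open Module Cfsg Cfsg.Geo QuadraticMap
open Cfsg.Agent.Lib.Classical.Orth.Basic
open Cfsg.Agent.Lib.Classical.Geo.Basic
open Cfsg.Agent.Lib.Classical.Geo.SympPair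
open Cfsg.Agent.Lib.Classical.Geo.SympSim (gl_ext)
open Cfsg.Agent.Lib.Classical.Symp.SpGL Cfsg.Agent.Lib.Classical.Symp.Basic
open Cfsg.Agent.Lib.Classical.Sub.HO

variable {m : ℕ} {F : Type*} [Field F] [Fintype F]

local notation "V" => (Fin m ⊕ Fin m → F)
local notation "B" => sympForm m F
local notation "Mt" => Matrix (Fin m ⊕ Fin m) (Fin m ⊕ Fin m) F

variable {T : (Fin m ⊕ Fin m → F) →ₗ[F] (Fin m ⊕ Fin m → F)} {d : F}
  {M : Subgroup (GL (Fin m ⊕ Fin m) F)}

theorem iP_conj {g : GL (Fin m ⊕ Fin m) F} (hg : g ∈ spGL m F) (X Z : V) :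
    g * iP X Z * g⁻¹ = iP ((g : Mt) *ᵥ X) ((g : Mt) *ᵥ Z) := by
  have h1 := (mem_spGL_iff g).1 hg X Z
  simp only [iP, pow_two]
  rw [h1, ← conj_gt hg X, ← conj_gt hg Z]
  group

theorem iP_plane {X Z : V} (hs : B X Z ≠ 0) {a b c e : F} (hδ : a * e - b * c ≠ 0) :
    iP (a • X + b • Z) (c • X + e • Z) = iP X Z := by
  have hZX : B Z X = - B X Z := sympForm_swap _ _
  have hs' : B (a • X + b • Z) (c • X + e • Z) = (a * e - b * c) * B X Z := by
    simp only [B_add_left, B_add_right, B_smul_left, B_smul_right, sympForm_self, hZX]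
    ring
  apply gl_ext
  intro x
  rw [iP_mulVec (by rw [hs']; exact mul_ne_zero hδ hs), iP_mulVec hs, hs']
  simp only [B_add_right, B_smul_right]
  funext i
  simp only [Pi.add_apply, Pi.sub_apply, Pi.smul_apply, smul_eq_mul]
  field_simp
  ring

theorem iP_iP {X Z : V} (hs : B X Z ≠ 0) : iP X Z * iP X Z = 1 := by
  have hZX : B Z X = - B X Z := sympForm_swap _ _
  apply gl_ext
  intro x
  rw [Units.val_mul, ← Matrix.mulVec_mulVec, iP_mulVec hs, iP_mulVec hs]
  simp only [B_add_left, B_sub_left, B_smul_left, sympForm_self, hZX, Units.val_one, Matrix.one_mulVec]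
  funext i
  simp only [Pi.add_apply, Pi.sub_apply, Pi.smul_apply, smul_eq_mul]
  field_simp
  ring

theorem iP_iP_E {u v e : V} (huv : B u v = 1) (hue : B u e = 0)
    (h0 : B u ((2 : F) • e - (2 * B e v) • u) = 0) : iP u v * iP u (v + e) = E u ((2 : F) • e - (2 * B e v) • u) h0 := by
  have huv' : B u (v + e) = 1 := by rw [B_add_right, huv, hue, add_zero]
  have hvu : B v u = -1 := by rw [sympForm_swap, huv]
  have heu : B e u = 0 := B_swap_zero hue
  apply gl_ext
  intro x
  rw [Units.val_mul, ← Matrix.mulVec_mulVec, iP_mulVec (by rw [huv]; exact one_ne_zero),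
    iP_mulVec (by rw [huv']; exact one_ne_zero), E_mulVec, huv, huv']
  simp only [B_add_left, B_sub_left, B_smul_left, B_add_right, B_sub_right, B_smul_right, sympForm_self, huv, hvu, heu, hue,
    inv_one]
  module

/-- The conjugate of a short root element fixing its centre. -/
theorem conj_E' {g : GL (Fin m ⊕ Fin m) F} (hg : g ∈ spGL m F) {u v : V} (h : B u v = 0) (hu : (g : Mt) *ᵥ u = u)
    (h' : B u ((g : Mt) *ᵥ v) = 0) : g * E u v h * g⁻¹ = E u ((g : Mt) *ᵥ v) h' := by
  rw [conj_E hg u v h (by rw [hu]; exact h')]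
  simp only [hu]

namespace SD

variable (D : SD T d) (hn : 7 ≤ m) (hM : HasTau M T d) (hMs : M ≤ spGL m F)

include D hn hM hMs

/-- From a short root element to a transvection. -/
theorem gt_of_E {u a : V} (h : B u a = 0) (ha : a ∉ K1 T u) (hE : E u a h ∈ M) : ∃ κ : F, κ ≠ 0 ∧ gt u κ ∈ M := by
  have hsu := D.hd.stable_K1 (Q := QT T D) u
  have hsa := D.hd.stable_K1 (Q := QT T D) a
  have hfin : finrank F ↥(K1 T u ⊔ K1 T a) ≤ 6 := by
    have h1 := Submodule.finrank_add_le_finrank_add_finrank (K1 T u) (K1 T a)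
    have h2 := finrank_K1_le T u
    have h3 := finrank_K1_le T a
    omega
  obtain ⟨y, hy, hyX, hay⟩ := D.exists_one' hn (hsu.sup hsa) hfin hsu le_sup_left
    (Submodule.mem_sup_right (self_mem_K1 T a)) ha
  have huy : B u y = 0 := hyX u (self_mem_K1 T u)
  have huTy : B u (T y) = 0 := by rw [D.adj', hyX _ (T_mem_K1 T u), neg_zero]
  have e1 := D.tau_perp hy 1 huy huTy
  have e2 := D.tau_one hy 1 hay
  set ξ := d • y - B a (T y) • T y with hξ
  have hτ := tau_mem (T := T) (d := d) y 1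
  have h' : B u (((tau T d y 1 : GL _ F) : Mt) *ᵥ a) = 0 := by
    rw [e2, B_add_right, h, B_smul_right, hξ, B_sub_right, B_smul_right, B_smul_right, huy, huTy]
    ring
  have e3 := conj_E' hτ h e1 h'
  have hE2 : E u _ h' ∈ M := by
    rw [← e3]
    exact mul_mem (mul_mem (hM y hy 1) hE) (inv_mem (hM y hy 1))
  have e4 := comm_EE h h'
  have hc : gt u (2 * B (((tau T d y 1 : GL _ F) : Mt) *ᵥ a) a) = E u a h * E u _ h' * (E u _ h' * E u a h)⁻¹ := by
    rw [e4, mul_inv_cancel_right]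
  refine ⟨_, ?_, by rw [hc]; exact mul_mem (mul_mem hE hE2) (inv_mem (mul_mem hE2 hE))⟩
  apply mul_ne_zero D.two
  have e5 : B (((tau T d y 1 : GL _ F) : Mt) *ᵥ a) a = -(d - B a (T y) * B a (T y)) := by
    rw [sympForm_swap, e2, B_add_right, sympForm_self, B_smul_right, D.xi_pair hy hay]
    ring
  rw [e5]
  exact neg_ne_zero.2 (D.nonsq' _)

/-- From the involution of a hyperbolic plane to a transvection. -/
theorem gt_of_iP {u v : V} (hu : B (T u) u = 0) (huv : B u v = 1) (hi : iP u v ∈ M) : ∃ κ : F, κ ≠ 0 ∧ gt u κ ∈ M := by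
  have hsu := D.hd.stable_K1 (Q := QT T D) u
  have hsv := D.hd.stable_K1 (Q := QT T D) v
  have f1 := finrank_K1_le T u
  have f2 := finrank_K1_le T v
  have hfin : finrank F ↥(K1 T u ⊔ K1 T v) ≤ 4 := by
    have h1 := Submodule.finrank_add_le_finrank_add_finrank (K1 T u) (K1 T v)
    omega
  obtain ⟨z, hz, hzn⟩ := D.exists_perp_nm hn (hsu.sup hsv) (by omega)
  have hsz := D.hd.stable_K1 (Q := QT T D) z
  have hfin2 : finrank F ↥(K1 T u ⊔ K1 T v ⊔ K1 T z) ≤ 6 := by
    have h1 := Submodule.finrank_add_le_finrank_add_finrank (K1 T u ⊔ K1 T v) (K1 T z)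
    have h2 := finrank_K1_le T z
    omega
  have hvu : v ∉ K1 T u := by
    intro hm
    rw [K1_B D hu hm] at huv
    exact zero_ne_one huv
  have h₁ : v ∉ K1 T u ⊔ Submodule.span F {z} := by
    intro hm
    obtain ⟨x, hx, y, hy, e⟩ := Submodule.mem_sup.1 hm
    obtain ⟨c, rfl⟩ := Submodule.mem_span_singleton.1 hy
    by_cases hc : c = 0
    · rw [hc, zero_smul, add_zero] at e
      exact hvu (e ▸ hx)
    · apply hzn
      have e2 : z = c⁻¹ • (v - x) := by
        rw [← e, add_sub_cancel_left, smul_smul, inv_mul_cancel₀ hc, one_smul]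
      rw [e2]
      exact Submodule.smul_mem _ _ (Submodule.sub_mem _ (Submodule.mem_sup_right (self_mem_K1 T v))
        (Submodule.mem_sup_left hx))
  have h₂ : z ∉ K1 T u ⊔ Submodule.span F {v} := fun hm =>
    hzn (sup_le_sup_left ((Submodule.span_singleton_le_iff_mem _ _).2 (self_mem_K1 T v)) _ hm)
  obtain ⟨y, hy, hyX, hvy, hzy⟩ := D.exists_two' hn (L := K1 T u ⊔ K1 T v ⊔ K1 T z) (X := K1 T u) ((hsu.sup hsv).sup hsz)
    hfin2 hsu (le_sup_left.trans le_sup_left) (Submodule.mem_sup_left (Submodule.mem_sup_right (self_mem_K1 T v)))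
    (Submodule.mem_sup_right (self_mem_K1 T z)) h₁ h₂
  have hyn : y ∉ K1 T u := by
    intro hm
    have := hz y (Submodule.mem_sup_left hm)
    rw [sympForm_swap, hzy] at this
    exact one_ne_zero (neg_eq_zero.1 this)
  have huy : B u y = 0 := hyX u (self_mem_K1 T u)
  have huTy : B u (T y) = 0 := by rw [D.adj', hyX _ (T_mem_K1 T u), neg_zero]
  have e1 := D.tau_perp hy 1 huy huTy
  have e2 := D.tau_one hy 1 hvy
  set e := d • y - B v (T y) • T y with he
  have hτ := tau_mem (T := T) (d := d) y 1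
  have hue : B u e = 0 := by
    rw [he, B_sub_right, B_smul_right, B_smul_right, huy, huTy]
    ring
  have hi2 : iP u (v + e) ∈ M := by
    have h3 := iP_conj hτ u v
    rw [e1, e2, one_smul] at h3
    rw [← h3]
    exact mul_mem (mul_mem (hM y hy 1) hi) (inv_mem (hM y hy 1))
  have h0 : B u ((2 : F) • e - (2 * B e v) • u) = 0 := by
    rw [B_sub_right, B_smul_right, B_smul_right, hue, sympForm_self]
    ring
  have hE : E u ((2 : F) • e - (2 * B e v) • u) h0 ∈ M := by
    rw [← iP_iP_E huv hue h0]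
    exact mul_mem hi hi2
  refine D.gt_of_E hn hM hMs h0 ?_ hE
  intro hm
  have h4 : (d) • y + (-B v (T y)) • T y ∈ K1 T u := by
    have h5 : (d) • y + (-B v (T y)) • T y = (2 : F)⁻¹ • (((2 : F) • e - (2 * B e v) • u) + (2 * B e v) • u) := by
      rw [sub_add_cancel, smul_smul, inv_mul_cancel₀ D.two, one_smul, he]
      module
    rw [h5]
    exact Submodule.smul_mem _ _ (Submodule.add_mem _ hm (Submodule.smul_mem _ _ (self_mem_K1 T u)))
  exact D.d_ne (D.hd.KI (Q := QT T D) hsu hyn h4).1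

/-- From a transvection, possibly not unitary, to the involution of a hyperbolic plane. -/
theorem iP_of_gt {A : V} (hA : A ≠ 0) {κ : F} (hκ : κ ≠ 0) (hg : gt A κ ∈ M) :
    ∃ u v : V, B (T u) u = 0 ∧ B u v = 1 ∧ iP u v ∈ M := by
  have hs := D.hd.stable_K1 (Q := QT T D) A
  have hb := D.hd.stable_bot (Q := QT T D)
  obtain ⟨y, hy, -, hAy⟩ := D.exists_one' hn hs (by have := finrank_K1_le T A; omega) hb bot_le (self_mem_K1 T A)
    (by rwa [Submodule.mem_bot])
  set β := B A (T y) with hβ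
  set ξ := d • y - β • T y with hξ
  have hν := D.nonsq' β
  have hup : B A ξ = d - β * β := D.xi_pair hy hAy
  set c := (κ * (d - β * β))⁻¹ with hc
  have hcν : c * (d - β * β) = κ⁻¹ := by
    rw [hc, mul_inv, mul_assoc, inv_mul_cancel₀ hν, mul_one]
  have e1 := D.tau_one hy c hAy
  rw [← hβ, ← hξ] at e1
  set A' := A + c • ξ with hA'
  have hAA' : B A A' = κ⁻¹ := by
    rw [hA', B_add_right, sympForm_self, B_smul_right, hup, zero_add, hcν]
  have hg' : gt A' κ ∈ M := by
    rw [← e1, ← conj_gt (tau_mem y c)]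
    exact mul_mem (mul_mem (hM y hy c) hg) (inv_mem (hM y hy c))
  have hi : iP A A' ∈ M := by
    rw [iP, hAA', inv_inv, two_mul, ← gt_mul]
    exact pow_mem (mul_mem hg (mul_mem hg' hg')) 2
  have hκi : κ⁻¹ ≠ 0 := inv_ne_zero hκ
  have e2 : iP ((-1 : F) • A + (1 : F) • A') ((-κ) • A + (0 : F) • A') = iP A A' := by
    apply iP_plane
    · rw [hAA']
      exact hκi
    · simpa using hκ
  refine ⟨(-1 : F) • A + (1 : F) • A', (-κ) • A + (0 : F) • A', ?_, ?_, e2 ▸ hi⟩
  · have e3 : (-1 : F) • A + (1 : F) • A' = (c * d) • y + (-(c * β)) • T y := by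
      rw [hA', hξ]
      module
    rw [e3]
    exact D.xi_sing hy _ _
  · have hA'A : B A' A = -κ⁻¹ := by rw [sympForm_swap, hAA']
    simp only [B_add_left, B_add_right, B_smul_left, B_smul_right, sympForm_self, hAA', hA'A]
    field_simp
    ring

/-- Any nontrivial transvection in the overgroup gives all of the symplectic group. -/
theorem spGL_le_of_gt' {A : V} (hA : A ≠ 0) {κ : F} (hκ : κ ≠ 0) (hg : gt A κ ∈ M) : spGL m F ≤ M := by
  obtain ⟨u, v, hu, huv, hi⟩ := D.iP_of_gt hn hM hMs hA hκ hg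
  obtain ⟨κ', hκ', hg'⟩ := D.gt_of_iP hn hM hMs hu huv hi
  refine D.spGL_le_of_gt hn hM hMs hu ?_ hκ' hg'
  rintro rfl
  rw [B_zero_left] at huv
  exact zero_ne_one huv

end SD

end Cfsg.Agent.Lib.Classical.Sub.HS
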