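/-
The normaliser of a quadratic extension field acting on a symplectic space, with its non-trivial automorphism induced by
the adjoint, is maximal in the symplectic group.
-/
import Mathlib
import Cfsg.Agent.Lib.Classical.Sub.HSInv

set_option autoImplicit false
set_option linter.unusedSectionVars false

namespace Cfsg.Agent.Lib.Classical.Sub.HS

open scoped Matrix MatrixGroups
open Module Cfsg Cfsg.Geo QuadraticMap
open Cfsg.Agent.Lib.Classical.Orth.Basic
open Cfsg.Agent.Lib.Classical.Geo.Basic
open Cfsg.Agent.Lib.Classical.Geo.SympPair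
open Cfsg.Agent.Lib.Classical.Geo.SympSim (gl_ext)
open Cfsg.Agent.Lib.Classical.Symp.SpGL Cfsg.Agent.Lib.Classical.Symp.Basic
open Cfsg.Agent.Lib.Classical.Sub.HO

variable {m : ℕ} {F : Type*} [Field F] [Fintype F]

local notation "V" => (Fin m ⊕ Fin m → F)
local notation "B" => sympForm m F
local notation "Mt" => Matrix (Fin m ⊕ Fin m) (Fin m ⊕ Fin m) F

variable {T : (Fin m ⊕ Fin m → F) →ₗ[F] (Fin m ⊕ Fin m → F)} {d : F}
  {M : Subgroup (GL (Fin m ⊕ Fin m) F)}

/-- The involution of a line over the extension commutes with the extension. -/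
theorem iP_comm (D : SD T d) {θ : Mt} (hT : ∀ x, T x = θ *ᵥ x) {w : V} (hs : B w (T w) ≠ 0) :
    ((iP w (T w) : GL _ F) : Mt) * θ = θ * ((iP w (T w) : GL _ F) : Mt) := by
  apply mat_ext
  intro x
  rw [← Matrix.mulVec_mulVec, ← Matrix.mulVec_mulVec, ← hT x, iP_mulVec hs, ← hT, iP_mulVec hs]
  simp only [map_add, map_sub, map_smul, D.sq, D.tt x w, D.adj' x w]
  module

/-- The two commuting transvections as a short root element. -/
theorem E_plus_minus {X Z : V} (hs : B X Z = 0) (h : B (X - Z) (X + Z) = 0) :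
    gt X 2 * gt Z (-2) = E (X - Z) (X + Z) h := by
  have hZX : B Z X = 0 := B_swap_zero hs
  apply gl_ext
  intro x
  rw [Units.val_mul, ← Matrix.mulVec_mulVec, gt_mulVec, gt_mulVec, E_mulVec]
  simp only [B_add_left, B_add_right, B_sub_right, B_smul_left, hZX]
  module

/-- A power computation. -/
theorem gt_W_pow {u X Z : V} (huX : B u X = 0) (huZ : B u Z = 0) (hs : B X Z ≠ 0) (κ₀ : F)
    (hm : gt u κ₀ * (gt X (B X Z)⁻¹ * gt Z (2 * (B X Z)⁻¹)) ∈ M) :
    gt u (2 * κ₀) * iP X Z ∈ M ∧ gt u (4 * κ₀) ∈ M := by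
  set W := gt X (B X Z)⁻¹ * gt Z (2 * (B X Z)⁻¹) with hW
  have hc : ∀ a, Commute (gt u a) W := fun a =>
    Commute.mul_right (gt_gt_comm huX _ _) (gt_gt_comm huZ _ _)
  have h2 : gt u (2 * κ₀) * iP X Z = (gt u κ₀ * W) ^ 2 := by
    rw [(hc κ₀).mul_pow, pow_two (gt u κ₀), gt_mul, iP, ← hW, two_mul]
  have h2m : gt u (2 * κ₀) * iP X Z ∈ M := by
    rw [h2]
    exact pow_mem hm 2
  refine ⟨h2m, ?_⟩
  have hc2 : Commute (gt u (2 * κ₀)) (iP X Z) := by
    rw [iP, ← hW]
    exact (hc _).pow_right 2
  have h4 : gt u (4 * κ₀) = (gt u (2 * κ₀) * iP X Z) ^ 2 := by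
    rw [hc2.mul_pow, pow_two (iP X Z), iP_iP hs, mul_one, pow_two, gt_mul]
    congr 1
    ring
  rw [h4]
  exact pow_mem h2m 2

set_option maxHeartbeats 1000000 in
/-- **Maximality of the unitary subgroups of symplectic groups.** -/
theorem isMaximal_SD (hn : 7 ≤ m) (D : SD T d) {θ : Mt} (hT : ∀ x, T x = θ *ᵥ x) {K : Subalgebra F Mt}
    (hK : ∀ k, k ∈ K ↔ ∃ a b : F, k = a • (1 : Mt) + b • θ) (hθ : ∀ a : F, θ ≠ a • (1 : Mt)) :
    IsMaximalIn (spGL m F) (subalgebraNormalizer K ⊓ spGL m F) := by
  have hθK : θ ∈ K := (hK θ).2 ⟨0, 1, by simp⟩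
  have hcomm_mem : ∀ g : GL (Fin m ⊕ Fin m) F, (g : Mt) * θ = θ * (g : Mt) → g ∈ spGL m F →
      g ∈ subalgebraNormalizer K ⊓ spGL m F := by
    intro g h hg
    refine ⟨mem_normalizer_of hK (a₀ := 0) (b₀ := 1) ?_ one_ne_zero, hg⟩
    rw [h, mul_assoc, ← Units.val_mul, mul_inv_cancel, Units.val_one, mul_one]
    simp
  have hroots : ∀ u (hu : B (T u) u = 0) c, tau T d u c ∈ subalgebraNormalizer K ⊓ spGL m F := fun u hu c =>
    hcomm_mem _ (tau_comm D hT hu c) (tau_mem u c)
  have hb := D.hd.stable_bot (Q := QT T D)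
  refine ⟨lt_of_le_not_ge inf_le_right fun hle => ?_, ?_⟩
  · -- strictness
    obtain ⟨u, hu, -, hun⟩ := D.exists_perp hn hb (by simp)
    have hu0 : u ≠ 0 := by
      rintro rfl
      exact hun (Submodule.zero_mem _)
    have hsu := D.hd.stable_K1 (Q := QT T D) u
    have hTu : T u ∉ Submodule.span F {u} := by
      intro hm
      obtain ⟨c, e⟩ := Submodule.mem_span_singleton.1 hm
      have h3 : (-c) • u + (1 : F) • T u ∈ (⊥ : Submodule F V) := by
        rw [Submodule.mem_bot, ← e]
        module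
      exact one_ne_zero (D.hd.KI (Q := QT T D) hb hun h3).2
    obtain ⟨w, -, hw0, hw1⟩ := D.hd.exists_one (Q := QT T D) D.nd (SD.card14 hn) (L := K1 T u) (X := Submodule.span F {u})
      (u := T u) hsu (by have := finrank_K1_le T u; omega)
      ((Submodule.span_singleton_le_iff_mem _ _).2 (self_mem_K1 T u)) (T_mem_K1 T u) hTu
    rw [D.pol_T] at hw1
    have hw2 := hw0 u (Submodule.mem_span_singleton_self _)
    rw [D.pol] at hw2
    have hw3 := (mul_eq_zero.1 hw2).resolve_left D.two
    set x := (-(2 * d)) • w with hx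
    have hxu : B x u = 1 := by
      rw [hx, B_smul_left, sympForm_swap w u]
      linear_combination hw1
    have hxTu : B x (T u) = 0 := by
      rw [hx, B_smul_left, sympForm_swap w (T u), hw3]
      ring
    have hTxu : B (T x) u = 0 := by rw [D.adj, hxTu, neg_zero]
    have hN := (hle (gt_mem u 1)).1
    obtain ⟨a₀, b₀, e⟩ := (hK _).1 ((hN θ).1 hθK)
    set G : Mt := (gt u 1 : Mt) with hG
    have e1 : G * θ = (a₀ • (1 : Mt) + b₀ • θ) * G := by
      rw [← e, mul_assoc, ← Units.val_mul, inv_mul_cancel, Units.val_one, mul_one]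
    have e2 : G *ᵥ (θ *ᵥ x) = (a₀ • (1 : Mt) + b₀ • θ) *ᵥ (G *ᵥ x) := by
      rw [Matrix.mulVec_mulVec, Matrix.mulVec_mulVec, e1]
    rw [← hT x] at e2
    have hGx : G *ᵥ x = x + u := by
      rw [hG, gt_mulVec, hxu]
      simp
    have hGTx : G *ᵥ (T x) = T x := by
      rw [hG, gt_mulVec, hTxu]
      simp
    have hAct : ∀ v : V, (a₀ • (1 : Mt) + b₀ • θ) *ᵥ v = a₀ • v + b₀ • T v := by
      intro v
      rw [Matrix.add_mulVec, Matrix.smul_mulVec, Matrix.smul_mulVec, Matrix.one_mulVec, hT]
    rw [hGx, hGTx, hAct, map_add] at e2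
    have hxn : x ∉ K1 T u := by
      intro hm
      have h3 := K1_B D hu hm
      rw [sympForm_swap, hxu] at h3
      exact one_ne_zero (neg_eq_zero.1 h3)
    have h4 : (-a₀) • x + (1 - b₀) • T x ∈ K1 T u := by
      have : (-a₀) • x + (1 - b₀) • T x = a₀ • u + b₀ • T u := by
        calc (-a₀) • x + (1 - b₀) • T x = T x - a₀ • x - b₀ • T x := by module
          _ = (a₀ • (x + u) + b₀ • (T x + T u)) - a₀ • x - b₀ • T x := by rw [← e2]
          _ = a₀ • u + b₀ • T u := by module
      rw [this]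
      exact mem_K1.2 ⟨_, _, rfl⟩
    obtain ⟨h5, h6⟩ := D.hd.KI (Q := QT T D) hsu hxn h4
    have ha0 : a₀ = 0 := neg_eq_zero.1 h5
    have hb1 : b₀ = 1 := (sub_eq_zero.1 h6).symm
    rw [ha0, hb1, zero_smul, one_smul, zero_add] at e2
    have h7 : T u = 0 := by
      have := e2
      rwa [left_eq_add] at this
    exact hu0 (D.T_inj h7)
  · intro M' hHM hMS
    by_cases hMH : M' ≤ subalgebraNormalizer K ⊓ spGL m F
    · exact Or.inl (le_antisymm hMH hHM)
    right
    apply le_antisymm hMS
    obtain ⟨g, hgM, hgH⟩ := SetLike.not_le_iff_exists.1 hMH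
    have hgS := hMS hgM
    have hM : HasTau M' T d := fun u hu c => hHM (hroots u hu c)
    set G : Mt := (g : Mt) with hG
    set G' : Mt := ((g⁻¹ : GL _ F) : Mt) with hG'
    have h1 : G * G' = 1 := by
      rw [hG, hG', ← Units.val_mul, mul_inv_cancel, Units.val_one]
    have h2 : G' * G = 1 := by
      rw [hG, hG', ← Units.val_mul, inv_mul_cancel, Units.val_one]
    set T' : V →ₗ[F] V := Matrix.mulVecLin (G * θ * G') with hT'
    by_cases hc : ∀ u, QT T D u = 0 → T' u ∈ K1 T u
    · obtain ⟨a₀, b₀, h⟩ := lin_rigid (M := ⊤) D.hd D.nd (SD.card14 hn) (fun _ _ _ _ => trivial) hc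
      have e : G * θ * G' = a₀ • (1 : Mt) + b₀ • θ := by
        apply mat_ext
        intro x
        have := h x
        rw [Matrix.add_mulVec, Matrix.smul_mulVec, Matrix.smul_mulVec, Matrix.one_mulVec, ← hT]
        exact this
      have hb₀ : b₀ ≠ 0 := by
        rintro rfl
        apply hθ a₀
        have h3 : G' * (G * θ * G') * G = θ := by
          calc G' * (G * θ * G') * G = (G' * G) * θ * (G' * G) := by simp only [mul_assoc]
            _ = θ := by rw [h2, one_mul, mul_one]
        rw [e] at h3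
        rw [← h3]
        simp only [zero_smul, add_zero, Matrix.mul_smul, Matrix.smul_mul, mul_one, h2]
      exact absurd ⟨mem_normalizer_of hK e hb₀, hgS⟩ hgH
    · push Not at hc
      obtain ⟨u, hu, hun⟩ := hc
      have hu' : B (T u) u = 0 := hu
      have hu0 : u ≠ 0 := by
        rintro rfl
        apply hun
        rw [map_zero]
        exact Submodule.zero_mem _
      set w := G' *ᵥ u with hw
      have hGw : G *ᵥ w = u := by
        rw [hw, Matrix.mulVec_mulVec, h1, Matrix.one_mulVec]
      set Z := T' u with hZ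
      have hGTw : G *ᵥ (T w) = Z := by
        change G *ᵥ (T w) = (G * θ * G') *ᵥ u
        rw [hw, hT, Matrix.mulVec_mulVec, Matrix.mulVec_mulVec, mul_assoc]
      have huZ : B u Z = B w (T w) := by
        rw [← hGw, ← hGTw]
        exact (mem_spGL_iff g).1 hgS _ _
      by_cases hww : B (T w) w = 0
      · -- the unitary transvections
        have huZ0 : B u Z = 0 := by rw [huZ, D.self_T, hww, neg_zero]
        have hρ : ∀ c, gt u (c * d) * gt Z (-c) ∈ M' := by
          intro c
          have e : g * tau T d w c * g⁻¹ = gt u (c * d) * gt Z (-c) := by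
            rw [tau, ← hGw, ← hGTw, ← conj_gt hgS, ← conj_gt hgS]
            group
          rw [← e]
          exact mul_mem (mul_mem hgM (hM w hww c)) (inv_mem hgM)
        set X := T u with hX
        have huX : B u X = 0 := by rw [hX, D.self_T, hu', neg_zero]
        have hσ : ∀ c c', gt u ((c - c') * d) * (gt X c' * gt Z (-c)) ∈ M' := by
          intro c c'
          have e : gt u ((c - c') * d) * (gt X c' * gt Z (-c)) = (tau T d u c')⁻¹ * (gt u (c * d) * gt Z (-c)) := by
            have e3 := gt_gt_comm huX (-(c' * d)) c'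
            have e4 : gt u ((c - c') * d) = gt u (-(c' * d)) * gt u (c * d) := by
              rw [gt_mul]
              congr 1
              ring
            rw [tau, mul_inv_rev, gt_inv, gt_inv, neg_neg, e4]
            rw [← hX]
            calc gt u (-(c' * d)) * gt u (c * d) * (gt X c' * gt Z (-c))
                = gt u (-(c' * d)) * gt X c' * gt u (c * d) * gt Z (-c) := by
                  rw [mul_assoc (gt u (-(c' * d))) (gt u (c * d)), ← mul_assoc (gt u (c * d)) (gt X c'),
                    gt_gt_comm huX (c * d) c']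
                  group
              _ = gt X c' * gt u (-(c' * d)) * (gt u (c * d) * gt Z (-c)) := by
                  rw [e3]
                  group
          rw [e]
          exact mul_mem (inv_mem (hM u hu' c')) (hρ c)
        by_cases hs : B X Z = 0
        · -- the case of an orthogonal pair
          have hA : B (X - Z) (X + Z) = 0 := by
            rw [B_sub_left, B_add_right, B_add_right, hs, sympForm_self, sympForm_self, B_swap_zero hs]
            ring
          have hE : E (X - Z) (X + Z) hA ∈ M' := by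
            rw [← E_plus_minus hs hA]
            have := hσ 2 2
            rwa [sub_self, zero_mul, gt_zero_right, one_mul] at this
          have hXK : X ∈ K1 T u := T_mem_K1 T u
          have hX0 : X ≠ 0 := fun e => hu0 (D.T_inj e)
          have hAn : X - Z ∉ K1 T u := by
            intro hm
            apply hun
            have : Z = X - (X - Z) := by abel
            rw [this]
            exact Submodule.sub_mem _ hXK hm
          have hA0 : X - Z ≠ 0 := by
            intro e
            apply hAn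
            rw [e]
            exact Submodule.zero_mem _
          have hCn : X + Z ∉ K1 T (X - Z) := by
            intro hm
            have h3 : X ∈ K1 T (X - Z) := by
              have h5 : (2 : F)⁻¹ • ((X + Z) + (X - Z)) ∈ K1 T (X - Z) :=
                Submodule.smul_mem _ _ (Submodule.add_mem _ hm (self_mem_K1 T _))
              have h6 : (2 : F)⁻¹ • ((X + Z) + (X - Z)) = X := by
                have h4 : (X + Z) + (X - Z) = (2 : F) • X := by module
                rw [h4, smul_smul, inv_mul_cancel₀ D.two, one_smul]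
              rwa [h6] at h5
            exact hAn (K1_le D hXK (K1_symm D.hd hX0 h3))
          obtain ⟨κ, hκ, hgκ⟩ := D.gt_of_E hn hM hMS hA hCn hE
          exact D.spGL_le_of_gt' hn hM hMS hA0 hκ hgκ
        · -- the general case
          set s := B X Z with hsd
          have hm := hσ (-(2 * s⁻¹)) s⁻¹
          rw [neg_neg] at hm
          obtain ⟨h3, h4⟩ := gt_W_pow huX huZ0 hs _ hm
          set κ₀ := (-(2 * s⁻¹) - s⁻¹) * d with hκ₀
          by_cases h0 : 4 * κ₀ = 0
          · have hκ0 : κ₀ = 0 := by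
              have h5 : (4 : F) ≠ 0 := by
                have : (4 : F) = 2 * 2 := by norm_num
                rw [this]
                exact mul_ne_zero D.two D.two
              exact (mul_eq_zero.1 h0).resolve_left h5
            rw [hκ0, mul_zero, gt_zero_right, one_mul] at h3
            have hX0 : X ≠ 0 := fun e => hu0 (D.T_inj e)
            have hXY : B (T X) X = 0 := by
              rw [hX, D.sq, B_smul_left, D.self_T, hu']
              ring
            have e5 : iP ((1 : F) • X + (0 : F) • Z) ((0 : F) • X + s⁻¹ • Z) = iP X Z :=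
              iP_plane hs (by rw [one_mul, zero_mul, sub_zero]; exact inv_ne_zero hs)
            have e6 : (1 : F) • X + (0 : F) • Z = X := by module
            have e7 : (0 : F) • X + s⁻¹ • Z = s⁻¹ • Z := by module
            rw [e6, e7] at e5
            obtain ⟨κ, hκ, hgκ⟩ := D.gt_of_iP hn hM hMS hXY (v := s⁻¹ • Z)
              (by rw [B_smul_right, ← hsd, inv_mul_cancel₀ hs]) (by rw [e5]; exact h3)
            exact D.spGL_le_of_gt' hn hM hMS hX0 hκ hgκ
          · exact D.spGL_le_of_gt' hn hM hMS hu0 h0 h4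
      · -- the involutions
        have hs : B w (T w) ≠ 0 := by
          rw [D.self_T]
          exact neg_ne_zero.2 hww
        have hi : iP u Z ∈ M' := by
          have e : g * iP w (T w) * g⁻¹ = iP u Z := by
            rw [iP_conj hgS, hGTw, hGw]
          rw [← e]
          exact mul_mem (mul_mem hgM (hHM (hcomm_mem _ (iP_comm D hT hs) (iP_mem _ _)))) (inv_mem hgM)
        have hs' : B u Z ≠ 0 := by rwa [huZ]
        have e5 : iP ((1 : F) • u + (0 : F) • Z) ((0 : F) • u + (B u Z)⁻¹ • Z) = iP u Z :=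
          iP_plane hs' (by rw [one_mul, zero_mul, sub_zero]; exact inv_ne_zero hs')
        have e6 : (1 : F) • u + (0 : F) • Z = u := by module
        have e7 : (0 : F) • u + (B u Z)⁻¹ • Z = (B u Z)⁻¹ • Z := by module
        rw [e6, e7] at e5
        obtain ⟨κ, hκ, hgκ⟩ := D.gt_of_iP hn hM hMS hu' (v := (B u Z)⁻¹ • Z)
          (by rw [B_smul_right, inv_mul_cancel₀ hs']) (by rw [e5]; exact hi)
        exact D.spGL_le_of_gt' hn hM hMS hu0 hκ hgκ

/-- The data of the quadratic extension. -/
theorem exists_SD (hm : 1 ≤ m) (hodd : Odd (Fintype.card F)) {K : Subalgebra F Mt} (hK : IsFieldSubalgebra 2 K)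
    (hac : IsAdjointClosedFor (sympForm m F) K) (hnsa : ¬ IsSelfAdjointFor (sympForm m F) K) :
    ∃ (θ : Mt) (d : F), SD (Matrix.mulVecLin θ) d ∧ (∀ k, k ∈ K ↔ ∃ a b : F, k = a • (1 : Mt) + b • θ) ∧
      ∀ a : F, θ ≠ a • (1 : Mt) := by
  have h2 : (2 : F) ≠ 0 := Cfsg.Agent.Lib.Classical.Geo.OPts.two_ne_zero_of_odd hodd
  haveI : Nonempty (Fin m ⊕ Fin m) := ⟨Sum.inl ⟨0, hm⟩⟩
  unfold IsSelfAdjointFor at hnsa
  push Not at hnsa
  obtain ⟨θ₀, hθ₀K, u₀, v₀, hne⟩ := hnsa
  obtain ⟨θ₀', hθ₀'K, hadj₀⟩ := hac θ₀ hθ₀K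
  have hnd : ∀ y : V, (∀ x : V, B x y = 0) → y = 0 := fun y h =>
    (sympBilin_nondegenerate (m := m) (F := F)).2 y h
  have hpz : ∀ A C : Mt, (∀ x y, B x (A *ᵥ y) = B x (C *ᵥ y)) → A = C := by
    intro A C h
    apply mat_ext
    intro y
    rw [← sub_eq_zero]
    apply hnd
    intro x
    rw [B_sub_right, h, sub_self]
  have hadj₁ : ∀ x y : V, B (θ₀' *ᵥ x) y = B x (θ₀ *ᵥ y) := by
    intro x y
    rw [sympForm_swap, ← hadj₀, sympForm_swap (θ₀ *ᵥ y) x, neg_neg]
  set θ : Mt := θ₀ - θ₀' with hθdef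
  have hθK : θ ∈ K := K.sub_mem hθ₀K hθ₀'K
  have hadj : ∀ x y : V, B (θ *ᵥ x) y = - B x (θ *ᵥ y) := by
    intro x y
    rw [hθdef, Matrix.sub_mulVec, Matrix.sub_mulVec, B_sub_left, B_sub_right, hadj₀, hadj₁]
    ring
  have hθ0 : θ ≠ 0 := by
    intro h0
    apply hne
    have h3 : θ₀ = θ₀' := sub_eq_zero.1 h0
    rw [hadj₀, h3]
  have hxy : ∃ x y : V, B x (θ *ᵥ y) ≠ 0 := by
    by_contra hcon
    push Not at hcon
    apply hθ0
    apply hpz
    intro x y
    rw [hcon, Matrix.zero_mulVec, B_zero_right]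
  obtain ⟨x₁, y₁, hx₁⟩ := hxy
  have hθs : ∀ a : F, θ ≠ a • (1 : Mt) := by
    intro a e
    have h3 : a = 0 := by
      by_contra ha
      apply hθ0
      apply hpz
      intro x y
      have h4 := hadj x y
      rw [e, Matrix.smul_mulVec, Matrix.smul_mulVec, Matrix.one_mulVec, Matrix.one_mulVec, B_smul_left,
        B_smul_right] at h4
      have h5 : 2 * (a * B x y) = 0 := by linear_combination h4
      have h6 : B x y = 0 := by
        have h7 := (mul_eq_zero.1 h5).resolve_left h2
        exact (mul_eq_zero.1 h7).resolve_left ha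
      rw [e, Matrix.smul_mulVec, Matrix.one_mulVec, B_smul_right, h6, Matrix.zero_mulVec, B_zero_right, mul_zero]
    rw [h3, zero_smul] at e
    exact hθ0 e
  have hind : ∀ a b : F, a • (1 : Mt) + b • θ = 0 → a = 0 ∧ b = 0 := by
    intro a b h
    by_cases hb : b = 0
    · subst hb
      rw [zero_smul, add_zero] at h
      exact ⟨(smul_eq_zero.1 h).resolve_right one_ne_zero, rfl⟩
    · exfalso
      apply hθs (-(b⁻¹ * a))
      have h2 : b⁻¹ • (a • (1 : Mt) + b • θ) = 0 := by rw [h, smul_zero]
      rw [smul_add, smul_smul, smul_smul, inv_mul_cancel₀ hb, one_smul] at h2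
      rw [neg_smul, eq_neg_iff_add_eq_zero, add_comm]
      exact h2
  have hspan : ∀ k ∈ K, ∃ a b : F, k = a • (1 : Mt) + b • θ := by
    intro k hk
    have hli : LinearIndependent F ![(1 : K), (⟨θ, hθK⟩ : K)] := by
      rw [LinearIndependent.pair_iff]
      intro s t h
      exact hind s t (congrArg Subtype.val h)
    have htop := hli.span_eq_top_of_card_eq_finrank' (by simp [hK.finrank_eq])
    have hmem : (⟨k, hk⟩ : K) ∈ Submodule.span F (Set.range ![(1 : K), (⟨θ, hθK⟩ : K)]) := by
      rw [htop]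
      trivial
    simp only [Matrix.range_cons, Matrix.range_empty, Set.union_empty, Set.singleton_union] at hmem
    obtain ⟨a, b, e⟩ := Submodule.mem_span_pair.1 hmem
    exact ⟨a, b, (congrArg Subtype.val e).symm⟩
  obtain ⟨d, b, hX⟩ := hspan (θ * θ) (K.mul_mem hθK hθK)
  have hb0 : b = 0 := by
    by_contra hb
    apply hx₁
    have e1 : B ((θ * θ) *ᵥ x₁) y₁ = B x₁ ((θ * θ) *ᵥ y₁) := by
      rw [← Matrix.mulVec_mulVec, ← Matrix.mulVec_mulVec, hadj, hadj, neg_neg]
    rw [hX, Matrix.add_mulVec, Matrix.add_mulVec, Matrix.smul_mulVec, Matrix.smul_mulVec, Matrix.smul_mulVec,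
      Matrix.smul_mulVec, Matrix.one_mulVec, Matrix.one_mulVec, B_add_left, B_add_right, B_smul_left, B_smul_left,
      B_smul_right, B_smul_right, hadj] at e1
    have h3 : 2 * (b * B x₁ (θ *ᵥ y₁)) = 0 := by linear_combination -e1
    have h4 := (mul_eq_zero.1 h3).resolve_left h2
    exact (mul_eq_zero.1 h4).resolve_left hb
  rw [hb0, zero_smul, add_zero] at hX
  have hsq : ∀ x : V, θ *ᵥ (θ *ᵥ x) = d • x := by
    intro x
    rw [Matrix.mulVec_mulVec, hX, Matrix.smul_mulVec, Matrix.one_mulVec]
  have hnonsq : ∀ a : F, a * a ≠ d := by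
    intro a ha
    have hZ : θ + a • (1 : Mt) ∈ K := K.add_mem hθK (K.smul_mem K.one_mem _)
    have hZZ : (θ - a • (1 : Mt)) * (θ + a • (1 : Mt)) = 0 := by
      simp only [Matrix.mul_add, Matrix.sub_mul, Matrix.mul_smul, Matrix.smul_mul, mul_one, one_mul, smul_smul]
      rw [hX, ← ha]
      module
    by_cases h0 : θ + a • (1 : Mt) = 0
    · apply hθs (-a)
      rw [neg_smul, eq_neg_iff_add_eq_zero]
      exact h0
    · obtain ⟨y, hy, hZy⟩ := hK.inv _ hZ h0
      apply hθs a
      have h3 : θ - a • (1 : Mt) = 0 := by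
        have h4 : (θ - a • (1 : Mt)) = ((θ - a • (1 : Mt)) * (θ + a • (1 : Mt))) * y := by
          rw [mul_assoc, hZy, mul_one]
        rw [h4, hZZ, zero_mul]
      exact sub_eq_zero.1 h3
  refine ⟨θ, d, ⟨hsq, hadj, hnonsq, h2⟩, fun k => ⟨hspan k, ?_⟩, hθs⟩
  rintro ⟨a, b, rfl⟩
  exact K.add_mem (K.smul_mem K.one_mem _) (K.smul_mem hθK _)

/-- **Maximality of the unitary subgroups of symplectic groups.** -/
theorem isMaximal_K (hm : 7 ≤ m) (hodd : Odd (Fintype.card F)) {K : Subalgebra F Mt} (hK : IsFieldSubalgebra 2 K)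
    (hac : IsAdjointClosedFor (sympForm m F) K) (hnsa : ¬ IsSelfAdjointFor (sympForm m F) K) :
    IsMaximalIn (spGL m F) (subalgebraNormalizer K ⊓ spGL m F) := by
  obtain ⟨θ, d, D, hK', hθ⟩ := exists_SD (by omega) hodd hK hac hnsa
  exact isMaximal_SD hm D (fun x => rfl) hK' hθ

end Cfsg.Agent.Lib.Classical.Sub.HS
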