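/-
Over the field with three elements, a non-degenerate ternary space has an orthogonal frame of vectors of the same norm,
and these are the only vectors of that norm.  So the stabiliser in `Ω` of a decomposition into isometric ternary spaces
lies in the stabiliser of a frame of vectors of the whole space, and it is not maximal.
-/
import Mathlib
import Cfsg.Agent.Lib.Classical.Geo.OPlane

set_option autoImplicit false
set_option linter.unusedSectionVars false

namespace Cfsg.Agent.Lib.Classical.Sub.OFrame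

open scoped Matrix MatrixGroups
open Module Cfsg Cfsg.Geo QuadraticMap
open Cfsg.Agent.Lib.Classical.Orth.Basic
open Cfsg.Agent.Lib.Classical.Geo.OPlane (sq_eq_one_of_card_le)

variable {ι : Type} [Fintype ι] [DecidableEq ι] {F : Type*} [Field F] [Fintype F]
  {Q : QuadraticForm F (ι → F)}

set_option quotPrecheck false in
local notation "𝔣" => polar (⇑Q)

local notation "Mt" => Matrix ι ι F

section Field3

variable (hq : Fintype.card F = 3)

include hq

theorem three_zero : (3 : F) = 0 := by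
  have h := FiniteField.cast_card_eq_zero F
  rw [hq] at h
  exact_mod_cast h

theorem two_ne : (2 : F) ≠ 0 := by
  intro h
  have h3 := three_zero hq
  have : (1 : F) = 0 := by linear_combination h3 - h
  exact one_ne_zero this

theorem sq_val {x : F} (hx : x ≠ 0) : x * x = 1 := sq_eq_one_of_card_le (by omega) hx

theorem val_pm {x : F} (hx : x ≠ 0) : x = 1 ∨ x = -1 := mul_self_eq_one_iff.1 (sq_val hq hx)

/-- The count of non-zero coordinates. -/
theorem sum_sq {x y z : F} (h : x * x + y * y + z * z = 1) :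
    (x = 1 ∨ x = -1) ∧ y = 0 ∧ z = 0 ∨ x = 0 ∧ (y = 1 ∨ y = -1) ∧ z = 0 ∨ x = 0 ∧ y = 0 ∧ (z = 1 ∨ z = -1) := by
  have h3 := three_zero hq
  have h2 := two_ne hq
  by_cases hx : x = 0 <;> by_cases hy : y = 0 <;> by_cases hz : z = 0
  · subst hx hy hz
    simp at h
  · subst hx hy
    exact Or.inr (Or.inr ⟨rfl, rfl, val_pm hq hz⟩)
  · subst hx hz
    exact Or.inr (Or.inl ⟨rfl, val_pm hq hy, rfl⟩)
  · exfalso
    subst hx
    rw [sq_val hq hy, sq_val hq hz] at h
    exact one_ne_zero (show (1 : F) = 0 by linear_combination h)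
  · subst hy hz
    exact Or.inl ⟨val_pm hq hx, rfl, rfl⟩
  · exfalso
    subst hy
    rw [sq_val hq hx, sq_val hq hz] at h
    exact one_ne_zero (show (1 : F) = 0 by linear_combination h)
  · exfalso
    subst hz
    rw [sq_val hq hx, sq_val hq hy] at h
    exact one_ne_zero (show (1 : F) = 0 by linear_combination h)
  · exfalso
    rw [sq_val hq hx, sq_val hq hy, sq_val hq hz] at h
    exact one_ne_zero (show (1 : F) = 0 by linear_combination h3 - h)

end Field3

/-- A frame of a ternary space, with norm `c`. -/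
structure IsFr {k : ℕ} (Q : QuadraticForm F (ι → F)) (W : Submodule F (ι → F)) (c : F) (e : Fin k → ι → F) : Prop where
  mem : ∀ j, e j ∈ W
  norm : ∀ j, Q (e j) = c
  orth : ∀ j l, j ≠ l → polar (⇑Q) (e j) (e l) = 0
  span : ∀ v ∈ W, ∃ x : Fin k → F, v = ∑ j, x j • e j

theorem exists_triple (hq : Fintype.card F = 3) {W : Submodule F (ι → F)} {a b d : ι → F} (ha : a ∈ W) (hb : b ∈ W)
    (hd : d ∈ W) (hab : 𝔣 a b = 0) (had : 𝔣 a d = 0) (hbd : 𝔣 b d = 0) (hQa : Q a ≠ 0) (hQb : Q b ≠ 0) (hQd : Q d ≠ 0)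
    (hs : ∀ v ∈ W, ∃ x y z : F, v = x • a + y • b + z • d) : ∃ (c : F) (e : Fin 3 → ι → F), c ≠ 0 ∧ IsFr Q W c e := by
  have h2 := two_ne (F := F) hq
  have h3 := three_zero (F := F) hq
  -- the case of two equal norms
  have key : ∀ {x y z : ι → F}, x ∈ W → y ∈ W → z ∈ W → 𝔣 x y = 0 → 𝔣 x z = 0 → 𝔣 y z = 0 → Q y = Q x → Q z = - Q x →
      Q x ≠ 0 → (∀ v ∈ W, ∃ α β γ : F, v = α • x + β • y + γ • z) → ∃ (c : F) (e : Fin 3 → ι → F), c ≠ 0 ∧ IsFr Q W c e := by
    intro x y z hx hy hz hxy hxz hyz hyx hzx hx0 hsp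
    have hyx' : 𝔣 y x = 0 := by rw [polar_comm]; exact hxy
    refine ⟨Q z, ![x + y, x - y, z], by rw [hzx]; exact neg_ne_zero.2 hx0, ?_⟩
    have n1 : Q (x + y) = Q z := by
      rw [Q_add, hyx, hxy, hzx]
      linear_combination (Q x) * h3
    have n2 : Q (x - y) = Q z := by
      rw [Q_sub, hyx, hxy, hzx]
      linear_combination (Q x) * h3
    have o1 : 𝔣 (x + y) (x - y) = 0 := by
      rw [polar_add_left, polar_sub_right, polar_sub_right, polar_self_eq, polar_self_eq, hxy, hyx', hyx]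
      ring
    have o2 : 𝔣 (x + y) z = 0 := by rw [polar_add_left, hxz, hyz, add_zero]
    have o3 : 𝔣 (x - y) z = 0 := by rw [polar_sub_left, hxz, hyz, sub_zero]
    refine ⟨?_, ?_, ?_, ?_⟩
    · intro j
      fin_cases j
      · exact W.add_mem hx hy
      · exact W.sub_mem hx hy
      · exact hz
    · intro j
      fin_cases j
      · exact n1
      · exact n2
      · rfl
    · intro j l hjl
      fin_cases j <;> fin_cases l <;> first | exact absurd rfl hjl | skip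
      · exact o1
      · exact o2
      · show 𝔣 (x - y) (x + y) = 0
        rw [polar_comm]; exact o1
      · exact o3
      · show 𝔣 z (x + y) = 0
        rw [polar_comm]; exact o2
      · show 𝔣 z (x - y) = 0
        rw [polar_comm]; exact o3
    · intro v hv
      obtain ⟨α, β, γ, rfl⟩ := hsp v hv
      refine ⟨![(α + β) * 2⁻¹, (α - β) * 2⁻¹, γ], ?_⟩
      rw [Fin.sum_univ_three]
      have e0 : ((α + β) * 2⁻¹) • (x + y) + ((α - β) * 2⁻¹) • (x - y) = α • x + β • y := by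
        have h4 : ((α + β) * 2⁻¹ + (α - β) * 2⁻¹) = α := by field_simp; ring
        have h5 : ((α + β) * 2⁻¹ - (α - β) * 2⁻¹) = β := by field_simp; ring
        calc ((α + β) * 2⁻¹) • (x + y) + ((α - β) * 2⁻¹) • (x - y)
            = ((α + β) * 2⁻¹ + (α - β) * 2⁻¹) • x + ((α + β) * 2⁻¹ - (α - β) * 2⁻¹) • y := by module
          _ = α • x + β • y := by rw [h4, h5]
      simp only [Matrix.cons_val_zero, Matrix.cons_val_one, Matrix.cons_val]
      rw [e0]
  have hdich : ∀ {u w : F}, u ≠ 0 → w ≠ 0 → w = u ∨ w = -u := by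
    intro u w hu hw
    rcases val_pm hq hu with e1 | e1 <;> rcases val_pm hq hw with e2 | e2 <;> subst e1 e2 <;> simp
  have hba : 𝔣 b a = 0 := by rw [polar_comm]; exact hab
  have hda : 𝔣 d a = 0 := by rw [polar_comm]; exact had
  have hdb : 𝔣 d b = 0 := by rw [polar_comm]; exact hbd
  rcases hdich hQa hQb with e1 | e1
  · rcases hdich hQa hQd with e2 | e2
    · refine ⟨Q a, ![a, b, d], hQa, ⟨?_, ?_, ?_, ?_⟩⟩
      · intro j
        fin_cases j
        · exact ha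
        · exact hb
        · exact hd
      · intro j
        fin_cases j
        · rfl
        · exact e1
        · exact e2
      · intro j l hjl
        fin_cases j <;> fin_cases l <;> first | exact absurd rfl hjl | skip
        · exact hab
        · exact had
        · exact hba
        · exact hbd
        · exact hda
        · exact hdb
      · intro v hv
        obtain ⟨x, y, z, rfl⟩ := hs v hv
        exact ⟨![x, y, z], by rw [Fin.sum_univ_three]; rfl⟩
    · exact key ha hb hd hab had hbd e1 e2 hQa hs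
  · rcases hdich hQa hQd with e2 | e2
    · refine key ha hd hb had hab hdb e2 e1 hQa fun v hv => ?_
      obtain ⟨x, y, z, rfl⟩ := hs v hv
      exact ⟨x, z, y, by abel⟩
    · refine key hb hd ha hbd hba hda (by rw [e1, e2]) (by rw [e1, neg_neg]) hQb fun v hv => ?_
      obtain ⟨x, y, z, rfl⟩ := hs v hv
      exact ⟨y, z, x, by abel⟩

/-- Orthogonal bases of non-degenerate spaces. -/
theorem exists_orth (h2 : (2 : F) ≠ 0) {k : ℕ} {W : Submodule F (ι → F)} (hdim : finrank F W = k)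
    (hW : IsNondegenerateOn (polar (⇑Q)) W) : ∃ v : Fin k → ι → F, (∀ j, v j ∈ W) ∧ (∀ i j, i ≠ j → 𝔣 (v i) (v j) = 0) ∧
      (∀ i, Q (v i) ≠ 0) ∧ ∀ w ∈ W, ∃ x : Fin k → F, w = ∑ j, x j • v j := by
  haveI : Invertible (2 : F) := invertibleOfNonzero h2
  set B : LinearMap.BilinForm F ↥W := (polarBilin Q).domRestrict₁₂ W W with hB
  have hBap : ∀ x y : ↥W, B x y = 𝔣 (x : ι → F) (y : ι → F) := fun x y => rfl
  have hsymm : LinearMap.IsSymm B := ⟨fun x y => by
    simp only [RingHom.id_apply, hBap]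
    exact polar_comm _ _ _⟩
  obtain ⟨v₀, hv₀⟩ := LinearMap.BilinForm.exists_orthogonal_basis (B := B) hsymm
  set v : Basis (Fin k) F ↥W := v₀.reindex (finCongr hdim) with hv
  have hort : ∀ i j, i ≠ j → 𝔣 (v i : ι → F) (v j : ι → F) = 0 := by
    intro i j hij
    have h0 : B (v₀ ((finCongr hdim).symm i)) (v₀ ((finCongr hdim).symm j)) = 0 :=
      hv₀ (i := (finCongr hdim).symm i) (j := (finCongr hdim).symm j) (by simpa using hij)
    rw [hv, Basis.reindex_apply, Basis.reindex_apply]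
    exact h0
  have hnorm : ∀ i, Q (v i : ι → F) ≠ 0 := by
    intro i h0
    have hne : (v i : ι → F) ≠ 0 := fun h => v.ne_zero i (Subtype.ext h)
    obtain ⟨⟨x, hx, hxv⟩, -⟩ := hW _ (v i).2 hne
    apply hxv
    have h3 : ∀ y : ↥W, B y (v i) = 0 := by
      intro y
      have e := v.sum_repr y
      rw [← e, map_sum, LinearMap.sum_apply]
      apply Finset.sum_eq_zero
      intro j _
      rw [map_smul, LinearMap.smul_apply, smul_eq_mul, hBap]
      by_cases hj : j = i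
      · rw [hj, polar_self_eq, h0]
        ring
      · rw [hort j i hj, mul_zero]
    exact h3 ⟨x, hx⟩
  refine ⟨fun j => v j, fun j => (v j).2, hort, hnorm, fun w hw => ⟨v.repr ⟨w, hw⟩, ?_⟩⟩
  have e := v.sum_repr ⟨w, hw⟩
  have e2 := congrArg Subtype.val e
  rw [Submodule.coe_sum] at e2
  exact e2.symm

/-- Frames of non-degenerate ternary spaces. -/
theorem exists_fr (hq : Fintype.card F = 3) {W : Submodule F (ι → F)} (hdim : finrank F W = 3)
    (hW : IsNondegenerateOn (polar (⇑Q)) W) : ∃ (c : F) (e : Fin 3 → ι → F), c ≠ 0 ∧ IsFr Q W c e := by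
  obtain ⟨v, hm, hort, hnorm, hs⟩ := exists_orth (two_ne hq) hdim hW
  refine exists_triple hq (hm 0) (hm 1) (hm 2)
    (hort _ _ (by decide)) (hort _ _ (by decide)) (hort _ _ (by decide)) (hnorm 0) (hnorm 1) (hnorm 2) ?_
  intro w hw
  obtain ⟨x, rfl⟩ := hs w hw
  exact ⟨x 0, x 1, x 2, Fin.sum_univ_three _⟩

/-- Frames of anisotropic planes. -/
theorem exists_fr2 (hq : Fintype.card F = 3) {W : Submodule F (ι → F)} (hdim : finrank F W = 2)
    (hW : IsNondegenerateOn (polar (⇑Q)) W) (hp : ¬ IsPlusTypeOn (⇑Q) W) :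
    ∃ (c : F) (e : Fin 2 → ι → F), c ≠ 0 ∧ IsFr Q W c e := by
  obtain ⟨v, hm, hort, hnorm, hs⟩ := exists_orth (two_ne hq) hdim hW
  have h01 : 𝔣 (v 0) (v 1) = 0 := hort _ _ (by decide)
  have hne : Q (v 1) = Q (v 0) := by
    rcases val_pm hq (hnorm 0) with e1 | e1 <;> rcases val_pm hq (hnorm 1) with e2 | e2
    · rw [e1, e2]
    · exfalso
      apply hp
      have hQs : Q (v 0 + v 1) = 0 := by
        rw [Q_add, h01, e1, e2]
        ring
      have hv0 : v 0 + v 1 ≠ 0 := by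
        intro h
        have h1 : 𝔣 (v 0 + v 1) (v 0) = 𝔣 0 (v 0) := by rw [h]
        rw [polar_add_left, polar_self_eq, polar_comm, h01, e1] at h1
        have h4 : 𝔣 0 (v 0) = 0 := by simp [polar]
        rw [h4] at h1
        exact two_ne hq (by linear_combination h1)
      refine ⟨Submodule.span F {v 0 + v 1}, ?_, ?_, ?_⟩
      · rw [Submodule.span_le, Set.singleton_subset_iff]
        exact W.add_mem (hm 0) (hm 1)
      · intro w hw
        obtain ⟨a, rfl⟩ := Submodule.mem_span_singleton.1 hw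
        rw [Q_smul, hQs, mul_zero]
      · rw [finrank_span_singleton hv0, hdim]
    · exfalso
      apply hp
      have hQs : Q (v 0 + v 1) = 0 := by
        rw [Q_add, h01, e1, e2]
        ring
      have hv0 : v 0 + v 1 ≠ 0 := by
        intro h
        have h1 : 𝔣 (v 0 + v 1) (v 0) = 𝔣 0 (v 0) := by rw [h]
        rw [polar_add_left, polar_self_eq, polar_comm, h01, e1] at h1
        have h4 : 𝔣 0 (v 0) = 0 := by simp [polar]
        rw [h4] at h1
        exact two_ne hq (by linear_combination -h1)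
      refine ⟨Submodule.span F {v 0 + v 1}, ?_, ?_, ?_⟩
      · rw [Submodule.span_le, Set.singleton_subset_iff]
        exact W.add_mem (hm 0) (hm 1)
      · intro w hw
        obtain ⟨a, rfl⟩ := Submodule.mem_span_singleton.1 hw
        rw [Q_smul, hQs, mul_zero]
      · rw [finrank_span_singleton hv0, hdim]
    · rw [e1, e2]
  refine ⟨Q (v 0), v, hnorm 0, ⟨hm, ?_, hort, hs⟩⟩
  intro j
  fin_cases j
  · rfl
  · exact hne

/-- Transport of frames in a decomposition into isometric spaces. -/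
theorem exists_frames {k t : ℕ} {D : Fin t → Submodule F (ι → F)} (hD : IsOrthogonalMDecomposition (⇑Q) k D) {i₀ : Fin t}
    (hex : ∃ (c : F) (e : Fin k → ι → F), c ≠ 0 ∧ IsFr Q (D i₀) c e) :
    ∃ (c : F) (E : Fin t × Fin k → ι → F), c ≠ 0 ∧ (∀ p, E p ∈ D p.1) ∧ (∀ p, Q (E p) = c) ∧
      (∀ p q, p ≠ q → 𝔣 (E p) (E q) = 0) ∧ (∀ i, ∀ v ∈ D i, ∃ x : Fin k → F, v = ∑ j, x j • E (i, j)) := by
  obtain ⟨c, e, hc, he⟩ := hex
  -- transport
  have htr : ∀ i, ∃ e' : Fin k → ι → F, IsFr Q (D i) c e' := by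
    intro i
    obtain ⟨φ, hφ⟩ := hD.isometric i₀ i
    refine ⟨fun j => (φ ⟨e j, he.mem j⟩ : ι → F), ⟨fun j => (φ _).2, fun j => ?_, fun j l hjl => ?_, fun v hv => ?_⟩⟩
    · rw [hφ]
      exact he.norm j
    · have h3 : ∀ a b : ↥(D i₀), 𝔣 (φ a : ι → F) (φ b : ι → F) = 𝔣 (a : ι → F) (b : ι → F) := by
        intro a b
        simp only [polar]
        have e1 : (φ a : ι → F) + (φ b : ι → F) = (φ (a + b) : ι → F) := by
          rw [map_add]
          rfl
        rw [e1, hφ, hφ, hφ]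
        rfl
      rw [h3]
      exact he.orth j l hjl
    · obtain ⟨x, e1⟩ := he.span (φ.symm ⟨v, hv⟩ : ι → F) (φ.symm ⟨v, hv⟩).2
      refine ⟨x, ?_⟩
      have e2 : φ.symm ⟨v, hv⟩ = ∑ j, x j • (⟨e j, he.mem j⟩ : ↥(D i₀)) := by
        apply Subtype.ext
        rw [e1, Submodule.coe_sum]
        rfl
      have e3 := congrArg φ e2
      rw [LinearEquiv.apply_symm_apply, map_sum] at e3
      have e4 := congrArg Subtype.val e3
      rw [Submodule.coe_sum] at e4
      simpa only [map_smul, Submodule.coe_smul] using e4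
  choose e' he' using htr
  refine ⟨c, fun p => e' p.1 p.2, hc, fun p => (he' p.1).mem p.2, fun p => (he' p.1).norm p.2, ?_, fun i v hv => (he' i).span v hv⟩
  rintro ⟨i, j⟩ ⟨i', j'⟩ hne
  by_cases hi : i = i'
  · subst hi
    refine (he' i).orth j j' fun h => hne (by rw [h])
  · exact hD.decomp.orthogonal i i' hi _ ((he' i).mem j) _ ((he' i').mem j')

/-! ### The stabiliser of the frame -/

/-- The stabiliser of a set of vectors. -/
def setStab (S : Set (ι → F)) : Subgroup (GL ι F) where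
  carrier := {g | ∀ v, v ∈ S ↔ (g : Mt) *ᵥ v ∈ S}
  mul_mem' {a b} ha hb v := by
    rw [hb v, ha (_), Units.val_mul, Matrix.mulVec_mulVec]
  one_mem' v := by simp
  inv_mem' {a} ha v := by
    rw [ha (((a⁻¹ : GL ι F) : Mt) *ᵥ v), Matrix.mulVec_mulVec, ← Units.val_mul, mul_inv_cancel, Units.val_one,
      Matrix.one_mulVec]

theorem mem_setStab {S : Set (ι → F)} {g : GL ι F} : g ∈ setStab S ↔ ∀ v, v ∈ S ↔ (g : Mt) *ᵥ v ∈ S := Iff.rfl

/-- The vectors of norm `c` in the members of the decomposition. -/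
def Fr (Q : QuadraticForm F (ι → F)) {t : ℕ} (D : Fin t → Submodule F (ι → F)) (c : F) : Set (ι → F) :=
  {v | (∃ i, v ∈ D i) ∧ Q v = c}

section Main

variable {t : ℕ} {D : Fin t → Submodule F (ι → F)} {c : F} {S : Type} [DecidableEq S] {E : S → ι → F} {part : S → Fin t}

/-- The frame data. -/
structure FD (Q : QuadraticForm F (ι → F)) (D : Fin t → Submodule F (ι → F)) (c : F)
    (E : S → ι → F) (part : S → Fin t) : Prop where
  h2 : (2 : F) ≠ 0
  indep : ∀ i j, i ≠ j → AreOrthogonalFor (polar (⇑Q)) (D i) (D j)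
  c_ne : c ≠ 0
  mem : ∀ p, E p ∈ D (part p)
  norm : ∀ p, Q (E p) = c
  orth : ∀ p q, p ≠ q → polar (⇑Q) (E p) (E q) = 0
  fr : ∀ v, v ∈ Fr Q D c ↔ ∃ s, v = E s ∨ v = -E s

/-- The stabiliser of the decomposition lies in the stabiliser of the vectors of given norm. -/
theorem le_setStab_Fr : decompositionStabilizer D ⊓ omegaGL (⇑Q) ≤ setStab (Fr Q D c) := by
  rintro g ⟨⟨σ, hσ⟩, hg⟩
  have hiso : ∀ x, Q ((g : Mt) *ᵥ x) = Q x :=
    (mem_isometryGroup_iff Q g).1 (Cfsg.Agent.Lib.Classical.Geo.OPts.omegaGL_le_iso hg)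
  intro v
  constructor
  · rintro ⟨⟨i, hi⟩, hv⟩
    refine ⟨⟨σ i, ?_⟩, by rw [hiso, hv]⟩
    rw [← hσ i]
    exact ⟨v, hi, rfl⟩
  · rintro ⟨⟨j, hj⟩, hv⟩
    refine ⟨⟨σ.symm j, ?_⟩, by rw [← hiso, hv]⟩
    have h1 := hσ (σ.symm j)
    rw [Equiv.apply_symm_apply] at h1
    rw [← h1] at hj
    obtain ⟨w, hw, hwv⟩ := hj
    have : w = v := Matrix.mulVec_injective_of_isUnit g.isUnit hwv
    rwa [← this]

variable (H : FD Q D c E part)

include H

/-- An isometry inducing a permutation on the frame stabilises the vectors of norm `c`. -/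
theorem FD.mem_setStab_of_perm {g : GL ι F} {τ : Equiv.Perm S} (hg : ∀ s, (g : Mt) *ᵥ E s = E (τ s)) :
    g ∈ setStab (Fr Q D c) := by
  intro v
  rw [H.fr, H.fr]
  constructor
  · rintro ⟨s, rfl | rfl⟩
    · exact ⟨τ s, Or.inl (hg s)⟩
    · exact ⟨τ s, Or.inr (by rw [Matrix.mulVec_neg, hg])⟩
  · rintro ⟨s, h | h⟩
    · refine ⟨τ.symm s, Or.inl ?_⟩
      have h1 : (g : Mt) *ᵥ v = (g : Mt) *ᵥ E (τ.symm s) := by rw [h, hg, Equiv.apply_symm_apply]
      exact Matrix.mulVec_injective_of_isUnit g.isUnit h1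
    · refine ⟨τ.symm s, Or.inr ?_⟩
      have h1 : (g : Mt) *ᵥ v = (g : Mt) *ᵥ (-E (τ.symm s)) := by
        rw [h, Matrix.mulVec_neg, hg, Equiv.apply_symm_apply]
      exact Matrix.mulVec_injective_of_isUnit g.isUnit h1

theorem FD.f_self (s : S) : 𝔣 (E s) (E s) = 2 * c := by
  rw [polar_self_eq, H.norm]

theorem FD.h2c : 2 * c ≠ 0 := mul_ne_zero H.h2 H.c_ne

/-- The norm of the difference of two members of the frame. -/
theorem FD.Q_sub {p q : S} (hpq : p ≠ q) : Q (E p - E q) = 2 * c := by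
  rw [Orth.Basic.Q_sub, H.norm, H.norm, H.orth p q hpq]
  ring

theorem FD.Q_sub_ne {p q : S} (hpq : p ≠ q) : Q (E p - E q) ≠ 0 := by
  rw [H.Q_sub hpq]
  exact H.h2c

/-- The reflection in the difference of two members of the frame swaps them. -/
theorem FD.refl_act {p q : S} (hpq : p ≠ q) (s : S) :
    act (reflectionIso Q (E p - E q) (H.Q_sub_ne hpq)) (E s) = E (Equiv.swap p q s) := by
  have h2 := H.h2
  have hc := H.c_ne
  rw [reflectionIso_act, H.Q_sub hpq, polar_sub_left]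
  by_cases hsp : s = p
  · subst hsp
    rw [Equiv.swap_apply_left, H.f_self, H.orth q s hpq.symm]
    have : (2 * c)⁻¹ * (2 * c - 0) = 1 := by field_simp; ring
    rw [this, one_smul]
    abel
  · by_cases hsq : s = q
    · subst hsq
      rw [Equiv.swap_apply_right, H.f_self, H.orth p s hpq]
      have : (2 * c)⁻¹ * (0 - 2 * c) = -1 := by field_simp; ring
      rw [this, neg_one_smul]
      abel
    · rw [Equiv.swap_apply_of_ne_of_ne hsp hsq, H.orth p s (Ne.symm hsp), H.orth q s (Ne.symm hsq)]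
      simp

theorem FD.refl_mem {p q : S} (hpq : p ≠ q) :
    ((reflectionIso Q (E p - E q) (H.Q_sub_ne hpq) : ↥(Cfsg.isometryGroup F (⇑Q))) : GL ι F) ∈ setStab (Fr Q D c) :=
  H.mem_setStab_of_perm (τ := Equiv.swap p q) (H.refl_act hpq)

theorem FD.mem_unique {i j : Fin t} {x : ι → F} (hi : x ∈ D i) (hj : x ∈ D j) (hx : 𝔣 x x ≠ 0) : i = j := by
  by_contra hij
  exact hx (H.indep i j hij _ hi _ hj)

theorem FD.eq_of_polar_ne {i j : Fin t} {x y : ι → F} (hi : x ∈ D i) (hj : y ∈ D j) (hx : 𝔣 x y ≠ 0) : i = j := by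
  by_contra hij
  exact hx (H.indep i j hij _ hi _ hj)

/-- The commutator of two reflections: the first element which moves `E q` to `E p`, `E p` to `E w`, and lies in `Ω`. -/
theorem FD.exists_three {p q w : S} (hpq : p ≠ q) (hqw : q ≠ w) (hpw : p ≠ w) :
    ∃ π : ↥(Cfsg.isometryGroup F (⇑Q)), (π : GL ι F) ∈ omegaGL (⇑Q) ∧ (π : GL ι F) ∈ setStab (Fr Q D c) ∧
      act π (E q) = E p ∧ act π (E p) = E w ∧ ∀ z, 𝔣 (E p) z = 0 → 𝔣 (E q) z = 0 → 𝔣 (E w) z = 0 → act π z = z := by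
  set R₁ := reflectionIso Q (E p - E q) (H.Q_sub_ne hpq) with hR₁
  set R₂ := reflectionIso Q (E q - E w) (H.Q_sub_ne hqw) with hR₂
  set π : ↥(Cfsg.isometryGroup F (⇑Q)) := R₁ * R₂ * R₁⁻¹ * R₂⁻¹ with hπ
  have hinv₁ : R₁⁻¹ = R₁ := reflectionIso_inv Q _ _
  have hinv₂ : R₂⁻¹ = R₂ := reflectionIso_inv Q _ _
  have hπΩ : (π : GL ι F) ∈ omegaGL (⇑Q) :=
    ⟨π, Subgroup.commutator_mem_commutator (Subgroup.mem_top _) (Subgroup.mem_top _), rfl⟩
  have hπK : (π : GL ι F) ∈ setStab (Fr Q D c) := by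
    rw [hπ, hinv₁, hinv₂]
    have h1 := H.refl_mem hpq
    have h2 := H.refl_mem hqw
    exact (setStab _).mul_mem ((setStab _).mul_mem ((setStab _).mul_mem h1 h2) h1) h2
  have hact : ∀ s, act π s = act R₁ (act R₂ (act R₁ (act R₂ s))) := by
    intro s
    rw [hπ, hinv₁, hinv₂, act_mul, act_mul, act_mul]
  refine ⟨π, hπΩ, hπK, ?_, ?_, ?_⟩
  · rw [hact, H.refl_act hqw, Equiv.swap_apply_left, H.refl_act hpq, Equiv.swap_apply_of_ne_of_ne hpw.symm hqw.symm,
      H.refl_act hqw, Equiv.swap_apply_right, H.refl_act hpq, Equiv.swap_apply_right]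
  · rw [hact, H.refl_act hqw, Equiv.swap_apply_of_ne_of_ne hpq hpw, H.refl_act hpq, Equiv.swap_apply_left,
      H.refl_act hqw, Equiv.swap_apply_left, H.refl_act hpq, Equiv.swap_apply_of_ne_of_ne hpw.symm hqw.symm]
  · intro z h1 h2 h3
    have f₁ : ∀ z, 𝔣 (E p) z = 0 → 𝔣 (E q) z = 0 → act R₁ z = z := by
      intro z h1 h2
      rw [hR₁, reflectionIso_act, polar_sub_left, h1, h2]
      simp
    have f₂ : ∀ z, 𝔣 (E q) z = 0 → 𝔣 (E w) z = 0 → act R₂ z = z := by
      intro z h1 h2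
      rw [hR₂, reflectionIso_act, polar_sub_left, h1, h2]
      simp
    rw [hact, f₂ z h2 h3, f₁ z h1 h2, f₂ z h2 h3, f₁ z h1 h2]

theorem FD.lt_setStab {p q w : S} (hpq : p ≠ q) (hpart : part p = part q) (hij : part p ≠ part w) :
    decompositionStabilizer D ⊓ omegaGL (⇑Q) < setStab (Fr Q D c) ⊓ omegaGL (⇑Q) := by
  refine lt_of_le_of_ne (le_inf le_setStab_Fr inf_le_right) ?_
  intro heq
  have hqw : q ≠ w := by
    rintro rfl
    exact hij hpart
  have hpw : p ≠ w := by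
    rintro rfl
    exact hij rfl
  obtain ⟨π, hπΩ, hπK, h1, h2, -⟩ := H.exists_three hpq hqw hpw
  have hmem : (π : GL ι F) ∈ decompositionStabilizer D ⊓ omegaGL (⇑Q) := by
    rw [heq]
    exact ⟨hπK, hπΩ⟩
  obtain ⟨σ, hσ⟩ := hmem.1
  have hself : ∀ s, 𝔣 (E s) (E s) ≠ 0 := fun s => by rw [H.f_self]; exact H.h2c
  set i := part p with hi
  have hσi : i = σ i := by
    have hm : E p ∈ D (σ i) := by
      rw [← hσ i, ← h1]
      refine ⟨E q, ?_, rfl⟩
      rw [hpart]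
      exact H.mem q
    exact H.mem_unique (H.mem p) hm (hself p)
  have hm2 : E w ∈ D i := by
    have e1 : D i = Submodule.map (Matrix.toLin' ((π : GL ι F) : Mt)) (D i) := by rw [hσ i, ← hσi]
    rw [e1, ← h2]
    exact ⟨E p, H.mem p, rfl⟩
  exact hij (H.mem_unique hm2 (H.mem w) (hself w))

/-- Variation of the previous result: the frame does not span the members of the decomposition. -/
theorem FD.lt_setStab' {p q w : S} (hpq : part p ≠ part q) (hqw : q ≠ w) (hpw : p ≠ w) {z : ι → F} (hz : z ∈ D (part q))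
    (hQz : 𝔣 z z ≠ 0) (hz1 : 𝔣 (E p) z = 0) (hz2 : 𝔣 (E q) z = 0) (hz3 : 𝔣 (E w) z = 0) :
    decompositionStabilizer D ⊓ omegaGL (⇑Q) < setStab (Fr Q D c) ⊓ omegaGL (⇑Q) := by
  refine lt_of_le_of_ne (le_inf le_setStab_Fr inf_le_right) ?_
  intro heq
  have hpq' : p ≠ q := by
    rintro rfl
    exact hpq rfl
  obtain ⟨π, hπΩ, hπK, h1, h2, h3⟩ := H.exists_three hpq' hqw hpw
  have hmem : (π : GL ι F) ∈ decompositionStabilizer D ⊓ omegaGL (⇑Q) := by
    rw [heq]
    exact ⟨hπK, hπΩ⟩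
  obtain ⟨σ, hσ⟩ := hmem.1
  have hself : ∀ s, 𝔣 (E s) (E s) ≠ 0 := fun s => by rw [H.f_self]; exact H.h2c
  have hm1 : E p ∈ D (σ (part q)) := by
    rw [← hσ (part q), ← h1]
    exact ⟨E q, H.mem q, rfl⟩
  have hi : part p = σ (part q) := H.mem_unique (H.mem p) hm1 (hself p)
  have hm2 : z ∈ D (part p) := by
    rw [hi, ← hσ (part q), ← h3 z hz1 hz2 hz3]
    exact ⟨z, hz, rfl⟩
  exact hpq (H.mem_unique hm2 hz hQz)

/-- A commutator leaving the frame, `q = 3`. -/
theorem FD.setStab_lt3 (h3 : (3 : F) = 0) {a₀ a₁ a₂ a₃ : S} (h01 : a₀ ≠ a₁) (h02 : a₀ ≠ a₂) (h03 : a₀ ≠ a₃) (h12 : a₁ ≠ a₂)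
    (h13 : a₁ ≠ a₃) (h23 : a₂ ≠ a₃) (hij : part a₀ ≠ part a₂) :
    setStab (Fr Q D c) ⊓ omegaGL (⇑Q) < omegaGL (⇑Q) := by
  refine lt_of_le_of_ne inf_le_right ?_
  intro heq
  have hF3 := h3
  have h2 := H.h2
  have hc := H.c_ne
  have h2c := H.h2c
  set u₀ := E a₀ with hu₀
  set u₁ := E a₁ with hu₁
  set u₂ := E a₂ with hu₂
  set u₃ := E a₃ with hu₃
  have o01 : 𝔣 u₀ u₁ = 0 := H.orth _ _ h01
  have o02 : 𝔣 u₀ u₂ = 0 := H.orth _ _ h02
  have o03 : 𝔣 u₀ u₃ = 0 := H.orth _ _ h03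
  have o12 : 𝔣 u₁ u₂ = 0 := H.orth _ _ h12
  have o13 : 𝔣 u₁ u₃ = 0 := H.orth _ _ h13
  have o23 : 𝔣 u₂ u₃ = 0 := H.orth _ _ h23
  have o10 : 𝔣 u₁ u₀ = 0 := by rw [polar_comm]; exact o01
  have o20 : 𝔣 u₂ u₀ = 0 := by rw [polar_comm]; exact o02
  have o30 : 𝔣 u₃ u₀ = 0 := by rw [polar_comm]; exact o03
  have o21 : 𝔣 u₂ u₁ = 0 := by rw [polar_comm]; exact o12
  have o31 : 𝔣 u₃ u₁ = 0 := by rw [polar_comm]; exact o13
  have o32 : 𝔣 u₃ u₂ = 0 := by rw [polar_comm]; exact o23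
  have s0 : 𝔣 u₀ u₀ = 2 * c := H.f_self _
  have s1 : 𝔣 u₁ u₁ = 2 * c := H.f_self _
  have s2 : 𝔣 u₂ u₂ = 2 * c := H.f_self _
  have s3 : 𝔣 u₃ u₃ = 2 * c := H.f_self _
  have n0 : Q u₀ = c := H.norm _
  have n1 : Q u₁ = c := H.norm _
  have n2 : Q u₂ = c := H.norm _
  have n3 : Q u₃ = c := H.norm _
  set w := u₀ + u₁ + u₂ + u₃ with hw
  have hQw : Q w = c := by
    rw [hw, Q_add, Q_add, Q_add, n0, n1, n2, n3]
    simp only [polar_add_left, o01, o02, o03, o12, o13, o23]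
    linear_combination c * hF3
  have hQw0 : Q w ≠ 0 := by rw [hQw]; exact hc
  have hQu₃ : Q u₃ ≠ 0 := by rw [n3]; exact hc
  have fw : ∀ a b d e : F, 𝔣 w (a • u₀ + b • u₁ + d • u₂ + e • u₃) = 2 * c * (a + b + d + e) := by
    intro a b d e
    simp only [hw, polar_add_left, polar_add_right, polar_smul_right', o01, o02, o03, o12, o13, o23, o10, o20, o30, o21, o31,
      o32, s0, s1, s2, s3]
    ring
  have f3 : ∀ a b d e : F, 𝔣 u₃ (a • u₀ + b • u₁ + d • u₂ + e • u₃) = 2 * c * e := by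
    intro a b d e
    simp only [polar_add_right, polar_smul_right', o30, o31, o32, s3]
    ring
  set Rw := reflectionIso Q w hQw0 with hRw
  set R₃ := reflectionIso Q u₃ hQu₃ with hR₃
  set g : ↥(Cfsg.isometryGroup F (⇑Q)) := Rw * R₃ * Rw⁻¹ * R₃⁻¹ with hg
  have hinv₁ : Rw⁻¹ = Rw := reflectionIso_inv Q _ _
  have hinv₂ : R₃⁻¹ = R₃ := reflectionIso_inv Q _ _
  have hgΩ : (g : GL ι F) ∈ omegaGL (⇑Q) :=
    ⟨g, Subgroup.commutator_mem_commutator (Subgroup.mem_top _) (Subgroup.mem_top _), rfl⟩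
  have hact : ∀ a b d e : F, act Rw (a • u₀ + b • u₁ + d • u₂ + e • u₃) =
      (a - 2 * (a + b + d + e)) • u₀ + (b - 2 * (a + b + d + e)) • u₁ + (d - 2 * (a + b + d + e)) • u₂ +
        (e - 2 * (a + b + d + e)) • u₃ := by
    intro a b d e
    rw [hRw, reflectionIso_act, fw, hQw]
    have h5 : c⁻¹ * (2 * c * (a + b + d + e)) = 2 * (a + b + d + e) := by field_simp
    rw [h5, hw]
    module
  have hact₃ : ∀ a b d e : F, act R₃ (a • u₀ + b • u₁ + d • u₂ + e • u₃) =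
      a • u₀ + b • u₁ + d • u₂ + (-e) • u₃ := by
    intro a b d e
    rw [hR₃, reflectionIso_act, f3, n3]
    have h5 : c⁻¹ * (2 * c * e) = 2 * e := by field_simp
    rw [h5]
    have h6 : e - 2 * e = -e := by ring
    rw [← h6]
    module
  have hv : ∀ {a b d e a' b' d' e' : F}, a = a' → b = b' → d = d' → e = e' →
      a • u₀ + b • u₁ + d • u₂ + e • u₃ = a' • u₀ + b' • u₁ + d' • u₂ + e' • u₃ := by
    rintro a b d e _ _ _ _ rfl rfl rfl rfl
    rfl
  have a1 : act R₃ u₀ = (1 : F) • u₀ + (0 : F) • u₁ + (0 : F) • u₂ + (0 : F) • u₃ := by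
    have := hact₃ 1 0 0 0
    simp only [one_smul, zero_smul, add_zero, neg_zero] at this ⊢
    exact this
  have a2 : act Rw (act R₃ u₀) = (2 : F) • u₀ + (1 : F) • u₁ + (1 : F) • u₂ + (1 : F) • u₃ := by
    rw [a1, hact]
    exact hv (by linear_combination (-1) * hF3) (by linear_combination (-1) * hF3) (by linear_combination (-1) * hF3)
      (by linear_combination (-1) * hF3)
  have a3 : act R₃ (act Rw (act R₃ u₀)) = (2 : F) • u₀ + (1 : F) • u₁ + (1 : F) • u₂ + (-1 : F) • u₃ := by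
    rw [a2, hact₃]
  have hval : act g u₀ = (2 : F) • u₀ + (1 : F) • u₁ + (1 : F) • u₂ + (-1 : F) • u₃ := by
    rw [hg, hinv₁, hinv₂, act_mul, act_mul, act_mul, a3, hact]
    exact hv (by linear_combination (-2) * hF3) (by linear_combination (-2) * hF3) (by linear_combination (-2) * hF3)
      (by linear_combination (-2) * hF3)
  have hmemg : (g : GL ι F) ∈ setStab (Fr Q D c) := by
    rw [← heq] at hgΩ
    exact hgΩ.1
  have hu₀Fr : u₀ ∈ Fr Q D c := ⟨⟨part a₀, H.mem a₀⟩, n0⟩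
  obtain ⟨⟨k, hk⟩, -⟩ := (hmemg u₀).1 hu₀Fr
  have hk' : act g u₀ ∈ D k := hk
  have f0 : 𝔣 (act g u₀) u₀ ≠ 0 := by
    rw [hval]
    simp only [polar_add_left, polar_smul_left', o10, o20, o30, s0]
    have : (2 : F) * (2 * c) + 1 * 0 + 1 * 0 + -1 * 0 = c := by linear_combination (c) * hF3
    rw [this]
    exact hc
  have f2 : 𝔣 (act g u₀) u₂ ≠ 0 := by
    rw [hval]
    simp only [polar_add_left, polar_smul_left', o02, o12, o32, s2]
    have : (2 : F) * 0 + 1 * 0 + 1 * (2 * c) + -1 * 0 = 2 * c := by ring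
    rw [this]
    exact h2c
  have hki : k = part a₀ := H.eq_of_polar_ne hk' (H.mem a₀) f0
  have hkj : k = part a₂ := H.eq_of_polar_ne hk' (H.mem a₂) f2
  exact hij (hki.symm.trans hkj)

end Main

/-- Frame data for ternary blocks. -/
theorem FD.of3 (hq : Fintype.card F = 3) {t : ℕ} {D : Fin t → Submodule F (ι → F)} {c : F} {E : Fin t × Fin 3 → ι → F}
    (hD : IsOrthogonalMDecomposition (⇑Q) 3 D) (hc : c ≠ 0) (hm : ∀ p, E p ∈ D p.1) (hn : ∀ p, Q (E p) = c)
    (ho : ∀ p q, p ≠ q → 𝔣 (E p) (E q) = 0) (hs : ∀ i, ∀ v ∈ D i, ∃ x : Fin 3 → F, v = ∑ j, x j • E (i, j)) :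
    FD Q D c E Prod.fst := by
  refine ⟨two_ne hq, hD.decomp.orthogonal, hc, hm, hn, ho, fun v => ⟨?_, ?_⟩⟩
  · rintro ⟨⟨i, hi⟩, hv⟩
    obtain ⟨x, rfl⟩ := hs i v hi
    rw [Fin.sum_univ_three] at hv ⊢
    have o01 := ho (i, 0) (i, 1) (by simp)
    have o02 := ho (i, 0) (i, 2) (by simp)
    have o12 := ho (i, 1) (i, 2) (by simp)
    rw [Q_add, Q_add, Q_smul, Q_smul, Q_smul, hn, hn, hn, polar_add_left, polar_smul_left',
      polar_smul_left', polar_smul_left', polar_smul_right', polar_smul_right', polar_smul_right', o01, o02, o12] at hv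
    have h1 : x 0 * x 0 + x 1 * x 1 + x 2 * x 2 = 1 := by
      apply mul_right_cancel₀ hc
      linear_combination hv
    rcases sum_sq hq h1 with ⟨h | h, h1, h2⟩ | ⟨h1, h | h, h2⟩ | ⟨h1, h2, h | h⟩ <;>
      simp only [h, h1, h2, one_smul, neg_smul, zero_smul, add_zero, zero_add]
    · exact ⟨(i, 0), Or.inl rfl⟩
    · exact ⟨(i, 0), Or.inr rfl⟩
    · exact ⟨(i, 1), Or.inl rfl⟩
    · exact ⟨(i, 1), Or.inr rfl⟩
    · exact ⟨(i, 2), Or.inl rfl⟩
    · exact ⟨(i, 2), Or.inr rfl⟩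
  · rintro ⟨s, rfl | rfl⟩
    · exact ⟨⟨s.1, hm s⟩, hn s⟩
    · refine ⟨⟨s.1, (D s.1).neg_mem (hm s)⟩, ?_⟩
      rw [QuadraticMap.map_neg, hn]

/-- Frame data for anisotropic planes. -/
theorem FD.of2 (hq : Fintype.card F = 3) {t : ℕ} {D : Fin t → Submodule F (ι → F)} {c : F} {E : Fin t × Fin 2 → ι → F}
    (hD : IsOrthogonalMDecomposition (⇑Q) 2 D) (hc : c ≠ 0) (hm : ∀ p, E p ∈ D p.1) (hn : ∀ p, Q (E p) = c)
    (ho : ∀ p q, p ≠ q → 𝔣 (E p) (E q) = 0) (hs : ∀ i, ∀ v ∈ D i, ∃ x : Fin 2 → F, v = ∑ j, x j • E (i, j)) :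
    FD Q D c E Prod.fst := by
  refine ⟨two_ne hq, hD.decomp.orthogonal, hc, hm, hn, ho, fun v => ⟨?_, ?_⟩⟩
  · rintro ⟨⟨i, hi⟩, hv⟩
    obtain ⟨x, rfl⟩ := hs i v hi
    rw [Fin.sum_univ_two] at hv ⊢
    have o01 := ho (i, 0) (i, 1) (by simp)
    rw [Q_add, Q_smul, Q_smul, hn, hn, polar_smul_left', polar_smul_right', o01] at hv
    have h1 : x 0 * x 0 + x 1 * x 1 + 0 * 0 = 1 := by
      apply mul_right_cancel₀ hc
      linear_combination hv
    rcases sum_sq hq h1 with ⟨h | h, h1, -⟩ | ⟨h1, h | h, -⟩ | ⟨-, -, h | h⟩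
    · simp only [h, h1, one_smul, neg_smul, zero_smul, add_zero, zero_add]
      exact ⟨(i, 0), Or.inl rfl⟩
    · simp only [h, h1, one_smul, neg_smul, zero_smul, add_zero, zero_add]
      exact ⟨(i, 0), Or.inr rfl⟩
    · simp only [h, h1, one_smul, neg_smul, zero_smul, add_zero, zero_add]
      exact ⟨(i, 1), Or.inl rfl⟩
    · simp only [h, h1, one_smul, neg_smul, zero_smul, add_zero, zero_add]
      exact ⟨(i, 1), Or.inr rfl⟩
    · exact absurd h.symm one_ne_zero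
    · exact absurd (show (1 : F) = 0 by linear_combination h) one_ne_zero
  · rintro ⟨s, rfl | rfl⟩
    · exact ⟨⟨s.1, hm s⟩, hn s⟩
    · refine ⟨⟨s.1, (D s.1).neg_mem (hm s)⟩, ?_⟩
      rw [QuadraticMap.map_neg, hn]

/-- The main theorem, ternary blocks. -/
theorem exists_between_frame (hq : Fintype.card F = 3) {t : ℕ} {D : Fin t → Submodule F (ι → F)}
    (hD : IsOrthogonalMDecomposition (⇑Q) 3 D) :
    ∃ K : Subgroup (GL ι F), decompositionStabilizer D ⊓ omegaGL (⇑Q) < K ∧ K < omegaGL (⇑Q) := by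
  have h2t := hD.decomp.decomp.two_le
  set i₀ : Fin t := ⟨0, by omega⟩ with hi₀
  set i₁ : Fin t := ⟨1, by omega⟩ with hi₁
  have hij : i₀ ≠ i₁ := by simp [hi₀, hi₁]
  obtain ⟨c, E, hc, hm, hn, ho, hs⟩ := exists_frames hD (exists_fr (Q := Q) hq (hD.decomp.decomp.finrank_eq i₀)
    (hD.decomp.nondegenerate i₀))
  have H := FD.of3 hq hD hc hm hn ho hs
  refine ⟨setStab (Fr Q D c) ⊓ omegaGL (⇑Q), H.lt_setStab (p := (i₀, 0)) (q := (i₀, 1)) (w := (i₁, 0)) (by simp) rfl hij,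
    H.setStab_lt3 (three_zero hq) (a₀ := (i₀, 0)) (a₁ := (i₀, 1)) (a₂ := (i₁, 0)) (a₃ := (i₁, 1)) (by simp) (by simp [hij])
      (by simp [hij]) (by simp [hij]) (by simp [hij]) (by simp) hij⟩

/-- The main theorem, anisotropic planes. -/
theorem exists_between_frame2' (hq : Fintype.card F = 3) {t : ℕ} {D : Fin t → Submodule F (ι → F)}
    (hD : IsOrthogonalMDecomposition (⇑Q) 2 D) {i₂ : Fin t} (hp : ¬ IsPlusTypeOn (⇑Q) (D i₂)) :
    ∃ K : Subgroup (GL ι F), decompositionStabilizer D ⊓ omegaGL (⇑Q) < K ∧ K < omegaGL (⇑Q) := by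
  have h2t := hD.decomp.decomp.two_le
  set i₀ : Fin t := ⟨0, by omega⟩ with hi₀
  set i₁ : Fin t := ⟨1, by omega⟩ with hi₁
  have hij : i₀ ≠ i₁ := by simp [hi₀, hi₁]
  obtain ⟨c, E, hc, hm, hn, ho, hs⟩ := exists_frames hD (exists_fr2 (Q := Q) hq (hD.decomp.decomp.finrank_eq i₂)
    (hD.decomp.nondegenerate i₂) hp)
  have H := FD.of2 hq hD hc hm hn ho hs
  refine ⟨setStab (Fr Q D c) ⊓ omegaGL (⇑Q), H.lt_setStab (p := (i₀, 0)) (q := (i₀, 1)) (w := (i₁, 0)) (by simp) rfl hij,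
    H.setStab_lt3 (three_zero hq) (a₀ := (i₀, 0)) (a₁ := (i₀, 1)) (a₂ := (i₁, 0)) (a₃ := (i₁, 1)) (by simp) (by simp [hij])
      (by simp [hij]) (by simp [hij]) (by simp [hij]) (by simp) hij⟩

/-- The main theorem, anisotropic planes. -/
theorem exists_between_frame2 (hq : Fintype.card F = 3) {t : ℕ} {D : Fin t → Submodule F (ι → F)}
    (hD : IsOrthogonalMDecomposition (⇑Q) 2 D) (hp : ∀ i, ¬ IsPlusTypeOn (⇑Q) (D i)) :
    ∃ K : Subgroup (GL ι F), decompositionStabilizer D ⊓ omegaGL (⇑Q) < K ∧ K < omegaGL (⇑Q) := by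
  have h2t := hD.decomp.decomp.two_le
  exact exists_between_frame2' hq hD (hp ⟨0, by omega⟩)

end Cfsg.Agent.Lib.Classical.Sub.OFrame
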