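/-
Hyperbolic planes over small fields: the stabiliser in `Ω` of a decomposition into isometric plus-type planes
is not maximal when `q ≤ 5`.
-/
import Mathlib
import Cfsg.Agent.Lib.Classical.Sub.OFrame

set_option autoImplicit false
set_option linter.unusedSectionVars false

namespace Cfsg.Agent.Lib.Classical.Sub.OFrame2

open scoped Matrix MatrixGroups
open Module Cfsg Cfsg.Geo QuadraticMap
open Cfsg.Agent.Lib.Classical.Orth.Basic
open Cfsg.Agent.Lib.Classical.Geo.OPts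
open Cfsg.Agent.Lib.Classical.Sub.OFrame

variable {ι : Type} [Fintype ι] [DecidableEq ι] {F : Type*} [Field F] [Fintype F]
  {Q : QuadraticForm F (ι → F)}

set_option quotPrecheck false in
local notation "𝔣" => polar (⇑Q)

local notation "Mt" => Matrix ι ι F

/-! ### Generalities -/

/-- For a finite set, one inclusion is enough. -/
theorem mem_setStab_of_forward {S : Set (ι → F)} {g : GL ι F} (h : ∀ v ∈ S, (g : Mt) *ᵥ v ∈ S) : g ∈ setStab S := by
  intro v
  refine ⟨h v, fun hv => ?_⟩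
  let φ : S → S := fun x => ⟨(g : Mt) *ᵥ (x : ι → F), h x x.2⟩
  have hinj : Function.Injective φ := by
    intro x y hxy
    have h1 : (g : Mt) *ᵥ (x : ι → F) = (g : Mt) *ᵥ (y : ι → F) := congrArg Subtype.val hxy
    exact Subtype.ext (Matrix.mulVec_injective_of_isUnit g.isUnit h1)
  obtain ⟨w, hw⟩ := Finite.injective_iff_surjective.1 hinj ⟨_, hv⟩
  have h1 : (g : Mt) *ᵥ (w : ι → F) = (g : Mt) *ᵥ v := congrArg Subtype.val hw
  have h2 : (w : ι → F) = v := Matrix.mulVec_injective_of_isUnit g.isUnit h1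
  rw [← h2]
  exact w.2

/-- The test for elements outside the stabiliser of a decomposition. -/
theorem false_of_test {t : ℕ} {D : Fin t → Submodule F (ι → F)} (horth : ∀ i j, i ≠ j → AreOrthogonalFor (polar (⇑Q)) (D i) (D j))
    {g : GL ι F} (hg : g ∈ decompositionStabilizer D) {i j₁ j₂ : Fin t} {x y₁ y₂ : ι → F} (hx : x ∈ D i) (h₁ : y₁ ∈ D j₁)
    (h₂ : y₂ ∈ D j₂) (hj : j₁ ≠ j₂) (t₁ : 𝔣 ((g : Mt) *ᵥ x) y₁ ≠ 0) (t₂ : 𝔣 ((g : Mt) *ᵥ x) y₂ ≠ 0) : False := by
  obtain ⟨σ, hσ⟩ := hg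
  have hm : (g : Mt) *ᵥ x ∈ D (σ i) := by
    rw [← hσ i]
    exact ⟨x, hx, rfl⟩
  have e1 : σ i = j₁ := by
    by_contra h
    exact t₁ (horth _ _ h _ hm _ h₁)
  have e2 : σ i = j₂ := by
    by_contra h
    exact t₂ (horth _ _ h _ hm _ h₂)
  exact hj (e1.symm.trans e2)

theorem lt_inf_of_witness {A B Ω : Subgroup (GL ι F)} (hAB : A ⊓ Ω ≤ B) {g : GL ι F} (hA : g ∉ A) (hB : g ∈ B) (hΩ : g ∈ Ω) :
    A ⊓ Ω < B ⊓ Ω := by
  refine lt_of_le_of_ne (le_inf hAB inf_le_right) ?_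
  intro h
  have : g ∈ A ⊓ Ω := by
    rw [h]
    exact ⟨hB, hΩ⟩
  exact hA this.1

theorem inf_lt_of_witness {B Ω : Subgroup (GL ι F)} {g : GL ι F} (hB : g ∉ B) (hΩ : g ∈ Ω) : B ⊓ Ω < Ω := by
  refine lt_of_le_of_ne inf_le_right ?_
  intro h
  rw [← h] at hΩ
  exact hB hΩ.1

/-! ### Hyperbolic data -/

section HP

variable {t : ℕ} {D : Fin t → Submodule F (ι → F)} {e f : Fin t → ι → F}

/-- Hyperbolic pairs in a decomposition. -/
structure HP (Q : QuadraticForm F (ι → F)) (D : Fin t → Submodule F (ι → F)) (e f : Fin t → ι → F) : Prop where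
  indep : ∀ i j, i ≠ j → AreOrthogonalFor (polar (⇑Q)) (D i) (D j)
  me : ∀ i, e i ∈ D i
  mf : ∀ i, f i ∈ D i
  Qe : ∀ i, Q (e i) = 0
  Qf : ∀ i, Q (f i) = 0
  ef : ∀ i, polar (⇑Q) (e i) (f i) = 1
  span : ∀ i, ∀ v ∈ D i, ∃ x y : F, v = x • e i + y • f i

theorem exists_HP (hQ : (polarBilin Q).Nondegenerate) {k : ℕ} (hk : k = 2) (hD : IsOrthogonalMDecomposition (⇑Q) k D)
    (hp : ∀ i, IsPlusTypeOn (⇑Q) (D i)) : ∃ e f, HP Q D e f := by
  subst hk
  have h := fun i => Cfsg.Agent.Lib.Classical.Geo.OPlane.exists_basis hQ (hD.decomp.decomp.finrank_eq i) (hD.decomp.nondegenerate i) (hp i)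
  choose e he f hf hQe hQf hef hW using h
  refine ⟨e, f, ⟨hD.decomp.orthogonal, he, hf, hQe, hQf, hef, fun i v hv => ?_⟩⟩
  rw [hW i] at hv
  obtain ⟨x, y, h⟩ := Submodule.mem_span_pair.1 hv
  exact ⟨x, y, h.symm⟩

variable (H : HP Q D e f)

include H

theorem HP.pee (i j : Fin t) : 𝔣 (e i) (e j) = 0 := by
  by_cases h : i = j
  · subst h
    rw [polar_self_eq, H.Qe, mul_zero]
  · exact H.indep _ _ h _ (H.me i) _ (H.me j)

theorem HP.pff (i j : Fin t) : 𝔣 (f i) (f j) = 0 := by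
  by_cases h : i = j
  · subst h
    rw [polar_self_eq, H.Qf, mul_zero]
  · exact H.indep _ _ h _ (H.mf i) _ (H.mf j)

theorem HP.pef (i j : Fin t) : 𝔣 (e i) (f j) = if i = j then 1 else 0 := by
  by_cases h : i = j
  · subst h
    rw [if_pos rfl, H.ef]
  · rw [if_neg h]
    exact H.indep _ _ h _ (H.me i) _ (H.mf j)

theorem HP.pfe (i j : Fin t) : 𝔣 (f i) (e j) = if i = j then 1 else 0 := by
  by_cases h : i = j
  · subst h
    rw [if_pos rfl, polar_comm, H.ef]
  · rw [if_neg h]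
    exact H.indep _ _ h _ (H.mf i) _ (H.me j)

theorem HP.ee (i : Fin t) : 𝔣 (e i) (e i) = 0 := by rw [polar_self_eq, H.Qe, mul_zero]

theorem HP.ff (i : Fin t) : 𝔣 (f i) (f i) = 0 := by rw [polar_self_eq, H.Qf, mul_zero]

theorem HP.fe (i : Fin t) : 𝔣 (f i) (e i) = 1 := by rw [polar_comm, H.ef]

theorem HP.Q_comb (i : Fin t) (x y : F) : Q (x • e i + y • f i) = x * y := by
  rw [Q_add, Q_smul, Q_smul, H.Qe, H.Qf, polar_smul_left', polar_smul_right', H.ef]
  ring

theorem HP.f_comb (i : Fin t) (x y x' y' : F) : 𝔣 (x • e i + y • f i) (x' • e i + y' • f i) = x * y' + y * x' := by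
  simp only [polar_add_left, polar_add_right, polar_smul_left', polar_smul_right', H.ee, H.ff, H.ef, H.fe]
  ring

theorem HP.f_cross {i j : Fin t} (hij : i ≠ j) (x y x' y' : F) : 𝔣 (x • e i + y • f i) (x' • e j + y' • f j) = 0 :=
  H.indep i j hij _ ((D i).add_mem ((D i).smul_mem _ (H.me i)) ((D i).smul_mem _ (H.mf i))) _
    ((D j).add_mem ((D j).smul_mem _ (H.me j)) ((D j).smul_mem _ (H.mf j)))

end HP

/-! ### `q = 3`: half frames -/

theorem between_three {t : ℕ} {D : Fin t → Submodule F (ι → F)} {e f : Fin t → ι → F} (H : HP Q D e f)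
    (hq : Fintype.card F = 3) (ht : 4 ≤ t) :
    ∃ K : Subgroup (GL ι F), decompositionStabilizer D ⊓ omegaGL (⇑Q) < K ∧ K < omegaGL (⇑Q) := by
  have h2 := two_ne (F := F) hq
  have h3 := three_zero (F := F) hq
  have hF : FD Q D 1 (fun i => e i + f i) id := by
    refine ⟨h2, H.indep, one_ne_zero, fun i => (D i).add_mem (H.me i) (H.mf i), fun i => ?_, fun i j hij => ?_, fun v => ⟨?_, ?_⟩⟩
    · have := H.Q_comb i 1 1
      simpa using this
    · have := H.f_cross hij 1 1 1 1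
      simpa using this
    · rintro ⟨⟨i, hi⟩, hv⟩
      obtain ⟨x, y, rfl⟩ := H.span i v hi
      rw [H.Q_comb] at hv
      have hx : x ≠ 0 := by
        rintro rfl
        simp at hv
      have hxx := sq_val hq hx
      have hy : y = x := by
        have : x * (y - x) = 0 := by linear_combination hv - hxx
        exact sub_eq_zero.1 ((mul_eq_zero.1 this).resolve_left hx)
      subst hy
      rcases val_pm hq hx with rfl | rfl
      · exact ⟨i, Or.inl (by simp)⟩
      · exact ⟨i, Or.inr (by simp; abel)⟩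
    · rintro ⟨s, rfl | rfl⟩
      · refine ⟨⟨s, (D s).add_mem (H.me s) (H.mf s)⟩, ?_⟩
        have := H.Q_comb s 1 1
        simpa using this
      · refine ⟨⟨s, (D s).neg_mem ((D s).add_mem (H.me s) (H.mf s))⟩, ?_⟩
        rw [QuadraticMap.map_neg]
        have := H.Q_comb s 1 1
        simpa using this
  set i₀ : Fin t := ⟨0, by omega⟩ with hi₀
  set i₁ : Fin t := ⟨1, by omega⟩ with hi₁
  set i₂ : Fin t := ⟨2, by omega⟩ with hi₂
  set i₃ : Fin t := ⟨3, by omega⟩ with hi₃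
  have h01 : i₀ ≠ i₁ := by simp [hi₀, hi₁]
  have h02 : i₀ ≠ i₂ := by simp [hi₀, hi₂]
  have h03 : i₀ ≠ i₃ := by simp [hi₀, hi₃]
  have h12 : i₁ ≠ i₂ := by simp [hi₁, hi₂]
  have h13 : i₁ ≠ i₃ := by simp [hi₁, hi₃]
  have h23 : i₂ ≠ i₃ := by simp [hi₂, hi₃]
  refine ⟨setStab (Fr Q D 1) ⊓ omegaGL (⇑Q), ?_, hF.setStab_lt3 h3 h01 h02 h03 h12 h13 h23 h02⟩
  have hz : e i₁ - f i₁ ∈ D i₁ := (D i₁).sub_mem (H.me _) (H.mf _)
  have ez : e i₁ - f i₁ = (1 : F) • e i₁ + (-1 : F) • f i₁ := by simp [sub_eq_add_neg]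
  refine hF.lt_setStab' (p := i₀) (q := i₁) (w := i₂) h01 h12 h02 hz ?_ ?_ ?_ ?_
  · rw [ez, H.f_comb]
    intro h
    exact h2 (by linear_combination -h)
  · exact H.indep _ _ h01 _ ((D i₀).add_mem (H.me _) (H.mf _)) _ hz
  · show 𝔣 (e i₁ + f i₁) (e i₁ - f i₁) = 0
    have e1 : e i₁ + f i₁ = (1 : F) • e i₁ + (1 : F) • f i₁ := by simp
    rw [e1, ez, H.f_comb]
    ring
  · exact H.indep _ _ h12.symm _ ((D i₂).add_mem (H.me _) (H.mf _)) _ hz

/-! ### `q = 5`: the frame of vectors of norm one -/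

theorem five_zero (hq : Fintype.card F = 5) : (5 : F) = 0 := by
  have h := FiniteField.cast_card_eq_zero F
  rw [hq] at h
  exact_mod_cast h

theorem val5 (hq : Fintype.card F = 5) {x : F} (hx : x ≠ 0) : x = 1 ∨ x = -1 ∨ x = 2 ∨ x = -2 := by
  have h5 := five_zero (F := F) hq
  have h1 := FiniteField.pow_card_sub_one_eq_one x hx
  rw [hq] at h1
  have h2 : (x - 1) * (x + 1) * ((x - 2) * (x + 2)) = 0 := by
    have h3 : x ^ 4 = 1 := by simpa using h1
    linear_combination h3 + (1 - x ^ 2) * h5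
  rcases mul_eq_zero.1 h2 with h | h <;> rcases mul_eq_zero.1 h with h | h
  · exact Or.inl (sub_eq_zero.1 h)
  · exact Or.inr (Or.inl (eq_neg_of_add_eq_zero_left h))
  · exact Or.inr (Or.inr (Or.inl (sub_eq_zero.1 h)))
  · exact Or.inr (Or.inr (Or.inr (eq_neg_of_add_eq_zero_left h)))

/-- A commutator leaving the frame, `q = 5`. -/
theorem FD.setStab_lt5 {t : ℕ} {D : Fin t → Submodule F (ι → F)} {c : F} {S : Type} [DecidableEq S] {E : S → ι → F}
    {part : S → Fin t} (H : FD Q D c E part) (h5 : (5 : F) = 0) {a₀ a₁ a₂ : S} (h01 : a₀ ≠ a₁) (h02 : a₀ ≠ a₂) (h12 : a₁ ≠ a₂)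
    (hij : part a₀ ≠ part a₂) : setStab (Fr Q D c) ⊓ omegaGL (⇑Q) < omegaGL (⇑Q) := by
  have h2 := H.h2
  have hc := H.c_ne
  have h2c := H.h2c
  have h3 : (3 : F) ≠ 0 := by
    intro h
    apply h2
    linear_combination h5 - h
  set u₀ := E a₀ with hu₀
  set u₁ := E a₁ with hu₁
  set u₂ := E a₂ with hu₂
  have o01 : 𝔣 u₀ u₁ = 0 := H.orth _ _ h01
  have o02 : 𝔣 u₀ u₂ = 0 := H.orth _ _ h02
  have o12 : 𝔣 u₁ u₂ = 0 := H.orth _ _ h12
  have o10 : 𝔣 u₁ u₀ = 0 := by rw [polar_comm]; exact o01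
  have o20 : 𝔣 u₂ u₀ = 0 := by rw [polar_comm]; exact o02
  have o21 : 𝔣 u₂ u₁ = 0 := by rw [polar_comm]; exact o12
  have s0 : 𝔣 u₀ u₀ = 2 * c := H.f_self _
  have s1 : 𝔣 u₁ u₁ = 2 * c := H.f_self _
  have s2 : 𝔣 u₂ u₂ = 2 * c := H.f_self _
  have n0 : Q u₀ = c := H.norm _
  have n1 : Q u₁ = c := H.norm _
  have n2 : Q u₂ = c := H.norm _
  set w := u₀ + u₁ + u₂ with hw
  have hQw : Q w = 3 * c := by
    rw [hw, Q_add, Q_add, n0, n1, n2]
    simp only [polar_add_left, o01, o02, o12]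
    ring
  have hQw0 : Q w ≠ 0 := by rw [hQw]; exact mul_ne_zero h3 hc
  have hQu₂ : Q u₂ ≠ 0 := by rw [n2]; exact hc
  have fw : ∀ a b d : F, 𝔣 w (a • u₀ + b • u₁ + d • u₂) = 2 * c * (a + b + d) := by
    intro a b d
    simp only [hw, polar_add_left, polar_add_right, polar_smul_right', o01, o02, o12, o10, o20, o21, s0, s1, s2]
    ring
  have f2 : ∀ a b d : F, 𝔣 u₂ (a • u₀ + b • u₁ + d • u₂) = 2 * c * d := by
    intro a b d
    simp only [polar_add_right, polar_smul_right', o20, o21, s2]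
    ring
  set Rw := reflectionIso Q w hQw0 with hRw
  set R₂ := reflectionIso Q u₂ hQu₂ with hR₂
  set g : ↥(Cfsg.isometryGroup F (⇑Q)) := Rw * R₂ * Rw⁻¹ * R₂⁻¹ with hg
  have hinv₁ : Rw⁻¹ = Rw := reflectionIso_inv Q _ _
  have hinv₂ : R₂⁻¹ = R₂ := reflectionIso_inv Q _ _
  have hgΩ : (g : GL ι F) ∈ omegaGL (⇑Q) :=
    ⟨g, Subgroup.commutator_mem_commutator (Subgroup.mem_top _) (Subgroup.mem_top _), rfl⟩
  have h23 : (3 * c)⁻¹ * (2 * c) = 4 := by
    have : (3 : F) * 4 = 2 := by linear_combination 2 * h5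
    field_simp
    linear_combination -this
  have hact : ∀ a b d : F, act Rw (a • u₀ + b • u₁ + d • u₂) =
      (a + (a + b + d)) • u₀ + (b + (a + b + d)) • u₁ + (d + (a + b + d)) • u₂ := by
    intro a b d
    rw [hRw, reflectionIso_act, fw, hQw]
    have h5' : (3 * c)⁻¹ * (2 * c * (a + b + d)) = 4 * (a + b + d) := by rw [← mul_assoc, h23]
    rw [h5', hw]
    have key : ∀ x y : F, x - 4 * y = x + y := by
      intro x y
      linear_combination -y * h5
    calc a • u₀ + b • u₁ + d • u₂ - (4 * (a + b + d)) • (u₀ + u₁ + u₂)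
        = (a - 4 * (a + b + d)) • u₀ + (b - 4 * (a + b + d)) • u₁ + (d - 4 * (a + b + d)) • u₂ := by module
      _ = _ := by rw [key, key, key]
  have hact₂ : ∀ a b d : F, act R₂ (a • u₀ + b • u₁ + d • u₂) = a • u₀ + b • u₁ + (-d) • u₂ := by
    intro a b d
    rw [hR₂, reflectionIso_act, f2, n2]
    have h5' : c⁻¹ * (2 * c * d) = 2 * d := by field_simp
    rw [h5']
    have h6 : d - 2 * d = -d := by ring
    rw [← h6]
    module
  have hv : ∀ {a b d a' b' d' : F}, a = a' → b = b' → d = d' →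
      a • u₀ + b • u₁ + d • u₂ = a' • u₀ + b' • u₁ + d' • u₂ := by
    rintro a b d _ _ _ rfl rfl rfl
    rfl
  have a1 : act R₂ u₀ = (1 : F) • u₀ + (0 : F) • u₁ + (0 : F) • u₂ := by
    have := hact₂ 1 0 0
    simp only [one_smul, zero_smul, add_zero, neg_zero] at this ⊢
    exact this
  have a2 : act Rw (act R₂ u₀) = (2 : F) • u₀ + (1 : F) • u₁ + (1 : F) • u₂ := by
    rw [a1, hact]
    exact hv (by ring) (by ring) (by ring)
  have a3 : act R₂ (act Rw (act R₂ u₀)) = (2 : F) • u₀ + (1 : F) • u₁ + (-1 : F) • u₂ := by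
    rw [a2, hact₂]
  have hval : act g u₀ = (4 : F) • u₀ + (3 : F) • u₁ + (1 : F) • u₂ := by
    rw [hg, hinv₁, hinv₂, act_mul, act_mul, act_mul, a3, hact]
    exact hv (by ring) (by ring) (by ring)
  refine inf_lt_of_witness (g := (g : GL ι F)) (fun hmemg => ?_) hgΩ
  have hu₀Fr : u₀ ∈ Fr Q D c := ⟨⟨part a₀, H.mem a₀⟩, n0⟩
  obtain ⟨⟨k, hk⟩, -⟩ := (hmemg u₀).1 hu₀Fr
  have hk' : act g u₀ ∈ D k := hk
  have f0 : 𝔣 (act g u₀) u₀ ≠ 0 := by
    rw [hval]
    simp only [polar_add_left, polar_smul_left', o10, o20, s0]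
    have : (4 : F) * (2 * c) + 3 * 0 + 1 * 0 = 3 * c := by linear_combination c * h5
    rw [this]
    exact mul_ne_zero h3 hc
  have f2' : 𝔣 (act g u₀) u₂ ≠ 0 := by
    rw [hval]
    simp only [polar_add_left, polar_smul_left', o02, o12, s2]
    have : (4 : F) * 0 + 3 * 0 + 1 * (2 * c) = 2 * c := by ring
    rw [this]
    exact h2c
  have hki : k = part a₀ := H.eq_of_polar_ne hk' (H.mem a₀) f0
  have hkj : k = part a₂ := H.eq_of_polar_ne hk' (H.mem a₂) f2'
  exact hij (hki.symm.trans hkj)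

theorem between_five {t : ℕ} {D : Fin t → Submodule F (ι → F)} {e f : Fin t → ι → F} (H : HP Q D e f)
    (hq : Fintype.card F = 5) (ht : 2 ≤ t) :
    ∃ K : Subgroup (GL ι F), decompositionStabilizer D ⊓ omegaGL (⇑Q) < K ∧ K < omegaGL (⇑Q) := by
  have h5 := five_zero (F := F) hq
  have h2 : (2 : F) ≠ 0 := by
    intro h
    have : (1 : F) = 0 := by linear_combination h5 - 2 * h
    exact one_ne_zero this
  set c₀ : Fin 2 → F := ![1, 2] with hc₀
  set c₁ : Fin 2 → F := ![1, 3] with hc₁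
  have hcc : ∀ j, c₀ j * c₁ j = 1 := by
    intro j
    fin_cases j
    · simp [hc₀, hc₁]
    · show (2 : F) * 3 = 1
      linear_combination h5
  have hmemE : ∀ p : Fin t × Fin 2, c₀ p.2 • e p.1 + c₁ p.2 • f p.1 ∈ D p.1 :=
    fun p => (D p.1).add_mem ((D p.1).smul_mem _ (H.me _)) ((D p.1).smul_mem _ (H.mf _))
  have hF : FD Q D 1 (fun p : Fin t × Fin 2 => c₀ p.2 • e p.1 + c₁ p.2 • f p.1) Prod.fst := by
    refine ⟨h2, H.indep, one_ne_zero, hmemE, fun p => ?_, ?_, fun v => ⟨?_, ?_⟩⟩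
    · rw [H.Q_comb, hcc]
    · rintro ⟨i, j⟩ ⟨i', j'⟩ hne
      by_cases hi : i = i'
      · subst hi
        have hj : j ≠ j' := fun h => hne (by rw [h])
        show 𝔣 (c₀ j • e i + c₁ j • f i) (c₀ j' • e i + c₁ j' • f i) = 0
        rw [H.f_comb]
        fin_cases j <;> fin_cases j' <;> first | exact absurd rfl hj | skip
        · show (1 : F) * 3 + 1 * 2 = 0
          linear_combination h5
        · show (2 : F) * 1 + 3 * 1 = 0
          linear_combination h5
      · exact H.f_cross hi _ _ _ _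
    · rintro ⟨⟨i, hi⟩, hv⟩
      obtain ⟨x, y, rfl⟩ := H.span i v hi
      rw [H.Q_comb] at hv
      have hx : x ≠ 0 := by
        rintro rfl
        simp at hv
      have e0 : c₀ 0 = 1 := rfl
      have e1 : c₁ 0 = 1 := rfl
      have e2 : c₀ 1 = 2 := rfl
      have e3 : c₁ 1 = 3 := rfl
      rcases val5 hq hx with rfl | rfl | rfl | rfl
      · refine ⟨(i, 0), Or.inl ?_⟩
        have hy : y = 1 := by linear_combination hv
        simp [e0, e1, hy]
      · refine ⟨(i, 0), Or.inr ?_⟩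
        have hy : y = -1 := by linear_combination -hv
        simp [e0, e1, hy]
        abel
      · refine ⟨(i, 1), Or.inl ?_⟩
        have hy : y = 3 := by linear_combination 3 * hv - y * h5 + h5 * 0
        simp [e2, e3, hy]
      · refine ⟨(i, 1), Or.inr ?_⟩
        have hy : y = -3 := by linear_combination -3 * hv - y * h5
        simp [e2, e3, hy]
        abel
    · rintro ⟨s, rfl | rfl⟩
      · exact ⟨⟨s.1, hmemE s⟩, by rw [H.Q_comb, hcc]⟩
      · refine ⟨⟨s.1, (D s.1).neg_mem (hmemE s)⟩, ?_⟩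
        rw [QuadraticMap.map_neg, H.Q_comb, hcc]
  set i₀ : Fin t := ⟨0, by omega⟩ with hi₀
  set i₁ : Fin t := ⟨1, by omega⟩ with hi₁
  have hij : i₀ ≠ i₁ := by simp [hi₀, hi₁]
  exact ⟨setStab (Fr Q D 1) ⊓ omegaGL (⇑Q), hF.lt_setStab (p := (i₀, 0)) (q := (i₀, 1)) (w := (i₁, 0)) (by simp) rfl hij,
    FD.setStab_lt5 hF h5 (a₀ := (i₀, 0)) (a₁ := (i₀, 1)) (a₂ := (i₁, 0)) (by simp) (by simp [hij]) (by simp [hij]) hij⟩

/-! ### Characteristic two -/

theorem polar_eG {z b : ι → F} (hz : Q z = 0) (hb : 𝔣 z b = 0) (x y : ι → F) :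
    𝔣 ((eG hz hb : GL ι F).1 *ᵥ x) y = 𝔣 x y + 𝔣 z x * 𝔣 b y - 𝔣 b x * 𝔣 z y - Q b * 𝔣 z x * 𝔣 z y := by
  rw [eG_mulVec, polar_sub_left, polar_sub_left, polar_add_left, polar_smul_left', polar_smul_left', polar_smul_left']

theorem val2 (hq : Fintype.card F = 2) (x : F) : x = 0 ∨ x = 1 := by
  by_cases hx : x = 0
  · exact Or.inl hx
  · refine Or.inr ?_
    have h1 := FiniteField.pow_card_sub_one_eq_one x hx
    rw [hq] at h1
    simpa using h1

/-- `q = 2`: the stabiliser of the totally isotropic space spanned by the vectors of norm one of the planes. -/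
theorem between_two (hQ : (polarBilin Q).Nondegenerate) (hn : 5 ≤ Fintype.card ι) {t : ℕ} {D : Fin t → Submodule F (ι → F)}
    {e f : Fin t → ι → F} (H : HP Q D e f) (hq : Fintype.card F = 2) (ht : 3 ≤ t) :
    ∃ K : Subgroup (GL ι F), decompositionStabilizer D ⊓ omegaGL (⇑Q) < K ∧ K < omegaGL (⇑Q) := by
  have hch : (2 : F) = 0 := by
    have h := FiniteField.cast_card_eq_zero F
    rw [hq] at h
    exact_mod_cast h
  set u : Fin t → ι → F := fun i => e i + f i with hu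
  have hme : ∀ i, u i ∈ D i := fun i => (D i).add_mem (H.me i) (H.mf i)
  have eu : ∀ i, u i = (1 : F) • e i + (1 : F) • f i := fun i => by simp [hu]
  have hQu : ∀ i, Q (u i) = 1 := fun i => by
    rw [eu, H.Q_comb, one_mul]
  have hfuu : ∀ i j, 𝔣 (u i) (u j) = 0 := by
    intro i j
    by_cases h : i = j
    · subst h
      rw [polar_self_eq, hch, zero_mul]
    · exact H.indep _ _ h _ (hme i) _ (hme j)
  have huniq : ∀ i, ∀ v ∈ D i, Q v = 1 → v = u i := by
    intro i v hv hQv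
    obtain ⟨x, y, rfl⟩ := H.span i v hv
    rw [H.Q_comb] at hQv
    have hx : x = 1 := by
      rcases val2 hq x with rfl | h
      · simp at hQv
      · exact h
    have hy : y = 1 := by
      rw [hx, one_mul] at hQv
      exact hQv
    rw [hx, hy, eu]
  set Z : Set (ι → F) := {x | ∀ i, 𝔣 x (u i) = 0} with hZ
  have hle : decompositionStabilizer D ⊓ omegaGL (⇑Q) ≤ setStab Z := by
    rintro g ⟨⟨σ, hσ⟩, hg⟩
    apply mem_setStab_of_forward
    intro x hx j
    set g' : ↥(Cfsg.isometryGroup F (⇑Q)) := ⟨g, omegaGL_le_iso hg⟩ with hg'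
    have hu1 : act g' (u (σ.symm j)) = u j := by
      apply huniq
      · have h1 := hσ (σ.symm j)
        rw [Equiv.apply_symm_apply] at h1
        rw [← h1]
        exact ⟨_, hme _, rfl⟩
      · rw [Q_act, hQu]
    have h2 : 𝔣 (act g' x) (act g' (u (σ.symm j))) = 𝔣 x (u (σ.symm j)) := polar_act g' _ _
    rw [hu1] at h2
    show 𝔣 (act g' x) (u j) = 0
    rw [h2]
    exact hx _
  set i₀ : Fin t := ⟨0, by omega⟩ with hi₀
  set i₁ : Fin t := ⟨1, by omega⟩ with hi₁
  set i₂ : Fin t := ⟨2, by omega⟩ with hi₂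
  have h01 : i₀ ≠ i₁ := by simp [hi₀, hi₁]
  have h02 : i₀ ≠ i₂ := by simp [hi₀, hi₂]
  have h12 : i₁ ≠ i₂ := by simp [hi₁, hi₂]
  refine ⟨setStab Z ⊓ omegaGL (⇑Q), ?_, ?_⟩
  · -- a block-mixing element of the stabiliser
    set z := u i₀ + u i₁ with hz
    set b := e i₀ + e i₁ + e i₂ with hb
    have hQz : Q z = 0 := by
      rw [hz, Q_add, hQu, hQu, hfuu]
      linear_combination hch
    have hzb : 𝔣 z b = 0 := by
      simp only [hz, hb, hu, polar_add_left, polar_add_right, H.pee, H.pfe, if_neg h01, if_neg h02, if_neg h12,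
        if_neg h01.symm, if_neg h02.symm, if_neg h12.symm, if_true]
      linear_combination hch
    have hQb : Q b = 0 := by
      simp only [hb, Q_add, H.Qe, polar_add_left, H.pee]
      ring
    refine lt_inf_of_witness hle (g := eG hQz hzb) (fun hmem => ?_) ?_ (eG_mem_omegaGL hQ hn _ _)
    · have hz0 : 𝔣 z (e i₀) = 1 := by
        simp only [hz, hu, polar_add_left, H.pee, H.pfe, if_neg h01.symm, if_true]
        ring
      have hb0 : 𝔣 b (e i₀) = 0 := by
        simp only [hb, polar_add_left, H.pee]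
        ring
      refine false_of_test H.indep hmem (i := i₀) (j₁ := i₁) (j₂ := i₂) (x := e i₀) (y₁ := f i₁) (y₂ := f i₂) (H.me _) (H.mf _) (H.mf _) h12 ?_ ?_
      · rw [polar_eG, hz0, hb0, hQb]
        have h1 : 𝔣 b (f i₁) = 1 := by
          simp only [hb, polar_add_left, H.pef, if_neg h01, if_neg h12.symm, if_true]
          ring
        rw [h1, H.pef, if_neg h01]
        simp
      · rw [polar_eG, hz0, hb0, hQb]
        have h1 : 𝔣 b (f i₂) = 1 := by
          simp only [hb, polar_add_left, H.pef, if_neg h02, if_neg h12, if_true]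
          ring
        rw [h1, H.pef, if_neg h02]
        simp
    · apply mem_setStab_of_forward
      intro x hx j
      have h0 : 𝔣 z x = 0 := by
        rw [hz, polar_add_left, polar_comm, hx i₀, polar_comm, hx i₁, add_zero]
      have h1 : 𝔣 z (u j) = 0 := by
        rw [hz, polar_add_left, hfuu, hfuu, add_zero]
      rw [polar_eG, h0, h1, hx j]
      ring
  · -- an element leaving the stabiliser
    have he1 : 𝔣 (e i₀) (f i₁) = 0 := by rw [H.pef, if_neg h01]
    refine inf_lt_of_witness (g := eG (H.Qe i₀) he1) (fun hmem => ?_) (eG_mem_omegaGL hQ hn _ _)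
    have hx : u i₀ ∈ Z := fun i => hfuu _ _
    have h2 := (hmem (u i₀)).1 hx i₁
    rw [polar_eG, hfuu] at h2
    have h3 : 𝔣 (e i₀) (u i₀) = 1 := by
      simp only [hu, polar_add_right, H.pee, H.pef, if_true]
      ring
    have h4 : 𝔣 (f i₁) (u i₁) = 1 := by
      simp only [hu, polar_add_right, H.pff, H.pfe, if_true]
      ring
    have h5 : 𝔣 (e i₀) (u i₁) = 0 := by
      simp only [hu, polar_add_right, H.pee, H.pef, if_neg h01]
      ring
    rw [h3, h4, h5] at h2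
    exact one_ne_zero (show (1 : F) = 0 by linear_combination h2)

/-- `q = 4`: the stabiliser of the `𝔽₂`-structure spanned by the vectors of norm one of the planes. -/
theorem between_four (hQ : (polarBilin Q).Nondegenerate) (hn : 5 ≤ Fintype.card ι) {t : ℕ} {D : Fin t → Submodule F (ι → F)}
    {e f : Fin t → ι → F} (H : HP Q D e f) (hq : Fintype.card F = 4) (ht : 4 ≤ t) :
    ∃ K : Subgroup (GL ι F), decompositionStabilizer D ⊓ omegaGL (⇑Q) < K ∧ K < omegaGL (⇑Q) := by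
  have hch : (2 : F) = 0 := by
    have h := FiniteField.cast_card_eq_zero F
    rw [hq] at h
    have h4 : (2 : F) * 2 = 0 := by
      have : ((4 : ℕ) : F) = 2 * 2 := by norm_num
      rw [← this]
      exact h
    exact (mul_self_eq_zero.1 h4)
  have hx3 : ∀ x : F, x ≠ 0 → x ^ 3 = 1 := by
    intro x hx
    have h1 := FiniteField.pow_card_sub_one_eq_one x hx
    rw [hq] at h1
    simpa using h1
  obtain ⟨ω, hω⟩ : ∃ ω : F, ω * ω + ω + 1 = 0 := by
    classical
    have hc : ({0, 1} : Finset F).card < (Finset.univ : Finset F).card := by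
      rw [Finset.card_univ, hq]
      exact lt_of_le_of_lt (Finset.card_le_two) (by norm_num)
    obtain ⟨x, -, hx⟩ := Finset.exists_mem_notMem_of_card_lt_card hc
    simp only [Finset.mem_insert, Finset.mem_singleton, not_or] at hx
    refine ⟨x, ?_⟩
    have h3 := hx3 x hx.1
    have h4 : (x - 1) * (x * x + x + 1) = 0 := by linear_combination h3
    exact (mul_eq_zero.1 h4).resolve_left (sub_ne_zero.2 hx.2)
  have hω0 : ω ≠ 0 := by
    rintro rfl
    simp at hω
  have hωω : ω * (ω + 1) = 1 := by linear_combination hω - hch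
  have hval : ∀ x : F, x ≠ 0 → x = 1 ∨ x = ω ∨ x = ω + 1 := by
    intro x hx
    have h3 := hx3 x hx
    have h4 : (x - 1) * (x - ω) * (x - (ω + 1)) = 0 := by
      linear_combination h3 + (1 - (1 + ω) * x ^ 2 + ω * x) * hch + (x - 1) * hω
    rcases mul_eq_zero.1 h4 with h | h
    · rcases mul_eq_zero.1 h with h | h
      · exact Or.inl (sub_eq_zero.1 h)
      · exact Or.inr (Or.inl (sub_eq_zero.1 h))
    · exact Or.inr (Or.inr (sub_eq_zero.1 h))
  set u : Fin t → ι → F := fun i => (1 : F) • e i + (1 : F) • f i with hu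
  set v : Fin t → ι → F := fun i => ω • e i + (ω + 1) • f i with hv
  have hmu : ∀ i, u i ∈ D i := fun i => (D i).add_mem ((D i).smul_mem _ (H.me i)) ((D i).smul_mem _ (H.mf i))
  have hmv : ∀ i, v i ∈ D i := fun i => (D i).add_mem ((D i).smul_mem _ (H.me i)) ((D i).smul_mem _ (H.mf i))
  have hQu : ∀ i, Q (u i) = 1 := fun i => by rw [hu, H.Q_comb, one_mul]
  have hQv : ∀ i, Q (v i) = 1 := fun i => by rw [hv, H.Q_comb, hωω]
  have fuu : ∀ i, 𝔣 (u i) (u i) = 0 := fun i => by rw [polar_self_eq, hch, zero_mul]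
  have fvv : ∀ i, 𝔣 (v i) (v i) = 0 := fun i => by rw [polar_self_eq, hch, zero_mul]
  have fuv : ∀ i, 𝔣 (u i) (v i) = 1 := fun i => by
    simp only [hu, hv]
    rw [H.f_comb]
    linear_combination ω * hch
  have fvu : ∀ i, 𝔣 (v i) (u i) = 1 := fun i => by rw [polar_comm, fuv]
  have hFr : ∀ y, y ∈ Fr Q D 1 ↔ ∃ i, y = u i ∨ y = v i ∨ y = u i + v i := by
    intro y
    constructor
    · rintro ⟨⟨i, hi⟩, hy⟩
      obtain ⟨a, c, rfl⟩ := H.span i y hi
      rw [H.Q_comb] at hy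
      have ha : a ≠ 0 := by
        rintro rfl
        simp at hy
      refine ⟨i, ?_⟩
      rcases hval a ha with h | h | h
      · refine Or.inl ?_
        rw [h] at hy ⊢
        have hc : c = 1 := by linear_combination hy
        rw [hc]
      · refine Or.inr (Or.inl ?_)
        rw [h] at hy ⊢
        have hc : c = ω + 1 := by linear_combination (ω + 1) * hy - c * hωω
        rw [hc]
      · refine Or.inr (Or.inr ?_)
        rw [h] at hy ⊢
        have hc : c = ω := by linear_combination ω * hy - c * hωω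
        simp only [hu, hv]
        rw [hc]
        have e2 : (1 : F) + (ω + 1) = ω + 2 := by ring
        calc (ω + 1) • e i + ω • f i = ((1 : F) + ω) • e i + ((1 : F) + (ω + 1)) • f i := by
              rw [e2, hch, add_zero, add_comm (1 : F) ω]
          _ = (1 : F) • e i + (1 : F) • f i + (ω • e i + (ω + 1) • f i) := by module
    · rintro ⟨i, rfl | rfl | rfl⟩
      · exact ⟨⟨i, hmu i⟩, hQu i⟩
      · exact ⟨⟨i, hmv i⟩, hQv i⟩
      · refine ⟨⟨i, (D i).add_mem (hmu i) (hmv i)⟩, ?_⟩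
        rw [Q_add, hQu, hQv, fuv]
        linear_combination hch
  -- the predicate cutting out the prime field
  have Padd : ∀ {x y : F}, x * x = x → y * y = y → (x + y) * (x + y) = x + y := by
    intro x y hx hy
    linear_combination hx + hy + x * y * hch
  have Pmul : ∀ {x y : F}, x * x = x → y * y = y → (x * y) * (x * y) = x * y := by
    intro x y hx hy
    linear_combination y * y * hx + x * hy
  have Psub : ∀ {x y : F}, x * x = x → y * y = y → (x - y) * (x - y) = x - y := by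
    intro x y hx hy
    have : x - y = x + y := by linear_combination -y * hch
    rw [this]
    exact Padd hx hy
  have P0 : (0 : F) * 0 = 0 := by ring
  have P1 : (1 : F) * 1 = 1 := by ring
  have Pf : ∀ i j, (𝔣 (u i) (u j)) * (𝔣 (u i) (u j)) = 𝔣 (u i) (u j) ∧ (𝔣 (u i) (v j)) * (𝔣 (u i) (v j)) = 𝔣 (u i) (v j) ∧
      (𝔣 (v i) (u j)) * (𝔣 (v i) (u j)) = 𝔣 (v i) (u j) ∧ (𝔣 (v i) (v j)) * (𝔣 (v i) (v j)) = 𝔣 (v i) (v j) := by
    intro i j
    by_cases h : i = j
    · subst h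
      rw [fuu, fuv, fvu, fvv]
      exact ⟨P0, P1, P1, P0⟩
    · rw [H.indep _ _ h _ (hmu i) _ (hmu j), H.indep _ _ h _ (hmu i) _ (hmv j), H.indep _ _ h _ (hmv i) _ (hmu j),
        H.indep _ _ h _ (hmv i) _ (hmv j)]
      exact ⟨P0, P0, P0, P0⟩
  have Pfr : ∀ y ∈ Fr Q D 1, ∀ y' ∈ Fr Q D 1, (𝔣 y y') * (𝔣 y y') = 𝔣 y y' := by
    intro y hy y' hy'
    obtain ⟨i, rfl | rfl | rfl⟩ := (hFr y).1 hy <;> obtain ⟨j, rfl | rfl | rfl⟩ := (hFr y').1 hy' <;>
      obtain ⟨p1, p2, p3, p4⟩ := Pf i j <;> (try simp only [polar_add_left, polar_add_right])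
    · exact p1
    · exact p2
    · exact Padd p1 p2
    · exact p3
    · exact p4
    · exact Padd p3 p4
    · exact Padd p1 p3
    · exact Padd p2 p4
    · exact Padd (Padd p1 p3) (Padd p2 p4)
  have huFr : ∀ i, u i ∈ Fr Q D 1 := fun i => (hFr _).2 ⟨i, Or.inl rfl⟩
  have hvFr : ∀ i, v i ∈ Fr Q D 1 := fun i => (hFr _).2 ⟨i, Or.inr (Or.inl rfl)⟩
  set Z : Set (ι → F) := {x | ∀ y ∈ Fr Q D 1, (𝔣 x y) * (𝔣 x y) = 𝔣 x y} with hZ
  have hle : decompositionStabilizer D ⊓ omegaGL (⇑Q) ≤ setStab Z := by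
    intro g hg
    apply mem_setStab_of_forward
    intro x hx y hy
    set g' : ↥(Cfsg.isometryGroup F (⇑Q)) := ⟨g, omegaGL_le_iso hg.2⟩ with hg'
    have hg1 : g⁻¹ ∈ setStab (Fr Q D 1) := le_setStab_Fr ((decompositionStabilizer D ⊓ omegaGL (⇑Q)).inv_mem hg)
    have h1 : 𝔣 ((g : Mt) *ᵥ x) y = 𝔣 x (act g'⁻¹ y) := polar_act_left g' x y
    rw [h1]
    exact hx _ ((hg1 y).1 hy)
  set i₀ : Fin t := ⟨0, by omega⟩ with hi₀
  set i₁ : Fin t := ⟨1, by omega⟩ with hi₁
  set i₂ : Fin t := ⟨2, by omega⟩ with hi₂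
  set i₃ : Fin t := ⟨3, by omega⟩ with hi₃
  have h01 : i₀ ≠ i₁ := by simp [hi₀, hi₁]
  have h02 : i₀ ≠ i₂ := by simp [hi₀, hi₂]
  have h03 : i₀ ≠ i₃ := by simp [hi₀, hi₃]
  have h12 : i₁ ≠ i₂ := by simp [hi₁, hi₂]
  have h13 : i₁ ≠ i₃ := by simp [hi₁, hi₃]
  have h23 : i₂ ≠ i₃ := by simp [hi₂, hi₃]
  set a := u i₀ + u i₁ with ha
  have hQa : Q a = 0 := by
    rw [ha, Q_add, hQu, hQu, H.indep _ _ h01 _ (hmu _) _ (hmu _)]
    linear_combination hch
  have ha2 : 𝔣 a (u i₂) = 0 := by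
    rw [ha, polar_add_left, H.indep _ _ h02 _ (hmu _) _ (hmu _), H.indep _ _ h12 _ (hmu _) _ (hmu _), add_zero]
  have hav2 : 𝔣 a (v i₂) = 0 := by
    rw [ha, polar_add_left, H.indep _ _ h02 _ (hmu _) _ (hmv _), H.indep _ _ h12 _ (hmu _) _ (hmv _), add_zero]
  have hav0 : 𝔣 a (v i₀) = 1 := by
    rw [ha, polar_add_left, fuv, H.indep _ _ h01.symm _ (hmu _) _ (hmv _), add_zero]
  refine ⟨setStab Z ⊓ omegaGL (⇑Q), ?_, ?_⟩
  · set b := u i₂ + u i₃ with hb
    have hQb : Q b = 0 := by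
      rw [hb, Q_add, hQu, hQu, H.indep _ _ h23 _ (hmu _) _ (hmu _)]
      linear_combination hch
    have hab : 𝔣 a b = 0 := by
      rw [hb, polar_add_right, ha2, ha, polar_add_left, H.indep _ _ h03 _ (hmu _) _ (hmu _), H.indep _ _ h13 _ (hmu _) _ (hmu _)]
      ring
    refine lt_inf_of_witness hle (g := eG hQa hab) (fun hmem => ?_) ?_ (eG_mem_omegaGL hQ hn _ _)
    · have hb0 : 𝔣 b (v i₀) = 0 := by
        rw [hb, polar_add_left, H.indep _ _ h02.symm _ (hmu _) _ (hmv _), H.indep _ _ h03.symm _ (hmu _) _ (hmv _), add_zero]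
      have hav3 : 𝔣 a (v i₃) = 0 := by
        rw [ha, polar_add_left, H.indep _ _ h03 _ (hmu _) _ (hmv _), H.indep _ _ h13 _ (hmu _) _ (hmv _), add_zero]
      refine false_of_test H.indep hmem (i := i₀) (j₁ := i₂) (j₂ := i₃) (x := v i₀) (y₁ := v i₂) (y₂ := v i₃) (hmv _) (hmv _) (hmv _) h23 ?_ ?_
      · rw [polar_eG, hav0, hb0, hQb, hav2, H.indep _ _ h02 _ (hmv _) _ (hmv _)]
        have h1 : 𝔣 b (v i₂) = 1 := by
          rw [hb, polar_add_left, fuv, H.indep _ _ h23.symm _ (hmu _) _ (hmv _), add_zero]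
        rw [h1]
        simp
      · rw [polar_eG, hav0, hb0, hQb, hav3, H.indep _ _ h03 _ (hmv _) _ (hmv _)]
        have h1 : 𝔣 b (v i₃) = 1 := by
          rw [hb, polar_add_left, fuv, H.indep _ _ h23 _ (hmu _) _ (hmv _), zero_add]
        rw [h1]
        simp
    · apply mem_setStab_of_forward
      intro x hx y hy
      rw [polar_eG, hQb, zero_mul, zero_mul, sub_zero]
      have p1 : (𝔣 a x) * (𝔣 a x) = 𝔣 a x := by
        rw [ha, polar_add_left, polar_comm, polar_comm (⇑Q) (u i₁)]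
        exact Padd (hx _ (huFr _)) (hx _ (huFr _))
      have p2 : (𝔣 b x) * (𝔣 b x) = 𝔣 b x := by
        rw [hb, polar_add_left, polar_comm, polar_comm (⇑Q) (u i₃)]
        exact Padd (hx _ (huFr _)) (hx _ (huFr _))
      have p3 : (𝔣 a y) * (𝔣 a y) = 𝔣 a y := by
        rw [ha, polar_add_left]
        exact Padd (Pfr _ (huFr _) _ hy) (Pfr _ (huFr _) _ hy)
      have p4 : (𝔣 b y) * (𝔣 b y) = 𝔣 b y := by
        rw [hb, polar_add_left]
        exact Padd (Pfr _ (huFr _) _ hy) (Pfr _ (huFr _) _ hy)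
      exact Psub (Padd (hx _ hy) (Pmul p1 p4)) (Pmul p2 p3)
  · have hab : 𝔣 a (ω • u i₂) = 0 := by
      rw [polar_smul_right', ha2, mul_zero]
    refine inf_lt_of_witness (g := eG hQa hab) (fun hmem => ?_) (eG_mem_omegaGL hQ hn _ _)
    have hx : v i₀ ∈ Z := fun y hy => Pfr _ (hvFr _) _ hy
    have h2 := (hmem (v i₀)).1 hx (v i₂) (hvFr _)
    rw [polar_eG, hav0, hav2, H.indep _ _ h02 _ (hmv _) _ (hmv _), polar_smul_left', fuv] at h2
    have h3 : ω * ω = ω := by simpa using h2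
    apply one_ne_zero (α := F)
    linear_combination hω - h3 - ω * hch

/-! ### `k = 4`, `q = 2`: a block of plus type is the sum of two anisotropic planes -/

/-- Hyperbolic bases of a four-dimensional space of plus type over the field with two elements. -/
theorem exists_hyp4 (hq : Fintype.card F = 2) {W : Submodule F (ι → F)} (hdim : finrank F W = 4)
    (hW : IsNondegenerateOn (polar (⇑Q)) W) (hp : IsPlusTypeOn (⇑Q) W) :
    ∃ e ∈ W, ∃ f ∈ W, ∃ e₂ ∈ W, ∃ f₂ ∈ W, Q e = 0 ∧ Q f = 0 ∧ Q e₂ = 0 ∧ Q f₂ = 0 ∧ 𝔣 e f = 1 ∧ 𝔣 e₂ f₂ = 1 ∧ 𝔣 e e₂ = 0 ∧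
      𝔣 e f₂ = 0 ∧ 𝔣 f e₂ = 0 ∧ 𝔣 f f₂ = 0 ∧ ∀ v ∈ W, ∃ x y z w : F, v = x • e + y • f + z • e₂ + w • f₂ := by
  obtain ⟨U, hUW, hU, h2⟩ := hp
  have hU2 : finrank F U = 2 := by omega
  let bU := finBasisOfFinrankEq F U hU2
  set e : ι → F := (bU 0 : ι → F) with he
  set e' : ι → F := (bU 1 : ι → F) with he'
  have hlin : ∀ x y : F, x • e + y • e' = 0 → x = 0 ∧ y = 0 := by
    intro x y h
    have hli := bU.linearIndependent
    rw [Fintype.linearIndependent_iff] at hli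
    have h1 := hli ![x, y] (by
      rw [Fin.sum_univ_two]
      apply Subtype.ext
      simpa using h)
    exact ⟨h1 0, h1 1⟩
  have he0 : e ≠ 0 := by
    intro h
    have := (hlin 1 0 (by simp [h])).1
    exact one_ne_zero this
  have heW : e ∈ W := hUW (bU 0).2
  have he'W : e' ∈ W := hUW (bU 1).2
  have hQe : Q e = 0 := hU _ (bU 0).2
  have hQe' : Q e' = 0 := hU _ (bU 1).2
  have hee' : 𝔣 e e' = 0 := by
    have h1 : Q (e + e') = 0 := hU _ (U.add_mem (bU 0).2 (bU 1).2)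
    rw [Q_add, hQe, hQe'] at h1
    linear_combination h1
  have hch : (2 : F) = 0 := by
    have h := FiniteField.cast_card_eq_zero F
    rw [hq] at h
    exact_mod_cast h
  have hone : ∀ x : F, x ≠ 0 → x = 1 := fun x hx => (val2 hq x).resolve_left hx
  obtain ⟨⟨y, hy, hye⟩, -⟩ := hW e heW he0
  have hey : 𝔣 e y = 1 := by
    rw [polar_comm]
    exact hone _ hye
  set f := y - Q y • e with hf
  have hfW : f ∈ W := W.sub_mem hy (W.smul_mem _ heW)
  have hQf : Q f = 0 := by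
    rw [hf, Q_sub, Q_smul, hQe, polar_smul_right', polar_comm, hey]
    ring
  have hef : 𝔣 e f = 1 := by
    rw [hf, polar_sub_right, hey, polar_smul_right', polar_self_eq, hQe]
    ring
  have hfe : 𝔣 f e = 1 := by rw [polar_comm, hef]
  set e₂ := e' - 𝔣 e' f • e with he₂
  have he₂W : e₂ ∈ W := W.sub_mem he'W (W.smul_mem _ heW)
  have hQe₂ : Q e₂ = 0 := hU _ (U.sub_mem (bU 1).2 (U.smul_mem _ (bU 0).2))
  have hee₂ : 𝔣 e e₂ = 0 := by
    rw [he₂, polar_sub_right, hee', polar_smul_right', polar_self_eq, hQe]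
    ring
  have hfe₂ : 𝔣 f e₂ = 0 := by
    rw [he₂, polar_sub_right, polar_smul_right', hfe, polar_comm]
    ring
  have he₂0 : e₂ ≠ 0 := by
    intro h
    have h1 : (-𝔣 e' f) • e + (1 : F) • e' = 0 := by
      rw [← h, he₂]
      module
    exact one_ne_zero (hlin _ _ h1).2
  obtain ⟨⟨y', hy', hye'⟩, -⟩ := hW e₂ he₂W he₂0
  set y'' := y' - 𝔣 y' f • e - 𝔣 y' e • f with hy''
  have hy''W : y'' ∈ W := W.sub_mem (W.sub_mem hy' (W.smul_mem _ heW)) (W.smul_mem _ hfW)
  have h1 : 𝔣 e y'' = 0 := by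
    rw [hy'', polar_sub_right, polar_sub_right, polar_smul_right', polar_smul_right', polar_self_eq, hQe, hef, polar_comm]
    ring
  have h2' : 𝔣 f y'' = 0 := by
    rw [hy'', polar_sub_right, polar_sub_right, polar_smul_right', polar_smul_right', polar_self_eq, hQf, hfe, polar_comm]
    ring
  have h3 : 𝔣 e₂ y'' = 1 := by
    apply hone
    have e1 : 𝔣 e₂ e = 0 := by rw [polar_comm, hee₂]
    have e2 : 𝔣 e₂ f = 0 := by rw [polar_comm, hfe₂]
    rw [hy'', polar_sub_right, polar_sub_right, polar_smul_right', polar_smul_right', e1, e2, polar_comm]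
    simpa using hye'
  set f₂ := y'' - Q y'' • e₂ with hf₂
  have hf₂W : f₂ ∈ W := W.sub_mem hy''W (W.smul_mem _ he₂W)
  have hQf₂ : Q f₂ = 0 := by
    rw [hf₂, Q_sub, Q_smul, hQe₂, polar_smul_right', polar_comm, h3]
    ring
  have he₂f₂ : 𝔣 e₂ f₂ = 1 := by
    rw [hf₂, polar_sub_right, h3, polar_smul_right', polar_self_eq, hQe₂]
    ring
  have hef₂ : 𝔣 e f₂ = 0 := by
    rw [hf₂, polar_sub_right, h1, polar_smul_right', hee₂]
    ring
  have hff₂ : 𝔣 f f₂ = 0 := by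
    rw [hf₂, polar_sub_right, h2', polar_smul_right', hfe₂]
    ring
  refine ⟨e, heW, f, hfW, e₂, he₂W, f₂, hf₂W, hQe, hQf, hQe₂, hQf₂, hef, he₂f₂, hee₂, hef₂, hfe₂, hff₂, ?_⟩
  -- the span
  set v : Fin 4 → ι → F := ![e, f, e₂, f₂] with hv
  have hli : LinearIndependent F v := by
    rw [Fintype.linearIndependent_iff]
    intro g hg
    rw [Fin.sum_univ_four] at hg
    have hpol : ∀ z : ι → F, 𝔣 z 0 = 0 := fun z => by simp [polar]
    have e0 : v 0 = e := rfl
    have e1 : v 1 = f := rfl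
    have e2 : v 2 = e₂ := rfl
    have e3 : v 3 = f₂ := rfl
    rw [e0, e1, e2, e3] at hg
    have ee : 𝔣 e e = 0 := by rw [polar_self_eq, hQe, mul_zero]
    have ff : 𝔣 f f = 0 := by rw [polar_self_eq, hQf, mul_zero]
    have ee₂ : 𝔣 e₂ e₂ = 0 := by rw [polar_self_eq, hQe₂, mul_zero]
    have ff₂ : 𝔣 f₂ f₂ = 0 := by rw [polar_self_eq, hQf₂, mul_zero]
    have c0 := hpol f
    rw [← hg] at c0
    simp only [polar_add_right, polar_smul_right', hfe, ff, hfe₂, hff₂] at c0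
    have c1 := hpol e
    rw [← hg] at c1
    simp only [polar_add_right, polar_smul_right', ee, hef, hee₂, hef₂] at c1
    have c2 := hpol f₂
    rw [← hg] at c2
    simp only [polar_add_right, polar_smul_right', polar_comm (⇑Q) f₂ e, polar_comm (⇑Q) f₂ f, polar_comm (⇑Q) f₂ e₂, hef₂, hff₂,
      he₂f₂, ff₂] at c2
    have c3 := hpol e₂
    rw [← hg] at c3
    simp only [polar_add_right, polar_smul_right', polar_comm (⇑Q) e₂ e, polar_comm (⇑Q) e₂ f, hee₂, hfe₂, ee₂, he₂f₂] at c3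
    intro i
    fin_cases i
    · show g 0 = 0
      linear_combination c0
    · show g 1 = 0
      linear_combination c1
    · show g 2 = 0
      linear_combination c2
    · show g 3 = 0
      linear_combination c3
  have hspan : Submodule.span F (Set.range v) = W := by
    apply Submodule.eq_of_le_of_finrank_eq
    · rw [Submodule.span_le]
      rintro x ⟨i, rfl⟩
      fin_cases i
      · exact heW
      · exact hfW
      · exact he₂W
      · exact hf₂W
    · rw [hdim, finrank_span_eq_card hli]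
      simp
  intro w hw
  rw [← hspan, Submodule.mem_span_range_iff_exists_fun] at hw
  obtain ⟨c, hc⟩ := hw
  rw [Fin.sum_univ_four] at hc
  exact ⟨c 0, c 1, c 2, c 3, hc.symm⟩

/-- The two anisotropic planes of a block. -/
theorem exists_planes4 (hq : Fintype.card F = 2) {W : Submodule F (ι → F)} (hdim : finrank F W = 4)
    (hW : IsNondegenerateOn (polar (⇑Q)) W) (hp : IsPlusTypeOn (⇑Q) W) :
    ∃ a ∈ W, ∃ b ∈ W, ∃ c ∈ W, ∃ d ∈ W, Q a = 1 ∧ Q b = 1 ∧ Q c = 1 ∧ Q d = 1 ∧ 𝔣 a b = 1 ∧ 𝔣 c d = 1 ∧ 𝔣 a c = 0 ∧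
      𝔣 a d = 0 ∧ 𝔣 b c = 0 ∧ 𝔣 b d = 0 ∧ ∀ v ∈ W, ∃ x y z w : F, v = x • a + y • b + z • c + w • d := by
  obtain ⟨e, he, f, hf, e₂, he₂, f₂, hf₂, Qe, Qf, Qe₂, Qf₂, hef, h22, h1, h3, h4, h5, hs⟩ := exists_hyp4 hq hdim hW hp
  have hch : (2 : F) = 0 := by
    have h := FiniteField.cast_card_eq_zero F
    rw [hq] at h
    exact_mod_cast h
  have ee : 𝔣 e e = 0 := by rw [polar_self_eq, Qe, mul_zero]
  have ff : 𝔣 f f = 0 := by rw [polar_self_eq, Qf, mul_zero]
  have ee₂ : 𝔣 e₂ e₂ = 0 := by rw [polar_self_eq, Qe₂, mul_zero]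
  have ff₂ : 𝔣 f₂ f₂ = 0 := by rw [polar_self_eq, Qf₂, mul_zero]
  have hfe : 𝔣 f e = 1 := by rw [polar_comm, hef]
  have hf₂e₂ : 𝔣 f₂ e₂ = 1 := by rw [polar_comm, h22]
  have h1' : 𝔣 e₂ e = 0 := by rw [polar_comm, h1]
  have h3' : 𝔣 f₂ e = 0 := by rw [polar_comm, h3]
  have h4' : 𝔣 e₂ f = 0 := by rw [polar_comm, h4]
  have h5' : 𝔣 f₂ f = 0 := by rw [polar_comm, h5]
  refine ⟨e + f, W.add_mem he hf, e + e₂ + f₂, W.add_mem (W.add_mem he he₂) hf₂, e₂ + f₂, W.add_mem he₂ hf₂, e + f + e₂,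
    W.add_mem (W.add_mem he hf) he₂, ?_, ?_, ?_, ?_, ?_, ?_, ?_, ?_, ?_, ?_, ?_⟩
  · rw [Q_add, Qe, Qf, hef]
    ring
  · simp only [Q_add, Qe, Qe₂, Qf₂, polar_add_left, h1, h3, h22]
    ring
  · rw [Q_add, Qe₂, Qf₂, h22]
    ring
  · simp only [Q_add, Qe, Qf, Qe₂, polar_add_left, h1, h4, hef]
    ring
  · simp only [polar_add_left, polar_add_right, ee, h1, h3, hfe, h4, h5]
    ring
  · simp only [polar_add_left, polar_add_right, h1', h4', ee₂, h3', h5', hf₂e₂]
    ring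
  · simp only [polar_add_left, polar_add_right, h1, h3, h4, h5]
    ring
  · simp only [polar_add_left, polar_add_right, ee, hef, h1, hfe, ff, h4]
    linear_combination hch
  · simp only [polar_add_left, polar_add_right, h1, h3, ee₂, h22, hf₂e₂, ff₂]
    linear_combination hch
  · simp only [polar_add_left, polar_add_right, ee, hef, h1, h1', h4', ee₂, h3', h5', hf₂e₂]
    linear_combination hch
  · intro v hv
    obtain ⟨x, y, z, w, rfl⟩ := hs v hv
    refine ⟨y - z + w, x - y, -x + y + w, z - w, ?_⟩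
    module

section GD

variable {t : ℕ} {D : Fin t → Submodule F (ι → F)} {A B : Fin t × Fin 2 → ι → F}

/-- Pairs of vectors of norm one. -/
structure GD (Q : QuadraticForm F (ι → F)) (D : Fin t → Submodule F (ι → F)) (A B : Fin t × Fin 2 → ι → F) : Prop where
  card : Fintype.card F = 2
  indep : ∀ i j, i ≠ j → AreOrthogonalFor (polar (⇑Q)) (D i) (D j)
  mA : ∀ s, A s ∈ D s.1
  mB : ∀ s, B s ∈ D s.1
  QA : ∀ s, Q (A s) = 1
  QB : ∀ s, Q (B s) = 1
  pAA : ∀ s s', polar (⇑Q) (A s) (A s') = 0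
  pBB : ∀ s s', polar (⇑Q) (B s) (B s') = 0
  pAB : ∀ s s', polar (⇑Q) (A s) (B s') = if s = s' then 1 else 0
  span : ∀ i, ∀ v ∈ D i, ∃ x y z w : F, v = x • A (i, 0) + y • B (i, 0) + z • A (i, 1) + w • B (i, 1)

theorem exists_GD (hq : Fintype.card F = 2) (hD : IsOrthogonalMDecomposition (⇑Q) 4 D)
    (hp : ∀ i, IsPlusTypeOn (⇑Q) (D i)) : ∃ A B, GD Q D A B := by
  have hch : (2 : F) = 0 := by
    have h := FiniteField.cast_card_eq_zero F
    rw [hq] at h
    exact_mod_cast h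
  have h := fun i => exists_planes4 hq (hD.decomp.decomp.finrank_eq i) (hD.decomp.nondegenerate i) (hp i)
  choose a ha b hb c hc d hd Qa Qb Qc Qd hab hcd hac had hbc hbd hs using h
  refine ⟨fun p => ![a p.1, c p.1] p.2, fun p => ![b p.1, d p.1] p.2, hq, hD.decomp.orthogonal, ?_, ?_, ?_, ?_, ?_, ?_, ?_, ?_⟩
  · rintro ⟨i, j⟩
    fin_cases j
    · exact ha i
    · exact hc i
  · rintro ⟨i, j⟩
    fin_cases j
    · exact hb i
    · exact hd i
  · rintro ⟨i, j⟩
    fin_cases j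
    · exact Qa i
    · exact Qc i
  · rintro ⟨i, j⟩
    fin_cases j
    · exact Qb i
    · exact Qd i
  · rintro ⟨i, j⟩ ⟨i', j'⟩
    by_cases hi : i = i'
    · subst hi
      fin_cases j <;> fin_cases j'
      · show 𝔣 (a i) (a i) = 0
        rw [polar_self_eq, hch, zero_mul]
      · exact hac i
      · show 𝔣 (c i) (a i) = 0
        rw [polar_comm]
        exact hac i
      · show 𝔣 (c i) (c i) = 0
        rw [polar_self_eq, hch, zero_mul]
    · fin_cases j <;> fin_cases j'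
      · exact hD.decomp.orthogonal _ _ hi _ (ha i) _ (ha i')
      · exact hD.decomp.orthogonal _ _ hi _ (ha i) _ (hc i')
      · exact hD.decomp.orthogonal _ _ hi _ (hc i) _ (ha i')
      · exact hD.decomp.orthogonal _ _ hi _ (hc i) _ (hc i')
  · rintro ⟨i, j⟩ ⟨i', j'⟩
    by_cases hi : i = i'
    · subst hi
      fin_cases j <;> fin_cases j'
      · show 𝔣 (b i) (b i) = 0
        rw [polar_self_eq, hch, zero_mul]
      · exact hbd i
      · show 𝔣 (d i) (b i) = 0
        rw [polar_comm]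
        exact hbd i
      · show 𝔣 (d i) (d i) = 0
        rw [polar_self_eq, hch, zero_mul]
    · fin_cases j <;> fin_cases j'
      · exact hD.decomp.orthogonal _ _ hi _ (hb i) _ (hb i')
      · exact hD.decomp.orthogonal _ _ hi _ (hb i) _ (hd i')
      · exact hD.decomp.orthogonal _ _ hi _ (hd i) _ (hb i')
      · exact hD.decomp.orthogonal _ _ hi _ (hd i) _ (hd i')
  · rintro ⟨i, j⟩ ⟨i', j'⟩
    by_cases hi : i = i'
    · subst hi
      fin_cases j <;> fin_cases j'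
      · simpa using hab i
      · simpa using had i
      · show 𝔣 (c i) (b i) = _
        rw [polar_comm, hbc i]
        simp
      · simpa using hcd i
    · have : ((i, j) : Fin t × Fin 2) ≠ (i', j') := fun h => hi (congrArg Prod.fst h)
      rw [if_neg this]
      fin_cases j <;> fin_cases j'
      · exact hD.decomp.orthogonal _ _ hi _ (ha i) _ (hb i')
      · exact hD.decomp.orthogonal _ _ hi _ (ha i) _ (hd i')
      · exact hD.decomp.orthogonal _ _ hi _ (hc i) _ (hb i')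
      · exact hD.decomp.orthogonal _ _ hi _ (hc i) _ (hd i')
  · intro i v hv
    exact hs i v hv

variable (H : GD Q D A B)

include H

theorem GD.hch : (2 : F) = 0 := by
  have h := FiniteField.cast_card_eq_zero F
  rw [H.card] at h
  exact_mod_cast h

theorem GD.pBA (s s' : Fin t × Fin 2) : 𝔣 (B s) (A s') = if s' = s then 1 else 0 := by
  rw [polar_comm, H.pAB]

theorem GD.mem_Fr (y : ι → F) : y ∈ Fr Q D 1 ↔ ∃ s, y = A s ∨ y = B s ∨ y = A s + B s := by
  have hch := H.hch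
  constructor
  · rintro ⟨⟨i, hi⟩, hy⟩
    obtain ⟨x, y', z, w, rfl⟩ := H.span i y hi
    have p1 : 𝔣 (A (i, 0)) (B (i, 0)) = 1 := by rw [H.pAB, if_pos rfl]
    have p2 : 𝔣 (A (i, 1)) (B (i, 1)) = 1 := by rw [H.pAB, if_pos rfl]
    have p3 : 𝔣 (A (i, 0)) (A (i, 1)) = 0 := H.pAA _ _
    have p4 : 𝔣 (A (i, 0)) (B (i, 1)) = 0 := by rw [H.pAB, if_neg (by simp)]
    have p5 : 𝔣 (B (i, 0)) (A (i, 1)) = 0 := by rw [H.pBA, if_neg (by simp)]
    have p6 : 𝔣 (B (i, 0)) (B (i, 1)) = 0 := H.pBB _ _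
    have hv : x * x + x * y' + y' * y' + z * z + z * w + w * w = 1 := by
      rw [Q_add, Q_add, Q_add] at hy
      simp only [Q_smul, H.QA, H.QB, polar_add_left, polar_smul_left', polar_smul_right', p1, p2, p3, p4, p5, p6] at hy
      linear_combination hy
    rcases val2 H.card x with rfl | rfl <;> rcases val2 H.card y' with rfl | rfl <;>
      rcases val2 H.card z with rfl | rfl <;> rcases val2 H.card w with rfl | rfl <;>
      first
      | exact absurd (show (1 : F) = 0 by linear_combination (-1) * hv) one_ne_zero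
      | exact absurd (show (1 : F) = 0 by linear_combination (-1) * hv + hch) one_ne_zero
      | exact absurd (show (1 : F) = 0 by linear_combination (-1) * hv + 2 * hch) one_ne_zero
      | exact absurd (show (1 : F) = 0 by linear_combination (-1) * hv + 3 * hch) one_ne_zero
      | (refine ⟨(i, 0), Or.inl ?_⟩; simp; done)
      | (refine ⟨(i, 0), Or.inr (Or.inl ?_)⟩; simp; done)
      | (refine ⟨(i, 0), Or.inr (Or.inr ?_)⟩; simp; done)
      | (refine ⟨(i, 1), Or.inl ?_⟩; simp; done)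
      | (refine ⟨(i, 1), Or.inr (Or.inl ?_)⟩; simp; done)
      | (refine ⟨(i, 1), Or.inr (Or.inr ?_)⟩; simp; done)
  · rintro ⟨s, rfl | rfl | rfl⟩
    · exact ⟨⟨s.1, H.mA s⟩, H.QA s⟩
    · exact ⟨⟨s.1, H.mB s⟩, H.QB s⟩
    · refine ⟨⟨s.1, (D s.1).add_mem (H.mA s) (H.mB s)⟩, ?_⟩
      rw [Q_add, H.QA, H.QB, H.pAB, if_pos rfl]
      linear_combination hch

theorem GD.between (hQ : (polarBilin Q).Nondegenerate) (hn : 5 ≤ Fintype.card ι) {i₀ i₁ : Fin t} (h01 : i₀ ≠ i₁) :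
    ∃ K : Subgroup (GL ι F), decompositionStabilizer D ⊓ omegaGL (⇑Q) < K ∧ K < omegaGL (⇑Q) := by
  have hch := H.hch
  have hnegv : ∀ v : ι → F, -v = v := by
    intro v
    have : v + v = 0 := by
      have h1 : (2 : F) • v = 0 := by rw [hch, zero_smul]
      rw [← h1, two_smul]
    exact neg_eq_of_add_eq_zero_left this
  refine ⟨setStab (Fr Q D 1) ⊓ omegaGL (⇑Q), ?_, ?_⟩
  · set s₁ : Fin t × Fin 2 := (i₀, 0) with hs₁
    set s₂ : Fin t × Fin 2 := (i₁, 0) with hs₂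
    set s₃ : Fin t × Fin 2 := (i₀, 1) with hs₃
    have h12 : s₁ ≠ s₂ := by simp [hs₁, hs₂, h01]
    have h13 : s₁ ≠ s₃ := by simp [hs₁, hs₃]
    have h23 : s₂ ≠ s₃ := by simp [hs₂, hs₃, h01.symm]
    set z := A s₁ + A s₂ with hz
    set b := B s₁ + B s₂ with hb
    have hQz : Q z = 0 := by
      rw [hz, Q_add, H.QA, H.QA, H.pAA]
      linear_combination hch
    have hzb : 𝔣 z b = 0 := by
      rw [hz, hb, polar_add_left, polar_add_right, polar_add_right, H.pAB, H.pAB, H.pAB, H.pAB, if_pos rfl, if_neg h12,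
        if_neg h12.symm, if_pos rfl]
      linear_combination hch
    have hQb : Q b = 0 := by
      rw [hb, Q_add, H.QB, H.QB, H.pBB]
      linear_combination hch
    set g := eG hQz hzb with hg
    have hgv : ∀ x, (g : Mt) *ᵥ x = x + (𝔣 z x) • b - (𝔣 b x) • z - (Q b * 𝔣 z x) • z := eG_mulVec hQz hzb
    have hzA : ∀ s, 𝔣 z (A s) = 0 := fun s => by
      rw [hz, polar_add_left, H.pAA, H.pAA, add_zero]
    have hbB : ∀ s, 𝔣 b (B s) = 0 := fun s => by
      rw [hb, polar_add_left, H.pBB, H.pBB, add_zero]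
    have hgA : ∀ s, (g : Mt) *ᵥ A s = A (Equiv.swap s₁ s₂ s) := by
      intro s
      rw [hgv, hzA, hQb]
      by_cases h1 : s = s₁
      · subst h1
        rw [Equiv.swap_apply_left, hb, polar_add_left, H.pBA, H.pBA, if_pos rfl, if_neg h12]
        rw [hz]
        calc A s₁ + (0 : F) • (B s₁ + B s₂) - ((1 : F) + 0) • (A s₁ + A s₂) - ((0 : F) * 0) • (A s₁ + A s₂) = -A s₂ := by module
          _ = A s₂ := hnegv _
      · by_cases h2 : s = s₂
        · subst h2
          rw [Equiv.swap_apply_right, hb, polar_add_left, H.pBA, H.pBA, if_pos rfl, if_neg h12.symm]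
          rw [hz]
          calc A s₂ + (0 : F) • (B s₁ + B s₂) - ((0 : F) + 1) • (A s₁ + A s₂) - ((0 : F) * 0) • (A s₁ + A s₂) = -A s₁ := by module
            _ = A s₁ := hnegv _
        · rw [Equiv.swap_apply_of_ne_of_ne h1 h2, hb, polar_add_left, H.pBA, H.pBA, if_neg h1, if_neg h2]
          simp
    have hgB : ∀ s, (g : Mt) *ᵥ B s = B (Equiv.swap s₁ s₂ s) := by
      intro s
      rw [hgv, hbB, hQb]
      by_cases h1 : s = s₁
      · subst h1
        rw [Equiv.swap_apply_left, hz, polar_add_left, H.pAB, H.pAB, if_pos rfl, if_neg h12.symm]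
        rw [hb]
        have : (2 : F) • B s₁ = 0 := by rw [hch, zero_smul]
        calc B s₁ + ((1 : F) + 0) • (B s₁ + B s₂) - (0 : F) • (A s₁ + A s₂) - ((0 : F) * (1 + 0)) • (A s₁ + A s₂)
            = B s₂ + (2 : F) • B s₁ := by module
          _ = B s₂ := by rw [this, add_zero]
      · by_cases h2 : s = s₂
        · subst h2
          rw [Equiv.swap_apply_right, hz, polar_add_left, H.pAB, H.pAB, if_pos rfl, if_neg h12]
          rw [hb]
          have : (2 : F) • B s₂ = 0 := by rw [hch, zero_smul]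
          calc B s₂ + ((0 : F) + 1) • (B s₁ + B s₂) - (0 : F) • (A s₁ + A s₂) - ((0 : F) * (0 + 1)) • (A s₁ + A s₂)
              = B s₁ + (2 : F) • B s₂ := by module
            _ = B s₁ := by rw [this, add_zero]
        · rw [Equiv.swap_apply_of_ne_of_ne h1 h2, hz, polar_add_left, H.pAB, H.pAB, if_neg (Ne.symm h1), if_neg (Ne.symm h2)]
          simp
    refine lt_inf_of_witness le_setStab_Fr (g := g) (fun hmem => ?_) ?_ (eG_mem_omegaGL hQ hn _ _)
    · have hx : A s₁ + A s₃ ∈ D i₀ := (D i₀).add_mem (H.mA s₁) (H.mA s₃)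
      have hgx : (g : Mt) *ᵥ (A s₁ + A s₃) = A s₂ + A s₃ := by
        rw [Matrix.mulVec_add, hgA, hgA, Equiv.swap_apply_left, Equiv.swap_apply_of_ne_of_ne h13.symm h23.symm]
      refine false_of_test H.indep hmem (j₁ := i₁) (j₂ := i₀) (y₁ := B s₂) (y₂ := B s₃) hx (H.mB s₂) (H.mB s₃) h01.symm ?_ ?_
      · rw [hgx, polar_add_left, H.pAB, H.pAB, if_pos rfl, if_neg h23.symm]
        simp
      · rw [hgx, polar_add_left, H.pAB, H.pAB, if_pos rfl, if_neg h23]
        simp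
    · apply mem_setStab_of_forward
      intro y hy
      rw [H.mem_Fr] at hy ⊢
      obtain ⟨s, rfl | rfl | rfl⟩ := hy
      · exact ⟨_, Or.inl (hgA s)⟩
      · exact ⟨_, Or.inr (Or.inl (hgB s))⟩
      · exact ⟨Equiv.swap s₁ s₂ s, Or.inr (Or.inr (by rw [Matrix.mulVec_add, hgA, hgB]))⟩
  · set s₁ : Fin t × Fin 2 := (i₀, 0) with hs₁
    set s₂ : Fin t × Fin 2 := (i₁, 0) with hs₂
    set s₃ : Fin t × Fin 2 := (i₀, 1) with hs₃
    set s₄ : Fin t × Fin 2 := (i₁, 1) with hs₄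
    have h12 : s₁ ≠ s₂ := by simp [hs₁, hs₂, h01]
    have h13 : s₁ ≠ s₃ := by simp [hs₁, hs₃]
    have h14 : s₁ ≠ s₄ := by simp [hs₁, hs₄, h01]
    have h23 : s₂ ≠ s₃ := by simp [hs₂, hs₃, h01.symm]
    have h24 : s₂ ≠ s₄ := by simp [hs₂, hs₄]
    have h34 : s₃ ≠ s₄ := by simp [hs₃, hs₄, h01]
    set z := B s₁ + A s₃ with hz
    set b := A s₂ + A s₄ with hb
    have hQz : Q z = 0 := by
      rw [hz, Q_add, H.QB, H.QA, H.pBA, if_neg h13.symm]
      linear_combination hch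
    have hzb : 𝔣 z b = 0 := by
      simp only [hz, hb, polar_add_left, polar_add_right, H.pBA, H.pAA, if_neg h12.symm, if_neg h14.symm]
      ring
    have hQb : Q b = 0 := by
      rw [hb, Q_add, H.QA, H.QA, H.pAA]
      linear_combination hch
    refine inf_lt_of_witness (g := eG hQz hzb) (fun hmem => ?_) (eG_mem_omegaGL hQ hn _ _)
    have hx : A s₁ ∈ Fr Q D 1 := (H.mem_Fr _).2 ⟨s₁, Or.inl rfl⟩
    obtain ⟨⟨k, hk⟩, -⟩ := (hmem _).1 hx
    have hzx : 𝔣 z (A s₁) = 1 := by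
      rw [hz, polar_add_left, H.pBA, H.pAA, if_pos rfl, add_zero]
    have hbx : 𝔣 b (A s₁) = 0 := by
      rw [hb, polar_add_left, H.pAA, H.pAA, add_zero]
    have t1 : 𝔣 ((eG hQz hzb : GL ι F).1 *ᵥ A s₁) (B s₁) ≠ 0 := by
      rw [polar_eG, hzx, hbx, hQb, H.pAB, if_pos rfl, hb, polar_add_left, H.pAB, H.pAB, if_neg h12.symm, if_neg (Ne.symm h14)]
      simp
    have t2 : 𝔣 ((eG hQz hzb : GL ι F).1 *ᵥ A s₁) (B s₂) ≠ 0 := by
      rw [polar_eG, hzx, hbx, hQb, H.pAB, if_neg h12, hb, polar_add_left, H.pAB, H.pAB, if_pos rfl, if_neg (Ne.symm h24)]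
      simp
    have e1 : k = i₀ := by
      by_contra h
      exact t1 (H.indep _ _ h _ hk _ (H.mB s₁))
    have e2 : k = i₁ := by
      by_contra h
      exact t2 (H.indep _ _ h _ hk _ (H.mB s₂))
    exact h01 (e1.symm.trans e2)

end GD

end Cfsg.Agent.Lib.Classical.Sub.OFrame2
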