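/-
A non-degenerate symmetric tensor factor of dimension three over the field with three elements: the stabiliser of
the tensor decomposition lies properly in the stabiliser of a decomposition into three isometric spaces.
-/
import Mathlib
import Cfsg.Agent.Lib.Classical.Sub.OFrame2
import Cfsg.Agent.Lib.Classical.Asch.SpThree
import Cfsg.Agent.Lib.Classical.Asch.NotO2

set_option autoImplicit false
set_option linter.unusedSectionVars false

namespace Cfsg.Agent.Lib.Classical.Sub.OTens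

open scoped Matrix MatrixGroups Kronecker
open Module Cfsg Cfsg.Geo QuadraticMap
open Cfsg.Agent.Lib.Classical.Orth.Basic
open Cfsg.Agent.Lib.Classical.Geo.OPts
open Cfsg.Agent.Lib.Classical.Sub.OFrame
open Cfsg.Agent.Lib.Classical.Sub.OFrame2
open Cfsg.Agent.Lib.Classical.Asch.SpThree
open Cfsg.Agent.Lib.Classical.Asch

variable {ι : Type} [Fintype ι] [DecidableEq ι] {F : Type*} [Field F] [Fintype F]

local notation "Mt" => Matrix ι ι F

section Tensor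

variable {d k : ℕ}

/-- The map `z ↦ P (z ⊗ y)`. -/
noncomputable def blkMap (e : ι ≃ Fin d × Fin k) (P : GL ι F) (y : Fin k → F) : (Fin d → F) →ₗ[F] (ι → F) where
  toFun z := (P : Mt) *ᵥ kr e z y
  map_add' a b := by
    rw [← Matrix.mulVec_add]
    congr 1
    funext l
    simp [kr, add_mul]
  map_smul' a b := by
    rw [RingHom.id_apply, ← Matrix.mulVec_smul]
    congr 1
    funext l
    simp [kr, mul_assoc]

theorem blkMap_apply (e : ι ≃ Fin d × Fin k) (P : GL ι F) (y : Fin k → F) (z : Fin d → F) :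
    blkMap e P y z = (P : Mt) *ᵥ kr e z y := rfl

theorem kr_inj_left {e : ι ≃ Fin d × Fin k} {z z' : Fin d → F} {y : Fin k → F} (hy : y ≠ 0) (h : kr e z y = kr e z' y) : z = z' := by
  obtain ⟨q, hq⟩ := Function.ne_iff.1 hy
  funext p
  have h1 := congrFun h (e.symm (p, q))
  simp only [kr, Equiv.apply_symm_apply] at h1
  exact mul_right_cancel₀ hq h1

theorem kr_inj_right {e : ι ≃ Fin d × Fin k} {z : Fin d → F} {y y' : Fin k → F} (hz : z ≠ 0) (h : kr e z y = kr e z y') : y = y' := by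
  obtain ⟨p, hp⟩ := Function.ne_iff.1 hz
  funext q
  have h1 := congrFun h (e.symm (p, q))
  simp only [kr, Equiv.apply_symm_apply] at h1
  exact mul_left_cancel₀ hp h1

/-- An element of the tensor product group which fixes a block pointwise is, up to scalars, the identity on the first factor. -/
theorem not_tensor {e : ι ≃ Fin d × Fin k} {P g : GL ι F} (hg : g ∈ tensorProductSubgroup d k e P) {y₁ y₀ : Fin k → F} (hy₁ : y₁ ≠ 0)
    (hy₀ : y₀ ≠ 0) (h1 : ∀ z, (g : Mt) *ᵥ ((P : Mt) *ᵥ kr e z y₁) = (P : Mt) *ᵥ kr e z y₁) {u v v' : Fin d → F} (hu : u ≠ 0)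
    (h2 : (g : Mt) *ᵥ ((P : Mt) *ᵥ kr e u y₀) = (P : Mt) *ᵥ kr e u y₀)
    (h3 : (g : Mt) *ᵥ ((P : Mt) *ᵥ kr e v y₀) = (P : Mt) *ᵥ kr e v' y₀) : v' = v := by
  obtain ⟨a, b, hab⟩ := Main.mem_tensorProductSubgroup_iff.mp hg
  have hinj : ∀ {x y : ι → F}, (P : Mt) *ᵥ x = (P : Mt) *ᵥ y → x = y := fun h => Matrix.mulVec_injective_of_isUnit P.isUnit h
  have hgP : ∀ z y, (g : Mt) *ᵥ ((P : Mt) *ᵥ kr e z y) =
      (P : Mt) *ᵥ kr e ((a : Matrix (Fin d) (Fin d) F) *ᵥ z) ((b : Matrix (Fin k) (Fin k) F) *ᵥ y) := by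
    intro z y
    rw [conj_mulVec_P, tensor_action hab]
  obtain ⟨q, hq⟩ := Function.ne_iff.1 hy₁
  have hq' : y₁ q ≠ 0 := hq
  set s := ((b : Matrix (Fin k) (Fin k) F) *ᵥ y₁) q / y₁ q with hs
  have hz : ∀ z, z = s • ((a : Matrix (Fin d) (Fin d) F) *ᵥ z) := by
    intro z
    have h4 := h1 z
    rw [hgP] at h4
    have h5 := hinj h4
    funext p
    have h6 := congrFun h5 (e.symm (p, q))
    simp only [kr, Equiv.apply_symm_apply] at h6
    simp only [Pi.smul_apply, smul_eq_mul, hs]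
    rw [div_mul_eq_mul_div, eq_div_iff hq']
    linear_combination -h6
  have hs0 : s ≠ 0 := by
    intro h
    apply hu
    rw [hz u, h, zero_smul]
  have hau : (a : Matrix (Fin d) (Fin d) F) *ᵥ u = s⁻¹ • u := by
    conv_rhs => rw [hz u]
    rw [smul_smul, inv_mul_cancel₀ hs0, one_smul]
  have hav : (a : Matrix (Fin d) (Fin d) F) *ᵥ v = s⁻¹ • v := by
    conv_rhs => rw [hz v]
    rw [smul_smul, inv_mul_cancel₀ hs0, one_smul]
  rw [hgP, hau, ← kr_smul_right] at h2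
  rw [hgP, hav, ← kr_smul_right] at h3
  have e1 : s⁻¹ • ((b : Matrix (Fin k) (Fin k) F) *ᵥ y₀) = y₀ := kr_inj_right hu (hinj h2)
  rw [e1] at h3
  exact (kr_inj_left hy₀ (hinj h3)).symm

/-- The frame of the factor of dimension three. -/
theorem exists_frame_tensor (hq : Fintype.card F = 3) (hd : 0 < d) {f : (ι → F) → (ι → F) → F} {e : ι ≃ Fin d × Fin 3} {P : GL ι F}
    {f₁ : (Fin d → F) → (Fin d → F) → F} {f₂ : (Fin 3 → F) → (Fin 3 → F) → F}
    (h1b : IsBilinearForm f₁) (h1n : IsNondegenerateForm f₁) (h2 : IsSymmetricForm f₂) (hs : IsTensorFormStructure id f f₁ f₂ e P) :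
    ∃ (c₀ c : F) (x : Fin 3 → Fin 3 → F), c₀ ≠ 0 ∧ c ≠ 0 ∧ (∀ i j, f₂ (x i) (x j) = if i = j then c else 0) ∧
      (∀ z z' y y', f ((P : Mt) *ᵥ kr e z y) ((P : Mt) *ᵥ kr e z' y') = c₀ * (f₁ z z' * f₂ y y')) ∧
      ∀ g ∈ tensorProductSubgroup d 3 e P, (∀ u v, f ((g : Mt) *ᵥ u) ((g : Mt) *ᵥ v) = f u v) →
        g ∈ decompositionStabilizer fun i => LinearMap.range (blkMap e P (x i)) := by
  classical
  obtain ⟨c₀, hc₀, heq⟩ := hs
  obtain ⟨c, x, hc, hx⟩ := exists_ortho_triple hq h2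
  have R1 : ∀ z z' y y', f ((P : Mt) *ᵥ kr e z y) ((P : Mt) *ᵥ kr e z' y') = c₀ * (f₁ z z' * f₂ y y') := by
    intro z z' y y'
    have h3 := heq (fun p => z p.1 * y p.2) (fun p => z' p.1 * y' p.2)
    rw [form_kr h1b h2.bilinear] at h3
    exact h3
  refine ⟨c₀, c, x, hc₀, hc, hx, R1, fun g hg hiso => ?_⟩
  obtain ⟨a, b, hab⟩ := Main.mem_tensorProductSubgroup_iff.mp hg
  have hgP : ∀ z y, (g : Mt) *ᵥ ((P : Mt) *ᵥ kr e z y) =
      (P : Mt) *ᵥ kr e ((a : Matrix (Fin d) (Fin d) F) *ᵥ z) ((b : Matrix (Fin 3) (Fin 3) F) *ᵥ y) := by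
    intro z y
    rw [conj_mulVec_P, tensor_action hab]
  obtain ⟨z₀, hz₀⟩ : ∃ z₀ : Fin d → F, z₀ ≠ 0 := by
    refine ⟨Pi.single ⟨0, hd⟩ 1, fun h => ?_⟩
    have := congrFun h ⟨0, hd⟩
    simp at this
  obtain ⟨-, z₀', hz₀'⟩ := h1n z₀ hz₀
  have hrel : ∀ y y', f₁ ((a : Matrix (Fin d) (Fin d) F) *ᵥ z₀) ((a : Matrix (Fin d) (Fin d) F) *ᵥ z₀') *
      f₂ ((b : Matrix (Fin 3) (Fin 3) F) *ᵥ y) ((b : Matrix (Fin 3) (Fin 3) F) *ᵥ y') = f₁ z₀ z₀' * f₂ y y' := by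
    intro y y'
    have h3 := hiso ((P : Mt) *ᵥ kr e z₀ y) ((P : Mt) *ᵥ kr e z₀' y')
    rw [hgP, hgP, R1, R1] at h3
    exact mul_left_cancel₀ hc₀ h3
  have hne : f₁ ((a : Matrix (Fin d) (Fin d) F) *ᵥ z₀) ((a : Matrix (Fin d) (Fin d) F) *ᵥ z₀') ≠ 0 := by
    intro h0
    have h3 := hrel (x 0) (x 0)
    rw [h0, zero_mul, hx, if_pos rfl] at h3
    exact mul_ne_zero hz₀' hc h3.symm
  obtain ⟨π, s, hs, hπ⟩ := monomial_of_sim hq h2 hc hx b (μ := f₁ z₀ z₀' / f₁ ((a : Matrix (Fin d) (Fin d) F) *ᵥ z₀) ((a : Matrix (Fin d) (Fin d) F) *ᵥ z₀'))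
    (fun y y' => by
      rw [div_mul_eq_mul_div, ← hrel y y']
      field_simp)
  have hgL : ∀ i z, (g : Mt) *ᵥ blkMap e P (x i) z = blkMap e P (x (π i)) (s i • ((a : Matrix (Fin d) (Fin d) F) *ᵥ z)) := by
    intro i z
    rw [blkMap_apply, blkMap_apply, hgP, hπ, kr_smul_right]
  refine ⟨π, fun i => ?_⟩
  ext w
  constructor
  · rintro ⟨_, ⟨z, rfl⟩, rfl⟩
    exact ⟨s i • ((a : Matrix (Fin d) (Fin d) F) *ᵥ z), by rw [Matrix.toLin'_apply, hgL]⟩
  · rintro ⟨z', rfl⟩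
    refine ⟨blkMap e P (x i) ((s i)⁻¹ • (((a⁻¹ : GL (Fin d) F) : Matrix (Fin d) (Fin d) F) *ᵥ z')), ⟨_, rfl⟩, ?_⟩
    rw [Matrix.toLin'_apply, hgL, Matrix.mulVec_smul, Basic.mulVec_inv_mulVec, smul_smul, mul_inv_cancel₀ (hs i), one_smul]

/-- A stable subspace is mapped onto itself. -/
theorem map_eq_of_forward {W : Submodule F (ι → F)} {g : GL ι F} (h : ∀ x ∈ W, (g : Mt) *ᵥ x ∈ W) :
    W.map (Matrix.toLin' (g : Mt)) = W := by
  apply le_antisymm
  · rintro _ ⟨x, hx, rfl⟩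
    exact h x hx
  · intro w hw
    have h1 : g ∈ setStab (W : Set (ι → F)) := mem_setStab_of_forward h
    have h2 := ((setStab (W : Set (ι → F))).inv_mem h1 w).1 hw
    refine ⟨_, h2, ?_⟩
    rw [Matrix.toLin'_apply, Basic.mulVec_inv_mulVec]

end Tensor

section Orth

variable {Q : QuadraticForm F (ι → F)}

set_option quotPrecheck false in
local notation "𝔣" => polar (⇑Q)

theorem between_tensor_O (hq : Fintype.card F = 3) (hQ : (polarBilin Q).Nondegenerate) (hn : 5 ≤ Fintype.card ι) {d : ℕ} (hd : 3 ≤ d)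
    {e : ι ≃ Fin d × Fin 3} {P : GL ι F} {f₁ : (Fin d → F) → (Fin d → F) → F} {f₂ : (Fin 3 → F) → (Fin 3 → F) → F}
    (h1 : IsSymmetricForm f₁) (h2 : IsSymmetricForm f₂) (hs : IsTensorFormStructure id (𝔣) f₁ f₂ e P) :
    ∃ K : Subgroup (GL ι F), tensorProductSubgroup d 3 e P ⊓ omegaGL (⇑Q) < K ∧ K < omegaGL (⇑Q) := by
  have h2ne := two_ne_zero_three (F := F) hq
  obtain ⟨c₀, c, x, hc₀, hc, hx, R, hle⟩ := exists_frame_tensor hq (by omega) h1.bilinear h1.nondegenerate h2 hs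
  obtain ⟨u₀, u₁, u₂, h00, h11, h01, h02, h12, hu2⟩ := NotO.exists_sing_triple h2ne hd h1
  have h10 : f₁ u₁ u₀ ≠ 0 := by rw [h1.symm]; exact h01
  set L : Fin 3 → (Fin d → F) →ₗ[F] (ι → F) := fun j => blkMap e P (x j) with hL
  have R' : ∀ j j' w w', 𝔣 (L j w) (L j' w') = c₀ * (f₁ w w' * if j = j' then c else 0) := by
    intro j j' w w'
    show 𝔣 ((P : Mt) *ᵥ kr e w (x j)) ((P : Mt) *ᵥ kr e w' (x j')) = _
    rw [R, hx]
  have R0 : ∀ {j j'} (w w'), j ≠ j' → 𝔣 (L j w) (L j' w') = 0 := by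
    intro j j' w w' h
    rw [R', if_neg h, mul_zero, mul_zero]
  have R1 : ∀ j w w', 𝔣 (L j w) (L j w') = c₀ * (f₁ w w' * c) := by
    intro j w w'
    rw [R', if_pos rfl]
  have hQL : ∀ j w, f₁ w w = 0 → Q (L j w) = 0 := by
    intro j w hw
    have h3 := R1 j w w
    rw [hw, zero_mul, mul_zero, polar_self_eq] at h3
    exact (mul_eq_zero.1 h3).resolve_left h2ne
  have hx0 : ∀ j, x j ≠ 0 := by
    intro j h
    have h3 := hx j j
    rw [if_pos rfl, h] at h3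
    have h4 : f₂ 0 0 = 0 := by simpa using h2.bilinear.smul_left 0 0 0
    exact hc (h3.symm.trans h4)
  have hu₁ : u₁ ≠ 0 := by
    rintro rfl
    apply h01
    simpa using h1.bilinear.smul_right 0 u₀ 0
  have n01 : (0 : Fin 3) ≠ 1 := by decide
  have n10 : (1 : Fin 3) ≠ 0 := by decide
  set D : Fin 3 → Submodule F (ι → F) := fun i => LinearMap.range (L i) with hD
  have hleK : tensorProductSubgroup d 3 e P ⊓ omegaGL (⇑Q) ≤ decompositionStabilizer D := fun g hg =>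
    hle g hg.1 (fun u v => polar_act (⟨g, omegaGL_le_iso hg.2⟩ : ↥(Cfsg.isometryGroup F (⇑Q))) u v)
  have horth : ∀ i j, i ≠ j → AreOrthogonalFor (𝔣) (D i) (D j) := by
    rintro i j hij _ ⟨w, rfl⟩ _ ⟨w', rfl⟩
    exact R0 w w' hij
  have hQz : Q (L 0 u₁) = 0 := hQL _ _ h11
  -- an element of the stabiliser of the decomposition moving only the first block
  have hzb : 𝔣 (L 0 u₁) (L 0 u₂) = 0 := by rw [R1, h12]; ring
  set z := L 0 u₁ with hz
  set b := L 0 u₂ with hb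
  set G := eG hQz hzb with hG
  have hfix : ∀ j w, j ≠ 0 → (G : Mt) *ᵥ L j w = L j w := by
    intro j w hj
    rw [hG, eG_mulVec, hz, hb, R0 _ _ (Ne.symm hj), R0 _ _ (Ne.symm hj)]
    simp
  have hG0 : ∀ w, (G : Mt) *ᵥ L 0 w = L 0 (w + (c₀ * (f₁ u₁ w * c)) • u₂ - (c₀ * (f₁ u₂ w * c) + Q b * (c₀ * (f₁ u₁ w * c))) • u₁) := by
    intro w
    rw [hG, eG_mulVec, hz, hb, R1, R1, map_sub, map_add, map_smul, map_smul]
    rw [← hz, ← hb]
    module
  have hG1 : (G : Mt) *ᵥ L 0 u₁ = L 0 u₁ := by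
    rw [hG0, h11, h1.symm u₂ u₁, h12]
    simp
  have hnot : G ∉ tensorProductSubgroup d 3 e P := by
    intro hmem
    have h3 := not_tensor hmem (y₁ := x 1) (y₀ := x 0) (hx0 _) (hx0 _) (fun w => hfix 1 w n10) hu₁ hG1 (hG0 u₀)
    have h4 : (c₀ * (f₁ u₁ u₀ * c)) • u₂ = (c₀ * (f₁ u₂ u₀ * c) + Q b * (c₀ * (f₁ u₁ u₀ * c))) • u₁ := by
      have h5 := sub_eq_zero.2 h3
      have h6 : u₀ + (c₀ * (f₁ u₁ u₀ * c)) • u₂ - (c₀ * (f₁ u₂ u₀ * c) + Q b * (c₀ * (f₁ u₁ u₀ * c))) • u₁ - u₀ =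
          (c₀ * (f₁ u₁ u₀ * c)) • u₂ - (c₀ * (f₁ u₂ u₀ * c) + Q b * (c₀ * (f₁ u₁ u₀ * c))) • u₁ := by abel
      rw [h6] at h5
      exact sub_eq_zero.1 h5
    have hA : c₀ * (f₁ u₁ u₀ * c) ≠ 0 := mul_ne_zero hc₀ (mul_ne_zero h10 hc)
    have h7 := congrArg (f₁ u₀) h4
    rw [h1.bilinear.smul_right, h1.bilinear.smul_right, h02, mul_zero] at h7
    have h8 := (mul_eq_zero.1 h7.symm).resolve_right h01
    rw [h8, zero_smul] at h4
    exact hu2 ((smul_eq_zero.1 h4).resolve_left hA)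
  have hmemG : G ∈ decompositionStabilizer D := by
    refine ⟨1, fun i => ?_⟩
    apply map_eq_of_forward
    rintro _ ⟨w, rfl⟩
    by_cases hi : i = 0
    · subst hi
      rw [hG0]
      exact ⟨_, rfl⟩
    · rw [hfix _ _ hi]
      exact ⟨_, rfl⟩
  refine ⟨decompositionStabilizer D ⊓ omegaGL (⇑Q), lt_inf_of_witness hleK hnot hmemG (eG_mem_omegaGL hQ hn _ _), ?_⟩
  -- an element moving the blocks
  have hzb' : 𝔣 z (L 1 u₁) = 0 := R0 _ _ n01
  refine inf_lt_of_witness (g := eG hQz hzb') (fun hmem => ?_) (eG_mem_omegaGL hQ hn _ _)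
  have hQb' : Q (L 1 u₁) = 0 := hQL _ _ h11
  have hA : c₀ * (f₁ u₁ u₀ * c) ≠ 0 := mul_ne_zero hc₀ (mul_ne_zero h10 hc)
  refine false_of_test horth hmem (i := 0) (j₁ := 0) (j₂ := 1) (x := L 0 u₀) (y₁ := L 0 u₁) (y₂ := L 1 u₀) ⟨_, rfl⟩ ⟨_, rfl⟩ ⟨_, rfl⟩ n01 ?_ ?_
  · rw [polar_eG, hQb', zero_mul, zero_mul, sub_zero, hz, R0 _ _ n10, R0 _ _ n10, R1 0 u₁ u₁, R1 0 u₀ u₁, h11]
    simp only [mul_zero, sub_zero, add_zero, zero_mul]
    exact mul_ne_zero hc₀ (mul_ne_zero h01 hc)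
  · rw [polar_eG, hQb', zero_mul, zero_mul, sub_zero, hz, R0 _ _ n01, R1 0 u₁ u₀, R1 1 u₁ u₀, R0 _ _ n10, zero_add]
    simp only [zero_mul, sub_zero]
    exact mul_ne_zero hA hA

end Orth

section Sp

variable {m : ℕ}

/-- The test for elements outside the stabiliser of a decomposition, symplectic version. -/
theorem false_of_test_sp {t : ℕ} {D : Fin t → Submodule F (Fin m ⊕ Fin m → F)}
    (horth : ∀ i j, i ≠ j → AreOrthogonalFor (sympForm m F) (D i) (D j))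
    {g : GL (Fin m ⊕ Fin m) F} (hg : g ∈ decompositionStabilizer D) {i j₁ j₂ : Fin t} {x y₁ y₂ : Fin m ⊕ Fin m → F} (hx : x ∈ D i)
    (h₁ : y₁ ∈ D j₁) (h₂ : y₂ ∈ D j₂) (hj : j₁ ≠ j₂) (t₁ : sympForm m F ((g : Matrix _ _ F) *ᵥ x) y₁ ≠ 0)
    (t₂ : sympForm m F ((g : Matrix _ _ F) *ᵥ x) y₂ ≠ 0) : False := by
  obtain ⟨σ, hσ⟩ := hg
  have hm : (g : Matrix _ _ F) *ᵥ x ∈ D (σ i) := by
    rw [← hσ i]
    exact ⟨x, hx, rfl⟩
  have e1 : σ i = j₁ := by
    by_contra h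
    exact t₁ (horth _ _ h _ hm _ h₁)
  have e2 : σ i = j₂ := by
    by_contra h
    exact t₂ (horth _ _ h _ hm _ h₂)
  exact hj (e1.symm.trans e2)

theorem between_tensor_Sp (hq : Fintype.card F = 3) (hm : 0 < m) {d : ℕ}
    {e : (Fin m ⊕ Fin m) ≃ Fin d × Fin 3} {P : GL (Fin m ⊕ Fin m) F} {f₁ : (Fin d → F) → (Fin d → F) → F} {f₂ : (Fin 3 → F) → (Fin 3 → F) → F}
    (h1 : IsSymplecticForm f₁) (h2 : IsSymmetricForm f₂) (hs : IsTensorFormStructure id (sympForm m F) f₁ f₂ e P) :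
    ∃ K : Subgroup (GL (Fin m ⊕ Fin m) F), tensorProductSubgroup d 3 e P ⊓ spGL m F < K ∧ K < spGL m F := by
  have hd : 0 < d := by
    rcases Nat.eq_zero_or_pos d with rfl | h
    · exact ((e (Sum.inl ⟨0, hm⟩)).1).elim0
    · exact h
  obtain ⟨c₀, c, x, hc₀, hc, hx, R, hle⟩ := exists_frame_tensor hq hd h1.bilinear h1.nondegenerate h2 hs
  obtain ⟨u, hu⟩ : ∃ u : Fin d → F, u ≠ 0 := by
    refine ⟨Pi.single ⟨0, hd⟩ 1, fun h => ?_⟩
    have := congrFun h ⟨0, hd⟩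
    simp at this
  obtain ⟨-, u', hu'⟩ := h1.nondegenerate u hu
  have hf1 : ∀ w, f₁ w w = 0 := h1.alternating
  have hu'u : f₁ u' u ≠ 0 := by
    have h3 : f₁ (u + u') (u + u') = 0 := hf1 _
    rw [h1.bilinear.add_left, h1.bilinear.add_right, h1.bilinear.add_right, hf1, hf1] at h3
    intro h4
    rw [h4] at h3
    exact hu' (by linear_combination h3)
  set L : Fin 3 → (Fin d → F) →ₗ[F] (Fin m ⊕ Fin m → F) := fun j => blkMap e P (x j) with hL
  have R' : ∀ j j' w w', sympForm m F (L j w) (L j' w') = c₀ * (f₁ w w' * if j = j' then c else 0) := by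
    intro j j' w w'
    show sympForm m F ((P : Matrix _ _ F) *ᵥ kr e w (x j)) ((P : Matrix _ _ F) *ᵥ kr e w' (x j')) = _
    rw [R, hx]
  have R0 : ∀ {j j'} (w w'), j ≠ j' → sympForm m F (L j w) (L j' w') = 0 := by
    intro j j' w w' h
    rw [R', if_neg h, mul_zero, mul_zero]
  have R1 : ∀ j w w', sympForm m F (L j w) (L j w') = c₀ * (f₁ w w' * c) := by
    intro j w w'
    rw [R', if_pos rfl]
  have hx0 : ∀ j, x j ≠ 0 := by
    intro j h
    have h3 := hx j j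
    rw [if_pos rfl, h] at h3
    have h4 : f₂ 0 0 = 0 := by simpa using h2.bilinear.smul_left 0 0 0
    exact hc (h3.symm.trans h4)
  have n01 : (0 : Fin 3) ≠ 1 := by decide
  have n10 : (1 : Fin 3) ≠ 0 := by decide
  set D : Fin 3 → Submodule F (Fin m ⊕ Fin m → F) := fun i => LinearMap.range (L i) with hD
  have hleK : tensorProductSubgroup d 3 e P ⊓ spGL m F ≤ decompositionStabilizer D := fun g hg =>
    hle g hg.1 (fun u v => hg.2 u v)
  have horth : ∀ i j, i ≠ j → AreOrthogonalFor (sympForm m F) (D i) (D j) := by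
    rintro i j hij _ ⟨w, rfl⟩ _ ⟨w', rfl⟩
    exact R0 w w' hij
  set G := Cfsg.Agent.Lib.Classical.Symp.SpGL.gt (L 0 u) (1 : F) with hG
  have hGv : ∀ v, (G : Matrix _ _ F) *ᵥ v = v + ((1 : F) * sympForm m F v (L 0 u)) • L 0 u := fun v =>
    Cfsg.Agent.Lib.Classical.Symp.SpGL.gt_mulVec _ _ _
  have hfix : ∀ j w, j ≠ 0 → (G : Matrix _ _ F) *ᵥ L j w = L j w := by
    intro j w hj
    rw [hGv, R0 _ _ hj]
    simp
  have hG0 : ∀ w, (G : Matrix _ _ F) *ᵥ L 0 w = L 0 (w + (c₀ * (f₁ w u * c)) • u) := by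
    intro w
    rw [hGv, R1, one_mul, map_add, map_smul]
  have hG1 : (G : Matrix _ _ F) *ᵥ L 0 u = L 0 u := by
    rw [hG0, hf1]
    simp
  have hnot : G ∉ tensorProductSubgroup d 3 e P := by
    intro hmem
    have h3 := not_tensor hmem (y₁ := x 1) (y₀ := x 0) (hx0 _) (hx0 _) (fun w => hfix 1 w n10) hu hG1 (hG0 u')
    have h4 : (c₀ * (f₁ u' u * c)) • u = 0 := by simpa using h3
    exact hu ((smul_eq_zero.1 h4).resolve_left (mul_ne_zero hc₀ (mul_ne_zero hu'u hc)))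
  have hmemG : G ∈ decompositionStabilizer D := by
    refine ⟨1, fun i => ?_⟩
    apply map_eq_of_forward
    rintro _ ⟨w, rfl⟩
    by_cases hi : i = 0
    · subst hi
      rw [hG0]
      exact ⟨_, rfl⟩
    · rw [hfix _ _ hi]
      exact ⟨_, rfl⟩
  refine ⟨decompositionStabilizer D ⊓ spGL m F, lt_inf_of_witness hleK hnot hmemG (Cfsg.Agent.Lib.Classical.Symp.SpGL.gt_mem _ _), ?_⟩
  -- an element moving the blocks
  set w := L 0 u + L 1 u with hw
  set G' := Cfsg.Agent.Lib.Classical.Symp.SpGL.gt w (1 : F) with hG'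
  refine inf_lt_of_witness (g := G') (fun hmem => ?_) (Cfsg.Agent.Lib.Classical.Symp.SpGL.gt_mem _ _)
  have hGv' : ∀ v, (G' : Matrix _ _ F) *ᵥ v = v + ((1 : F) * sympForm m F v w) • w := fun v =>
    Cfsg.Agent.Lib.Classical.Symp.SpGL.gt_mulVec _ _ _
  have hadd : ∀ a b v, sympForm m F (a + b) v = sympForm m F a v + sympForm m F b v := by
    intro a b v
    exact (NotSp.isSymplecticForm_sympForm' (m := m) (F := F)).bilinear.add_left a b v
  have hsmul : ∀ (s : F) a v, sympForm m F (s • a) v = s * sympForm m F a v := by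
    intro s a v
    exact (NotSp.isSymplecticForm_sympForm' (m := m) (F := F)).bilinear.smul_left s a v
  have hadd' : ∀ a b v, sympForm m F v (a + b) = sympForm m F v a + sympForm m F v b := by
    intro a b v
    exact (NotSp.isSymplecticForm_sympForm' (m := m) (F := F)).bilinear.add_right v a b
  have hval : sympForm m F (L 0 u') w = c₀ * (f₁ u' u * c) := by
    rw [hw, hadd', R1, R0 _ _ n01, add_zero]
  have hA : c₀ * (f₁ u' u * c) ≠ 0 := mul_ne_zero hc₀ (mul_ne_zero hu'u hc)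
  have hB : c₀ * (f₁ u u' * c) ≠ 0 := by
    refine mul_ne_zero hc₀ (mul_ne_zero ?_ hc)
    intro h3
    exact hu' h3
  refine false_of_test_sp horth hmem (i := 0) (j₁ := 0) (j₂ := 1) (x := L 0 u') (y₁ := L 0 u') (y₂ := L 1 u') ⟨_, rfl⟩ ⟨_, rfl⟩ ⟨_, rfl⟩ n01 ?_ ?_
  · rw [hGv', hval, one_mul, hadd, hsmul, hw, hadd, R1, R1, hf1, R0 _ _ n10]
    simp only [mul_zero, zero_mul, add_zero, zero_add]
    exact mul_ne_zero hA hB
  · rw [hGv', hval, one_mul, hadd, hsmul, hw, hadd, R0 _ _ n01, R0 _ _ n01, R1, zero_add, zero_add]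
    exact mul_ne_zero hA hB

end Sp

end Cfsg.Agent.Lib.Classical.Sub.OTens
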