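/-
Tensor decompositions of a quadratic form over the field with two elements with a symplectic factor of dimension two:
the tensor product group normalises the field with four elements obtained from an element of order three of the first
factor.
-/
import Mathlib
import Cfsg.Agent.Lib.Classical.Sub.OTens

set_option autoImplicit false
set_option linter.unusedSectionVars false

namespace Cfsg.Agent.Lib.Classical.Sub.O2Tens

open scoped Matrix MatrixGroups Kronecker
open Module Cfsg Cfsg.Geo QuadraticMap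
open Cfsg.Agent.Lib.Classical.Orth.Basic
open Cfsg.Agent.Lib.Classical.Geo.OPts
open Cfsg.Agent.Lib.Classical.Sub.OFrame2
open Cfsg.Agent.Lib.Classical.Sub.OTens
open Cfsg.Agent.Lib.Classical.Asch.SpThree
open Cfsg.Agent.Lib.Classical.Asch

variable {ι : Type} [Fintype ι] [DecidableEq ι] {F : Type*} [Field F] [Fintype F]

local notation "Mt" => Matrix ι ι F

/-- The elements conjugating `W` to itself or to its inverse. -/
def normPair {G : Type*} [Group G] (W : G) : Subgroup G where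
  carrier := {g | g * W * g⁻¹ = W ∨ g * W * g⁻¹ = W⁻¹}
  mul_mem' {a b} ha hb := by
    have e : a * b * W * (a * b)⁻¹ = a * (b * W * b⁻¹) * a⁻¹ := by group
    have e' : ∀ c : G, c * W⁻¹ * c⁻¹ = (c * W * c⁻¹)⁻¹ := fun c => by group
    simp only [Set.mem_setOf_eq] at ha hb ⊢
    rw [e]
    rcases hb with hb | hb <;> rw [hb]
    · exact ha
    · rw [e']
      rcases ha with ha | ha <;> rw [ha]
      · exact Or.inr rfl
      · exact Or.inl (inv_inv _)
  one_mem' := Or.inl (by simp)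
  inv_mem' {a} ha := by
    simp only [Set.mem_setOf_eq] at ha ⊢
    rcases ha with ha | ha
    · left
      rw [inv_inv]
      conv_lhs => rw [← ha]
      group
    · right
      have h2 : a * W⁻¹ * a⁻¹ = W := by
        have := congrArg (·⁻¹) ha
        simpa [mul_assoc] using this
      rw [inv_inv]
      conv_lhs => rw [← h2]
      group

theorem mem_normPair_of {G : Type*} [Group G] {W g : G} (h : g * W = W * g ∨ g * W = W⁻¹ * g) : g ∈ normPair W := by
  rcases h with h | h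
  · left
    rw [h]
    group
  · right
    rw [h]
    group

theorem normPair_cases {G : Type*} [Group G] {W g : G} (h : g ∈ normPair W) : g * W = W * g ∨ g * W = W⁻¹ * g := by
  rcases h with h | h
  · left
    calc g * W = (g * W * g⁻¹) * g := by group
      _ = W * g := by rw [h]
  · right
    calc g * W = (g * W * g⁻¹) * g := by group
      _ = W⁻¹ * g := by rw [h]

/-- The element of order three in the general linear group in dimension two. -/
def Om (hch : (2 : F) = 0) : GL (Fin 2) F where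
  val := !![0, 1; 1, 1]
  inv := !![1, 1; 1, 0]
  val_inv := by
    rw [Matrix.mul_fin_two, Matrix.one_fin_two]
    congr 1
    simp only [Matrix.vecCons_inj]
    norm_num
    linear_combination hch
  inv_val := by
    rw [Matrix.mul_fin_two, Matrix.one_fin_two]
    norm_num
    linear_combination hch

theorem Om_val (hch : (2 : F) = 0) : ((Om hch : GL (Fin 2) F) : Matrix (Fin 2) (Fin 2) F) = !![0, 1; 1, 1] := rfl

theorem Om_inv_val (hch : (2 : F) = 0) : (((Om hch)⁻¹ : GL (Fin 2) F) : Matrix (Fin 2) (Fin 2) F) = !![1, 1; 1, 0] := rfl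

/-- Every element of the general linear group in dimension two over the field with two elements normalises `Om`. -/
theorem mul_Om (hq : Fintype.card F = 2) (hch : (2 : F) = 0) (a : GL (Fin 2) F) :
    a * Om hch = Om hch * a ∨ a * Om hch = (Om hch)⁻¹ * a := by
  have hdet : (a : Matrix (Fin 2) (Fin 2) F).det ≠ 0 := ((Matrix.isUnit_iff_isUnit_det _).1 a.isUnit).ne_zero
  rw [Matrix.det_fin_two] at hdet
  have e1 : (a : Matrix (Fin 2) (Fin 2) F) = !![(a : Matrix (Fin 2) (Fin 2) F) 0 0, (a : Matrix (Fin 2) (Fin 2) F) 0 1;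
      (a : Matrix (Fin 2) (Fin 2) F) 1 0, (a : Matrix (Fin 2) (Fin 2) F) 1 1] := Matrix.eta_fin_two _
  generalize (a : Matrix (Fin 2) (Fin 2) F) 0 0 = x at e1 hdet
  generalize (a : Matrix (Fin 2) (Fin 2) F) 0 1 = y at e1 hdet
  generalize (a : Matrix (Fin 2) (Fin 2) F) 1 0 = z at e1 hdet
  generalize (a : Matrix (Fin 2) (Fin 2) F) 1 1 = w at e1 hdet
  have key : (y = z ∧ x + y = w ∧ w = x + z ∧ z + w = y + w) ∨ (y = x + z ∧ x + y = y + w ∧ w = x ∧ z + w = y) := by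
    rcases val2 hq x with rfl | rfl <;> rcases val2 hq y with rfl | rfl <;> rcases val2 hq z with rfl | rfl <;>
      rcases val2 hq w with rfl | rfl <;>
      first
      | (exfalso; apply hdet; ring1)
      | (left; refine ⟨?_, ?_, ?_, ?_⟩ <;> first | ring1 | linear_combination hch | linear_combination -hch)
      | (right; refine ⟨?_, ?_, ?_, ?_⟩ <;> first | ring1 | linear_combination hch | linear_combination -hch)
  have hmat : ∀ {a b c d a' b' c' d' : F}, a = a' → b = b' → c = c' → d = d' → !![a, b; c, d] = !![a', b'; c', d'] := by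
    rintro a b c d _ _ _ _ rfl rfl rfl rfl
    rfl
  have hL : (a : Matrix (Fin 2) (Fin 2) F) * !![0, 1; 1, 1] = !![y, x + y; w, z + w] := by
    rw [e1, Matrix.mul_fin_two]
    exact hmat (by ring) (by ring) (by ring) (by ring)
  have hR : !![0, 1; 1, 1] * (a : Matrix (Fin 2) (Fin 2) F) = !![z, w; x + z, y + w] := by
    rw [e1, Matrix.mul_fin_two]
    exact hmat (by ring) (by ring) (by ring) (by ring)
  have hR' : !![1, 1; 1, 0] * (a : Matrix (Fin 2) (Fin 2) F) = !![x + z, y + w; x, y] := by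
    rw [e1, Matrix.mul_fin_two]
    exact hmat (by ring) (by ring) (by ring) (by ring)
  rcases key with ⟨h1, h2, h3, h4⟩ | ⟨h1, h2, h3, h4⟩
  · left
    apply Units.ext
    rw [Units.val_mul, Units.val_mul, Om_val, hL, hR]
    exact hmat h1 h2 h3 h4
  · right
    apply Units.ext
    rw [Units.val_mul, Units.val_mul, Om_inv_val, Om_val, hL, hR']
    exact hmat h1 h2 h3 h4

/-- Equality of elements on the pure tensors with first factor a basis vector. -/
theorem gl_ext_pure {d k : ℕ} {e : ι ≃ Fin d × Fin k} {P A B : GL ι F}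
    (h : ∀ i v, (A : Mt) *ᵥ ((P : Mt) *ᵥ kr e (Pi.single i 1) v) = (B : Mt) *ᵥ ((P : Mt) *ᵥ kr e (Pi.single i 1) v)) : A = B := by
  apply Units.ext
  apply Matrix.ext_of_mulVec_single
  intro j
  have key : ∀ x : ι → F, (A : Mt) *ᵥ ((P : Mt) *ᵥ x) = (B : Mt) *ᵥ ((P : Mt) *ᵥ x) := by
    intro v
    rw [Forms.sum_single_eq v]
    simp only [Matrix.mulVec_sum, Matrix.mulVec_smul]
    refine Finset.sum_congr rfl fun l _ => ?_
    have h3 : (Pi.single l 1 : ι → F) = kr e (Pi.single (e l).1 1) (Pi.single (e l).2 1) := by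
      funext i
      by_cases hl : i = l
      · subst hl
        simp [kr]
      · have h4 : ¬ ((e i).1 = (e l).1 ∧ (e i).2 = (e l).2) := by
          rintro ⟨h5, h6⟩
          exact hl (e.injective (Prod.ext h5 h6))
        simp only [kr, Pi.single_apply, hl, if_false]
        by_cases h5 : (e i).1 = (e l).1
        · have h6 : (e i).2 ≠ (e l).2 := fun h6 => h4 ⟨h5, h6⟩
          simp [h6]
        · simp [h5]
    rw [h3, h]
  have h4 := key (((P⁻¹ : GL ι F) : Mt) *ᵥ Pi.single j 1)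
  rwa [Basic.mulVec_inv_mulVec] at h4

/-- Four vectors in a symplectic space of dimension at least three over the field with two elements. -/
theorem exists_four (hq : Fintype.card F = 2) {k : ℕ} (hk : 2 < k) {f : (Fin k → F) → (Fin k → F) → F} (hf : IsSymplecticForm f) :
    ∃ y₁ y₂ y₃ y₄ : Fin k → F, f y₁ y₂ = 1 ∧ f y₃ y₄ = 1 ∧ f y₁ y₃ = 0 ∧ f y₁ y₄ = 0 ∧ f y₂ y₃ = 0 ∧ f y₂ y₄ = 0 := by
  classical
  have hone : ∀ x : F, x ≠ 0 → x = 1 := fun x hx => (val2 hq x).resolve_left hx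
  have hch : (2 : F) = 0 := by
    have h := FiniteField.cast_card_eq_zero F
    rw [hq] at h
    exact_mod_cast h
  have hneg : ∀ {a b : Fin k → F}, f a b = 0 → f b a = 0 := by
    intro a b h
    rw [hf.skew, h, neg_zero]
  obtain ⟨y₁, hy₁⟩ : ∃ y : Fin k → F, y ≠ 0 := by
    refine ⟨Pi.single ⟨0, by omega⟩ 1, fun h => ?_⟩
    have := congrFun h ⟨0, by omega⟩
    simp at this
  obtain ⟨-, y₂, h12'⟩ := hf.nondegenerate y₁ hy₁
  have h12 : f y₁ y₂ = 1 := hone _ h12'
  have h21 : f y₂ y₁ = 1 := by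
    rw [hf.skew, h12]
    linear_combination -hch
  have h11 : f y₁ y₁ = 0 := hf.alternating _
  have h22 : f y₂ y₂ = 0 := hf.alternating _
  have hproj : ∀ w, f (w - f w y₂ • y₁ - f w y₁ • y₂) y₁ = 0 ∧ f (w - f w y₂ • y₁ - f w y₁ • y₂) y₂ = 0 := by
    intro w
    have hsub : ∀ a b c : Fin k → F, f (a - b) c = f a c - f b c := by
      intro a b c
      have h1 := hf.bilinear.add_left (a - b) b c
      rw [sub_add_cancel] at h1
      rw [h1]
      ring
    rw [hsub, hsub, hsub, hsub, hf.bilinear.smul_left, hf.bilinear.smul_left, hf.bilinear.smul_left, hf.bilinear.smul_left, h11, h21, h12,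
      h22]
    constructor <;> ring
  set S : Submodule F (Fin k → F) := Submodule.span F {y₁, y₂} with hS
  have hSne : S ≠ ⊤ := by
    intro h
    have h1 : finrank F S ≤ 2 := by
      have := finrank_span_finset_le_card (R := F) ({y₁, y₂} : Finset (Fin k → F))
      have h2 : (({y₁, y₂} : Finset (Fin k → F)) : Set (Fin k → F)) = {y₁, y₂} := by simp
      rw [h2] at this
      exact this.trans (Finset.card_le_two)
    rw [h, finrank_top, finrank_fintype_fun_eq_card, Fintype.card_fin] at h1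
    omega
  obtain ⟨w, hw⟩ := SetLike.exists_not_mem_of_ne_top S hSne rfl
  set y₃ := w - f w y₂ • y₁ - f w y₁ • y₂ with hy₃
  obtain ⟨h31, h32⟩ := hproj w
  have hy₃0 : y₃ ≠ 0 := by
    intro h
    apply hw
    have : w = f w y₂ • y₁ + f w y₁ • y₂ := by
      have h1 : w - (f w y₂ • y₁ + f w y₁ • y₂) = 0 := by
        rw [← h, hy₃]
        abel
      exact sub_eq_zero.1 h1
    rw [this]
    exact S.add_mem (S.smul_mem _ (Submodule.subset_span (by simp))) (S.smul_mem _ (Submodule.subset_span (by simp)))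
  obtain ⟨-, y', h3'⟩ := hf.nondegenerate y₃ hy₃0
  set y₄ := y' - f y' y₂ • y₁ - f y' y₁ • y₂ with hy₄
  obtain ⟨h41, h42⟩ := hproj y'
  refine ⟨y₁, y₂, y₃, y₄, h12, hone _ ?_, hneg h31, hneg h41, hneg h32, hneg h42⟩
  have e1 : f y₃ y₄ = f y₃ y' := by
    have hsub : ∀ a b c : Fin k → F, f a (b - c) = f a b - f a c := by
      intro a b c
      have h1 := hf.bilinear.add_right a (b - c) c
      rw [sub_add_cancel] at h1
      rw [h1]
      ring
    rw [hy₄, hsub, hsub, hf.bilinear.smul_right, hf.bilinear.smul_right, h31, h32]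
    ring
  rw [e1]
  exact h3'

/-- The linear map `v ↦ P (z ⊗ v)`. -/
noncomputable def blkR {d k : ℕ} (e : ι ≃ Fin d × Fin k) (P : GL ι F) (z : Fin d → F) : (Fin k → F) →ₗ[F] (ι → F) where
  toFun y := (P : Mt) *ᵥ kr e z y
  map_add' a b := by
    rw [← Matrix.mulVec_add]
    congr 1
    funext l
    simp [kr, mul_add]
  map_smul' a b := by
    rw [RingHom.id_apply, ← Matrix.mulVec_smul]
    congr 1
    funext l
    simp [kr]
    ring

theorem blkR_apply {d k : ℕ} (e : ι ≃ Fin d × Fin k) (P : GL ι F) (z : Fin d → F) (y : Fin k → F) :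
    blkR e P z y = (P : Mt) *ᵥ kr e z y := rfl

section Main

variable {Q : QuadraticForm F (ι → F)}

set_option quotPrecheck false in
local notation "𝔣" => polar (⇑Q)

theorem between_tensor_O2 (hq : Fintype.card F = 2) (hQ : (polarBilin Q).Nondegenerate) (hn : 5 ≤ Fintype.card ι) {k : ℕ} (hk : 2 < k)
    {e : ι ≃ Fin 2 × Fin k} {P : GL ι F} {f₁ : (Fin 2 → F) → (Fin 2 → F) → F} {f₂ : (Fin k → F) → (Fin k → F) → F}
    (hf₁ : IsSymplecticForm f₁) (hf₂ : IsSymplecticForm f₂) (hT : IsTensorFormStructure id (𝔣) f₁ f₂ e P)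
    (hpure : ∀ x₁ x₂, Q ((P : Mt) *ᵥ kr e x₁ x₂) = 0) :
    ∃ K : Subgroup (GL ι F), tensorProductSubgroup 2 k e P ⊓ omegaGL (⇑Q) < K ∧ K < omegaGL (⇑Q) := by
  classical
  have hch : (2 : F) = 0 := by
    have h := FiniteField.cast_card_eq_zero F
    rw [hq] at h
    exact_mod_cast h
  have hone : ∀ x : F, x ≠ 0 → x = 1 := fun x hx => (val2 hq x).resolve_left hx
  obtain ⟨c, hc, R⟩ := OType.pol_kr hf₁.bilinear hf₂.bilinear hT
  have hc1 : c = 1 := hone c hc
  subst hc1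
  simp only [one_mul] at R
  -- the first factor
  set e₀ : Fin 2 → F := Pi.single 0 1 with he₀
  set e₁ : Fin 2 → F := Pi.single 1 1 with he₁
  have he₀0 : e₀ ≠ 0 := by
    intro h
    have := congrFun h 0
    simp [he₀] at this
  have h01 : f₁ e₀ e₁ = 1 := by
    apply hone
    obtain ⟨-, u, hu⟩ := hf₁.nondegenerate e₀ he₀0
    intro h0
    apply hu
    rw [Forms.sum_single_eq u, Fin.sum_univ_two, hf₁.bilinear.add_right, hf₁.bilinear.smul_right, hf₁.bilinear.smul_right,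
      hf₁.alternating, ← he₁, h0]
    ring
  have h00 : f₁ e₀ e₀ = 0 := hf₁.alternating _
  have h11 : f₁ e₁ e₁ = 0 := hf₁.alternating _
  have h10 : f₁ e₁ e₀ = 1 := by
    rw [hf₁.skew, h01]
    linear_combination -hch
  -- the coordinates
  set A := blkR e P e₀ with hA
  set B := blkR e P e₁ with hB
  have QA : ∀ v, Q (A v) = 0 := fun v => hpure _ _
  have QB : ∀ v, Q (B v) = 0 := fun v => hpure _ _
  have pAA : ∀ v v', 𝔣 (A v) (A v') = 0 := fun v v' => by
    show 𝔣 ((P : Mt) *ᵥ kr e e₀ v) ((P : Mt) *ᵥ kr e e₀ v') = 0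
    rw [R, h00, zero_mul]
  have pBB : ∀ v v', 𝔣 (B v) (B v') = 0 := fun v v' => by
    show 𝔣 ((P : Mt) *ᵥ kr e e₁ v) ((P : Mt) *ᵥ kr e e₁ v') = 0
    rw [R, h11, zero_mul]
  have pAB : ∀ v v', 𝔣 (A v) (B v') = f₂ v v' := fun v v' => by
    show 𝔣 ((P : Mt) *ᵥ kr e e₀ v) ((P : Mt) *ᵥ kr e e₁ v') = _
    rw [R, h01, one_mul]
  have pBA : ∀ v v', 𝔣 (B v) (A v') = f₂ v v' := fun v v' => by
    show 𝔣 ((P : Mt) *ᵥ kr e e₁ v) ((P : Mt) *ᵥ kr e e₀ v') = _
    rw [R, h10, one_mul]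
  -- the element of order three
  set W : GL ι F := P * FormSU2.kronE e (Om hch) 1 * P⁻¹ with hW
  have hWT : ∀ u v, (W : Mt) *ᵥ ((P : Mt) *ᵥ kr e u v) = (P : Mt) *ᵥ kr e (((Om hch : GL (Fin 2) F) : Matrix (Fin 2) (Fin 2) F) *ᵥ u) v := by
    intro u v
    have h1 : ((P⁻¹ * W * P : GL ι F) : Mt) = ((FormSU2.kronE e (Om hch) 1 : GL ι F) : Mt) := by
      rw [hW]
      congr 1
      group
    have hab : ∀ i j, ((P⁻¹ * W * P : GL ι F) : Mt) i j =
        ((Om hch : GL (Fin 2) F) : Matrix (Fin 2) (Fin 2) F) (e i).1 (e j).1 * ((1 : GL (Fin k) F) : Matrix (Fin k) (Fin k) F) (e i).2 (e j).2 := by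
      intro i j
      rw [h1, FormSU2.coe_kronE]
      rfl
    rw [conj_mulVec_P, tensor_action hab]
    simp
  have hWT' : ∀ u v, ((W⁻¹ : GL ι F) : Mt) *ᵥ ((P : Mt) *ᵥ kr e u v) =
      (P : Mt) *ᵥ kr e ((((Om hch)⁻¹ : GL (Fin 2) F) : Matrix (Fin 2) (Fin 2) F) *ᵥ u) v := by
    intro u v
    have h1 := hWT (((Om hch)⁻¹ : GL (Fin 2) F).1 *ᵥ u) v
    rw [Basic.mulVec_inv_mulVec] at h1
    rw [← h1, Basic.inv_mulVec_mulVec]
  have hkr_add : ∀ (u u' : Fin 2 → F) v, (P : Mt) *ᵥ kr e (u + u') v = (P : Mt) *ᵥ kr e u v + (P : Mt) *ᵥ kr e u' v := by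
    intro u u' v
    rw [← Matrix.mulVec_add]
    congr 1
    funext l
    simp [kr, add_mul]
  have hOm0 : ((Om hch : GL (Fin 2) F) : Matrix (Fin 2) (Fin 2) F) *ᵥ e₀ = e₁ := by
    rw [Om_val]
    funext i
    fin_cases i <;> simp [he₀, he₁, Matrix.mulVec, dotProduct, Fin.sum_univ_two]
  have hOm1 : ((Om hch : GL (Fin 2) F) : Matrix (Fin 2) (Fin 2) F) *ᵥ e₁ = e₀ + e₁ := by
    rw [Om_val]
    funext i
    fin_cases i <;> simp [he₀, he₁, Matrix.mulVec, dotProduct, Fin.sum_univ_two]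
  have hOm0' : (((Om hch)⁻¹ : GL (Fin 2) F) : Matrix (Fin 2) (Fin 2) F) *ᵥ e₀ = e₀ + e₁ := by
    rw [Om_inv_val]
    funext i
    fin_cases i <;> simp [he₀, he₁, Matrix.mulVec, dotProduct, Fin.sum_univ_two]
  have hOm1' : (((Om hch)⁻¹ : GL (Fin 2) F) : Matrix (Fin 2) (Fin 2) F) *ᵥ e₁ = e₀ := by
    rw [Om_inv_val]
    funext i
    fin_cases i <;> simp [he₀, he₁, Matrix.mulVec, dotProduct, Fin.sum_univ_two]
  have WA : ∀ v, (W : Mt) *ᵥ A v = B v := fun v => by
    show (W : Mt) *ᵥ ((P : Mt) *ᵥ kr e e₀ v) = (P : Mt) *ᵥ kr e e₁ v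
    rw [hWT, hOm0]
  have WB : ∀ v, (W : Mt) *ᵥ B v = A v + B v := fun v => by
    show (W : Mt) *ᵥ ((P : Mt) *ᵥ kr e e₁ v) = (P : Mt) *ᵥ kr e e₀ v + (P : Mt) *ᵥ kr e e₁ v
    rw [hWT, hOm1, hkr_add]
  have WA' : ∀ v, ((W⁻¹ : GL ι F) : Mt) *ᵥ A v = A v + B v := fun v => by
    show ((W⁻¹ : GL ι F) : Mt) *ᵥ ((P : Mt) *ᵥ kr e e₀ v) = (P : Mt) *ᵥ kr e e₀ v + (P : Mt) *ᵥ kr e e₁ v
    rw [hWT', hOm0', hkr_add]
  have WB' : ∀ v, ((W⁻¹ : GL ι F) : Mt) *ᵥ B v = A v := fun v => by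
    show ((W⁻¹ : GL ι F) : Mt) *ᵥ ((P : Mt) *ᵥ kr e e₁ v) = (P : Mt) *ᵥ kr e e₀ v
    rw [hWT', hOm1']
  have hmulg : ∀ (X Y : GL ι F) (x : ι → F), ((X * Y : GL ι F) : Mt) *ᵥ x = (X : Mt) *ᵥ ((Y : Mt) *ᵥ x) := by
    intro X Y x
    rw [Units.val_mul, Matrix.mulVec_mulVec]
  have hmula : ∀ (X Y : GL (Fin 2) F) (x : Fin 2 → F), (X : Matrix (Fin 2) (Fin 2) F) *ᵥ ((Y : Matrix (Fin 2) (Fin 2) F) *ᵥ x) =
      ((X * Y : GL (Fin 2) F) : Matrix (Fin 2) (Fin 2) F) *ᵥ x := by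
    intro X Y x
    rw [Units.val_mul, Matrix.mulVec_mulVec]
  -- the tensor product group normalises the element of order three
  have hle : tensorProductSubgroup 2 k e P ⊓ omegaGL (⇑Q) ≤ normPair W := by
    rintro g ⟨hg, -⟩
    obtain ⟨a, b, hab⟩ := Main.mem_tensorProductSubgroup_iff.mp hg
    have hgP : ∀ z y, (g : Mt) *ᵥ ((P : Mt) *ᵥ kr e z y) =
        (P : Mt) *ᵥ kr e ((a : Matrix (Fin 2) (Fin 2) F) *ᵥ z) ((b : Matrix (Fin k) (Fin k) F) *ᵥ y) := by
      intro z y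
      rw [conj_mulVec_P, tensor_action hab]
    apply mem_normPair_of
    rcases mul_Om hq hch a with h | h
    · left
      apply gl_ext_pure (e := e) (P := P)
      intro i v
      rw [hmulg g W, hmulg W g, hWT, hgP, hgP, hWT, hmula, hmula, h]
    · right
      apply gl_ext_pure (e := e) (P := P)
      intro i v
      rw [hmulg g W, hmulg W⁻¹ g, hWT, hgP, hgP, hWT', hmula, hmula, h]
  -- vectors in the second factor
  obtain ⟨y₁, y₂, y₃, y₄, f12, f34, f13, f14, f23, f24⟩ := exists_four hq hk hf₂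
  have falt := hf₂.alternating
  have fsw : ∀ {a b : Fin k → F} {s : F}, f₂ a b = s → f₂ b a = -s := by
    intro a b s h
    rw [hf₂.skew, h]
  have hneg : ∀ s : F, -s = s := fun s => by linear_combination (-s) * hch
  have f21 : f₂ y₂ y₁ = 1 := by rw [fsw f12, hneg]
  have f31 : f₂ y₃ y₁ = 0 := by rw [fsw f13, hneg]
  have f32 : f₂ y₃ y₂ = 0 := by rw [fsw f23, hneg]
  -- the unitary transvection
  set z := A y₁ + B y₃ with hz
  set b := B y₁ + A y₃ + B y₃ with hb
  have hQz : Q z = 0 := by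
    rw [hz, Q_add, QA, QB, pAB, f13]
    ring
  have hzb : 𝔣 z b = 0 := by
    simp only [hz, hb, polar_add_left, polar_add_right, pAB, pAA, pBA, pBB, falt, f13, f31]
    ring
  have hQb : Q b = 0 := by
    simp only [hb, Q_add, QA, QB, polar_add_left, pBA, pBB, pAB, falt, f13]
    ring
  set G := eG hQz hzb with hG
  have hGv : ∀ x, (G : Mt) *ᵥ x = x + 𝔣 z x • b + 𝔣 b x • z := by
    intro x
    rw [hG, eG_mulVec, hQb, zero_mul, zero_smul, sub_zero, sub_eq_add_neg, ← neg_smul, hneg]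
  have hzA : ∀ v, 𝔣 z (A v) = f₂ y₃ v := fun v => by
    simp only [hz, polar_add_left, pAA, pBA, zero_add]
  have hzB : ∀ v, 𝔣 z (B v) = f₂ y₁ v := fun v => by
    simp only [hz, polar_add_left, pBB, pAB, add_zero]
  have hbA : ∀ v, 𝔣 b (A v) = f₂ y₁ v + f₂ y₃ v := fun v => by
    simp only [hb, polar_add_left, pAA, pBA, add_zero]
  have hbB : ∀ v, 𝔣 b (B v) = f₂ y₃ v := fun v => by
    simp only [hb, polar_add_left, pBB, pAB, add_zero, zero_add]
  have Wz : (W : Mt) *ᵥ z = b := by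
    rw [hz, Matrix.mulVec_add, WA, WB, hb]
    abel
  have Wb : (W : Mt) *ᵥ b = z + b := by
    rw [hb, Matrix.mulVec_add, Matrix.mulVec_add, WA, WB, WB, hz]
    abel
  have hcomm : G * W = W * G := by
    apply gl_ext_pure (e := e) (P := P)
    intro i v
    rw [hmulg G W, hmulg W G]
    fin_cases i
    · show (G : Mt) *ᵥ ((W : Mt) *ᵥ A v) = (W : Mt) *ᵥ ((G : Mt) *ᵥ A v)
      rw [WA, hGv, hGv, hzA, hzB, hbA, hbB, Matrix.mulVec_add, Matrix.mulVec_add, Matrix.mulVec_smul, Matrix.mulVec_smul, WA, Wz, Wb]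
      have h0 : (2 : F) • (f₂ y₃ v • b) = 0 := by rw [hch, zero_smul]
      calc B v + f₂ y₁ v • b + f₂ y₃ v • z = B v + f₂ y₃ v • (z + b) + (f₂ y₁ v + f₂ y₃ v) • b + (-(2 : F)) • (f₂ y₃ v • b) := by module
        _ = _ := by rw [neg_smul, h0, neg_zero, add_zero]
    · show (G : Mt) *ᵥ ((W : Mt) *ᵥ B v) = (W : Mt) *ᵥ ((G : Mt) *ᵥ B v)
      rw [WB, hGv, hGv, polar_add_right, polar_add_right, hzA, hzB, hbA, hbB, Matrix.mulVec_add, Matrix.mulVec_add, Matrix.mulVec_smul,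
        Matrix.mulVec_smul, WB, Wz, Wb]
      have h0 : (2 : F) • (f₂ y₃ v • z) = 0 := by rw [hch, zero_smul]
      calc A v + B v + (f₂ y₃ v + f₂ y₁ v) • b + (f₂ y₁ v + f₂ y₃ v + f₂ y₃ v) • z
          = A v + B v + f₂ y₁ v • (z + b) + f₂ y₃ v • b + (2 : F) • (f₂ y₃ v • z) := by module
        _ = _ := by rw [h0, add_zero]
  have hnot : G ∉ tensorProductSubgroup 2 k e P := by
    intro hmem
    obtain ⟨a, b', hab⟩ := Main.mem_tensorProductSubgroup_iff.mp hmem
    have hgP : (G : Mt) *ᵥ B y₂ = (P : Mt) *ᵥ kr e ((a : Matrix (Fin 2) (Fin 2) F) *ᵥ e₁) ((b' : Matrix (Fin k) (Fin k) F) *ᵥ y₂) := by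
      show (G : Mt) *ᵥ ((P : Mt) *ᵥ kr e e₁ y₂) = _
      rw [conj_mulVec_P, tensor_action hab]
    have hw : (G : Mt) *ᵥ B y₂ = B y₂ + b := by
      rw [hGv, hzB, hbB, f12, f32]
      simp
    set s := (a : Matrix (Fin 2) (Fin 2) F) *ᵥ e₁ with hs
    set t := (b' : Matrix (Fin k) (Fin k) F) *ᵥ y₂ with ht
    have pA : ∀ β, 𝔣 (B y₂ + b) (A β) = f₁ s e₀ * f₂ t β := by
      intro β
      rw [← hw, hgP]
      exact R _ _ _ _
    have pB : ∀ β, 𝔣 (B y₂ + b) (B β) = f₁ s e₁ * f₂ t β := by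
      intro β
      rw [← hw, hgP]
      exact R _ _ _ _
    have v1 : 𝔣 (B y₂ + b) (A y₄) = 1 := by
      rw [polar_add_left, pBA, hbA, f24, f14, f34]
      ring
    have v2 : 𝔣 (B y₂ + b) (B y₂) = 0 := by
      rw [polar_add_left, pBB, hbB, f32, zero_add]
    have v3 : 𝔣 (B y₂ + b) (A y₂) = 1 := by
      rw [polar_add_left, pBA, hbA, falt, f12, f32]
      ring
    have v4 : 𝔣 (B y₂ + b) (B y₄) = 1 := by
      rw [polar_add_left, pBB, hbB, f34, zero_add]
    have h1 : 𝔣 (B y₂ + b) (A y₄) * 𝔣 (B y₂ + b) (B y₂) = 𝔣 (B y₂ + b) (A y₂) * 𝔣 (B y₂ + b) (B y₄) := by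
      rw [pA, pB, pA, pB]
      ring
    rw [v1, v2, v3, v4] at h1
    exact one_ne_zero (α := F) (by linear_combination -h1)
  refine ⟨normPair W ⊓ omegaGL (⇑Q), lt_inf_of_witness hle hnot (mem_normPair_of (Or.inl hcomm)) (eG_mem_omegaGL hQ hn _ _), ?_⟩
  -- an element moving the structure
  have hzb' : 𝔣 (A y₁) (A y₃) = 0 := pAA _ _
  set G' := eG (QA y₁) hzb' with hG'
  have hGv' : ∀ x, (G' : Mt) *ᵥ x = x + 𝔣 (A y₁) x • A y₃ + 𝔣 (A y₃) x • A y₁ := by
    intro x
    rw [hG', eG_mulVec, QA, zero_mul, zero_smul, sub_zero, sub_eq_add_neg, ← neg_smul, hneg]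
  refine inf_lt_of_witness (g := G') (fun hmem => ?_) (eG_mem_omegaGL hQ hn _ _)
  have e1 : (G' : Mt) *ᵥ B y₂ = B y₂ + A y₃ := by
    rw [hGv', pAB, pAB, f12, f32]
    simp
  have e2 : (G' : Mt) *ᵥ (A y₂ + B y₂) = A y₂ + B y₂ + A y₃ := by
    rw [hGv', polar_add_right, polar_add_right, pAA, pAA, pAB, pAB, f12, f32]
    simp
  rcases normPair_cases hmem with h | h
  · have h3 : (G' : Mt) *ᵥ ((W : Mt) *ᵥ B y₂) = (W : Mt) *ᵥ ((G' : Mt) *ᵥ B y₂) := by
      rw [← hmulg, ← hmulg, h]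
    rw [WB, e1, e2, Matrix.mulVec_add, WB, WA] at h3
    have h4 : A y₃ = B y₃ := add_left_cancel h3
    have h5 := congrArg (fun x => 𝔣 x (A y₄)) h4
    simp only [pAA, pBA, f34] at h5
    exact zero_ne_one h5
  · have h3 : (G' : Mt) *ᵥ ((W : Mt) *ᵥ B y₂) = ((W⁻¹ : GL ι F) : Mt) *ᵥ ((G' : Mt) *ᵥ B y₂) := by
      rw [← hmulg, ← hmulg, h]
    rw [WB, e1, e2, Matrix.mulVec_add, WB', WA'] at h3
    have h5 := congrArg (fun x => 𝔣 x (A y₁)) h3
    simp only [polar_add_left, pAA, pBA, f21, f31] at h5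
    simp at h5

end Main

end Cfsg.Agent.Lib.Classical.Sub.O2Tens
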