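/-
Generation in `SL₂`: `x 1` together with an additive group of at least eight `y`'s generating the field.
All characteristics.
-/
import Mathlib
import Cfsg.Agent.Lib.Classical.Sub.SL2Gen

set_option autoImplicit false

namespace Cfsg.Agent.Lib.Classical.Sub.SL2Gen8

open Matrix Subgroup Polynomial
open scoped MatrixGroups
open Cfsg.Agent.Lib.PSL2.Basic Cfsg.Agent.Lib.PSL2.Conj Cfsg.Agent.Lib.PSL2.Members
open Cfsg.Agent.Lib.PSL2.Subfield Cfsg.Agent.Lib.PSL2.Reduction Cfsg.Agent.Lib.PSL2.DPart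
open Cfsg.Agent.Lib.PSL2.DCount Cfsg.Agent.Lib.PSL2.DClassify Cfsg.Agent.Lib.PSL2.DicksonSL
open Cfsg.Agent.Lib.PSL2.DicksonSL2 Cfsg.Agent.Lib.PSL2.Unipotent
open Cfsg.Agent.Lib.Linalg.Quad.FieldGen
open Cfsg.Agent.Lib.Classical.Sub.SL2Gen

variable {F : Type*} [Field F] [Fintype F]

omit [Fintype F] in
/-- In characteristic two, the products `y d₁ * (x 1 * y d₂ * (x 1)⁻¹)` are distinct in `PSL₂`. -/
lemma mkP_prod_inj (h20 : (2 : F) = 0) {a b c d : F}
    (h : mkP (y a * (x (1 : F) * y b * (x (1 : F))⁻¹)) = mkP (y c * (x (1 : F) * y d * (x (1 : F))⁻¹))) : a = c ∧ b = d := by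
  have key : y c * (x (1 : F) * y d * (x (1 : F))⁻¹) = y a * (x (1 : F) * y b * (x (1 : F))⁻¹) := by
    rcases mkP_eq_iff.1 h with h1 | h1
    · exact h1
    · have hneg : ∀ v : SL(2, F), -v = v := by
        intro v
        apply ext2 <;> simp <;> linear_combination (-(v.1 _ _)) * h20
      rw [h1, hneg]
  rw [x_inv] at key
  have e01 := congrArg (fun M : SL(2, F) => M.1 0 1) key
  have e10 := congrArg (fun M : SL(2, F) => M.1 1 0) key
  have e11 := congrArg (fun M : SL(2, F) => M.1 1 1) key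
  simp only [mul_00, mul_01, mul_10, mul_11, x_00, x_01, x_10, x_11, y_00, y_01, y_10, y_11] at e01 e10 e11
  have hbd : b = d := by linear_combination e01
  subst hbd
  refine ⟨?_, rfl⟩
  linear_combination (-1 : F) * e10 - e11

/-- **Generation.** -/
theorem gen_top8 (p : ℕ) [hp : Fact p.Prime] [CharP F p] (H : Subgroup SL(2, F)) (hx : x (1 : F) ∈ H) (B : AddSubgroup F) (hy : ∀ d ∈ B, y d ∈ H)
    (hB : 8 ≤ Nat.card B) (hgen : ∀ W : Subfield F, (∀ d ∈ B, d ∈ W) → W = ⊤) : H = ⊤ := by
  classical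
  set H₁ : Subgroup PSL(2, F) := H.map mkP with hH₁def
  have hyH₁ : ∀ d ∈ B, mkP (y d) ∈ H₁ := fun d hd => ⟨_, hy d hd, rfl⟩
  obtain ⟨k, hk⟩ := card_addSubgroup (p := p) B
  -- `|B|` divides the order
  have hBdvd : Nat.card B ∣ Nat.card H₁ := by
    let f : Multiplicative B →* H₁ :=
      { toFun := fun c => ⟨mkP (y ((Multiplicative.toAdd c : B) : F)), hyH₁ _ (Multiplicative.toAdd c).2⟩
        map_one' := by
          apply Subtype.ext
          simp [y_zero]
        map_mul' := by
          intro a b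
          apply Subtype.ext
          simp [y_add] }
    have hf : Function.Injective f := by
      intro a b hab
      have h2 : mkP (y ((Multiplicative.toAdd a : B) : F)) = mkP (y ((Multiplicative.toAdd b : B) : F)) :=
        congrArg Subtype.val hab
      exact Multiplicative.toAdd.injective (Subtype.ext (mkP_y_inj h2))
    have h2 := Subgroup.card_dvd_of_injective f hf
    rwa [Nat.card_congr Multiplicative.toAdd] at h2
  have hk0 : k ≠ 0 := by
    rintro rfl
    rw [hk] at hB
    simp at hB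
  -- more than one Sylow subgroup
  have hn : Nat.card (Sylow p H₁) ≠ 1 := by
    intro h1
    rw [Nat.card_eq_one_iff_unique] at h1
    haveI := h1.1
    obtain ⟨Q⟩ := h1.2
    have hpel : ∀ z : H₁, z ^ p = 1 → z ∈ (Q : Subgroup H₁) := by
      intro z hz
      have hz' : IsPGroup p (Subgroup.zpowers z) := by
        rintro ⟨w, n, rfl⟩
        refine ⟨1, Subtype.ext ?_⟩
        simp only [pow_one, SubmonoidClass.coe_pow, OneMemClass.coe_one]
        show (z ^ n) ^ p = 1
        rw [← zpow_natCast, ← _root_.zpow_mul, mul_comm, _root_.zpow_mul, zpow_natCast, hz, _root_.one_zpow]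
      obtain ⟨Q', hQ'⟩ := hz'.exists_le_sylow
      have h2 : z ∈ (Q' : Subgroup H₁) := hQ' (Subgroup.mem_zpowers z)
      rwa [Subsingleton.elim Q' Q] at h2
    have hdisc : ∀ d ∈ B, disc (x (1 : F) * y d) = 0 := by
      intro d hd
      have hu : (⟨mkP (x (1 : F)), ⟨_, hx, rfl⟩⟩ : H₁) ∈ (Q : Subgroup H₁) := by
        apply hpel
        apply Subtype.ext
        show mkP (x (1 : F)) ^ p = 1
        rw [← map_pow, x_pow_char, map_one]
      have hv : (⟨mkP (y d), ⟨_, hy d hd, rfl⟩⟩ : H₁) ∈ (Q : Subgroup H₁) := by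
        apply hpel
        apply Subtype.ext
        show mkP (y d) ^ p = 1
        rw [← map_pow, y_pow]
        simp
      have huv := (Q : Subgroup H₁).mul_mem hu hv
      obtain ⟨n, hn⟩ := Q.isPGroup' ⟨_, huv⟩
      have h3 : ((⟨mkP (x (1 : F)), ⟨_, hx, rfl⟩⟩ : H₁) * ⟨mkP (y d), ⟨_, hy d hd, rfl⟩⟩) ^ p ^ n = 1 :=
        congrArg Subtype.val hn
      have h4 : mkP (x (1 : F) * y d) ^ p ^ n = 1 := by
        have := congrArg Subtype.val h3
        simpa using this
      exact disc_of_mkP_pow p h4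
    have hall : ∀ d ∈ B, d * (d + 4) = 0 := by
      intro d hd
      have h1' := hdisc d hd
      simp only [disc, tr_def, mul_00, mul_11, x_00, x_01, x_10, x_11, y_00, y_01, y_10, y_11] at h1'
      linear_combination h1'
    -- `B` would have at most two elements
    have hsub : ∀ b : B, (b : F) = 0 ∨ (b : F) = -4 := by
      intro b
      rcases mul_eq_zero.1 (hall b b.2) with h | h
      · exact Or.inl h
      · exact Or.inr (by linear_combination h)
    have hcard : Nat.card B ≤ 2 := by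
      have hinj : Function.Injective (fun b : B => (⟨(b : F), by simpa using hsub b⟩ : ({0, -4} : Finset F))) := by
        intro a b hab
        have h7 : (a : F) = (b : F) := congrArg (fun z : ({0, -4} : Finset F) => (z : F)) hab
        exact Subtype.ext h7
      have h5 := Nat.card_le_card_of_injective _ hinj
      have h6 : Nat.card ({0, -4} : Finset F) ≤ 2 := by
        rw [Nat.card_eq_fintype_card, Fintype.card_coe]
        exact Finset.card_le_two
      omega
    omega
  have hdvd : p ∣ Nat.card H₁ := by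
    rw [hk] at hBdvd
    exact (dvd_pow_self p hk0).trans hBdvd
  -- the case analysis of the counting
  obtain ⟨M, hM, hP, hnn, hcardS⟩ : ∃ M ∈ (dp H₁ p).mem, IsP p M ∧ ¬ M.Normal ∧ Nat.card (Sylow p H₁) = Nat.card M + 1 := by
    let D : Dp H₁ p := dp H₁ p
    obtain ⟨M, hM, hP⟩ := exists_isP_member H₁ hdvd
    have hnn : ¬ M.Normal := by
      intro hnorm
      apply hn
      obtain ⟨Q₀, hQ₀⟩ := isP_sylow D hM hP
      rw [Nat.card_eq_one_iff_unique]
      haveI : (Q₀ : Subgroup H₁).Normal := by rw [hQ₀]; exact hnorm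
      haveI := Sylow.unique_of_normal Q₀ inferInstance
      exact ⟨inferInstance, inferInstance⟩
    have hpk8 : ∀ m : ℕ, m ∣ 120 → Nat.card H₁ = m → p ^ k = 8 := by
      intro m hm0 hm
      have h8 := hBdvd
      rw [hm] at h8
      have h9 := prime_pow_dvd_le hp.out (by rw [← hk]; exact h8.trans hm0)
      rw [← hk] at h9 ⊢
      omega
    have hle : ∀ m : ℕ, m ∣ 120 → ¬ 8 ∣ m → Nat.card H₁ = m → False := by
      intro m hm0 hm8 hm
      have h8 := hBdvd
      rw [hm, hk, hpk8 m hm0 hm] at h8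
      exact hm8 h8
    have h24case : Nat.card H₁ = 24 → False := by
      intro h24
      have h8 := hpk8 24 (by norm_num) h24
      have hp2 : p = 2 := by
        have h1 : p ∣ 2 ^ 3 := by
          have h2 : p ∣ p ^ k := dvd_pow_self p hk0
          rw [h8] at h2
          norm_num
          exact h2
        exact (Nat.prime_dvd_prime_iff_eq hp.out Nat.prime_two).1 (hp.out.dvd_of_dvd_pow h1)
      subst hp2
      have h20 : (2 : F) = 0 := by exact_mod_cast CharP.cast_eq_zero F 2
      have hB8 : Nat.card B = 8 := by rw [hk, h8]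
      let Φ : B × B → H₁ := fun q => ⟨mkP (y (q.1 : F) * (x (1 : F) * y (q.2 : F) * (x (1 : F))⁻¹)),
        ⟨_, H.mul_mem (hy _ q.1.2) (H.mul_mem (H.mul_mem hx (hy _ q.2.2)) (H.inv_mem hx)), rfl⟩⟩
      have hΦ : Function.Injective Φ := by
        rintro ⟨a, b⟩ ⟨c, d⟩ h
        have h1 := mkP_prod_inj h20 (congrArg Subtype.val h)
        exact Prod.ext (Subtype.ext h1.1) (Subtype.ext h1.2)
      have h1 := Nat.card_le_card_of_injective Φ hΦ
      rw [Nat.card_prod, hB8, h24] at h1
      omega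
    rcases classify D with h | h | ⟨N, hN, hNS, hNi⟩ | ⟨N, hN, hNP, hNn⟩ | ⟨h12, -⟩ | ⟨h24, -⟩ |
      ⟨h60, L, hL, -⟩ | ⟨N, hN, hNP, hNn, hNc, -⟩
    · exact (hle 1 (by norm_num) (by norm_num) h).elim
    · exfalso
      apply hnn
      refine ⟨fun a ha g => ?_⟩
      have hc := D.comm ⊤ h a trivial g trivial
      have h1 : g * a * g⁻¹ = a := by
        rw [← hc]
        group
      rwa [h1]
    · exfalso
      have h1 : Nat.card H₁ = Nat.card N * 2 := by
        have := Subgroup.card_mul_index N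
        rw [hNi] at this
        exact this.symm
      have h2 : p ^ k ∣ Nat.card N * 2 := by
        rw [← h1, ← hk]
        exact hBdvd
      have h3 : p ^ k ∣ 2 := by
        have hco : Nat.Coprime (p ^ k) (Nat.card N) :=
          Nat.Coprime.pow_left _ ((Nat.Prime.coprime_iff_not_dvd hp.out).2 hNS.cop)
        exact hco.dvd_of_dvd_mul_left h2
      have := Nat.le_of_dvd (by norm_num) h3
      rw [← hk] at this
      omega
    · exfalso
      apply hnn
      obtain ⟨g, hg⟩ := isP_conj D hN hM hNP hP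
      have h1 : cj g N = N := cj_eq_iff.2 (by
        rw [Subgroup.normalizer_eq_top_iff.2 hNn]
        trivial)
      rw [← hg, h1]
      exact hNn
    · exact (hle 12 (by norm_num) (by norm_num) h12).elim
    · exact (h24case h24).elim
    · exact (hle 60 (by norm_num) (by norm_num) h60).elim
    · exact ⟨N, hN, hNP, hNn, hNc⟩
  obtain ⟨A, hA, hAH, rfl⟩ := hM
  have hd : disc A = 0 := disc_eq_zero_of_isP p hA hAH hP
  obtain ⟨Q₀, hQ₀⟩ := isP_sylow (dp H₁ p) ⟨A, hA, hAH, rfl⟩ hP
  have hindex : (normalizer (member H₁ A : Set H₁)).index = Nat.card (member H₁ A) + 1 := by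
    rw [← hcardS, Sylow.card_eq_index_normalizer Q₀,
      show (Q₀ : Set H₁) = (member H₁ A : Set H₁) by rw [← hQ₀]; rfl]
  have hcard : Nat.card H₁ = (Nat.card (member H₁ A) + 1) *
      Nat.card (normalizer (member H₁ A : Set H₁)) := by
    rw [← hindex, mul_comm, Subgroup.card_mul_index]
  obtain ⟨g₁, c₁, hc₁, hN, -, -⟩ := exists_normalPos_frame hA hd hAH hnn hcard
  set H₂ : Subgroup PSL(2, F) := H₁.map (frameP g₁ c₁ hc₁).toMonoidHom with hH₂def
  have htr : ∀ Z ∈ H, tr Z ^ 2 ∈ subfieldW hN := by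
    intro Z hZ
    rw [← tr_frame g₁ c₁ hc₁ Z]
    apply tr_sq_mem
    rw [← frameP_mk]
    exact ⟨mkP Z, ⟨Z, hZ, rfl⟩, rfl⟩
  have hkey : ∀ d ∈ B, d ∈ subfieldW hN := by
    intro d hdB
    have h1 := htr _ (H.mul_mem hx (hy d hdB))
    simp only [tr_def, mul_00, mul_11, x_00, x_01, x_10, x_11, y_00, y_01, y_10, y_11] at h1
    by_cases hp2 : p = 2
    · subst hp2
      have h20 : (2 : F) = 0 := by exact_mod_cast CharP.cast_eq_zero F 2
      have h3 : d ^ 2 ∈ subfieldW hN := by
        have e : (1 * 1 + 1 * d + (0 * 0 + 1 * 1)) ^ 2 = d ^ 2 := by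
          have : (1 * 1 + 1 * d + (0 * 0 + 1 * 1) : F) = d + 2 := by ring
          rw [this, h20, add_zero]
        rwa [e] at h1
      obtain ⟨f, hf, hcardF⟩ := FiniteField.card F 2
      have h4 : d ^ Fintype.card F = d := FiniteField.pow_card d
      obtain ⟨f', hf'⟩ : ∃ f', (f : ℕ) = f' + 1 := ⟨(f : ℕ) - 1, by have := f.pos; omega⟩
      have h5 : d = (d ^ 2) ^ 2 ^ f' := by
        rw [← pow_mul]
        conv_lhs => rw [← h4]
        rw [hcardF, hf', pow_succ]
        ring_nf
      rw [h5]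
      exact pow_mem h3 _
    · have h20 : (2 : F) ≠ 0 := by
        intro h
        apply hp2
        have : p ∣ 2 := (CharP.cast_eq_zero_iff F p 2).1 (by exact_mod_cast h)
        exact (Nat.prime_dvd_prime_iff_eq hp.out Nat.prime_two).1 this
      have h80 : (8 : F) ≠ 0 := by
        have : (8 : F) = 2 * 2 * 2 := by norm_num
        rw [this]
        exact mul_ne_zero (mul_ne_zero h20 h20) h20
      have h2d : d + d ∈ B := B.add_mem hdB hdB
      have h2 := htr _ (H.mul_mem hx (hy _ h2d))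
      simp only [tr_def, mul_00, mul_11, x_00, x_01, x_10, x_11, y_00, y_01, y_10, y_11] at h2
      have e : d = (8 : F)⁻¹ * (4 * (1 * 1 + 1 * d + (0 * 0 + 1 * 1)) ^ 2 - (1 * 1 + 1 * (d + d) + (0 * 0 + 1 * 1)) ^ 2 - 12) := by
        field_simp
        ring
      rw [e]
      refine mul_mem (inv_mem (ofNat_mem _ 8)) (sub_mem (sub_mem (mul_mem (ofNat_mem _ 4) h1) h2) (ofNat_mem _ 12))
  have htop := hgen _ hkey
  have hall : ∀ u : F, mkP (x u) ∈ H₂ := fun u => by
    have : u ∈ subfieldW hN := by rw [htop]; trivial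
    exact this
  have hall' : ∀ u : F, mkP (y u) ∈ H₂ := fun u => (y_mem_iff hN).2 (hall u)
  have hZ₂ : ∀ Z : SL(2, F), mkP Z ∈ H₂ := by
    intro Z
    exact mem_of_x_y (H₂.comap mkP) hall hall' Z
  have hZ₁ : ∀ Z : SL(2, F), mkP Z ∈ H₁ := by
    intro Z
    have h1 := hZ₂ (frameEquiv g₁ c₁ hc₁ Z)
    obtain ⟨z, hz, hzZ⟩ := h1
    have h2 : (frameP g₁ c₁ hc₁) z = (frameP g₁ c₁ hc₁) (mkP Z) := by
      rw [frameP_mk]
      exact hzZ
    rw [← (frameP g₁ c₁ hc₁).injective h2]
    exact hz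
  have hlift : ∀ u : SL(2, F), (∃ k : ℕ, u ^ p ^ k = 1) → mkP u ∈ H₁ → u ∈ H := by
    intro u hu hmem
    by_cases hp2 : p = 2
    · subst hp2
      obtain ⟨v, hv, hvu⟩ := hmem
      rcases mkP_eq_iff.1 hvu with h1 | h1
      · rwa [h1]
      · have h20 : (2 : F) = 0 := by exact_mod_cast CharP.cast_eq_zero F 2
        have h3 : -v = v := by
          apply ext2 <;> simp <;> linear_combination (-(v.1 _ _)) * h20
        rw [h1, h3]
        exact hv
    · exact mem_of_mkP_mem hp2 H hu hmem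
  refine eq_top_iff.2 fun Z _ => mem_of_x_y H (fun u => ?_) (fun u => ?_) Z
  · exact hlift _ ⟨1, by rw [pow_one, x_pow_char]⟩ (hZ₁ _)
  · refine hlift _ ⟨1, ?_⟩ (hZ₁ _)
    rw [pow_one, y_pow]
    simp

end Cfsg.Agent.Lib.Classical.Sub.SL2Gen8
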