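/-
Elements of a matrix group acting as `SL₂` simultaneously on two planes, modulo a fixed subspace. Subfields and
subspaces stable under multiplication, and a lower bound for the span of the Plücker coordinates of a plane.
-/
import Mathlib
import Cfsg.Agent.Lib.Classical.Sub.Act
import Cfsg.Agent.Lib.Classical.Sub.SL2Gen8
import Cfsg.Agent.Lib.Classical.Sub.SLCore

set_option autoImplicit false
set_option linter.unusedSectionVars false

namespace Cfsg.Agent.Lib.Classical.Sub.OAct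

open scoped Matrix MatrixGroups
open Module Cfsg.Geo
open Cfsg.Agent.Lib.Classical.Geo.Basic
open Cfsg.Agent.Lib.PSL2.Basic
open Cfsg.Agent.Lib.Classical.Sub.Act

variable {ι : Type} [Fintype ι] [DecidableEq ι] {F : Type*} [Field F]

section Act2

variable {R : Submodule F (ι → F)} {e₁ w₁ e₂ w₂ : ι → F}

/-- `g` fixes `R`, acts on both planes modulo `R` as `X`, and trivially on the quotient by the planes and `R`. -/
def Act2 (R : Submodule F (ι → F)) (e₁ w₁ e₂ w₂ : ι → F) (g : GL ι F) (X : SL(2, F)) : Prop :=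
  (∀ r ∈ R, (g : Matrix ι ι F) *ᵥ r = r) ∧
  (∀ p, (g : Matrix ι ι F) *ᵥ L e₁ w₁ p - L e₁ w₁ ((X : Matrix (Fin 2) (Fin 2) F) *ᵥ p) ∈ R) ∧
  (∀ p, (g : Matrix ι ι F) *ᵥ L e₂ w₂ p - L e₂ w₂ ((X : Matrix (Fin 2) (Fin 2) F) *ᵥ p) ∈ R) ∧
    ∀ y, ∃ p p', (g : Matrix ι ι F) *ᵥ y - y - L e₁ w₁ p - L e₂ w₂ p' ∈ R

theorem Act2.one : Act2 R e₁ w₁ e₂ w₂ (1 : GL ι F) (1 : SL(2, F)) := by
  refine ⟨fun r _ => by simp, fun p => by simp, fun p => by simp, fun y => ⟨0, 0, by simp [L_zero]⟩⟩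

/-- The compatibility on one plane. -/
theorem plane_mul {e w : ι → F} {g h : GL ι F} {X Y : SL(2, F)} (h0 : ∀ r ∈ R, (g : Matrix ι ι F) *ᵥ r = r)
    (h₁ : ∀ p, (g : Matrix ι ι F) *ᵥ L e w p - L e w ((X : Matrix (Fin 2) (Fin 2) F) *ᵥ p) ∈ R)
    (h₂ : ∀ p, (h : Matrix ι ι F) *ᵥ L e w p - L e w ((Y : Matrix (Fin 2) (Fin 2) F) *ᵥ p) ∈ R) (p : Fin 2 → F) :
    ((g * h : GL ι F) : Matrix ι ι F) *ᵥ L e w p - L e w (((X * Y : SL(2, F)) : Matrix (Fin 2) (Fin 2) F) *ᵥ p) ∈ R := by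
  have a1 := h₂ p
  have a2 := h₁ ((Y : Matrix (Fin 2) (Fin 2) F) *ᵥ p)
  have a3 := h0 _ a1
  rw [Matrix.mulVec_sub] at a3
  have e1 : ((g * h : GL ι F) : Matrix ι ι F) *ᵥ L e w p - L e w (((X * Y : SL(2, F)) : Matrix (Fin 2) (Fin 2) F) *ᵥ p) =
      ((g : Matrix ι ι F) *ᵥ L e w ((Y : Matrix (Fin 2) (Fin 2) F) *ᵥ p) -
        L e w ((X : Matrix (Fin 2) (Fin 2) F) *ᵥ ((Y : Matrix (Fin 2) (Fin 2) F) *ᵥ p))) +
      ((h : Matrix ι ι F) *ᵥ L e w p - L e w ((Y : Matrix (Fin 2) (Fin 2) F) *ᵥ p)) := by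
    rw [← a3, Units.val_mul, ← Matrix.mulVec_mulVec, Matrix.SpecialLinearGroup.coe_mul, ← Matrix.mulVec_mulVec]
    abel
  rw [e1]
  exact R.add_mem a2 a1

theorem Act2.mul {g h : GL ι F} {X Y : SL(2, F)} (h₁ : Act2 R e₁ w₁ e₂ w₂ g X) (h₂ : Act2 R e₁ w₁ e₂ w₂ h Y) :
    Act2 R e₁ w₁ e₂ w₂ (g * h) (X * Y) := by
  refine ⟨fun r hr => ?_, plane_mul h₁.1 h₁.2.1 h₂.2.1, plane_mul h₁.1 h₁.2.2.1 h₂.2.2.1, fun y => ?_⟩
  · rw [Units.val_mul, ← Matrix.mulVec_mulVec, h₂.1 r hr, h₁.1 r hr]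
  · obtain ⟨p, p', hp⟩ := h₂.2.2.2 y
    obtain ⟨q, q', hq⟩ := h₁.2.2.2 y
    refine ⟨(X : Matrix (Fin 2) (Fin 2) F) *ᵥ p + q, (X : Matrix (Fin 2) (Fin 2) F) *ᵥ p' + q', ?_⟩
    have a1 := h₁.1 _ hp
    rw [Matrix.mulVec_sub, Matrix.mulVec_sub, Matrix.mulVec_sub] at a1
    have a2 := h₁.2.1 p
    have a3 := h₁.2.2.1 p'
    have e1 : ((g * h : GL ι F) : Matrix ι ι F) *ᵥ y - y - L e₁ w₁ ((X : Matrix (Fin 2) (Fin 2) F) *ᵥ p + q) -
          L e₂ w₂ ((X : Matrix (Fin 2) (Fin 2) F) *ᵥ p' + q') =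
        ((h : Matrix ι ι F) *ᵥ y - y - L e₁ w₁ p - L e₂ w₂ p') + ((g : Matrix ι ι F) *ᵥ y - y - L e₁ w₁ q - L e₂ w₂ q') +
          ((g : Matrix ι ι F) *ᵥ L e₁ w₁ p - L e₁ w₁ ((X : Matrix (Fin 2) (Fin 2) F) *ᵥ p)) +
          ((g : Matrix ι ι F) *ᵥ L e₂ w₂ p' - L e₂ w₂ ((X : Matrix (Fin 2) (Fin 2) F) *ᵥ p')) := by
      rw [L_add, L_add, Units.val_mul, ← Matrix.mulVec_mulVec]
      have a4 : (g : Matrix ι ι F) *ᵥ ((h : Matrix ι ι F) *ᵥ y) = (h : Matrix ι ι F) *ᵥ y - y - L e₁ w₁ p - L e₂ w₂ p' +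
          (g : Matrix ι ι F) *ᵥ y + (g : Matrix ι ι F) *ᵥ L e₁ w₁ p + (g : Matrix ι ι F) *ᵥ L e₂ w₂ p' := by
        rw [← a1]
        abel
      rw [a4]
      abel
    rw [e1]
    exact R.add_mem (R.add_mem (R.add_mem hp hq) a2) a3

/-- The compatibility on one plane. -/
theorem plane_inv {e w : ι → F} {g : GL ι F} {X : SL(2, F)} (h0 : ∀ r ∈ R, ((g⁻¹ : GL ι F) : Matrix ι ι F) *ᵥ r = r)
    (h₁ : ∀ p, (g : Matrix ι ι F) *ᵥ L e w p - L e w ((X : Matrix (Fin 2) (Fin 2) F) *ᵥ p) ∈ R) (p : Fin 2 → F) :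
    ((g⁻¹ : GL ι F) : Matrix ι ι F) *ᵥ L e w p - L e w (((X⁻¹ : SL(2, F)) : Matrix (Fin 2) (Fin 2) F) *ᵥ p) ∈ R := by
  have h3 : (X : Matrix (Fin 2) (Fin 2) F) *ᵥ (((X⁻¹ : SL(2, F)) : Matrix (Fin 2) (Fin 2) F) *ᵥ p) = p := by
    rw [Matrix.mulVec_mulVec, ← Matrix.SpecialLinearGroup.coe_mul, mul_inv_cancel]
    simp
  have a1 := h₁ (((X⁻¹ : SL(2, F)) : Matrix (Fin 2) (Fin 2) F) *ᵥ p)
  rw [h3] at a1
  have a2 := h0 _ a1
  rw [Matrix.mulVec_sub, inv_mulVec_mulVec] at a2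
  have e1 : ((g⁻¹ : GL ι F) : Matrix ι ι F) *ᵥ L e w p - L e w (((X⁻¹ : SL(2, F)) : Matrix (Fin 2) (Fin 2) F) *ᵥ p) =
      -((g : Matrix ι ι F) *ᵥ L e w (((X⁻¹ : SL(2, F)) : Matrix (Fin 2) (Fin 2) F) *ᵥ p) - L e w p) := by
    rw [← a2]
    abel
  rw [e1]
  exact R.neg_mem a1

theorem Act2.inv {g : GL ι F} {X : SL(2, F)} (h₁ : Act2 R e₁ w₁ e₂ w₂ g X) : Act2 R e₁ w₁ e₂ w₂ g⁻¹ X⁻¹ := by
  have h0 : ∀ r ∈ R, ((g⁻¹ : GL ι F) : Matrix ι ι F) *ᵥ r = r := by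
    intro r hr
    conv_lhs => rw [← h₁.1 r hr]
    rw [inv_mulVec_mulVec]
  refine ⟨h0, plane_inv h0 h₁.2.1, plane_inv h0 h₁.2.2.1, fun y => ?_⟩
  obtain ⟨q, q', hq⟩ := h₁.2.2.2 (((g⁻¹ : GL ι F) : Matrix ι ι F) *ᵥ y)
  refine ⟨-q, -q', ?_⟩
  rw [mulVec_inv_mulVec] at hq
  have e1 : ((g⁻¹ : GL ι F) : Matrix ι ι F) *ᵥ y - y - L e₁ w₁ (-q) - L e₂ w₂ (-q') =
      -(y - ((g⁻¹ : GL ι F) : Matrix ι ι F) *ᵥ y - L e₁ w₁ q - L e₂ w₂ q') := by
    rw [L_neg, L_neg]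
    abel
  rw [e1]
  exact R.neg_mem hq

/-- The group of elements of `SL₂` induced by `M`. -/
def actGroup2 (M : Subgroup (GL ι F)) (R : Submodule F (ι → F)) (e₁ w₁ e₂ w₂ : ι → F) : Subgroup SL(2, F) where
  carrier := {X | ∃ g ∈ M, Act2 R e₁ w₁ e₂ w₂ g X}
  mul_mem' := by
    rintro X Y ⟨g, hg, h₁⟩ ⟨g', hg', h₂⟩
    exact ⟨g * g', M.mul_mem hg hg', h₁.mul h₂⟩
  one_mem' := ⟨1, M.one_mem, Act2.one⟩
  inv_mem' := by
    rintro X ⟨g, hg, h₁⟩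
    exact ⟨g⁻¹, M.inv_mem hg, h₁.inv⟩

/-- **Generation**: `x 1` and many `y`'s give all of `SL₂`. -/
theorem act2_all [Fintype F] {M : Subgroup (GL ι F)} (hx : ∃ g ∈ M, Act2 R e₁ w₁ e₂ w₂ g (x (1 : F))) (B : AddSubgroup F)
    (hy : ∀ d ∈ B, ∃ g ∈ M, Act2 R e₁ w₁ e₂ w₂ g (y d)) (hB : 8 ≤ Nat.card B)
    (hgen : ∀ W : Subfield F, (∀ d ∈ B, d ∈ W) → W = ⊤) (X : SL(2, F)) : ∃ g ∈ M, Act2 R e₁ w₁ e₂ w₂ g X := by
  obtain ⟨p, hp⟩ := CharP.exists F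
  haveI : Fact p.Prime := ⟨(CharP.char_is_prime_or_zero F p).resolve_right (CharP.ringChar_ne_zero_of_finite F |> fun h => by
    rw [ringChar.eq F p] at h
    exact h)⟩
  have h := SL2Gen8.gen_top8 p (actGroup2 M R e₁ w₁ e₂ w₂) hx B hy hB hgen
  have h2 : X ∈ actGroup2 M R e₁ w₁ e₂ w₂ := by
    rw [h]
    exact Subgroup.mem_top X
  exact h2

end Act2

section Field

variable [Fintype F] {F₀ : Subfield F}

/-- The multipliers of a subspace. -/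
def stabK (Y : Submodule F₀ F) : Subfield F where
  carrier := {x | ∀ y ∈ Y, x * y ∈ Y}
  mul_mem' := by
    intro a b ha hb y hy
    rw [mul_assoc]
    exact ha _ (hb y hy)
  one_mem' := by
    intro y hy
    rwa [one_mul]
  add_mem' := by
    intro a b ha hb y hy
    rw [add_mul]
    exact Y.add_mem (ha y hy) (hb y hy)
  zero_mem' := by
    intro y _
    rw [zero_mul]
    exact Y.zero_mem
  neg_mem' := by
    intro a ha y hy
    rw [neg_mul]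
    exact Y.neg_mem (ha y hy)
  inv_mem' := by
    intro c hc y hy
    by_cases hc0 : c = 0
    · subst hc0
      rw [inv_zero, zero_mul]
      exact Y.zero_mem
    have hpow : ∀ n : ℕ, c ^ n * y ∈ Y := by
      intro n
      induction n with
      | zero =>
        rwa [pow_zero, one_mul]
      | succ n ih =>
        rw [pow_succ', mul_assoc]
        exact hc _ ih
    have h1 : c⁻¹ = c ^ (Fintype.card F - 2) := by
      have h2 := FiniteField.pow_card_sub_one_eq_one c hc0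
      have h3 : 2 ≤ Fintype.card F := Fintype.one_lt_card
      have h4 : Fintype.card F - 1 = (Fintype.card F - 2) + 1 := by omega
      rw [h4, pow_succ] at h2
      exact (eq_inv_of_mul_eq_one_left h2).symm
    rw [h1]
    exact hpow _

theorem mem_stabK {Y : Submodule F₀ F} {x : F} : x ∈ stabK Y ↔ ∀ y ∈ Y, x * y ∈ Y := Iff.rfl

/-- A subspace stable under an element outside of the subfield of prime index is everything. -/
theorem stab_field {r : ℕ} (hr : r.Prime) (hc : Fintype.card F = Nat.card F₀ ^ r) (hrk : finrank F₀ F = r)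
    {Y : Submodule F₀ F} (hY : Y ≠ ⊥) {l₁ : F} (hl : l₁ ∉ F₀) (h : ∀ y ∈ Y, l₁ * y ∈ Y) : r ≤ finrank F₀ Y := by
  have hle : F₀ ≤ stabK Y := by
    intro x hx y hy
    exact Y.smul_mem (⟨x, hx⟩ : F₀) hy
  rcases Cfsg.Agent.Lib.Classical.Sub.SLCore.subfield_dichotomy hr hc (stabK Y) hle with h1 | h1
  · exfalso
    apply hl
    have : l₁ ∈ stabK Y := h
    rwa [h1] at this
  · obtain ⟨y₀, hy₀, hy₀0⟩ := Submodule.exists_mem_ne_zero_of_ne_bot hY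
    have htop : Y = ⊤ := by
      rw [eq_top_iff]
      intro x _
      have h2 : x / y₀ ∈ stabK Y := by
        rw [h1]
        exact Subfield.mem_top _
      have h3 := h2 y₀ hy₀
      rwa [div_mul_cancel₀ _ hy₀0] at h3
    rw [htop, finrank_top, hrk]

/-- The span of the Plücker coordinates of a plane with no rational point. -/
theorem plucker_dim {r : ℕ} (hr : r.Prime) (hc : Fintype.card F = Nat.card F₀ ^ r) (hrk : finrank F₀ F = r) (hr3 : 3 ≤ r)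
    {s₁ s₂ s₃ s₄ : F}
    (H : ∀ x₂ x₃ : F₀, (x₂ : F) * s₁ + x₃ * s₃ ∈ F₀ → (x₂ : F) * s₂ + x₃ * s₄ ∈ F₀ → x₂ = 0 ∧ x₃ = 0) :
    3 ≤ finrank F₀ (Submodule.span F₀ ({1, s₁, s₂, s₃, s₄, s₁ * s₄ - s₂ * s₃} : Set F)) := by
  classical
  set T : Set F := {1, s₁, s₂, s₃, s₄, s₁ * s₄ - s₂ * s₃} with hT
  set Sp := Submodule.span F₀ T with hSp
  by_contra hlt
  have hle : finrank F₀ Sp ≤ 2 := by omega
  have hm : ∀ x ∈ T, x ∈ Sp := fun x hx => Submodule.subset_span hx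
  have h1m : (1 : F) ∈ Sp := hm _ (by simp [hT])
  have hs₁m : s₁ ∈ Sp := hm _ (by simp [hT])
  have hs₂m : s₂ ∈ Sp := hm _ (by simp [hT])
  have hs₃m : s₃ ∈ Sp := hm _ (by simp [hT])
  have hs₄m : s₄ ∈ Sp := hm _ (by simp [hT])
  have hs₅m : s₁ * s₄ - s₂ * s₃ ∈ Sp := hm _ (by simp [hT])
  -- an element outside of the subfield
  obtain ⟨ω, hωm, hω⟩ : ∃ ω ∈ Sp, ω ∉ F₀ := by
    by_contra hcon
    push Not at hcon
    have h1 := H 1 0 (by simpa using hcon _ hs₁m) (by simpa using hcon _ hs₂m)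
    exact one_ne_zero h1.1
  set Y := Submodule.span F₀ ({1, ω} : Set F) with hY
  have hYle : Y ≤ Sp := by
    rw [hY, Submodule.span_le]
    rintro x (rfl | rfl)
    · exact h1m
    · exact hωm
  have hYdim : finrank F₀ Y = 2 := by
    have hli : LinearIndependent F₀ ![(1 : F), ω] := by
      rw [LinearIndependent.pair_iff]
      intro a b hab
      have hb : b = 0 := by
        by_contra hb
        apply hω
        have e : ω = -(a : F) / b := by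
          have h2 : (a : F) + b * ω = 0 := by simpa [Subfield.smul_def] using hab
          have hb' : (b : F) ≠ 0 := by simpa using hb
          field_simp
          linear_combination h2
        rw [e]
        exact F₀.div_mem (F₀.neg_mem a.2) b.2
      subst hb
      refine ⟨?_, rfl⟩
      simpa [Subfield.smul_def] using hab
    have h2 := finrank_span_eq_card hli
    have h3 : Set.range ![(1 : F), ω] = {1, ω} := by simp [Set.pair_comm]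
    rw [h3] at h2
    simpa using h2
  have hYeq : Y = Sp := Submodule.eq_of_le_of_finrank_le hYle (by omega)
  have hco : ∀ x ∈ Sp, ∃ p q : F₀, x = p + q * ω := by
    intro x hx
    rw [← hYeq, hY] at hx
    obtain ⟨p, q, rfl⟩ := Submodule.mem_span_pair.1 hx
    refine ⟨p, q, ?_⟩
    simp [Subfield.smul_def]
  obtain ⟨p₁, q₁, e₁⟩ := hco _ hs₁m
  obtain ⟨p₂, q₂, e₂⟩ := hco _ hs₂m
  obtain ⟨p₃, q₃, e₃⟩ := hco _ hs₃m
  obtain ⟨p₄, q₄, e₄⟩ := hco _ hs₄m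
  obtain ⟨p₅, q₅, e₅⟩ := hco _ hs₅m
  -- the matrix of coordinates is invertible
  have hdet : (q₁ * q₄ - q₂ * q₃ : F₀) ≠ 0 := by
    intro h0
    by_cases h1 : q₁ = 0 ∧ q₃ = 0
    · -- the first row vanishes
      by_cases h2 : q₂ = 0 ∧ q₄ = 0
      · have h3 := H 1 0 (by simp [e₁, h1.1, p₁.2]) (by simp [e₂, h2.1, p₂.2])
        exact one_ne_zero h3.1
      · have h3 := H q₄ (-q₂) (by
          rw [e₁, e₃, h1.1, h1.2]
          simp only [ZeroMemClass.coe_zero, zero_mul, add_zero]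
          exact F₀.add_mem (F₀.mul_mem q₄.2 p₁.2) (F₀.mul_mem (F₀.neg_mem q₂.2) p₃.2)) (by
          rw [e₂, e₄]
          have e : ((q₄ : F₀) : F) * (p₂ + q₂ * ω) + ((-q₂ : F₀) : F) * (p₄ + q₄ * ω) = q₄ * p₂ - q₂ * p₄ := by
            push_cast
            ring
          rw [e]
          exact F₀.sub_mem (F₀.mul_mem q₄.2 p₂.2) (F₀.mul_mem q₂.2 p₄.2))
        apply h2
        exact ⟨neg_eq_zero.1 h3.2, h3.1⟩
    · have h3 := H q₃ (-q₁) (by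
        rw [e₁, e₃]
        have e : ((q₃ : F₀) : F) * (p₁ + q₁ * ω) + ((-q₁ : F₀) : F) * (p₃ + q₃ * ω) = q₃ * p₁ - q₁ * p₃ := by
          push_cast
          ring
        rw [e]
        exact F₀.sub_mem (F₀.mul_mem q₃.2 p₁.2) (F₀.mul_mem q₁.2 p₃.2)) (by
        rw [e₂, e₄]
        have h5 : (q₁ : F) * q₄ = q₂ * q₃ := by
          have h6 := congrArg (fun c : F₀ => (c : F)) h0
          simp only [Subfield.coe_sub, Subfield.coe_mul, ZeroMemClass.coe_zero] at h6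
          linear_combination h6
        have e : ((q₃ : F₀) : F) * (p₂ + q₂ * ω) + ((-q₁ : F₀) : F) * (p₄ + q₄ * ω) = q₃ * p₂ - q₁ * p₄ := by
          push_cast
          linear_combination (-ω) * h5
        rw [e]
        exact F₀.sub_mem (F₀.mul_mem q₃.2 p₂.2) (F₀.mul_mem q₁.2 p₄.2))
      apply h1
      exact ⟨neg_eq_zero.1 h3.2, h3.1⟩
  -- a quadratic relation
  have hdet' : (q₁ : F) * q₄ - q₂ * q₃ ≠ 0 := by
    intro h0
    apply hdet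
    apply Subtype.ext
    simpa using h0
  have hω2 : ω * ω ∈ Y := by
    have h2 : (s₁ * s₄ - s₂ * s₃) = p₅ + q₅ * ω := e₅
    rw [e₁, e₂, e₃, e₄] at h2
    set D : F := (q₁ : F) * q₄ - q₂ * q₃ with hD
    have e : ω * ω = (D⁻¹ * (p₅ - (p₁ * p₄ - p₂ * p₃))) +
        (D⁻¹ * (q₅ - (p₁ * q₄ + q₁ * p₄ - p₂ * q₃ - q₂ * p₃))) * ω := by
      field_simp
      rw [hD]
      linear_combination h2
    have hDin : D ∈ F₀ := F₀.sub_mem (F₀.mul_mem q₁.2 q₄.2) (F₀.mul_mem q₂.2 q₃.2)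
    have hinv : D⁻¹ ∈ F₀ := F₀.inv_mem hDin
    have ha : D⁻¹ * (p₅ - (p₁ * p₄ - p₂ * p₃)) ∈ F₀ := F₀.mul_mem hinv (F₀.sub_mem p₅.2
      (F₀.sub_mem (F₀.mul_mem p₁.2 p₄.2) (F₀.mul_mem p₂.2 p₃.2)))
    have hb : D⁻¹ * (q₅ - (p₁ * q₄ + q₁ * p₄ - p₂ * q₃ - q₂ * p₃)) ∈ F₀ := F₀.mul_mem hinv (F₀.sub_mem q₅.2
      (F₀.sub_mem (F₀.sub_mem (F₀.add_mem (F₀.mul_mem p₁.2 q₄.2) (F₀.mul_mem q₁.2 p₄.2))
        (F₀.mul_mem p₂.2 q₃.2)) (F₀.mul_mem q₂.2 p₃.2)))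
    have h1Y : (1 : F) ∈ Y := Submodule.subset_span (by simp)
    have hωY : ω ∈ Y := Submodule.subset_span (by simp)
    have h3 : D⁻¹ * (p₅ - (p₁ * p₄ - p₂ * p₃)) ∈ Y := by
      have h4 := Y.smul_mem (⟨_, ha⟩ : F₀) h1Y
      simpa [Subfield.smul_def] using h4
    have h4 : (D⁻¹ * (q₅ - (p₁ * q₄ + q₁ * p₄ - p₂ * q₃ - q₂ * p₃))) * ω ∈ Y := Y.smul_mem (⟨_, hb⟩ : F₀) hωY
    rw [e]
    exact Y.add_mem h3 h4
  have hωY : ω ∈ Y := Submodule.subset_span (by simp)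
  have h1Y : (1 : F) ∈ Y := Submodule.subset_span (by simp)
  have hne : Y ≠ ⊥ := by
    intro h0
    rw [h0, Submodule.mem_bot] at h1Y
    exact one_ne_zero h1Y
  have hst := stab_field hr hc hrk hne hω (by
    intro y hy
    obtain ⟨p, q, rfl⟩ := Submodule.mem_span_pair.1 hy
    have e : ω * (p • (1 : F) + q • ω) = p • ω + q • (ω * ω) := by
      simp only [Subfield.smul_def, smul_eq_mul]
      ring
    rw [e]
    exact Y.add_mem (Y.smul_mem p hωY) (Y.smul_mem q hω2))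
  omega

end Field

end Cfsg.Agent.Lib.Classical.Sub.OAct
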