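/-
Overgroups of the rational points in an orthogonal group, the generic case: an Eichler element `E(a, b)` whose plane is
orthogonal to no rational singular vector acts on a section, and the elements of `M` acting there as lower
unitriangular matrices are controlled by rational data.
-/
import Mathlib
import Cfsg.Agent.Lib.Classical.Sub.OLow
import Cfsg.Agent.Lib.Classical.Sub.OAct

set_option autoImplicit false
set_option linter.unusedSectionVars false

namespace Cfsg.Agent.Lib.Classical.Sub.OHigh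

open scoped Matrix MatrixGroups
open Module Cfsg Cfsg.Geo QuadraticMap
open Cfsg.Agent.Lib.Classical.Orth.Basic
open Cfsg.Agent.Lib.Classical.Orth.Siegel
open Cfsg.Agent.Lib.Classical.Orth.Simple
open Cfsg.Agent.Lib.Classical.Geo.OPts
open Cfsg.Agent.Lib.Classical.Geo.OPair
open Cfsg.Agent.Lib.Classical.Sub.Rat
open Cfsg.Agent.Lib.Classical.Sub.OBase
open Cfsg.Agent.Lib.Classical.Sub.OElts
open Cfsg.Agent.Lib.Classical.Sub.OLow
open Cfsg.Agent.Lib.Classical.Sub.OAct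
open Cfsg.Agent.Lib.Classical.Sub.Act
open Cfsg.Agent.Lib.PSL2.Basic

variable {ι : Type} [Fintype ι] [DecidableEq ι] {F : Type*} [Field F] [Fintype F]
  {Q : QuadraticForm F (ι → F)} {F₀ : Subfield F}

set_option quotPrecheck false in
local notation "𝔣" => polar (⇑Q)

variable {M : Subgroup (GL ι F)}

theorem x_mulVec_zero (p : Fin 2 → F) : (((x (1 : F) : SL(2, F)) : Matrix (Fin 2) (Fin 2) F) *ᵥ p) 0 = p 0 + p 1 := by
  simp [x, Matrix.mulVec, dotProduct, Fin.sum_univ_two]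

theorem x_mulVec_one (p : Fin 2 → F) : (((x (1 : F) : SL(2, F)) : Matrix (Fin 2) (Fin 2) F) *ᵥ p) 1 = p 1 := by
  simp [x, Matrix.mulVec, dotProduct, Fin.sum_univ_two]

theorem y_mulVec_zero' (μ : F) (p : Fin 2 → F) : (((y μ : SL(2, F)) : Matrix (Fin 2) (Fin 2) F) *ᵥ p) 0 = p 0 := by
  simp [y, Matrix.mulVec, dotProduct, Fin.sum_univ_two]

theorem y_mulVec_one' (μ : F) (p : Fin 2 → F) : (((y μ : SL(2, F)) : Matrix (Fin 2) (Fin 2) F) *ᵥ p) 1 = μ * p 0 + p 1 := by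
  simp [y, Matrix.mulVec, dotProduct, Fin.sum_univ_two]

theorem y_mulVec_zero (μ : F) : ((y μ : SL(2, F)) : Matrix (Fin 2) (Fin 2) F) *ᵥ ![1, 0] = ![1, μ] := by
  funext i
  fin_cases i <;> simp [y, Matrix.mulVec, dotProduct, Fin.sum_univ_two]

theorem y_mulVec_one (μ : F) : ((y μ : SL(2, F)) : Matrix (Fin 2) (Fin 2) F) *ᵥ ![0, 1] = ![0, 1] := by
  funext i
  fin_cases i <;> simp [y, Matrix.mulVec, dotProduct, Fin.sum_univ_two]

section Act

/-- The section. -/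
noncomputable def RR (Q : QuadraticForm F (ι → F)) (W : Submodule F (ι → F)) (a b : ι → F) : Submodule F (ι → F) :=
  W ⊓ LinearMap.ker (fL Q a) ⊓ LinearMap.ker (fL Q b)

theorem mem_RR {W : Submodule F (ι → F)} {a b u : ι → F} : u ∈ RR Q W a b ↔ u ∈ W ∧ 𝔣 u a = 0 ∧ 𝔣 u b = 0 := by
  simp [RR, and_assoc]

variable {a b v₁ v₂ : ι → F} {W : Submodule F (ι → F)}

/-- The action of `E(a, b)`. -/
theorem act2_x (haa : Q a = 0) (hbb : Q b = 0) (hab : 𝔣 a b = 0) (h11 : 𝔣 v₁ a = 1) (h12 : 𝔣 v₁ b = 0) (h21 : 𝔣 v₂ a = 0)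
    (h22 : 𝔣 v₂ b = 1) : Act2 (RR Q W a b) b v₁ (-a) v₂ (eG haa hab) (x (1 : F)) := by
  have hab' := pc hab
  have h11' := (polar_comm (⇑Q) v₁ a).symm.trans h11
  have h12' := (polar_comm (⇑Q) v₁ b).symm.trans h12
  have h21' := (polar_comm (⇑Q) v₂ a).symm.trans h21
  have h22' := (polar_comm (⇑Q) v₂ b).symm.trans h22
  have ha' := polar_zero_of_singular haa
  have hb' := polar_zero_of_singular hbb
  refine ⟨fun r hr => ?_, fun p => ?_, fun p => ?_, fun y => ⟨![𝔣 a y, 0], ![𝔣 b y, 0], ?_⟩⟩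
  · obtain ⟨-, h1, h2⟩ := mem_RR.1 hr
    rw [eG_mulVec, hbb, polar_comm (⇑Q) a r, polar_comm (⇑Q) b r, h1, h2]
    simp
  · rw [eG_mulVec]
    simp only [L, x_mulVec_zero, x_mulVec_one, polar_add_right, polar_smul_right', hab, h11', hb', h12', hbb]
    have : p 0 • b + p 1 • v₁ + (p 0 * 0 + p 1 * 1) • b - (p 0 * 0 + p 1 * 0) • a - (0 * (p 0 * 0 + p 1 * 1)) • a -
        ((p 0 + p 1) • b + p 1 • v₁) = 0 := by
      module
    rw [this]
    exact Submodule.zero_mem _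
  · rw [eG_mulVec]
    simp only [L, x_mulVec_zero, x_mulVec_one, polar_add_right, polar_smul_right', polar_neg_right, ha', h21', hab', h22', hbb]
    have : p 0 • -a + p 1 • v₂ + (p 0 * -0 + p 1 * 0) • b - (p 0 * -0 + p 1 * 1) • a - (0 * (p 0 * -0 + p 1 * 0)) • a -
        ((p 0 + p 1) • -a + p 1 • v₂) = 0 := by
      module
    rw [this]
    exact Submodule.zero_mem _
  · rw [eG_mulVec, hbb]
    have : y + 𝔣 a y • b - 𝔣 b y • a - (0 * 𝔣 a y) • a - y - L b v₁ ![𝔣 a y, 0] - L (-a) v₂ ![𝔣 b y, 0] = 0 := by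
      simp only [L, Matrix.cons_val_zero, Matrix.cons_val_one]
      module
    rw [this]
    exact Submodule.zero_mem _

/-- The action of `E(c, d)`, with `c, d` in the subspace. -/
theorem act2_y (hWt : ∀ u ∈ W, ∀ u' ∈ W, 𝔣 u u' = 0) (hv₁ : v₁ ∈ W) (hv₂ : v₂ ∈ W) (h11 : 𝔣 v₁ a = 1) (h12 : 𝔣 v₁ b = 0)
    (h21 : 𝔣 v₂ a = 0) (h22 : 𝔣 v₂ b = 1) {c d : ι → F} (hc : c ∈ W) (hd : d ∈ W) (hcc : Q c = 0) (hdd : Q d = 0)
    (h : 𝔣 c d = 0) : Act2 (RR Q W a b) b v₁ (-a) v₂ (eG hcc h) (y (𝔣 d a * 𝔣 c b - 𝔣 c a * 𝔣 d b)) := by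
  set μ := 𝔣 d a * 𝔣 c b - 𝔣 c a * 𝔣 d b with hμ
  have hcv₁ := hWt _ hc _ hv₁
  have hcv₂ := hWt _ hc _ hv₂
  have hdv₁ := hWt _ hd _ hv₁
  have hdv₂ := hWt _ hd _ hv₂
  have hmemR : ∀ u, u ∈ W → 𝔣 u a = 0 → 𝔣 u b = 0 → u ∈ RR Q W a b := fun u h1 h2 h3 => mem_RR.2 ⟨h1, h2, h3⟩
  refine ⟨fun r hr => ?_, fun p => ?_, fun p => ?_, fun z => ?_⟩
  · obtain ⟨h1, -, -⟩ := mem_RR.1 hr
    rw [eG_mulVec, hWt _ hc _ h1, hWt _ hd _ h1]
    simp
  · have e : ((eG hcc h : GL ι F) : Matrix ι ι F) *ᵥ L b v₁ p - L b v₁ (((y μ : SL(2, F)) : Matrix (Fin 2) (Fin 2) F) *ᵥ p) =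
        p 0 • (𝔣 c b • d - 𝔣 d b • c - μ • v₁) := by
      rw [eG_mulVec]
      simp only [L, y_mulVec_zero', y_mulVec_one', polar_add_right, polar_smul_right', hcv₁, hdv₁, hdd]
      module
    rw [e]
    refine Submodule.smul_mem _ _ (hmemR _ ?_ ?_ ?_)
    · exact W.sub_mem (W.sub_mem (W.smul_mem _ hd) (W.smul_mem _ hc)) (W.smul_mem _ hv₁)
    · rw [polar_sub_left, polar_sub_left, polar_smul_left', polar_smul_left', polar_smul_left', h11, hμ]
      ring
    · rw [polar_sub_left, polar_sub_left, polar_smul_left', polar_smul_left', polar_smul_left', h12]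
      ring
  · have e : ((eG hcc h : GL ι F) : Matrix ι ι F) *ᵥ L (-a) v₂ p - L (-a) v₂ (((y μ : SL(2, F)) : Matrix (Fin 2) (Fin 2) F) *ᵥ p) =
        p 0 • (𝔣 d a • c - 𝔣 c a • d - μ • v₂) := by
      rw [eG_mulVec]
      simp only [L, y_mulVec_zero', y_mulVec_one', polar_add_right, polar_smul_right', polar_neg_right, hcv₂, hdv₂, hdd]
      module
    rw [e]
    refine Submodule.smul_mem _ _ (hmemR _ ?_ ?_ ?_)
    · exact W.sub_mem (W.sub_mem (W.smul_mem _ hc) (W.smul_mem _ hd)) (W.smul_mem _ hv₂)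
    · rw [polar_sub_left, polar_sub_left, polar_smul_left', polar_smul_left', polar_smul_left', h21]
      ring
    · rw [polar_sub_left, polar_sub_left, polar_smul_left', polar_smul_left', polar_smul_left', h22, hμ]
      ring
  · set u := 𝔣 c z • d - 𝔣 d z • c with hu
    have huW : u ∈ W := W.sub_mem (W.smul_mem _ hd) (W.smul_mem _ hc)
    refine ⟨![0, 𝔣 u a], ![0, 𝔣 u b], ?_⟩
    have e : ((eG hcc h : GL ι F) : Matrix ι ι F) *ᵥ z - z - L b v₁ ![0, 𝔣 u a] - L (-a) v₂ ![0, 𝔣 u b] =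
        u - 𝔣 u a • v₁ - 𝔣 u b • v₂ := by
      rw [eG_mulVec, hdd, hu]
      simp only [L, Matrix.cons_val_zero, Matrix.cons_val_one]
      module
    rw [e]
    refine hmemR _ (W.sub_mem (W.sub_mem huW (W.smul_mem _ hv₁)) (W.smul_mem _ hv₂)) ?_ ?_
    · rw [polar_sub_left, polar_sub_left, polar_smul_left', polar_smul_left', h11, h21]
      ring
    · rw [polar_sub_left, polar_sub_left, polar_smul_left', polar_smul_left', h12, h22]
      ring

end Act

section Conj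

variable (hQ : (polarBilin Q).Nondegenerate) (hR : RatQ Q F₀) (hM : HasRatO Q M F₀)

include hQ hR hM

/-- **Conjugates of rational singular vectors lie on rational lines, given enough orthogonality.** -/
theorem conj_line (hn : 11 ≤ Fintype.card ι) (hAs : ∀ κ ∈ AsO Q M F₀, κ ∈ F₀) (t : ↥(Cfsg.isometryGroup F (⇑Q)))
    (ht : (t : GL ι F) ∈ M) {c d d' z z' : ι → F₀} (hcc : Q (lV c) = 0) (hdd : Q (lV d) = 0) (hdd' : Q (lV d') = 0)
    (hcd : 𝔣 (lV c) (lV d) = 0) (hcd' : 𝔣 (lV c) (lV d') = 0)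
    (hind : ∀ α β γ : F, α • lV c + β • lV d + γ • lV d' = 0 → α = 0 ∧ β = 0 ∧ γ = 0)
    (hzz : Q (lV z) = 0) (hz0 : z ≠ 0) (hz1 : 𝔣 (lV z) (act t (lV c)) = 0) (hz2 : 𝔣 (lV z) (act t (lV d)) = 0)
    (hz'z' : Q (lV z') = 0) (hz'0 : z' ≠ 0) (hz'1 : 𝔣 (lV z') (act t (lV c)) = 0) (hz'2 : 𝔣 (lV z') (act t (lV d')) = 0) :
    ∃ (κ : F) (y₀ : ι → F₀), κ ≠ 0 ∧ act t (lV c) = κ • lV y₀ := by
  have hindt : ∀ α β γ : F, α • act t (lV c) + β • act t (lV d) + γ • act t (lV d') = 0 → α = 0 ∧ β = 0 ∧ γ = 0 := by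
    intro α β γ h
    apply hind
    rw [← act_smul, ← act_smul, ← act_smul, ← act_add, ← act_add] at h
    have h1 := act_inv_act t (α • lV c + β • lV d + γ • lV d')
    rw [h, act_zero] at h1
    exact h1.symm
  have hc0 : act t (lV c) ≠ 0 := by
    intro h
    have h1 := hindt 1 0 0 (by simp [h])
    exact one_ne_zero h1.1
  have hnot1 : act t (lV d) ∉ Submodule.span F {act t (lV c)} := by
    intro h
    obtain ⟨e, he⟩ := Submodule.mem_span_singleton.1 h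
    have h1 := hindt e (-1) 0 (by rw [he]; simp)
    exact one_ne_zero (neg_eq_zero.1 h1.2.1)
  have hnot2 : act t (lV d') ∉ Submodule.span F {act t (lV c)} := by
    intro h
    obtain ⟨e, he⟩ := Submodule.mem_span_singleton.1 h
    have h1 := hindt e 0 (-1) (by rw [he]; simp)
    exact one_ne_zero (neg_eq_zero.1 h1.2.2)
  obtain ⟨u₁, u₂, h1, h2⟩ := low_rat_E hQ hR hM hn hAs (a := act t (lV c)) (b := act t (lV d)) (by rw [Q_act]; exact hdd) hc0 hnot1
    ((hM c d hcc hcd).conj t ht) hzz hz0 hz1 hz2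
  obtain ⟨v₁, v₂, h3, h4⟩ := low_rat_E hQ hR hM hn hAs (a := act t (lV c)) (b := act t (lV d')) (by rw [Q_act]; exact hdd') hc0 hnot2
    ((hM c d' hcc hcd').conj t ht) hz'z' hz'0 hz'1 hz'2
  refine rat_line ?_ h1 h2 h3 h4
  rw [Fintype.linearIndependent_iff]
  intro g hg i
  rw [Fin.sum_univ_three] at hg
  obtain ⟨h5, h6, h7⟩ := hindt _ _ _ hg
  fin_cases i
  · exact h5
  · exact h6
  · exact h7

end Conj

/-- A rational window. -/
structure Win (Q : QuadraticForm F (ι → F)) (w f' : Fin 4 → ι → F₀) : Prop where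
  qw : ∀ i, Q (lV (w i)) = 0
  qf : ∀ i, Q (lV (f' i)) = 0
  ww : ∀ i j, polar (⇑Q) (lV (w i)) (lV (w j)) = 0
  ff : ∀ i j, polar (⇑Q) (lV (f' i)) (lV (f' j)) = 0
  wf : ∀ i j, polar (⇑Q) (lV (w i)) (lV (f' j)) = if i = j then 1 else 0

/-- The subspace spanned by the window. -/
noncomputable def WW (w : Fin 4 → ι → F₀) : Submodule F (ι → F) := Submodule.span F (Set.range fun i => lV (w i))

section Win

variable {w f' : Fin 4 → ι → F₀}

theorem sum_left {k : Type*} [Fintype k] (a : k → F) (x : k → ι → F) (z : ι → F) :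
    𝔣 (∑ i, a i • x i) z = ∑ i, a i * 𝔣 (x i) z := by
  have h := map_sum (fL Q z) (fun i => a i • x i) Finset.univ
  rw [fL_apply] at h
  rw [h]
  apply Finset.sum_congr rfl
  intro i _
  rw [fL_apply, polar_smul_left']

theorem sum_right {k : Type*} [Fintype k] (a : k → F) (x : k → ι → F) (z : ι → F) :
    𝔣 z (∑ i, a i • x i) = ∑ i, a i * 𝔣 z (x i) := by
  rw [polar_comm, sum_left]
  apply Finset.sum_congr rfl
  intro i _
  rw [polar_comm]

theorem fw (hW : Win Q w f') (i j : Fin 4) : 𝔣 (lV (f' i)) (lV (w j)) = if i = j then 1 else 0 := by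
  rw [polar_comm, hW.wf]
  by_cases h : i = j
  · subst h
    simp
  · have : ¬ j = i := fun h' => h h'.symm
    simp [h, this]

theorem w_mem (i : Fin 4) : lV (w i) ∈ WW w := Submodule.subset_span ⟨i, rfl⟩

theorem f_WW (hW : Win Q w f') {u u' : ι → F} (hu : u ∈ WW w) (hu' : u' ∈ WW w) : 𝔣 u u' = 0 := by
  obtain ⟨a, rfl⟩ := (Submodule.mem_span_range_iff_exists_fun F).1 hu
  obtain ⟨b, rfl⟩ := (Submodule.mem_span_range_iff_exists_fun F).1 hu'
  rw [sum_left]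
  apply Finset.sum_eq_zero
  intro i _
  rw [sum_right, Finset.sum_eq_zero, mul_zero]
  intro j _
  rw [hW.ww, mul_zero]

theorem Q_WW (hW : Win Q w f') {u : ι → F} (hu : u ∈ WW w) : Q u = 0 := by
  induction hu using Submodule.span_induction with
  | mem x hx =>
    obtain ⟨i, rfl⟩ := hx
    exact hW.qw i
  | zero => simp
  | add x y hx hy h1 h2 =>
    rw [Q_add, h1, h2, f_WW hW hx hy]
    ring
  | smul c x _ h1 =>
    rw [Q_smul, h1, mul_zero]

theorem WW_sum (hW : Win Q w f') {u : ι → F} (hu : u ∈ WW w) : u = ∑ i, 𝔣 u (lV (f' i)) • lV (w i) := by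
  obtain ⟨a, rfl⟩ := (Submodule.mem_span_range_iff_exists_fun F).1 hu
  apply Finset.sum_congr rfl
  intro i _
  congr 1
  rw [sum_left]
  simp [hW.wf]

theorem eq_zero_of_WW (hW : Win Q w f') {u : ι → F} (hu : u ∈ WW w) (h : ∀ i, 𝔣 u (lV (f' i)) = 0) : u = 0 := by
  rw [WW_sum hW hu]
  simp [h]

theorem w_ne (hW : Win Q w f') (i : Fin 4) : w i ≠ 0 := by
  intro h0
  have h1 := hW.wf i i
  rw [h0, lV_zero] at h1
  simp [polar] at h1

theorem f'_ne (hW : Win Q w f') (i : Fin 4) : f' i ≠ 0 := by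
  intro h0
  have h1 := hW.wf i i
  rw [h0, lV_zero] at h1
  simp [polar] at h1

theorem exists_two_ne : ∀ i : Fin 4, ∃ j l : Fin 4, j ≠ i ∧ l ≠ i ∧ j ≠ l := by decide

theorem exists_two_ne2 : ∀ i j : Fin 4, i ≠ j → ∃ k l : Fin 4, k ≠ i ∧ k ≠ j ∧ l ≠ i ∧ l ≠ j ∧ k ≠ l := by decide

theorem win_ind3 (hW : Win Q w f') {i j l : Fin 4} (hij : i ≠ j) (hil : i ≠ l) (hjl : j ≠ l) (α β γ : F)
    (h : α • lV (w i) + β • lV (w j) + γ • lV (w l) = 0) : α = 0 ∧ β = 0 ∧ γ = 0 := by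
  have h1 := congrArg (fun z => 𝔣 z (lV (f' i))) h
  have h2 := congrArg (fun z => 𝔣 z (lV (f' j))) h
  have h3 := congrArg (fun z => 𝔣 z (lV (f' l))) h
  simp only [polar_add_left, polar_smul_left', hW.wf, if_pos, hij, hil, hjl, hij.symm, hil.symm, hjl.symm, if_false,
    mul_zero, mul_one, add_zero, zero_add, polar_zero_left] at h1 h2 h3
  exact ⟨h1, h2, h3⟩

theorem win_ind3' (hW : Win Q w f') {i j k l : Fin 4} (hij : i ≠ j) (hik : k ≠ i) (hjk : k ≠ j) (hil : l ≠ i) (hjl : l ≠ j)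
    (hkl : k ≠ l) (α β γ : F) (h : α • lV (w i + w j) + β • lV (w k) + γ • lV (w l) = 0) : α = 0 ∧ β = 0 ∧ γ = 0 := by
  have h1 := congrArg (fun z => 𝔣 z (lV (f' i))) h
  have h2 := congrArg (fun z => 𝔣 z (lV (f' k))) h
  have h3 := congrArg (fun z => 𝔣 z (lV (f' l))) h
  simp only [lV_add, polar_add_left, polar_smul_left', hW.wf, if_pos, hij, hik, hjk, hil, hjl, hkl, hij.symm, hik.symm, hjk.symm,
    hil.symm, hjl.symm, hkl.symm, if_false, mul_zero, mul_one, add_zero, zero_add, polar_zero_left] at h1 h2 h3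
  exact ⟨h1, h2, h3⟩

end Win

section Rigid

variable {w f' : Fin 4 → ι → F₀} (hQ : (polarBilin Q).Nondegenerate) (hR : RatQ Q F₀) (hM : HasRatO Q M F₀)

include hQ hR hM

/-- **Rigidity**: the elements acting as `y μ` are controlled by rational data. -/
theorem high_rigid (hn : 11 ≤ Fintype.card ι) (hAs : ∀ κ ∈ AsO Q M F₀, κ ∈ F₀) (hW : Win Q w f') {a b v₁ v₂ : ι → F}
    (hgen : ∀ z : ι → F₀, z ≠ 0 → Q (lV z) = 0 → 𝔣 (lV z) a = 0 → 𝔣 (lV z) b = 0 → False)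
    {r : ℕ} (hr : r.Prime) (hc : Fintype.card F = Nat.card F₀ ^ r) (hrk : finrank F₀ F = r) (hr4 : 4 ≤ r)
    (hv₁ : v₁ ∈ WW w) (hv₂ : v₂ ∈ WW w) (h11 : 𝔣 v₁ a = 1) (h12 : 𝔣 v₁ b = 0) (h21 : 𝔣 v₂ a = 0) (h22 : 𝔣 v₂ b = 1)
    (hδ : 𝔣 (lV (w 0)) a * 𝔣 (lV (w 1)) b - 𝔣 (lV (w 1)) a * 𝔣 (lV (w 0)) b ≠ 0)
    {t : ↥(Cfsg.isometryGroup F (⇑Q))} (ht : (t : GL ι F) ∈ M) {μ : F}
    (hact : Act2 (RR Q (WW w) a b) b v₁ (-a) v₂ (t : GL ι F) (y μ)) :
    ∃ θ : Fin 4 → Fin 4 → F₀, (∀ i j, θ i j + θ j i = 0) ∧ (∀ i, θ i i = 0) ∧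
      μ = ∑ i, ∑ j, (θ i j : F) * (𝔣 (lV (w i)) b * 𝔣 (lV (w j)) a) := by
  classical
  set W := WW w with hWdef
  set R := RR Q W a b with hRdef
  have hWt : ∀ u ∈ W, ∀ u' ∈ W, 𝔣 u u' = 0 := fun u hu u' hu' => f_WW hW hu hu'
  have hQW : ∀ u ∈ W, Q u = 0 := fun u hu => Q_WW hW hu
  have hiso : ∀ x y, 𝔣 (act t x) (act t y) = 𝔣 x y := polar_act t
  have hfixR : ∀ r ∈ R, act t r = r := hact.1
  have hv1R : act t v₁ - v₁ ∈ R := by
    have h1 := hact.2.1 ![0, 1]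
    rw [y_mulVec_one] at h1
    have e1 : L b v₁ ![0, 1] = v₁ := by simp [L]
    rwa [e1] at h1
  have hv2R : act t v₂ - v₂ ∈ R := by
    have h1 := hact.2.2.1 ![0, 1]
    rw [y_mulVec_one] at h1
    have e1 : L (-a) v₂ ![0, 1] = v₂ := by simp [L]
    rwa [e1] at h1
  have hRW : ∀ r ∈ R, r ∈ W := fun r hr => (mem_RR.1 hr).1
  have htu : ∀ u ∈ W, act t u - u ∈ R := by
    intro u hu
    set α := 𝔣 u a with hα
    set β := 𝔣 u b with hβ
    have hr₁R : u - α • v₁ - β • v₂ ∈ R := by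
      refine mem_RR.2 ⟨W.sub_mem (W.sub_mem hu (W.smul_mem _ hv₁)) (W.smul_mem _ hv₂), ?_, ?_⟩
      · rw [polar_sub_left, polar_sub_left, polar_smul_left', polar_smul_left', h11, h21, ← hα]
        ring
      · rw [polar_sub_left, polar_sub_left, polar_smul_left', polar_smul_left', h12, h22, ← hβ]
        ring
    have h1 := hfixR _ hr₁R
    rw [act_sub, act_sub, act_smul, act_smul] at h1
    have e : act t u - u = α • (act t v₁ - v₁) + β • (act t v₂ - v₂) := by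
      have e2 : act t u = u - α • v₁ - β • v₂ + α • act t v₁ + β • act t v₂ := by
        rw [← h1]
        abel
      rw [e2, smul_sub, smul_sub]
      abel
    rw [e]
    exact R.add_mem (R.smul_mem _ hv1R) (R.smul_mem _ hv2R)
  have htW : ∀ u ∈ W, act t u ∈ W := by
    intro u hu
    have h1 := W.add_mem (hRW _ (htu u hu)) hu
    rwa [sub_add_cancel] at h1
  have hw0 := w_ne hW
  -- rational lines
  have hline : ∀ i, ∃ (κ : F) (y₀ : ι → F₀), κ ≠ 0 ∧ act t (lV (w i)) = κ • lV y₀ := by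
    intro i
    obtain ⟨j, l, h1, h2, h3⟩ := exists_two_ne i
    exact conj_line hQ hR hM hn hAs t ht (c := w i) (d := w j) (d' := w l) (z := w i) (z' := w i) (hW.qw i) (hW.qw j) (hW.qw l)
      (hW.ww i j) (hW.ww i l) (win_ind3 hW h1.symm h2.symm h3) (hW.qw i) (hw0 i) (hWt _ (w_mem i) _ (htW _ (w_mem i)))
      (hWt _ (w_mem i) _ (htW _ (w_mem j))) (hW.qw i) (hw0 i) (hWt _ (w_mem i) _ (htW _ (w_mem i)))
      (hWt _ (w_mem i) _ (htW _ (w_mem l)))
  have hline2 : ∀ i j, i ≠ j → ∃ (κ : F) (y₀ : ι → F₀), κ ≠ 0 ∧ act t (lV (w i + w j)) = κ • lV y₀ := by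
    intro i j hij
    obtain ⟨k, l, h1, h2, h3, h4, h5⟩ := exists_two_ne2 i j hij
    have hmem : lV (w i + w j) ∈ W := W.add_mem (w_mem i) (w_mem j)
    exact conj_line hQ hR hM hn hAs t ht (c := w i + w j) (d := w k) (d' := w l) (z := w i) (z' := w i) (hQW _ hmem) (hW.qw k) (hW.qw l)
      (hWt _ hmem _ (w_mem k)) (hWt _ hmem _ (w_mem l)) (win_ind3' hW hij h1 h2 h3 h4 h5) (hW.qw i) (hw0 i)
      (hWt _ (w_mem i) _ (htW _ hmem)) (hWt _ (w_mem i) _ (htW _ (w_mem k))) (hW.qw i) (hw0 i)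
      (hWt _ (w_mem i) _ (htW _ hmem)) (hWt _ (w_mem i) _ (htW _ (w_mem l)))
  -- independence of the images
  have hne : ∀ {i j : Fin 4}, i ≠ j → ∀ {κ₁ κ₂ : F} {y₁ y₂ : ι → F₀}, κ₂ ≠ 0 → act t (lV (w i)) = κ₁ • lV y₁ →
      act t (lV (w j)) = κ₂ • lV y₂ → y₁ ∉ Submodule.span F₀ {y₂} := by
    intro i j hij κ₁ κ₂ y₁ y₂ h2 e1 e2 hmem
    obtain ⟨c, rfl⟩ := Submodule.mem_span_singleton.1 hmem
    have h3 : act t (lV (w i)) = ((κ₁ * c) / κ₂) • act t (lV (w j)) := by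
      rw [e1, e2, lV_smul, smul_smul, smul_smul]
      congr 1
      field_simp
    rw [← act_smul] at h3
    have h4 := act_inv_act t (lV (w i))
    rw [h3, act_inv_act] at h4
    have h5 := congrArg (fun z => 𝔣 z (lV (f' i))) h4
    simp only [polar_smul_left', hW.wf, if_neg hij.symm, if_true, mul_zero] at h5
    exact one_ne_zero h5.symm
  -- a common scalar
  obtain ⟨κ, y₀, hκ, hy₀⟩ := hline 0
  have hcommon : ∀ i, ∃ y : ι → F₀, act t (lV (w i)) = κ • lV y := by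
    intro i
    by_cases hi : i = 0
    · subst hi
      exact ⟨y₀, hy₀⟩
    obtain ⟨κ₁, y₁, hκ₁, hy₁⟩ := hline i
    obtain ⟨κ₂, y₂, -, hy₂⟩ := hline2 i 0 hi
    have hsum : κ₁ • lV y₁ + κ • lV y₀ = κ₂ • lV y₂ := by
      rw [← hy₂, lV_add, act_add, hy₁, hy₀]
    have h3 := ratio_of_sum (hne hi hκ hy₁ hy₀) (hne (Ne.symm hi) hκ₁ hy₀ hy₁) hκ₁ hκ hsum
    refine ⟨(⟨κ₁ / κ, h3⟩ : F₀) • y₁, ?_⟩
    rw [hy₁, lV_smul, smul_smul]
    congr 1
    simp only
    field_simp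
  choose y' hy' using hcommon
  -- the coordinates
  set A : Fin 4 → F := fun i => 𝔣 (lV (w i)) a with hA
  set B : Fin 4 → F := fun i => 𝔣 (lV (w i)) b with hB
  set d01 := A 0 * B 1 - A 1 * B 0 with hd01
  set d02 := A 0 * B 2 - A 2 * B 0 with hd02
  set d12 := A 1 * B 2 - A 2 * B 1 with hd12
  have hd01' : d01 ≠ 0 := hδ
  set r₀ := d12 • lV (w 0) - d02 • lV (w 1) + d01 • lV (w 2) with hr₀
  have hr₀R : r₀ ∈ R := by
    refine mem_RR.2 ⟨W.add_mem (W.sub_mem (W.smul_mem _ (w_mem 0)) (W.smul_mem _ (w_mem 1))) (W.smul_mem _ (w_mem 2)), ?_, ?_⟩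
    · rw [hr₀, polar_add_left, polar_sub_left, polar_smul_left', polar_smul_left', polar_smul_left']
      show d12 * A 0 - d02 * A 1 + d01 * A 2 = 0
      rw [hd01, hd02, hd12]
      ring
    · rw [hr₀, polar_add_left, polar_sub_left, polar_smul_left', polar_smul_left', polar_smul_left']
      show d12 * B 0 - d02 * B 1 + d01 * B 2 = 0
      rw [hd01, hd02, hd12]
      ring
  have hr₀fix := hfixR _ hr₀R
  rw [hr₀, act_add, act_sub, act_smul, act_smul, act_smul, hy', hy', hy'] at hr₀fix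
  have hco : ∀ l : Fin 4, κ * (d12 * 𝔣 (lV (y' 0)) (lV (f' l)) - d02 * 𝔣 (lV (y' 1)) (lV (f' l)) + d01 * 𝔣 (lV (y' 2)) (lV (f' l))) =
      d12 * 𝔣 (lV (w 0)) (lV (f' l)) - d02 * 𝔣 (lV (w 1)) (lV (f' l)) + d01 * 𝔣 (lV (w 2)) (lV (f' l)) := by
    intro l
    have h1 := congrArg (fun z => 𝔣 z (lV (f' l))) hr₀fix
    simp only [polar_add_left, polar_sub_left, polar_smul_left'] at h1
    linear_combination h1
  have hco0 := hco 0
  have hco1 := hco 1
  have hco2 := hco 2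
  simp only [hW.wf] at hco0 hco1 hco2
  simp at hco0 hco1 hco2
  have hκinv : κ⁻¹ ≠ 0 := inv_ne_zero hκ
  -- the subspace
  set Y := Submodule.span F₀ (Set.range ![d12, d02, d01]) with hY
  have hYdim : finrank F₀ Y ≤ 3 := by
    have := finrank_range_le_card (R := F₀) ![d12, d02, d01]
    simpa [Set.finrank] using this
  have hY12 : d12 ∈ Y := Submodule.subset_span ⟨0, rfl⟩
  have hY02 : d02 ∈ Y := Submodule.subset_span ⟨1, rfl⟩
  have hY01 : d01 ∈ Y := Submodule.subset_span ⟨2, rfl⟩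
  have hYne : Y ≠ ⊥ := by
    intro h0
    rw [h0, Submodule.mem_bot] at hY01
    exact hd01' hY01
  have hYm : ∀ {v : F}, v ∈ Y → ∀ c : F, c ∈ F₀ → v * c ∈ Y := by
    intro v hv c hc
    have h1 := Y.smul_mem (⟨c, hc⟩ : F₀) hv
    have e : (⟨c, hc⟩ : F₀) • v = v * c := by
      rw [Subfield.smul_def, smul_eq_mul, mul_comm]
    rwa [e] at h1
  have hmr : ∀ i l, 𝔣 (lV (y' i)) (lV (f' l)) ∈ F₀ := fun i l => rat_polar hR _ _
  have hcomb : ∀ l, d12 * 𝔣 (lV (y' 0)) (lV (f' l)) - d02 * 𝔣 (lV (y' 1)) (lV (f' l)) + d01 * 𝔣 (lV (y' 2)) (lV (f' l)) ∈ Y :=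
    fun l => Y.add_mem (Y.sub_mem (hYm hY12 _ (hmr _ _)) (hYm hY02 _ (hmr _ _))) (hYm hY01 _ (hmr _ _))
  have hl12 : κ⁻¹ * d12 ∈ Y := by
    have e : κ⁻¹ * d12 = d12 * 𝔣 (lV (y' 0)) (lV (f' 0)) - d02 * 𝔣 (lV (y' 1)) (lV (f' 0)) + d01 * 𝔣 (lV (y' 2)) (lV (f' 0)) := by
      apply mul_left_cancel₀ hκ
      rw [← mul_assoc, mul_inv_cancel₀ hκ, one_mul]
      exact hco0.symm
    rw [e]
    exact hcomb 0
  have hl02 : κ⁻¹ * d02 ∈ Y := by
    have e : κ⁻¹ * d02 = -(d12 * 𝔣 (lV (y' 0)) (lV (f' 1)) - d02 * 𝔣 (lV (y' 1)) (lV (f' 1)) + d01 * 𝔣 (lV (y' 2)) (lV (f' 1))) := by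
      apply mul_left_cancel₀ hκ
      rw [← mul_assoc, mul_inv_cancel₀ hκ, one_mul, mul_neg, hco1, neg_neg]
    rw [e]
    exact Y.neg_mem (hcomb 1)
  have hl01 : κ⁻¹ * d01 ∈ Y := by
    have e : κ⁻¹ * d01 = d12 * 𝔣 (lV (y' 0)) (lV (f' 2)) - d02 * 𝔣 (lV (y' 1)) (lV (f' 2)) + d01 * 𝔣 (lV (y' 2)) (lV (f' 2)) := by
      apply mul_left_cancel₀ hκ
      rw [← mul_assoc, mul_inv_cancel₀ hκ, one_mul]
      exact hco2.symm
    rw [e]
    exact hcomb 2
  have hκF : κ ∈ F₀ := by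
    by_contra hcon
    have hl : κ⁻¹ ∉ F₀ := fun h1 => hcon (by simpa using F₀.inv_mem h1)
    have h1 := stab_field hr hc hrk hYne hl (by
      intro v hv
      clear hcomb
      induction hv using Submodule.span_induction with
      | mem x hx =>
        obtain ⟨i, rfl⟩ := hx
        fin_cases i
        · exact hl12
        · exact hl02
        · exact hl01
      | zero =>
        rw [mul_zero]
        exact Y.zero_mem
      | add x z _ _ h1 h2 =>
        rw [mul_add]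
        exact Y.add_mem h1 h2
      | smul c x _ h1 =>
        rw [mul_smul_comm]
        exact Y.smul_mem c h1)
    omega
  -- the window is fixed
  have hfixw : ∀ i, act t (lV (w i)) = lV (w i) := by
    intro i
    set u : ι → F₀ := (⟨κ, hκF⟩ : F₀) • y' i - w i with hu
    have hlu : lV u = act t (lV (w i)) - lV (w i) := by
      rw [hu, lV_sub, lV_smul, hy']
    by_contra hne'
    have hu0 : u ≠ 0 := by
      intro h0
      apply hne'
      have h1 := hlu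
      rw [h0, lV_zero] at h1
      exact (sub_eq_zero.1 h1.symm)
    have hmemR : lV u ∈ R := by
      rw [hlu]
      exact htu _ (w_mem i)
    obtain ⟨h1, h2, h3⟩ := mem_RR.1 hmemR
    exact hgen u hu0 (hQW _ h1) h2 h3
  have htfix : ∀ u ∈ W, act t u = u := by
    intro u hu
    induction hu using Submodule.span_induction with
    | mem x hx =>
      obtain ⟨i, rfl⟩ := hx
      exact hfixw i
    | zero => exact act_zero t
    | add x z _ _ h1 h2 => rw [act_add, h1, h2]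
    | smul c x _ h1 => rw [act_smul, h1]
  -- the image of `1 - t` lies in `W`
  have htV : ∀ x, act t x - x ∈ W := by
    intro x
    obtain ⟨p, p', hp⟩ := hact.2.2.2 x
    have h1 := (mem_RR.1 hp).1
    have hpair : ∀ u ∈ W, 𝔣 (act t x - x) u = 0 := by
      intro u hu
      have h2 := hiso x u
      rw [htfix u hu] at h2
      rw [polar_sub_left, h2, sub_self]
    have hpair2 : ∀ u ∈ W, p 0 * 𝔣 b u - p' 0 * 𝔣 a u = 0 := by
      intro u hu
      have h2 := hWt _ h1 _ hu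
      rw [polar_sub_left, polar_sub_left, hpair u hu] at h2
      simp only [L, polar_add_left, polar_smul_left', polar_neg_left, hWt _ hv₁ _ hu, hWt _ hv₂ _ hu] at h2
      linear_combination -h2
    have hp0 : p 0 = 0 := by
      have h2 := hpair2 v₂ hv₂
      rw [polar_comm (⇑Q) b v₂, h22, polar_comm (⇑Q) a v₂, h21] at h2
      linear_combination h2
    have hp'0 : p' 0 = 0 := by
      have h2 := hpair2 v₁ hv₁
      rw [polar_comm (⇑Q) b v₁, h12, polar_comm (⇑Q) a v₁, h11] at h2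
      linear_combination -h2
    have e : act t x - x = (act t x - x - L b v₁ p - L (-a) v₂ p') + p 1 • v₁ + p' 1 • v₂ := by
      simp only [L, hp0, hp'0]
      module
    rw [e]
    exact W.add_mem (W.add_mem h1 (W.smul_mem _ hv₁)) (W.smul_mem _ hv₂)
  -- the dual vectors
  have hdual : ∀ i, ∃ y₁ : ι → F₀, act t (lV (f' i)) = lV y₁ := by
    intro i
    obtain ⟨j, l, h1, h2, h3⟩ := exists_two_ne i
    have hz : ∀ {k : Fin 4}, k ≠ i → 𝔣 (lV (w k)) (act t (lV (f' i))) = 0 := by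
      intro k hk
      have h4 := hiso (lV (w k)) (lV (f' i))
      rw [hfixw k, hW.wf, if_neg hk] at h4
      exact h4
    have hind : ∀ α β γ : F, α • lV (f' i) + β • lV (w j) + γ • lV (w l) = 0 → α = 0 ∧ β = 0 ∧ γ = 0 := by
      intro α β γ h
      have e1 := congrArg (fun z => 𝔣 z (lV (w i))) h
      have e2 := congrArg (fun z => 𝔣 z (lV (f' j))) h
      have e3 := congrArg (fun z => 𝔣 z (lV (f' l))) h
      simp only [polar_add_left, polar_smul_left', hW.wf, hW.ww, hW.ff, fw hW, if_pos, h1, h2, h3, h3.symm, if_false,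
        mul_zero, mul_one, add_zero, zero_add, polar_zero_left] at e1 e2 e3
      exact ⟨e1, e2, e3⟩
    obtain ⟨κ₁, y₁, hκ₁, hy₁⟩ := conj_line hQ hR hM hn hAs t ht (c := f' i) (d := w j) (d' := w l) (z := w l) (z' := w j)
      (hW.qf i) (hW.qw j) (hW.qw l) (pc ((hW.wf j i).trans (if_neg h1))) (pc ((hW.wf l i).trans (if_neg h2))) hind
      (hW.qw l) (hw0 l) (hz h2) (by rw [hfixw]; exact hW.ww l j) (hW.qw j) (hw0 j) (hz h1) (by rw [hfixw]; exact hW.ww j l)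
    have h4 : κ₁ * 𝔣 (lV y₁) (lV (w i)) = 1 := by
      have h5 := hiso (lV (f' i)) (lV (w i))
      rw [hfixw, hy₁, polar_smul_left', fw hW, if_pos rfl] at h5
      exact h5
    have hκ₁F : κ₁ ∈ F₀ := by
      have e : κ₁ = (𝔣 (lV y₁) (lV (w i)))⁻¹ := eq_inv_of_mul_eq_one_left h4
      rw [e]
      exact F₀.inv_mem (rat_polar hR _ _)
    refine ⟨(⟨κ₁, hκ₁F⟩ : F₀) • y₁, ?_⟩
    rw [hy₁, lV_smul]
  choose yd hyd using hdual
  set u : Fin 4 → ι → F := fun i => act t (lV (f' i)) - lV (f' i) with hu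
  have hut : ∀ i, act t (lV (f' i)) = lV (f' i) + u i := by
    intro i
    simp only [hu]
    abel
  have huW : ∀ i, u i ∈ W := fun i => htV _
  have hulV : ∀ i, u i = lV (yd i - f' i) := by
    intro i
    simp only [hu]
    rw [hyd, lV_sub]
  -- the perpendicular vectors are fixed
  have hperp : ∀ x₀ : ι → F, (∀ j, 𝔣 x₀ (lV (w j)) = 0) → act t x₀ = x₀ := by
    intro x₀ hx₀
    have hperp' : ∀ v ∈ W, 𝔣 x₀ v = 0 := by
      intro v hv
      rw [WW_sum hW hv, sum_right]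
      simp [hx₀]
    rw [← sub_eq_zero]
    apply eq_zero_of_WW hW (htV x₀)
    intro l
    have h2 := hiso x₀ (lV (f' l))
    rw [hut, polar_add_right] at h2
    have h4 : 𝔣 (act t x₀) (u l) = 0 := by
      have h5 := hiso x₀ (u l)
      rw [htfix _ (huW l)] at h5
      rw [h5, hperp' _ (huW l)]
    rw [h4, add_zero] at h2
    rw [polar_sub_left, h2, sub_self]
  -- the formula for `t b`
  have hb : act t b - b = ∑ i, 𝔣 b (lV (w i)) • u i := by
    set b₀ := b - ∑ i, 𝔣 b (lV (w i)) • lV (f' i) with hb₀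
    have h1 : ∀ j, 𝔣 b₀ (lV (w j)) = 0 := by
      intro j
      rw [hb₀, polar_sub_left, sum_left]
      simp only [fw hW, mul_ite, mul_one, mul_zero, Finset.sum_ite_eq', Finset.mem_univ, if_true, sub_self]
    have h2 := hperp b₀ h1
    have h3 : b = b₀ + ∑ i, 𝔣 b (lV (w i)) • lV (f' i) := by
      rw [hb₀]
      abel
    have h4 : act t b = b₀ + ∑ i, 𝔣 b (lV (w i)) • act t (lV (f' i)) := by
      conv_lhs => rw [h3]
      rw [act_add, h2]
      congr 1
      change ((t : GL ι F) : Matrix ι ι F) *ᵥ _ = _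
      rw [Matrix.mulVec_sum]
      simp only [Matrix.mulVec_smul]
    rw [h4, hb₀]
    simp only [hu, smul_sub, Finset.sum_sub_distrib]
    abel
  -- the end
  have hfin := hact.2.1 ![1, 0]
  rw [y_mulVec_zero] at hfin
  have e1 : L b v₁ ![1, 0] = b := by simp [L]
  have e2 : L b v₁ ![1, μ] = b + μ • v₁ := by simp [L]
  rw [e1, e2] at hfin
  have h5 := (mem_RR.1 hfin).2.1
  have hμ : μ = 𝔣 (act t b - b) a := by
    have e3 : act t b - (b + μ • v₁) = (act t b - b) - μ • v₁ := by abel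
    have h6 : 𝔣 (act t b - (b + μ • v₁)) a = 0 := h5
    rw [e3, polar_sub_left, polar_smul_left', h11] at h6
    linear_combination -h6
  have hθr : ∀ i j, 𝔣 (u i) (lV (f' j)) ∈ F₀ := by
    intro i j
    rw [hulV]
    exact rat_polar hR _ _
  refine ⟨fun i j => ⟨𝔣 (u i) (lV (f' j)), hθr i j⟩, fun i j => ?_, fun i => ?_, ?_⟩
  · apply Subtype.ext
    have h7 := hiso (lV (f' i)) (lV (f' j))
    rw [hut, hut, polar_add_left, polar_add_right, polar_add_right, f_WW hW (huW i) (huW j)] at h7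
    show 𝔣 (u i) (lV (f' j)) + 𝔣 (u j) (lV (f' i)) = 0
    rw [polar_comm (⇑Q) (u j)]
    linear_combination h7
  · apply Subtype.ext
    have h7 := Q_act t (lV (f' i))
    rw [hut, Q_add, hW.qf, Q_WW hW (huW i)] at h7
    show 𝔣 (u i) (lV (f' i)) = 0
    rw [polar_comm]
    linear_combination h7
  · rw [hμ, hb, sum_left]
    apply Finset.sum_congr rfl
    intro i _
    have h8 : 𝔣 (u i) a = ∑ j, 𝔣 (u i) (lV (f' j)) * 𝔣 (lV (w j)) a := by
      conv_lhs => rw [WW_sum hW (huW i)]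
      rw [sum_left]
    rw [h8, Finset.mul_sum, polar_comm (⇑Q) b]
    apply Finset.sum_congr rfl
    intro j _
    simp only
    ring

end Rigid

end Cfsg.Agent.Lib.Classical.Sub.OHigh
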