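/-
Overgroups of the rational points in an orthogonal group: windows, the generic case is impossible, the dichotomy.
-/
import Mathlib
import Cfsg.Agent.Lib.Classical.Sub.OHigh

set_option autoImplicit false
set_option linter.unusedSectionVars false

namespace Cfsg.Agent.Lib.Classical.Sub.OCore

open scoped Matrix MatrixGroups
open Module Cfsg Cfsg.Geo QuadraticMap
open Cfsg.Agent.Lib.Classical.Orth.Basic
open Cfsg.Agent.Lib.Classical.Orth.Siegel
open Cfsg.Agent.Lib.Classical.Orth.Simple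
open Cfsg.Agent.Lib.Classical.Geo.OPts
open Cfsg.Agent.Lib.Classical.Geo.OPair
open Cfsg.Agent.Lib.Classical.Sub.Rat
open Cfsg.Agent.Lib.Classical.Sub.OBase
open Cfsg.Agent.Lib.Classical.Sub.OElts
open Cfsg.Agent.Lib.Classical.Sub.OLow
open Cfsg.Agent.Lib.Classical.Sub.OAct
open Cfsg.Agent.Lib.Classical.Sub.OHigh
open Cfsg.Agent.Lib.Classical.Sub.Act
open Cfsg.Agent.Lib.PSL2.Basic
open Cfsg.Agent.Lib.Classical.Geo.UPair (not_mem_singleton_symm not_mem_pair)

variable {ι : Type} [Fintype ι] [DecidableEq ι] {F : Type*} [Field F] [Fintype F]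
  {Q : QuadraticForm F (ι → F)} {F₀ : Subfield F}

set_option quotPrecheck false in
local notation "𝔣" => polar (⇑Q)

variable {M : Subgroup (GL ι F)}

section Window

variable (hQ : (polarBilin Q).Nondegenerate) (hR : RatQ Q F₀)

include hQ hR

/-- A pair of rational singular vectors on which the Plücker coordinate of a plane without rational points does not vanish. -/
theorem exists_good_pair (hn : 5 ≤ Fintype.card ι) {a b : ι → F}
    (hind : ∀ α β : F, α • b - β • a = 0 → α = 0 ∧ β = 0)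
    (hgen : ∀ z : ι → F₀, z ≠ 0 → Q (lV z) = 0 → 𝔣 (lV z) a = 0 → 𝔣 (lV z) b = 0 → False) :
    ∃ x₀ y₀ : ι → F₀, Q (lV x₀) = 0 ∧ Q (lV y₀) = 0 ∧ 𝔣 (lV x₀) (lV y₀) = 0 ∧
      𝔣 (lV x₀) a * 𝔣 (lV y₀) b - 𝔣 (lV y₀) a * 𝔣 (lV x₀) b ≠ 0 := by
  classical
  by_contra hcon
  push Not at hcon
  obtain ⟨x₁, hx₁S, hx₁x₁, -, -⟩ := exists_iso_perp hR (r := finrank F₀ F) rfl (Fin.elim0 : Fin 0 → ι → F₀)
    (Fin.elim0 : Fin 0 → ι → F) ⊥ (by simp; omega)
  have hx₁0 : x₁ ≠ 0 := by simpa using hx₁S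
  set A₁ := 𝔣 (lV x₁) a with hA₁
  set B₁ := 𝔣 (lV x₁) b with hB₁
  have hsing : ∀ x : ι → F₀, Q (lV x) = 0 → A₁ * 𝔣 (lV x) b - 𝔣 (lV x) a * B₁ = 0 := by
    intro x hxx
    obtain ⟨y, hyS, hyy, hy, -⟩ := exists_iso_perp hR (r := finrank F₀ F) rfl ![x₁, x]
      (Fin.elim0 : Fin 0 → ι → F) ⊥ (by simp; omega)
    have hy0 : y ≠ 0 := by simpa using hyS
    have hyx₁ : 𝔣 (lV y) (lV x₁) = 0 := hy 0
    have hyx : 𝔣 (lV y) (lV x) = 0 := hy 1
    have h1 := hcon x₁ y hx₁x₁ hyy (pc hyx₁)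
    have h2 := hcon x y hxx hyy (pc hyx)
    by_cases hAy : 𝔣 (lV y) a = 0
    · have hBy : 𝔣 (lV y) b ≠ 0 := fun hBy => hgen y hy0 hyy hAy hBy
      apply mul_left_cancel₀ hBy
      rw [hAy] at h1 h2
      simp only [mul_zero] at h1 h2 ⊢
      rw [← hA₁] at h1
      have h3 : A₁ = 0 := by
        simpa [hBy] using h1
      have h4 : 𝔣 (lV x) a = 0 := by
        simpa [hBy] using h2
      rw [h3, h4]
      ring
    · apply mul_left_cancel₀ hAy
      rw [mul_zero]
      rw [← hA₁, ← hB₁] at h1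
      linear_combination (𝔣 (lV x) a) * h1 - A₁ * h2
  have hall : ∀ x : ι → F₀, A₁ * 𝔣 (lV x) b - 𝔣 (lV x) a * B₁ = 0 := by
    intro x
    refine all_induction hQ hR (by omega) (P := fun x => A₁ * 𝔣 (lV x) b - 𝔣 (lV x) a * B₁ = 0) ?_ ?_ ?_ hsing x
    · rw [lV_zero]
      simp
    · intro c d h1 h2
      rw [lV_add, polar_add_left, polar_add_left]
      linear_combination h1 + h2
    · intro c d h1
      rw [lV_smul, polar_smul_left', polar_smul_left']
      linear_combination (c : F) * h1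
  have h0 : A₁ • b - B₁ • a = 0 := by
    apply eq_zero_of_rat hQ (F₀ := F₀)
    intro x
    rw [polar_sub_right, polar_smul_right', polar_smul_right']
    linear_combination hall x
  obtain ⟨h1, h2⟩ := hind _ _ h0
  exact hgen x₁ hx₁0 hx₁x₁ h1 h2

/-- Extending a hyperbolic family of rank three. -/
theorem hyp_extend (hn : 9 ≤ Fintype.card ι) {x h : Fin 3 → ι → F₀} (hhh : ∀ i j, 𝔣 (lV (h i)) (lV (h j)) = 0)
    (hxx : ∀ i j, 𝔣 (lV (x i)) (lV (x j)) = 0) (hxh : ∀ i j, 𝔣 (lV (x i)) (lV (h j)) = if i = j then 1 else 0) :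
    ∃ e h' : ι → F₀, Q (lV e) = 0 ∧ Q (lV h') = 0 ∧ 𝔣 (lV e) (lV h') = 1 ∧ (∀ i, 𝔣 (lV e) (lV (x i)) = 0) ∧
      (∀ i, 𝔣 (lV e) (lV (h i)) = 0) ∧ (∀ i, 𝔣 (lV h') (lV (x i)) = 0) ∧ ∀ i, 𝔣 (lV h') (lV (h i)) = 0 := by
  classical
  obtain ⟨e, heS, hee, he, -⟩ := exists_iso_perp hR (r := finrank F₀ F) rfl ![x 0, x 1, x 2, h 0, h 1, h 2]
    (Fin.elim0 : Fin 0 → ι → F) ⊥ (by simp; omega)
  have he0 : e ≠ 0 := by simpa using heS
  have hex : ∀ i, 𝔣 (lV e) (lV (x i)) = 0 := by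
    intro i
    fin_cases i
    · exact he 0
    · exact he 1
    · exact he 2
  have heh : ∀ i, 𝔣 (lV e) (lV (h i)) = 0 := by
    intro i
    fin_cases i
    · exact he 3
    · exact he 4
    · exact he 5
  set T := Submodule.span F₀ (Set.range x) ⊔ Submodule.span F₀ (Set.range h) with hT
  have hrep : ∀ s ∈ T, ∃ a b : Fin 3 → F₀, lV s = ∑ i, (a i : F) • lV (x i) + ∑ i, (b i : F) • lV (h i) := by
    intro s hs
    obtain ⟨s₁, hs₁, s₂, hs₂, rfl⟩ := Submodule.mem_sup.1 hs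
    obtain ⟨a, rfl⟩ := (Submodule.mem_span_range_iff_exists_fun F₀).1 hs₁
    obtain ⟨b, rfl⟩ := (Submodule.mem_span_range_iff_exists_fun F₀).1 hs₂
    refine ⟨a, b, ?_⟩
    funext k
    simp [lV, Finset.sum_apply]
  have heT : e ∉ T := by
    intro hmem
    obtain ⟨a, b, hab⟩ := hrep e hmem
    apply lV_ne_zero he0
    have ha : ∀ j, (a j : F) = 0 := by
      intro j
      have h1 := congrArg (fun z => 𝔣 z (lV (h j))) hab
      simp only [polar_add_left, sum_left, hxh, hhh, mul_ite, mul_one, mul_zero, Finset.sum_ite_eq', Finset.mem_univ,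
        if_true, Finset.sum_const_zero, add_zero, heh] at h1
      exact h1.symm
    have hb : ∀ j, (b j : F) = 0 := by
      intro j
      have h1 := congrArg (fun z => 𝔣 z (lV (x j))) hab
      have e1 : ∀ i, 𝔣 (lV (h i)) (lV (x j)) = if j = i then 1 else 0 := fun i => by
        rw [polar_comm, hxh]
      simp only [polar_add_left, sum_left, hxx, e1, mul_ite, mul_one, mul_zero, Finset.sum_ite_eq, Finset.mem_univ,
        if_true, Finset.sum_const_zero, zero_add, hex] at h1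
      exact h1.symm
    rw [hab]
    simp [ha, hb]
  obtain ⟨h', hh', h1, h2⟩ := exists_partner_rat hQ hR heT hee (by
    intro s hs
    obtain ⟨a, b, hab⟩ := hrep s hs
    rw [hab, polar_add_left, sum_left, sum_left]
    simp [pc (hex _), pc (heh _)])
  refine ⟨e, h', hee, hh', h1, hex, heh, fun i => ?_, fun i => ?_⟩
  · exact pc (h2 _ (Submodule.mem_sup_left (Submodule.subset_span ⟨i, rfl⟩)))
  · exact pc (h2 _ (Submodule.mem_sup_right (Submodule.subset_span ⟨i, rfl⟩)))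

/-- A window containing a given pair of orthogonal singular rational vectors. -/
theorem exists_good_win (hn : 13 ≤ Fintype.card ι) {x₀ y₀ : ι → F₀} (hxx : Q (lV x₀) = 0) (hyy : Q (lV y₀) = 0)
    (hxy : 𝔣 (lV x₀) (lV y₀) = 0) (hx0 : x₀ ≠ 0) (hyx : y₀ ∉ Submodule.span F₀ {x₀}) :
    ∃ w f' : Fin 4 → ι → F₀, Win Q w f' ∧ w 0 = x₀ ∧ w 1 = y₀ := by
  classical
  have hy0 : y₀ ≠ 0 := by
    rintro rfl
    exact hyx (Submodule.zero_mem _)
  obtain ⟨f₀, hf₀, h1, h2⟩ := exists_partner_rat hQ hR (x := x₀) (S := Submodule.span F₀ {y₀})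
    (not_mem_singleton_symm hx0 hyx) hxx (by
    intro s hs
    obtain ⟨c, rfl⟩ := Submodule.mem_span_singleton.1 hs
    rw [lV_smul, polar_smul_left', pc hxy, mul_zero])
  have hy₀f₀ : 𝔣 (lV y₀) (lV f₀) = 0 := h2 _ (Submodule.mem_span_singleton_self _)
  have hyS : y₀ ∉ Submodule.span F₀ {x₀, f₀} := by
    intro hmem
    obtain ⟨α, β, hab⟩ := Submodule.mem_span_pair.1 hmem
    have h3 := congrArg (fun z => 𝔣 (lV x₀) (lV z)) hab
    simp only [lV_add, lV_smul, polar_add_right, polar_smul_right', polar_zero_of_singular hxx, h1, hxy] at h3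
    have hβ : (β : F) = 0 := by linear_combination h3
    have hβ' : β = 0 := Subtype.ext hβ
    rw [hβ', zero_smul, add_zero] at hab
    apply hyx
    rw [← hab]
    exact Submodule.smul_mem _ _ (Submodule.mem_span_singleton_self _)
  obtain ⟨f₁, hf₁, h3, h4⟩ := exists_partner_rat hQ hR hyS hyy (by
    intro s hs
    exact orth_span_pair hxy (pc hy₀f₀) hs)
  have hx₀f₁ : 𝔣 (lV x₀) (lV f₁) = 0 := h4 _ (Submodule.subset_span (by simp))
  have hf₀f₁ : 𝔣 (lV f₀) (lV f₁) = 0 := h4 _ (Submodule.subset_span (by simp))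
  obtain ⟨e₂, h₂, he₂, hh₂, h5, a2, b2⟩ := exists_hyp_rat hQ hR ![x₀, y₀, f₀, f₁] (by simp; omega)
  have a20 : 𝔣 (lV e₂) (lV x₀) = 0 := a2 0
  have a21 : 𝔣 (lV e₂) (lV y₀) = 0 := a2 1
  have a22 : 𝔣 (lV e₂) (lV f₀) = 0 := a2 2
  have a23 : 𝔣 (lV e₂) (lV f₁) = 0 := a2 3
  have b20 : 𝔣 (lV h₂) (lV x₀) = 0 := b2 0
  have b21 : 𝔣 (lV h₂) (lV y₀) = 0 := b2 1
  have b22 : 𝔣 (lV h₂) (lV f₀) = 0 := b2 2
  have b23 : 𝔣 (lV h₂) (lV f₁) = 0 := b2 3
  have hsx := polar_zero_of_singular hxx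
  have hsy := polar_zero_of_singular hyy
  have hsf₀ := polar_zero_of_singular hf₀
  have hsf₁ := polar_zero_of_singular hf₁
  have hse₂ := polar_zero_of_singular he₂
  have hsh₂ := polar_zero_of_singular hh₂
  obtain ⟨e₃, h₃, he₃, hh₃, h6, a3, b3, a3', b3'⟩ := hyp_extend hQ hR (x := ![x₀, y₀, e₂]) (h := ![f₀, f₁, h₂]) (by omega)
    (by
      intro i j
      fin_cases i <;> fin_cases j <;>
        first
          | exact hsf₀ | exact hsf₁ | exact hsh₂ | exact hf₀f₁ | exact pc hf₀f₁ | exact b22 | exact pc b22 | exact b23 | exact pc b23)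
    (by
      intro i j
      fin_cases i <;> fin_cases j <;>
        first
          | exact hsx | exact hsy | exact hse₂ | exact hxy | exact pc hxy | exact a20 | exact pc a20 | exact a21 | exact pc a21)
    (by
      intro i j
      fin_cases i <;> fin_cases j <;> simp <;>
        first
          | exact h1 | exact h3 | exact h5 | exact hx₀f₁ | exact hy₀f₀ | exact pc b20 | exact pc b21 | exact a22 | exact a23)
  have a30 : 𝔣 (lV e₃) (lV x₀) = 0 := a3 0
  have a31 : 𝔣 (lV e₃) (lV y₀) = 0 := a3 1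
  have a32 : 𝔣 (lV e₃) (lV e₂) = 0 := a3 2
  have b30 : 𝔣 (lV e₃) (lV f₀) = 0 := b3 0
  have b31 : 𝔣 (lV e₃) (lV f₁) = 0 := b3 1
  have b32 : 𝔣 (lV e₃) (lV h₂) = 0 := b3 2
  have c30 : 𝔣 (lV h₃) (lV x₀) = 0 := a3' 0
  have c31 : 𝔣 (lV h₃) (lV y₀) = 0 := a3' 1
  have c32 : 𝔣 (lV h₃) (lV e₂) = 0 := a3' 2
  have d30 : 𝔣 (lV h₃) (lV f₀) = 0 := b3' 0
  have d31 : 𝔣 (lV h₃) (lV f₁) = 0 := b3' 1
  have d32 : 𝔣 (lV h₃) (lV h₂) = 0 := b3' 2
  have hse₃ := polar_zero_of_singular he₃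
  have hsh₃ := polar_zero_of_singular hh₃
  refine ⟨![x₀, y₀, e₂, e₃], ![f₀, f₁, h₂, h₃], ⟨?_, ?_, ?_, ?_, ?_⟩, rfl, rfl⟩
  · intro i
    fin_cases i
    · exact hxx
    · exact hyy
    · exact he₂
    · exact he₃
  · intro i
    fin_cases i
    · exact hf₀
    · exact hf₁
    · exact hh₂
    · exact hh₃
  · intro i j
    fin_cases i <;> fin_cases j <;>
      first
        | exact hsx | exact hsy | exact hse₂ | exact hse₃ | exact hxy | exact pc hxy | exact a20 | exact pc a20 | exact a21 | exact pc a21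
        | exact a30 | exact pc a30 | exact a31 | exact pc a31 | exact a32 | exact pc a32
  · intro i j
    fin_cases i <;> fin_cases j <;>
      first
        | exact hsf₀ | exact hsf₁ | exact hsh₂ | exact hsh₃ | exact hf₀f₁ | exact pc hf₀f₁ | exact b22 | exact pc b22 | exact b23 | exact pc b23
        | exact d30 | exact pc d30 | exact d31 | exact pc d31 | exact d32 | exact pc d32
  · intro i j
    fin_cases i <;> fin_cases j <;> simp <;>
      first
        | exact h1 | exact h3 | exact h5 | exact h6 | exact hx₀f₁ | exact hy₀f₀ | exact pc b20 | exact pc b21 | exact a22 | exact a23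
        | exact b30 | exact b31 | exact b32 | exact pc c30 | exact pc c31 | exact pc c32

end Window

section High

variable (hQ : (polarBilin Q).Nondegenerate) (hR : RatQ Q F₀) (hM : HasRatO Q M F₀)

include hQ hR hM

/-- **The generic case is impossible.** -/
theorem high_contra (hMi : M ≤ Cfsg.isometryGroup F (⇑Q)) (hn : 13 ≤ Fintype.card ι) (hAs : ∀ κ ∈ AsO Q M F₀, κ ∈ F₀)
    {r : ℕ} (hr : r.Prime) (hc : Fintype.card F = Nat.card F₀ ^ r) {a b : ι → F} (hbb : Q b = 0) (ha0 : a ≠ 0)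
    (hba : b ∉ Submodule.span F {a}) (hY : InY Q M a b)
    (hgen : ∀ z : ι → F₀, z ≠ 0 → Q (lV z) = 0 → 𝔣 (lV z) a = 0 → 𝔣 (lV z) b = 0 → False) : False := by
  classical
  obtain ⟨haa, hab, hg⟩ := id hY
  have hrk : finrank F₀ F = r := by
    have h1 : Nat.card F = Nat.card F₀ ^ finrank F₀ F := Module.natCard_eq_pow_finrank (K := F₀) (V := F)
    have h2 : 1 < Nat.card F₀ := Finite.one_lt_card
    rw [Nat.card_eq_fintype_card, hc] at h1
    exact (Nat.pow_right_injective h2 h1).symm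
  -- the degree is large
  have hr7 : 7 ≤ r := by
    have h1 : ¬ 2 * r + 3 ≤ Fintype.card ι := by
      intro hle
      obtain ⟨z, hzS, hzz, -, hz⟩ := exists_iso_perp hR hrk (Fin.elim0 : Fin 0 → ι → F₀) ![a, b] ⊥ (by
        simp
        omega)
      exact hgen z (by simpa using hzS) hzz (hz 0) (hz 1)
    have h2 : 6 ≤ r := by omega
    have h3 : r ≠ 6 := by
      rintro rfl
      norm_num at hr
    omega
  have hind : ∀ α β : F, α • b - β • a = 0 → α = 0 ∧ β = 0 := by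
    intro α β h
    have hα : α = 0 := by
      by_contra hα
      apply hba
      have e : b = (β / α) • a := by
        have h1 : α • b = β • a := sub_eq_zero.1 h
        rw [← one_smul F b, ← div_self hα, div_eq_mul_inv, mul_comm, mul_smul, h1, smul_smul]
        congr 1
        field_simp
      rw [e]
      exact Submodule.smul_mem _ _ (Submodule.mem_span_singleton_self a)
    subst hα
    refine ⟨rfl, ?_⟩
    rw [zero_smul, zero_sub, neg_eq_zero] at h
    exact (smul_eq_zero.1 h).resolve_right ha0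
  obtain ⟨x₀, y₀, hx₀, hy₀, hxy, hδ⟩ := exists_good_pair hQ hR (by omega) hind hgen
  have hx00 : x₀ ≠ 0 := by
    rintro rfl
    apply hδ
    rw [lV_zero]
    simp
  have hyS : y₀ ∉ Submodule.span F₀ {x₀} := by
    intro hmem
    obtain ⟨c, rfl⟩ := Submodule.mem_span_singleton.1 hmem
    apply hδ
    rw [lV_smul, polar_smul_left', polar_smul_left']
    ring
  obtain ⟨w, f', hW, hw0, hw1⟩ := exists_good_win hQ hR hn hx₀ hy₀ hxy hx00 hyS
  subst hw0 hw1
  set A : Fin 4 → F := fun i => 𝔣 (lV (w i)) a with hA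
  set B : Fin 4 → F := fun i => 𝔣 (lV (w i)) b with hB
  set δ : Fin 4 → Fin 4 → F := fun i j => A i * B j - A j * B i with hδdef
  set D := δ 0 1 with hD
  have hD0 : D ≠ 0 := hδ
  set v₁ := D⁻¹ • (B 1 • lV (w 0) - B 0 • lV (w 1)) with hv₁
  set v₂ := D⁻¹ • (A 0 • lV (w 1) - A 1 • lV (w 0)) with hv₂
  have hv₁W : v₁ ∈ WW w := (WW w).smul_mem _ ((WW w).sub_mem ((WW w).smul_mem _ (w_mem 0)) ((WW w).smul_mem _ (w_mem 1)))
  have hv₂W : v₂ ∈ WW w := (WW w).smul_mem _ ((WW w).sub_mem ((WW w).smul_mem _ (w_mem 1)) ((WW w).smul_mem _ (w_mem 0)))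
  have hDe : D = A 0 * B 1 - A 1 * B 0 := rfl
  have h11 : 𝔣 v₁ a = 1 := by
    rw [hv₁, polar_smul_left', polar_sub_left, polar_smul_left', polar_smul_left']
    show D⁻¹ * (B 1 * A 0 - B 0 * A 1) = 1
    have e : B 1 * A 0 - B 0 * A 1 = D := by
      rw [hDe]
      ring
    rw [e, inv_mul_cancel₀ hD0]
  have h12 : 𝔣 v₁ b = 0 := by
    rw [hv₁, polar_smul_left', polar_sub_left, polar_smul_left', polar_smul_left']
    show D⁻¹ * (B 1 * B 0 - B 0 * B 1) = 0
    ring
  have h21 : 𝔣 v₂ a = 0 := by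
    rw [hv₂, polar_smul_left', polar_sub_left, polar_smul_left', polar_smul_left']
    show D⁻¹ * (A 0 * A 1 - A 1 * A 0) = 0
    ring
  have h22 : 𝔣 v₂ b = 1 := by
    rw [hv₂, polar_smul_left', polar_sub_left, polar_smul_left', polar_smul_left']
    show D⁻¹ * (A 0 * B 1 - A 1 * B 0) = 1
    rw [← hDe, inv_mul_cancel₀ hD0]
  set R := RR Q (WW w) a b with hRdef
  have hWt : ∀ u ∈ WW w, ∀ u' ∈ WW w, 𝔣 u u' = 0 := fun u hu u' hu' => f_WW hW hu hu'
  -- the additive group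
  set T : Set F := Set.range fun p : Fin 4 × Fin 4 => δ p.1 p.2 with hT
  set Sp := Submodule.span F₀ T with hSp
  have hδT : ∀ i j, δ i j ∈ Sp := fun i j => Submodule.subset_span ⟨(i, j), rfl⟩
  have hx : ∃ g ∈ M, Act2 R b v₁ (-a) v₂ g (x (1 : F)) := ⟨_, hg, act2_x haa hbb hab h11 h12 h21 h22⟩
  have hy1 : ∀ (ε : F₀) (i j : Fin 4), ∃ g ∈ M, Act2 R b v₁ (-a) v₂ g (y (-((ε : F) * δ i j))) := by
    intro ε i j
    obtain ⟨h1, h2, h3⟩ := hM (ε • w i) (w j) (by rw [lV_smul]; exact Q_scale (hW.qw i) _)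
      (by rw [lV_smul]; exact f_scale_left (hW.ww i j) _)
    refine ⟨_, h3, ?_⟩
    have h4 := act2_y (W := WW w) (a := a) (b := b) hWt hv₁W hv₂W h11 h12 h21 h22
      (c := lV (ε • w i)) (d := lV (w j)) (by rw [lV_smul]; exact (WW w).smul_mem _ (w_mem i)) (w_mem j) h1 (hW.qw j) h2
    have e : 𝔣 (lV (w j)) a * 𝔣 (lV (ε • w i)) b - 𝔣 (lV (ε • w i)) a * 𝔣 (lV (w j)) b = -((ε : F) * δ i j) := by
      rw [lV_smul, polar_smul_left', polar_smul_left']
      show A j * (ε * B i) - ε * A i * B j = -((ε : F) * (A i * B j - A j * B i))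
      ring
    rwa [e] at h4
  have hy2 : ∀ d ∈ Sp, ∀ c : F₀, ∃ g ∈ M, Act2 R b v₁ (-a) v₂ g (y ((c : F) * d)) := by
    intro d hd
    induction hd using Submodule.span_induction with
    | mem t ht =>
      obtain ⟨⟨i, j⟩, rfl⟩ := ht
      intro c
      have h1 := hy1 (-c) i j
      have e : -((-c : F₀) : F) * δ i j = (c : F) * δ i j := by
        push_cast
        ring
      simpa [e] using h1
    | zero =>
      intro c
      rw [mul_zero, y_zero]
      exact ⟨1, M.one_mem, Act2.one⟩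
    | add s t _ _ h1 h2 =>
      intro c
      obtain ⟨g₁, h3, h4⟩ := h1 c
      obtain ⟨g₂, h5, h6⟩ := h2 c
      rw [mul_add, y_add]
      exact ⟨_, M.mul_mem h3 h5, h4.mul h6⟩
    | smul e s _ h1 =>
      intro c
      have h2 := h1 (c * e)
      have e1 : (c : F) * (e • s) = ((c * e : F₀) : F) * s := by
        rw [Subfield.smul_def, smul_eq_mul]
        push_cast
        ring
      rwa [e1]
  have hy : ∀ d ∈ Sp.toAddSubgroup, ∃ g ∈ M, Act2 R b v₁ (-a) v₂ g (y d) := by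
    intro d hd
    have h1 := hy2 d hd 1
    simpa using h1
  -- the size of the additive group
  set s₁ := δ 0 2 / D with hs₁
  set s₂ := δ 1 2 / D with hs₂
  set s₃ := δ 0 3 / D with hs₃
  set s₄ := δ 1 3 / D with hs₄
  have hH : ∀ x₂ x₃ : F₀, (x₂ : F) * s₁ + x₃ * s₃ ∈ F₀ → (x₂ : F) * s₂ + x₃ * s₄ ∈ F₀ → x₂ = 0 ∧ x₃ = 0 := by
    intro x₂ x₃ h1 h2
    set p : F₀ := -⟨(x₂ : F) * s₁ + x₃ * s₃, h1⟩ with hp
    set q : F₀ := ⟨(x₂ : F) * s₂ + x₃ * s₄, h2⟩ with hq
    have hp' : (p : F) = -((x₂ : F) * s₁ + x₃ * s₃) := rfl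
    have hq' : (q : F) = (x₂ : F) * s₂ + x₃ * s₄ := rfl
    set z : ι → F₀ := q • w 0 + p • w 1 + x₂ • w 2 + x₃ • w 3 with hz
    have hlz : lV z = (q : F) • lV (w 0) + (p : F) • lV (w 1) + (x₂ : F) • lV (w 2) + (x₃ : F) • lV (w 3) := rfl
    have hzW : lV z ∈ WW w := by
      rw [hlz]
      exact (WW w).add_mem ((WW w).add_mem ((WW w).add_mem ((WW w).smul_mem _ (w_mem 0)) ((WW w).smul_mem _ (w_mem 1)))
        ((WW w).smul_mem _ (w_mem 2))) ((WW w).smul_mem _ (w_mem 3))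
    have hza : 𝔣 (lV z) a = 0 := by
      rw [hlz, polar_add_left, polar_add_left, polar_add_left, polar_smul_left', polar_smul_left', polar_smul_left',
        polar_smul_left', hp', hq', hs₁, hs₂, hs₃, hs₄]
      show ((x₂ : F) * (δ 1 2 / D) + x₃ * (δ 1 3 / D)) * A 0 + -((x₂ : F) * (δ 0 2 / D) + x₃ * (δ 0 3 / D)) * A 1 + x₂ * A 2 + x₃ * A 3 = 0
      field_simp
      rw [hDe]
      simp only [hδdef]
      ring
    have hzb : 𝔣 (lV z) b = 0 := by
      rw [hlz, polar_add_left, polar_add_left, polar_add_left, polar_smul_left', polar_smul_left', polar_smul_left',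
        polar_smul_left', hp', hq', hs₁, hs₂, hs₃, hs₄]
      show ((x₂ : F) * (δ 1 2 / D) + x₃ * (δ 1 3 / D)) * B 0 + -((x₂ : F) * (δ 0 2 / D) + x₃ * (δ 0 3 / D)) * B 1 + x₂ * B 2 + x₃ * B 3 = 0
      field_simp
      rw [hDe]
      simp only [hδdef]
      ring
    have hz0 : z = 0 := by
      by_contra hne
      exact hgen z hne (Q_WW hW hzW) hza hzb
    have h3 := congrArg (fun c : ι → F₀ => 𝔣 (lV c) (lV (f' 2))) hz0
    have h4 := congrArg (fun c : ι → F₀ => 𝔣 (lV c) (lV (f' 3))) hz0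
    simp only [hlz, lV_zero, polar_add_left, polar_smul_left', hW.wf, polar_zero_left] at h3 h4
    simp at h3 h4
    exact ⟨h3, h4⟩
  have hdim := plucker_dim hr hc hrk (by omega) hH
  set Sp₂ := Submodule.span F₀ ({1, s₁, s₂, s₃, s₄, s₁ * s₄ - s₂ * s₃} : Set F) with hSp₂
  have hmap : ∀ x ∈ Sp₂, D * x ∈ Sp := by
    intro x hx
    induction hx using Submodule.span_induction with
    | mem t ht =>
      rcases ht with rfl | rfl | rfl | rfl | rfl | rfl
      · rw [mul_one]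
        exact hδT 0 1
      · rw [hs₁, mul_div_cancel₀ _ hD0]
        exact hδT 0 2
      · rw [hs₂, mul_div_cancel₀ _ hD0]
        exact hδT 1 2
      · rw [hs₃, mul_div_cancel₀ _ hD0]
        exact hδT 0 3
      · rw [hs₄, mul_div_cancel₀ _ hD0]
        exact hδT 1 3
      · have e : D * (s₁ * s₄ - s₂ * s₃) = δ 2 3 := by
          rw [hs₁, hs₂, hs₃, hs₄]
          field_simp
          rw [hDe]
          simp only [hδdef]
          ring
        rw [e]
        exact hδT 2 3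
    | zero =>
      rw [mul_zero]
      exact Sp.zero_mem
    | add u v _ _ h1 h2 =>
      rw [mul_add]
      exact Sp.add_mem h1 h2
    | smul c u _ h1 =>
      rw [mul_smul_comm]
      exact Sp.smul_mem c h1
  have hcard : 8 ≤ Nat.card Sp.toAddSubgroup := by
    let Φ : Sp₂ → Sp.toAddSubgroup := fun u => ⟨D * u, hmap u u.2⟩
    have hΦ : Function.Injective Φ := by
      intro u v h
      have h1 : D * (u : F) = D * v := congrArg Subtype.val h
      exact Subtype.ext (mul_left_cancel₀ hD0 h1)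
    have h1 := Nat.card_le_card_of_injective Φ hΦ
    have h2 : Nat.card Sp₂ = Nat.card F₀ ^ finrank F₀ Sp₂ := Module.natCard_eq_pow_finrank (K := F₀) (V := Sp₂)
    have h3 : 2 ≤ Nat.card F₀ := Finite.one_lt_card
    have h4 : 2 ^ 3 ≤ Nat.card F₀ ^ finrank F₀ Sp₂ :=
      (Nat.pow_le_pow_left h3 3).trans (Nat.pow_le_pow_right (by omega) hdim)
    rw [← h2] at h4
    have h5 : (2 : ℕ) ^ 3 = 8 := by norm_num
    omega
  have hgen' : ∀ W' : Subfield F, (∀ d ∈ Sp.toAddSubgroup, d ∈ W') → W' = ⊤ := by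
    intro W' hW'
    have hδW : ∀ i j, δ i j ∈ W' := fun i j => hW' _ (hδT i j)
    have hle : F₀ ≤ W' := by
      intro c hc'
      have h1 : (⟨c, hc'⟩ : F₀) • D ∈ Sp := Sp.smul_mem _ (hδT 0 1)
      have h2 : c * D ∈ W' := hW' _ h1
      have e : c = (c * D) / D := by
        field_simp
      rw [e]
      exact W'.div_mem h2 (hδW 0 1)
    rcases Cfsg.Agent.Lib.Classical.Sub.SLCore.subfield_dichotomy hr hc W' hle with h1 | h1
    · exfalso
      rw [h1] at hδW
      set r₀ : ι → F₀ := (⟨δ 1 2, hδW 1 2⟩ : F₀) • w 0 - (⟨δ 0 2, hδW 0 2⟩ : F₀) • w 1 + (⟨δ 0 1, hδW 0 1⟩ : F₀) • w 2 with hr₀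
      have hl : lV r₀ = δ 1 2 • lV (w 0) - δ 0 2 • lV (w 1) + δ 0 1 • lV (w 2) := rfl
      have hzW : lV r₀ ∈ WW w := by
        rw [hl]
        exact (WW w).add_mem ((WW w).sub_mem ((WW w).smul_mem _ (w_mem 0)) ((WW w).smul_mem _ (w_mem 1))) ((WW w).smul_mem _ (w_mem 2))
      have hz0 : r₀ ≠ 0 := by
        intro h0
        have h3 := congrArg (fun c : ι → F₀ => 𝔣 (lV c) (lV (f' 2))) h0
        simp only [hl, lV_zero, polar_add_left, polar_sub_left, polar_smul_left', hW.wf, polar_zero_left] at h3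
        simp at h3
        exact hD0 h3
      refine hgen r₀ hz0 (Q_WW hW hzW) ?_ ?_
      · rw [hl, polar_add_left, polar_sub_left, polar_smul_left', polar_smul_left', polar_smul_left']
        show δ 1 2 * A 0 - δ 0 2 * A 1 + δ 0 1 * A 2 = 0
        simp only [hδdef]
        ring
      · rw [hl, polar_add_left, polar_sub_left, polar_smul_left', polar_smul_left', polar_smul_left']
        show δ 1 2 * B 0 - δ 0 2 * B 1 + δ 0 1 * B 2 = 0
        simp only [hδdef]
        ring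
    · exact h1
  have hall := fun μ : F => act2_all hx Sp.toAddSubgroup hy hcard hgen' (y μ)
  have hrig : ∀ μ : F, ∃ θ : Fin 4 → Fin 4 → F₀, (∀ i j, θ i j + θ j i = 0) ∧ (∀ i, θ i i = 0) ∧
      μ = ∑ i, ∑ j, (θ i j : F) * (𝔣 (lV (w i)) b * 𝔣 (lV (w j)) a) := by
    intro μ
    obtain ⟨g, hgM, hact⟩ := hall μ
    exact high_rigid hQ hR hM (by omega) hAs hW hgen hr hc hrk (by omega) hv₁W hv₂W h11 h12 h21 h22 hδ
      (t := ⟨g, hMi hgM⟩) hgM hact
  choose Θ hΘ1 hΘ2 hΘ3 using hrig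
  let Up := {p : Fin 4 × Fin 4 // p.1 < p.2}
  have hUp : Nat.card Up = 6 := by
    rw [Nat.card_eq_fintype_card]
    rfl
  let Ψ : F → (Up → F₀) := fun μ p => Θ μ p.1.1 p.1.2
  have hΨ : Function.Injective Ψ := by
    intro μ μ' h
    have h1 : ∀ i j : Fin 4, i < j → Θ μ i j = Θ μ' i j := fun i j hij => congrFun h ⟨(i, j), hij⟩
    have h2 : Θ μ = Θ μ' := by
      funext i j
      rcases lt_trichotomy i j with hij | hij | hij
      · exact h1 i j hij
      · subst hij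
        rw [hΘ2, hΘ2]
      · have h3 := h1 j i hij
        have h4 := hΘ1 μ i j
        have h5 := hΘ1 μ' i j
        rw [h3] at h4
        exact add_right_cancel (h4.trans h5.symm)
    rw [hΘ3 μ, hΘ3 μ', h2]
  have h1 := Nat.card_le_card_of_injective Ψ hΨ
  have h2 : Nat.card (Up → F₀) = Nat.card F₀ ^ 6 := by
    rw [Nat.card_fun, hUp]
  rw [h2, Nat.card_eq_fintype_card, hc] at h1
  have h5 := (Nat.pow_le_pow_iff_right (Finite.one_lt_card (α := F₀))).1 h1
  omega

/-- **The dichotomy.** -/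
theorem core (hMi : M ≤ Cfsg.isometryGroup F (⇑Q)) (hn : 13 ≤ Fintype.card ι) {r : ℕ} (hr : r.Prime)
    (hc : Fintype.card F = Nat.card F₀ ^ r) :
    (∀ g ∈ M, g ∈ (Matrix.GeneralLinearGroup.map (F₀.subtype : F₀ →+* F)).range ⊔ Cfsg.Geo.scalars ι F) ∨
      omegaGL (⇑Q) ≤ M := by
  classical
  rcases Cfsg.Agent.Lib.Classical.Sub.SLCore.subfield_dichotomy hr hc (subK hQ hR hM (by omega))
    (fun c hc => coe_mem_AsO hM ⟨c, hc⟩) with hK | hK
  · left
    have hAs : ∀ κ ∈ AsO Q M F₀, κ ∈ F₀ := fun κ hκ => (SetLike.ext_iff.1 hK κ).1 hκ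
    intro g hg
    apply mem_of_iso_lines hQ hR (by omega)
    intro u hu0 huu
    set t : ↥(Cfsg.isometryGroup F (⇑Q)) := ⟨g, hMi hg⟩ with ht
    have htM : (t : GL ι F) ∈ M := hg
    have hS1 : finrank F₀ (Submodule.span F₀ {u}) ≤ 1 := le_of_eq (finrank_span_singleton hu0)
    obtain ⟨u', hu'S, hu'u', hu', -⟩ := exists_iso_perp hR (r := finrank F₀ F) rfl ![u]
      (Fin.elim0 : Fin 0 → ι → F) (Submodule.span F₀ {u}) (by simp; omega)
    have hu'u : 𝔣 (lV u') (lV u) = 0 := hu' 0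
    have hS2 : finrank F₀ (Submodule.span F₀ {u, u'}) ≤ 2 := Orth.Siegel.finrank_span_pair_le u u'
    obtain ⟨u'', hu''S, hu''u'', hu'', -⟩ := exists_iso_perp hR (r := finrank F₀ F) rfl ![u]
      (Fin.elim0 : Fin 0 → ι → F) (Submodule.span F₀ {u, u'}) (by simp; omega)
    have hu''u : 𝔣 (lV u'') (lV u) = 0 := hu'' 0
    -- independence
    have hind : ∀ α β γ : F, α • lV u + β • lV u' + γ • lV u'' = 0 → α = 0 ∧ β = 0 ∧ γ = 0 := by
      intro α β γ h
      obtain ⟨ψ, hψ0, hψ1⟩ := Cfsg.Agent.Lib.Classical.Geo.Basic.exists_dual_eq_one hu''S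
      obtain ⟨ψ', hψ'0, hψ'1⟩ := Cfsg.Agent.Lib.Classical.Geo.Basic.exists_dual_eq_one hu'S
      have e1 := congrArg (lD ψ) h
      simp only [map_add, map_smul, lD_lV, hψ1, hψ0 u (Submodule.subset_span (by simp)), hψ0 u' (Submodule.subset_span (by simp)),
        map_zero, smul_eq_mul] at e1
      simp only [ZeroMemClass.coe_zero, OneMemClass.coe_one, mul_zero, mul_one, add_zero, zero_add] at e1
      subst e1
      have e2 := congrArg (lD ψ') h
      simp only [map_add, map_smul, lD_lV, hψ'1, hψ'0 u (Submodule.mem_span_singleton_self _), map_zero, smul_eq_mul,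
        zero_mul] at e2
      simp only [ZeroMemClass.coe_zero, OneMemClass.coe_one, mul_zero, mul_one, add_zero, zero_add] at e2
      subst e2
      simp only [zero_smul, add_zero] at h
      have e3 : α = 0 := (smul_eq_zero.1 h).resolve_right (lV_ne_zero hu0)
      exact ⟨e3, rfl, rfl⟩
    have hindt : ∀ α β γ : F, α • act t (lV u) + β • act t (lV u') + γ • act t (lV u'') = 0 → α = 0 ∧ β = 0 ∧ γ = 0 := by
      intro α β γ h
      apply hind
      rw [← act_smul, ← act_smul, ← act_smul, ← act_add, ← act_add] at h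
      have h1 := act_inv_act t (α • lV u + β • lV u' + γ • lV u'')
      rw [h, act_zero] at h1
      exact h1.symm
    have hc0 : act t (lV u) ≠ 0 := by
      intro h
      have h1 := hindt 1 0 0 (by simp [h])
      exact one_ne_zero h1.1
    have hnot1 : act t (lV u') ∉ Submodule.span F {act t (lV u)} := by
      intro h
      obtain ⟨e, he⟩ := Submodule.mem_span_singleton.1 h
      have h1 := hindt e (-1) 0 (by rw [he]; simp)
      exact one_ne_zero (neg_eq_zero.1 h1.2.1)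
    have hnot2 : act t (lV u'') ∉ Submodule.span F {act t (lV u)} := by
      intro h
      obtain ⟨e, he⟩ := Submodule.mem_span_singleton.1 h
      have h1 := hindt e 0 (-1) (by rw [he]; simp)
      exact one_ne_zero (neg_eq_zero.1 h1.2.2)
    have h1 : ∃ z : ι → F₀, z ≠ 0 ∧ Q (lV z) = 0 ∧ 𝔣 (lV z) (act t (lV u)) = 0 ∧ 𝔣 (lV z) (act t (lV u')) = 0 := by
      by_contra hcon
      push Not at hcon
      exact high_contra hQ hR hM hMi hn hAs hr hc (by rw [Q_act]; exact hu'u') hc0 hnot1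
        ((hM u u' huu (pc hu'u)).conj t htM) (fun z hz0 hzz h2 h3 => hcon z hz0 hzz h2 h3)
    have h2 : ∃ z : ι → F₀, z ≠ 0 ∧ Q (lV z) = 0 ∧ 𝔣 (lV z) (act t (lV u)) = 0 ∧ 𝔣 (lV z) (act t (lV u'')) = 0 := by
      by_contra hcon
      push Not at hcon
      exact high_contra hQ hR hM hMi hn hAs hr hc (by rw [Q_act]; exact hu''u'') hc0 hnot2
        ((hM u u'' huu (pc hu''u)).conj t htM) (fun z hz0 hzz h2 h3 => hcon z hz0 hzz h2 h3)
    obtain ⟨z, hz0, hzz, hz1, hz2⟩ := h1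
    obtain ⟨z', hz'0, hz'z', hz'1, hz'2⟩ := h2
    exact conj_line hQ hR hM (by omega) hAs t htM huu hu'u' hu''u'' (pc hu'u) (pc hu''u) hind hzz hz0 hz1 hz2 hz'z' hz'0 hz'1 hz'2
  · right
    apply omega_le_of_top hQ hR hM (by omega)
    intro κ
    have : κ ∈ subK hQ hR hM (by omega) := by
      rw [hK]
      exact Subfield.mem_top κ
    exact this

end High

end Cfsg.Agent.Lib.Classical.Sub.OCore
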