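/-
Overgroups of the rational points in an orthogonal group of dimension at least eleven: the dichotomy.
-/
import Mathlib
import Cfsg.Agent.Lib.Classical.Sub.OCore

set_option autoImplicit false
set_option linter.unusedSectionVars false

namespace Cfsg.Agent.Lib.Classical.Sub.OCore11

open scoped Matrix MatrixGroups
open Module Cfsg Cfsg.Geo QuadraticMap
open Cfsg.Agent.Lib.Classical.Orth.Basic
open Cfsg.Agent.Lib.Classical.Orth.Siegel
open Cfsg.Agent.Lib.Classical.Orth.Simple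
open Cfsg.Agent.Lib.Classical.Geo.OPts
open Cfsg.Agent.Lib.Classical.Geo.OPair
open Cfsg.Agent.Lib.Classical.Sub.Rat
open Cfsg.Agent.Lib.Classical.Sub.OBase
open Cfsg.Agent.Lib.Classical.Sub.OElts
open Cfsg.Agent.Lib.Classical.Sub.OLow
open Cfsg.Agent.Lib.Classical.Sub.OAct
open Cfsg.Agent.Lib.Classical.Sub.OHigh
open Cfsg.Agent.Lib.Classical.Sub.OCore
open Cfsg.Agent.Lib.Classical.Sub.Act
open Cfsg.Agent.Lib.PSL2.Basic
open Cfsg.Agent.Lib.Classical.Geo.UPair (not_mem_singleton_symm not_mem_pair)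

variable {ι : Type} [Fintype ι] [DecidableEq ι] {F : Type*} [Field F] [Fintype F]
  {Q : QuadraticForm F (ι → F)} {F₀ : Subfield F}

set_option quotPrecheck false in
local notation "𝔣" => polar (⇑Q)

variable {M : Subgroup (GL ι F)}

section Window

variable (hQ : (polarBilin Q).Nondegenerate) (hR : RatQ Q F₀)

include hQ hR

/-- A window containing a given pair of orthogonal singular rational vectors. -/
theorem exists_good_win11 (hn : 11 ≤ Fintype.card ι) {x₀ y₀ : ι → F₀} (hxx : Q (lV x₀) = 0) (hyy : Q (lV y₀) = 0)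
    (hxy : 𝔣 (lV x₀) (lV y₀) = 0) (hx0 : x₀ ≠ 0) (hyx : y₀ ∉ Submodule.span F₀ {x₀}) :
    ∃ w f' : Fin 4 → ι → F₀, Win Q w f' ∧ w 0 = x₀ ∧ w 1 = y₀ := by
  classical
  have hy0 : y₀ ≠ 0 := by
    rintro rfl
    exact hyx (Submodule.zero_mem _)
  obtain ⟨f₀, hf₀, h1, h2⟩ := exists_partner_rat hQ hR (x := x₀) (S := Submodule.span F₀ {y₀})
    (not_mem_singleton_symm hx0 hyx) hxx (by
    intro s hs
    obtain ⟨c, rfl⟩ := Submodule.mem_span_singleton.1 hs
    rw [lV_smul, polar_smul_left', pc hxy, mul_zero])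
  have hy₀f₀ : 𝔣 (lV y₀) (lV f₀) = 0 := h2 _ (Submodule.mem_span_singleton_self _)
  have hyS : y₀ ∉ Submodule.span F₀ {x₀, f₀} := by
    intro hmem
    obtain ⟨α, β, hab⟩ := Submodule.mem_span_pair.1 hmem
    have h3 := congrArg (fun z => 𝔣 (lV x₀) (lV z)) hab
    simp only [lV_add, lV_smul, polar_add_right, polar_smul_right', polar_zero_of_singular hxx, h1, hxy] at h3
    have hβ : (β : F) = 0 := by linear_combination h3
    have hβ' : β = 0 := Subtype.ext hβ
    rw [hβ', zero_smul, add_zero] at hab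
    apply hyx
    rw [← hab]
    exact Submodule.smul_mem _ _ (Submodule.mem_span_singleton_self _)
  obtain ⟨f₁, hf₁, h3, h4⟩ := exists_partner_rat hQ hR hyS hyy (by
    intro s hs
    exact orth_span_pair hxy (pc hy₀f₀) hs)
  have hx₀f₁ : 𝔣 (lV x₀) (lV f₁) = 0 := h4 _ (Submodule.subset_span (by simp))
  have hf₀f₁ : 𝔣 (lV f₀) (lV f₁) = 0 := h4 _ (Submodule.subset_span (by simp))
  obtain ⟨e₂, h₂, he₂, hh₂, h5, a2, b2⟩ := exists_hyp_rat hQ hR ![x₀, y₀, f₀, f₁] (by simp; omega)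
  have a20 : 𝔣 (lV e₂) (lV x₀) = 0 := a2 0
  have a21 : 𝔣 (lV e₂) (lV y₀) = 0 := a2 1
  have a22 : 𝔣 (lV e₂) (lV f₀) = 0 := a2 2
  have a23 : 𝔣 (lV e₂) (lV f₁) = 0 := a2 3
  have b20 : 𝔣 (lV h₂) (lV x₀) = 0 := b2 0
  have b21 : 𝔣 (lV h₂) (lV y₀) = 0 := b2 1
  have b22 : 𝔣 (lV h₂) (lV f₀) = 0 := b2 2
  have b23 : 𝔣 (lV h₂) (lV f₁) = 0 := b2 3
  have hsx := polar_zero_of_singular hxx
  have hsy := polar_zero_of_singular hyy
  have hsf₀ := polar_zero_of_singular hf₀
  have hsf₁ := polar_zero_of_singular hf₁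
  have hse₂ := polar_zero_of_singular he₂
  have hsh₂ := polar_zero_of_singular hh₂
  obtain ⟨e₃, h₃, he₃, hh₃, h6, a3, b3, a3', b3'⟩ := hyp_extend hQ hR (x := ![x₀, y₀, e₂]) (h := ![f₀, f₁, h₂]) (by omega)
    (by
      intro i j
      fin_cases i <;> fin_cases j <;>
        first
          | exact hsf₀ | exact hsf₁ | exact hsh₂ | exact hf₀f₁ | exact pc hf₀f₁ | exact b22 | exact pc b22 | exact b23 | exact pc b23)
    (by
      intro i j
      fin_cases i <;> fin_cases j <;>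
        first
          | exact hsx | exact hsy | exact hse₂ | exact hxy | exact pc hxy | exact a20 | exact pc a20 | exact a21 | exact pc a21)
    (by
      intro i j
      fin_cases i <;> fin_cases j <;> simp <;>
        first
          | exact h1 | exact h3 | exact h5 | exact hx₀f₁ | exact hy₀f₀ | exact pc b20 | exact pc b21 | exact a22 | exact a23)
  have a30 : 𝔣 (lV e₃) (lV x₀) = 0 := a3 0
  have a31 : 𝔣 (lV e₃) (lV y₀) = 0 := a3 1
  have a32 : 𝔣 (lV e₃) (lV e₂) = 0 := a3 2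
  have b30 : 𝔣 (lV e₃) (lV f₀) = 0 := b3 0
  have b31 : 𝔣 (lV e₃) (lV f₁) = 0 := b3 1
  have b32 : 𝔣 (lV e₃) (lV h₂) = 0 := b3 2
  have c30 : 𝔣 (lV h₃) (lV x₀) = 0 := a3' 0
  have c31 : 𝔣 (lV h₃) (lV y₀) = 0 := a3' 1
  have c32 : 𝔣 (lV h₃) (lV e₂) = 0 := a3' 2
  have d30 : 𝔣 (lV h₃) (lV f₀) = 0 := b3' 0
  have d31 : 𝔣 (lV h₃) (lV f₁) = 0 := b3' 1
  have d32 : 𝔣 (lV h₃) (lV h₂) = 0 := b3' 2
  have hse₃ := polar_zero_of_singular he₃
  have hsh₃ := polar_zero_of_singular hh₃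
  refine ⟨![x₀, y₀, e₂, e₃], ![f₀, f₁, h₂, h₃], ⟨?_, ?_, ?_, ?_, ?_⟩, rfl, rfl⟩
  · intro i
    fin_cases i
    · exact hxx
    · exact hyy
    · exact he₂
    · exact he₃
  · intro i
    fin_cases i
    · exact hf₀
    · exact hf₁
    · exact hh₂
    · exact hh₃
  · intro i j
    fin_cases i <;> fin_cases j <;>
      first
        | exact hsx | exact hsy | exact hse₂ | exact hse₃ | exact hxy | exact pc hxy | exact a20 | exact pc a20 | exact a21 | exact pc a21
        | exact a30 | exact pc a30 | exact a31 | exact pc a31 | exact a32 | exact pc a32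
  · intro i j
    fin_cases i <;> fin_cases j <;>
      first
        | exact hsf₀ | exact hsf₁ | exact hsh₂ | exact hsh₃ | exact hf₀f₁ | exact pc hf₀f₁ | exact b22 | exact pc b22 | exact b23 | exact pc b23
        | exact d30 | exact pc d30 | exact d31 | exact pc d31 | exact d32 | exact pc d32
  · intro i j
    fin_cases i <;> fin_cases j <;> simp <;>
      first
        | exact h1 | exact h3 | exact h5 | exact h6 | exact hx₀f₁ | exact hy₀f₀ | exact pc b20 | exact pc b21 | exact a22 | exact a23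
        | exact b30 | exact b31 | exact b32 | exact pc c30 | exact pc c31 | exact pc c32

end Window

section High

variable (hQ : (polarBilin Q).Nondegenerate) (hR : RatQ Q F₀) (hM : HasRatO Q M F₀)

include hQ hR hM

/-- A vector orthogonal to a rational plane; the case of small degree. -/
theorem small_contra (hn : 11 ≤ Fintype.card ι) (hAs : ∀ κ ∈ AsO Q M F₀, κ ∈ F₀) {r : ℕ} (hrk : finrank F₀ F = r)
    {a b : ι → F} (hbb : Q b = 0) (ha0 : a ≠ 0)
    (hba : b ∉ Submodule.span F {a}) (hY : InY Q M a b)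
    (hgen : ∀ z : ι → F₀, z ≠ 0 → Q (lV z) = 0 → 𝔣 (lV z) a = 0 → 𝔣 (lV z) b = 0 → False)
    (hrn : r + 5 ≤ Fintype.card ι) : False := by
  classical
  -- the end of the argument: a rational plane through `a`
  have hfin : ∀ u₁ u₂ : ι → F₀, a ∈ Submodule.span F {lV u₁, lV u₂} → False := by
    intro u₁ u₂ hmem
    obtain ⟨z, hzS, hzz, hz, hz'⟩ := exists_iso_perp hR hrk ![u₁, u₂] ![b] ⊥ (by
      simp
      omega)
    refine hgen z (by simpa using hzS) hzz ?_ (hz' 0)
    obtain ⟨α, β, rfl⟩ := Submodule.mem_span_pair.1 hmem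
    have h1 : 𝔣 (lV z) (lV u₁) = 0 := hz 0
    have h2 : 𝔣 (lV z) (lV u₂) = 0 := hz 1
    rw [polar_add_right, polar_smul_right', polar_smul_right', h1, h2]
    ring
  obtain ⟨c, hcS, hcc, -, hca⟩ := exists_iso_perp hR hrk (Fin.elim0 : Fin 0 → ι → F₀) ![a] ⊥ (by
    simp
    omega)
  have hc0 : c ≠ 0 := by simpa using hcS
  have hca' : 𝔣 (lV c) a = 0 := hca 0
  have hcb : 𝔣 (lV c) b ≠ 0 := fun h => hgen c hc0 hcc hca' h
  obtain ⟨d, hdS, hdd, hdc, hda⟩ := exists_iso_perp hR hrk ![c] ![a] (Submodule.span F₀ {c}) (by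
    have : finrank F₀ (Submodule.span F₀ {c}) = 1 := finrank_span_singleton hc0
    simp [this]
    omega)
  have hdc' : 𝔣 (lV d) (lV c) = 0 := hdc 0
  have hda' : 𝔣 (lV d) a = 0 := hda 0
  have hcd : 𝔣 (lV c) (lV d) = 0 := pc hdc'
  have hY1 := hM c d hcc hcd
  obtain ⟨h1, h2, hgM⟩ := hY1
  -- `lV c`, `lV d` are independent
  have hind : ∀ α β : F, α • lV d + β • lV c = 0 → α = 0 ∧ β = 0 := by
    intro α β h
    obtain ⟨ψ, hψ0, hψ1⟩ := Cfsg.Agent.Lib.Classical.Geo.Basic.exists_dual_eq_one hdS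
    have e1 := congrArg (lD ψ) h
    simp only [map_add, map_smul, lD_lV, hψ1, hψ0 c (Submodule.mem_span_singleton_self _), map_zero, smul_eq_mul] at e1
    simp only [ZeroMemClass.coe_zero, OneMemClass.coe_one, mul_zero, mul_one, add_zero] at e1
    subst e1
    simp only [zero_smul, zero_add] at h
    exact ⟨rfl, (smul_eq_zero.1 h).resolve_right (lV_ne_zero hc0)⟩
  set g : ↥(Cfsg.isometryGroup F (⇑Q)) := eichlerIso h1 h2 with hg
  have hfix : act g a = a := by
    rw [hg, act_eichlerIso, hca', hda']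
    simp
  have hY2 := InY.step hY g hgM hfix
  have e2 : act g b - b = 𝔣 (lV c) b • lV d - 𝔣 (lV d) b • lV c := by
    rw [hg, act_eichlerIso, hdd]
    simp
    abel
  rw [e2] at hY2
  set b' := 𝔣 (lV c) b • lV d - 𝔣 (lV d) b • lV c with hb'
  have hb'0 : b' ≠ 0 := by
    intro h
    have h3 : 𝔣 (lV c) b • lV d + (-𝔣 (lV d) b) • lV c = 0 := by
      rw [neg_smul, ← sub_eq_add_neg]
      exact h
    exact hcb (hind _ _ h3).1
  have hQb' : Q b' = 0 := by
    rw [hb', Q_sub, Q_smul, Q_smul, hdd, hcc, polar_smul_left', polar_smul_right', hdc']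
    ring
  have hcb' : 𝔣 (lV c) b' = 0 := by
    rw [hb', polar_sub_right, polar_smul_right', polar_smul_right', hcd, polar_zero_of_singular hcc]
    ring
  by_cases hb'a : b' ∈ Submodule.span F {a}
  · obtain ⟨κ, hκ⟩ := Submodule.mem_span_singleton.1 hb'a
    have hκ0 : κ ≠ 0 := by
      rintro rfl
      apply hb'0
      rw [← hκ, zero_smul]
    apply hfin d c
    rw [Submodule.mem_span_pair]
    refine ⟨κ⁻¹ * 𝔣 (lV c) b, κ⁻¹ * (-𝔣 (lV d) b), ?_⟩
    have e3 : a = κ⁻¹ • b' := by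
      rw [← hκ, smul_smul, inv_mul_cancel₀ hκ0, one_smul]
    rw [e3, hb', smul_sub, smul_smul, smul_smul, sub_eq_add_neg, ← neg_smul]
    simp
  · obtain ⟨u₁, u₂, h3, -⟩ := low_rat_E hQ hR hM hn hAs hQb' ha0 hb'a hY2 hcc hc0 hca' hcb'
    exact hfin u₁ u₂ h3

/-- **The generic case is impossible.** -/
theorem high_contra11 (hMi : M ≤ Cfsg.isometryGroup F (⇑Q)) (hn : 11 ≤ Fintype.card ι) (hAs : ∀ κ ∈ AsO Q M F₀, κ ∈ F₀)
    {r : ℕ} (hr : r.Prime) (hc : Fintype.card F = Nat.card F₀ ^ r) {a b : ι → F} (hbb : Q b = 0) (ha0 : a ≠ 0)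
    (hba : b ∉ Submodule.span F {a}) (hY : InY Q M a b)
    (hgen : ∀ z : ι → F₀, z ≠ 0 → Q (lV z) = 0 → 𝔣 (lV z) a = 0 → 𝔣 (lV z) b = 0 → False) : False := by
  classical
  obtain ⟨haa, hab, hg⟩ := id hY
  have hrk : finrank F₀ F = r := by
    have h1 : Nat.card F = Nat.card F₀ ^ finrank F₀ F := Module.natCard_eq_pow_finrank (K := F₀) (V := F)
    have h2 : 1 < Nat.card F₀ := Finite.one_lt_card
    rw [Nat.card_eq_fintype_card, hc] at h1
    exact (Nat.pow_right_injective h2 h1).symm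
  -- the degree is large
  have hr7 : 7 ≤ r := by
    by_contra hr7
    exact small_contra hQ hR hM hn hAs hrk hbb ha0 hba hY hgen (by omega)
  have hind : ∀ α β : F, α • b - β • a = 0 → α = 0 ∧ β = 0 := by
    intro α β h
    have hα : α = 0 := by
      by_contra hα
      apply hba
      have e : b = (β / α) • a := by
        have h1 : α • b = β • a := sub_eq_zero.1 h
        rw [← one_smul F b, ← div_self hα, div_eq_mul_inv, mul_comm, mul_smul, h1, smul_smul]
        congr 1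
        field_simp
      rw [e]
      exact Submodule.smul_mem _ _ (Submodule.mem_span_singleton_self a)
    subst hα
    refine ⟨rfl, ?_⟩
    rw [zero_smul, zero_sub, neg_eq_zero] at h
    exact (smul_eq_zero.1 h).resolve_right ha0
  obtain ⟨x₀, y₀, hx₀, hy₀, hxy, hδ⟩ := exists_good_pair hQ hR (by omega) hind hgen
  have hx00 : x₀ ≠ 0 := by
    rintro rfl
    apply hδ
    rw [lV_zero]
    simp
  have hyS : y₀ ∉ Submodule.span F₀ {x₀} := by
    intro hmem
    obtain ⟨c, rfl⟩ := Submodule.mem_span_singleton.1 hmem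
    apply hδ
    rw [lV_smul, polar_smul_left', polar_smul_left']
    ring
  obtain ⟨w, f', hW, hw0, hw1⟩ := exists_good_win11 hQ hR hn hx₀ hy₀ hxy hx00 hyS
  subst hw0 hw1
  set A : Fin 4 → F := fun i => 𝔣 (lV (w i)) a with hA
  set B : Fin 4 → F := fun i => 𝔣 (lV (w i)) b with hB
  set δ : Fin 4 → Fin 4 → F := fun i j => A i * B j - A j * B i with hδdef
  set D := δ 0 1 with hD
  have hD0 : D ≠ 0 := hδ
  set v₁ := D⁻¹ • (B 1 • lV (w 0) - B 0 • lV (w 1)) with hv₁
  set v₂ := D⁻¹ • (A 0 • lV (w 1) - A 1 • lV (w 0)) with hv₂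
  have hv₁W : v₁ ∈ WW w := (WW w).smul_mem _ ((WW w).sub_mem ((WW w).smul_mem _ (w_mem 0)) ((WW w).smul_mem _ (w_mem 1)))
  have hv₂W : v₂ ∈ WW w := (WW w).smul_mem _ ((WW w).sub_mem ((WW w).smul_mem _ (w_mem 1)) ((WW w).smul_mem _ (w_mem 0)))
  have hDe : D = A 0 * B 1 - A 1 * B 0 := rfl
  have h11 : 𝔣 v₁ a = 1 := by
    rw [hv₁, polar_smul_left', polar_sub_left, polar_smul_left', polar_smul_left']
    show D⁻¹ * (B 1 * A 0 - B 0 * A 1) = 1
    have e : B 1 * A 0 - B 0 * A 1 = D := by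
      rw [hDe]
      ring
    rw [e, inv_mul_cancel₀ hD0]
  have h12 : 𝔣 v₁ b = 0 := by
    rw [hv₁, polar_smul_left', polar_sub_left, polar_smul_left', polar_smul_left']
    show D⁻¹ * (B 1 * B 0 - B 0 * B 1) = 0
    ring
  have h21 : 𝔣 v₂ a = 0 := by
    rw [hv₂, polar_smul_left', polar_sub_left, polar_smul_left', polar_smul_left']
    show D⁻¹ * (A 0 * A 1 - A 1 * A 0) = 0
    ring
  have h22 : 𝔣 v₂ b = 1 := by
    rw [hv₂, polar_smul_left', polar_sub_left, polar_smul_left', polar_smul_left']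
    show D⁻¹ * (A 0 * B 1 - A 1 * B 0) = 1
    rw [← hDe, inv_mul_cancel₀ hD0]
  set R := RR Q (WW w) a b with hRdef
  have hWt : ∀ u ∈ WW w, ∀ u' ∈ WW w, 𝔣 u u' = 0 := fun u hu u' hu' => f_WW hW hu hu'
  -- the additive group
  set T : Set F := Set.range fun p : Fin 4 × Fin 4 => δ p.1 p.2 with hT
  set Sp := Submodule.span F₀ T with hSp
  have hδT : ∀ i j, δ i j ∈ Sp := fun i j => Submodule.subset_span ⟨(i, j), rfl⟩
  have hx : ∃ g ∈ M, Act2 R b v₁ (-a) v₂ g (x (1 : F)) := ⟨_, hg, act2_x haa hbb hab h11 h12 h21 h22⟩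
  have hy1 : ∀ (ε : F₀) (i j : Fin 4), ∃ g ∈ M, Act2 R b v₁ (-a) v₂ g (y (-((ε : F) * δ i j))) := by
    intro ε i j
    obtain ⟨h1, h2, h3⟩ := hM (ε • w i) (w j) (by rw [lV_smul]; exact Q_scale (hW.qw i) _)
      (by rw [lV_smul]; exact f_scale_left (hW.ww i j) _)
    refine ⟨_, h3, ?_⟩
    have h4 := act2_y (W := WW w) (a := a) (b := b) hWt hv₁W hv₂W h11 h12 h21 h22
      (c := lV (ε • w i)) (d := lV (w j)) (by rw [lV_smul]; exact (WW w).smul_mem _ (w_mem i)) (w_mem j) h1 (hW.qw j) h2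
    have e : 𝔣 (lV (w j)) a * 𝔣 (lV (ε • w i)) b - 𝔣 (lV (ε • w i)) a * 𝔣 (lV (w j)) b = -((ε : F) * δ i j) := by
      rw [lV_smul, polar_smul_left', polar_smul_left']
      show A j * (ε * B i) - ε * A i * B j = -((ε : F) * (A i * B j - A j * B i))
      ring
    rwa [e] at h4
  have hy2 : ∀ d ∈ Sp, ∀ c : F₀, ∃ g ∈ M, Act2 R b v₁ (-a) v₂ g (y ((c : F) * d)) := by
    intro d hd
    induction hd using Submodule.span_induction with
    | mem t ht =>
      obtain ⟨⟨i, j⟩, rfl⟩ := ht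
      intro c
      have h1 := hy1 (-c) i j
      have e : -((-c : F₀) : F) * δ i j = (c : F) * δ i j := by
        push_cast
        ring
      simpa [e] using h1
    | zero =>
      intro c
      rw [mul_zero, y_zero]
      exact ⟨1, M.one_mem, Act2.one⟩
    | add s t _ _ h1 h2 =>
      intro c
      obtain ⟨g₁, h3, h4⟩ := h1 c
      obtain ⟨g₂, h5, h6⟩ := h2 c
      rw [mul_add, y_add]
      exact ⟨_, M.mul_mem h3 h5, h4.mul h6⟩
    | smul e s _ h1 =>
      intro c
      have h2 := h1 (c * e)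
      have e1 : (c : F) * (e • s) = ((c * e : F₀) : F) * s := by
        rw [Subfield.smul_def, smul_eq_mul]
        push_cast
        ring
      rwa [e1]
  have hy : ∀ d ∈ Sp.toAddSubgroup, ∃ g ∈ M, Act2 R b v₁ (-a) v₂ g (y d) := by
    intro d hd
    have h1 := hy2 d hd 1
    simpa using h1
  -- the size of the additive group
  set s₁ := δ 0 2 / D with hs₁
  set s₂ := δ 1 2 / D with hs₂
  set s₃ := δ 0 3 / D with hs₃
  set s₄ := δ 1 3 / D with hs₄
  have hH : ∀ x₂ x₃ : F₀, (x₂ : F) * s₁ + x₃ * s₃ ∈ F₀ → (x₂ : F) * s₂ + x₃ * s₄ ∈ F₀ → x₂ = 0 ∧ x₃ = 0 := by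
    intro x₂ x₃ h1 h2
    set p : F₀ := -⟨(x₂ : F) * s₁ + x₃ * s₃, h1⟩ with hp
    set q : F₀ := ⟨(x₂ : F) * s₂ + x₃ * s₄, h2⟩ with hq
    have hp' : (p : F) = -((x₂ : F) * s₁ + x₃ * s₃) := rfl
    have hq' : (q : F) = (x₂ : F) * s₂ + x₃ * s₄ := rfl
    set z : ι → F₀ := q • w 0 + p • w 1 + x₂ • w 2 + x₃ • w 3 with hz
    have hlz : lV z = (q : F) • lV (w 0) + (p : F) • lV (w 1) + (x₂ : F) • lV (w 2) + (x₃ : F) • lV (w 3) := rfl
    have hzW : lV z ∈ WW w := by
      rw [hlz]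
      exact (WW w).add_mem ((WW w).add_mem ((WW w).add_mem ((WW w).smul_mem _ (w_mem 0)) ((WW w).smul_mem _ (w_mem 1)))
        ((WW w).smul_mem _ (w_mem 2))) ((WW w).smul_mem _ (w_mem 3))
    have hza : 𝔣 (lV z) a = 0 := by
      rw [hlz, polar_add_left, polar_add_left, polar_add_left, polar_smul_left', polar_smul_left', polar_smul_left',
        polar_smul_left', hp', hq', hs₁, hs₂, hs₃, hs₄]
      show ((x₂ : F) * (δ 1 2 / D) + x₃ * (δ 1 3 / D)) * A 0 + -((x₂ : F) * (δ 0 2 / D) + x₃ * (δ 0 3 / D)) * A 1 + x₂ * A 2 + x₃ * A 3 = 0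
      field_simp
      rw [hDe]
      simp only [hδdef]
      ring
    have hzb : 𝔣 (lV z) b = 0 := by
      rw [hlz, polar_add_left, polar_add_left, polar_add_left, polar_smul_left', polar_smul_left', polar_smul_left',
        polar_smul_left', hp', hq', hs₁, hs₂, hs₃, hs₄]
      show ((x₂ : F) * (δ 1 2 / D) + x₃ * (δ 1 3 / D)) * B 0 + -((x₂ : F) * (δ 0 2 / D) + x₃ * (δ 0 3 / D)) * B 1 + x₂ * B 2 + x₃ * B 3 = 0
      field_simp
      rw [hDe]
      simp only [hδdef]
      ring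
    have hz0 : z = 0 := by
      by_contra hne
      exact hgen z hne (Q_WW hW hzW) hza hzb
    have h3 := congrArg (fun c : ι → F₀ => 𝔣 (lV c) (lV (f' 2))) hz0
    have h4 := congrArg (fun c : ι → F₀ => 𝔣 (lV c) (lV (f' 3))) hz0
    simp only [hlz, lV_zero, polar_add_left, polar_smul_left', hW.wf, polar_zero_left] at h3 h4
    simp at h3 h4
    exact ⟨h3, h4⟩
  have hdim := plucker_dim hr hc hrk (by omega) hH
  set Sp₂ := Submodule.span F₀ ({1, s₁, s₂, s₃, s₄, s₁ * s₄ - s₂ * s₃} : Set F) with hSp₂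
  have hmap : ∀ x ∈ Sp₂, D * x ∈ Sp := by
    intro x hx
    induction hx using Submodule.span_induction with
    | mem t ht =>
      rcases ht with rfl | rfl | rfl | rfl | rfl | rfl
      · rw [mul_one]
        exact hδT 0 1
      · rw [hs₁, mul_div_cancel₀ _ hD0]
        exact hδT 0 2
      · rw [hs₂, mul_div_cancel₀ _ hD0]
        exact hδT 1 2
      · rw [hs₃, mul_div_cancel₀ _ hD0]
        exact hδT 0 3
      · rw [hs₄, mul_div_cancel₀ _ hD0]
        exact hδT 1 3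
      · have e : D * (s₁ * s₄ - s₂ * s₃) = δ 2 3 := by
          rw [hs₁, hs₂, hs₃, hs₄]
          field_simp
          rw [hDe]
          simp only [hδdef]
          ring
        rw [e]
        exact hδT 2 3
    | zero =>
      rw [mul_zero]
      exact Sp.zero_mem
    | add u v _ _ h1 h2 =>
      rw [mul_add]
      exact Sp.add_mem h1 h2
    | smul c u _ h1 =>
      rw [mul_smul_comm]
      exact Sp.smul_mem c h1
  have hcard : 8 ≤ Nat.card Sp.toAddSubgroup := by
    let Φ : Sp₂ → Sp.toAddSubgroup := fun u => ⟨D * u, hmap u u.2⟩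
    have hΦ : Function.Injective Φ := by
      intro u v h
      have h1 : D * (u : F) = D * v := congrArg Subtype.val h
      exact Subtype.ext (mul_left_cancel₀ hD0 h1)
    have h1 := Nat.card_le_card_of_injective Φ hΦ
    have h2 : Nat.card Sp₂ = Nat.card F₀ ^ finrank F₀ Sp₂ := Module.natCard_eq_pow_finrank (K := F₀) (V := Sp₂)
    have h3 : 2 ≤ Nat.card F₀ := Finite.one_lt_card
    have h4 : 2 ^ 3 ≤ Nat.card F₀ ^ finrank F₀ Sp₂ :=
      (Nat.pow_le_pow_left h3 3).trans (Nat.pow_le_pow_right (by omega) hdim)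
    rw [← h2] at h4
    have h5 : (2 : ℕ) ^ 3 = 8 := by norm_num
    omega
  have hgen' : ∀ W' : Subfield F, (∀ d ∈ Sp.toAddSubgroup, d ∈ W') → W' = ⊤ := by
    intro W' hW'
    have hδW : ∀ i j, δ i j ∈ W' := fun i j => hW' _ (hδT i j)
    have hle : F₀ ≤ W' := by
      intro c hc'
      have h1 : (⟨c, hc'⟩ : F₀) • D ∈ Sp := Sp.smul_mem _ (hδT 0 1)
      have h2 : c * D ∈ W' := hW' _ h1
      have e : c = (c * D) / D := by
        field_simp
      rw [e]
      exact W'.div_mem h2 (hδW 0 1)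
    rcases Cfsg.Agent.Lib.Classical.Sub.SLCore.subfield_dichotomy hr hc W' hle with h1 | h1
    · exfalso
      rw [h1] at hδW
      set r₀ : ι → F₀ := (⟨δ 1 2, hδW 1 2⟩ : F₀) • w 0 - (⟨δ 0 2, hδW 0 2⟩ : F₀) • w 1 + (⟨δ 0 1, hδW 0 1⟩ : F₀) • w 2 with hr₀
      have hl : lV r₀ = δ 1 2 • lV (w 0) - δ 0 2 • lV (w 1) + δ 0 1 • lV (w 2) := rfl
      have hzW : lV r₀ ∈ WW w := by
        rw [hl]
        exact (WW w).add_mem ((WW w).sub_mem ((WW w).smul_mem _ (w_mem 0)) ((WW w).smul_mem _ (w_mem 1))) ((WW w).smul_mem _ (w_mem 2))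
      have hz0 : r₀ ≠ 0 := by
        intro h0
        have h3 := congrArg (fun c : ι → F₀ => 𝔣 (lV c) (lV (f' 2))) h0
        simp only [hl, lV_zero, polar_add_left, polar_sub_left, polar_smul_left', hW.wf, polar_zero_left] at h3
        simp at h3
        exact hD0 h3
      refine hgen r₀ hz0 (Q_WW hW hzW) ?_ ?_
      · rw [hl, polar_add_left, polar_sub_left, polar_smul_left', polar_smul_left', polar_smul_left']
        show δ 1 2 * A 0 - δ 0 2 * A 1 + δ 0 1 * A 2 = 0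
        simp only [hδdef]
        ring
      · rw [hl, polar_add_left, polar_sub_left, polar_smul_left', polar_smul_left', polar_smul_left']
        show δ 1 2 * B 0 - δ 0 2 * B 1 + δ 0 1 * B 2 = 0
        simp only [hδdef]
        ring
    · exact h1
  have hall := fun μ : F => act2_all hx Sp.toAddSubgroup hy hcard hgen' (y μ)
  have hrig : ∀ μ : F, ∃ θ : Fin 4 → Fin 4 → F₀, (∀ i j, θ i j + θ j i = 0) ∧ (∀ i, θ i i = 0) ∧
      μ = ∑ i, ∑ j, (θ i j : F) * (𝔣 (lV (w i)) b * 𝔣 (lV (w j)) a) := by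
    intro μ
    obtain ⟨g, hgM, hact⟩ := hall μ
    exact high_rigid hQ hR hM (by omega) hAs hW hgen hr hc hrk (by omega) hv₁W hv₂W h11 h12 h21 h22 hδ
      (t := ⟨g, hMi hgM⟩) hgM hact
  choose Θ hΘ1 hΘ2 hΘ3 using hrig
  let Up := {p : Fin 4 × Fin 4 // p.1 < p.2}
  have hUp : Nat.card Up = 6 := by
    rw [Nat.card_eq_fintype_card]
    rfl
  let Ψ : F → (Up → F₀) := fun μ p => Θ μ p.1.1 p.1.2
  have hΨ : Function.Injective Ψ := by
    intro μ μ' h
    have h1 : ∀ i j : Fin 4, i < j → Θ μ i j = Θ μ' i j := fun i j hij => congrFun h ⟨(i, j), hij⟩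
    have h2 : Θ μ = Θ μ' := by
      funext i j
      rcases lt_trichotomy i j with hij | hij | hij
      · exact h1 i j hij
      · subst hij
        rw [hΘ2, hΘ2]
      · have h3 := h1 j i hij
        have h4 := hΘ1 μ i j
        have h5 := hΘ1 μ' i j
        rw [h3] at h4
        exact add_right_cancel (h4.trans h5.symm)
    rw [hΘ3 μ, hΘ3 μ', h2]
  have h1 := Nat.card_le_card_of_injective Ψ hΨ
  have h2 : Nat.card (Up → F₀) = Nat.card F₀ ^ 6 := by
    rw [Nat.card_fun, hUp]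
  rw [h2, Nat.card_eq_fintype_card, hc] at h1
  have h5 := (Nat.pow_le_pow_iff_right (Finite.one_lt_card (α := F₀))).1 h1
  omega

/-- **The dichotomy.** -/
theorem core11 (hMi : M ≤ Cfsg.isometryGroup F (⇑Q)) (hn : 11 ≤ Fintype.card ι) {r : ℕ} (hr : r.Prime)
    (hc : Fintype.card F = Nat.card F₀ ^ r) :
    (∀ g ∈ M, g ∈ (Matrix.GeneralLinearGroup.map (F₀.subtype : F₀ →+* F)).range ⊔ Cfsg.Geo.scalars ι F) ∨
      omegaGL (⇑Q) ≤ M := by
  classical
  rcases Cfsg.Agent.Lib.Classical.Sub.SLCore.subfield_dichotomy hr hc (subK hQ hR hM (by omega))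
    (fun c hc => coe_mem_AsO hM ⟨c, hc⟩) with hK | hK
  · left
    have hAs : ∀ κ ∈ AsO Q M F₀, κ ∈ F₀ := fun κ hκ => (SetLike.ext_iff.1 hK κ).1 hκ
    intro g hg
    apply mem_of_iso_lines hQ hR (by omega)
    intro u hu0 huu
    set t : ↥(Cfsg.isometryGroup F (⇑Q)) := ⟨g, hMi hg⟩ with ht
    have htM : (t : GL ι F) ∈ M := hg
    have hS1 : finrank F₀ (Submodule.span F₀ {u}) ≤ 1 := le_of_eq (finrank_span_singleton hu0)
    obtain ⟨u', hu'S, hu'u', hu', -⟩ := exists_iso_perp hR (r := finrank F₀ F) rfl ![u]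
      (Fin.elim0 : Fin 0 → ι → F) (Submodule.span F₀ {u}) (by simp; omega)
    have hu'u : 𝔣 (lV u') (lV u) = 0 := hu' 0
    have hS2 : finrank F₀ (Submodule.span F₀ {u, u'}) ≤ 2 := Orth.Siegel.finrank_span_pair_le u u'
    obtain ⟨u'', hu''S, hu''u'', hu'', -⟩ := exists_iso_perp hR (r := finrank F₀ F) rfl ![u]
      (Fin.elim0 : Fin 0 → ι → F) (Submodule.span F₀ {u, u'}) (by simp; omega)
    have hu''u : 𝔣 (lV u'') (lV u) = 0 := hu'' 0
    -- independence
    have hind : ∀ α β γ : F, α • lV u + β • lV u' + γ • lV u'' = 0 → α = 0 ∧ β = 0 ∧ γ = 0 := by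
      intro α β γ h
      obtain ⟨ψ, hψ0, hψ1⟩ := Cfsg.Agent.Lib.Classical.Geo.Basic.exists_dual_eq_one hu''S
      obtain ⟨ψ', hψ'0, hψ'1⟩ := Cfsg.Agent.Lib.Classical.Geo.Basic.exists_dual_eq_one hu'S
      have e1 := congrArg (lD ψ) h
      simp only [map_add, map_smul, lD_lV, hψ1, hψ0 u (Submodule.subset_span (by simp)), hψ0 u' (Submodule.subset_span (by simp)),
        map_zero, smul_eq_mul] at e1
      simp only [ZeroMemClass.coe_zero, OneMemClass.coe_one, mul_zero, mul_one, add_zero, zero_add] at e1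
      subst e1
      have e2 := congrArg (lD ψ') h
      simp only [map_add, map_smul, lD_lV, hψ'1, hψ'0 u (Submodule.mem_span_singleton_self _), map_zero, smul_eq_mul,
        zero_mul] at e2
      simp only [ZeroMemClass.coe_zero, OneMemClass.coe_one, mul_zero, mul_one, add_zero, zero_add] at e2
      subst e2
      simp only [zero_smul, add_zero] at h
      have e3 : α = 0 := (smul_eq_zero.1 h).resolve_right (lV_ne_zero hu0)
      exact ⟨e3, rfl, rfl⟩
    have hindt : ∀ α β γ : F, α • act t (lV u) + β • act t (lV u') + γ • act t (lV u'') = 0 → α = 0 ∧ β = 0 ∧ γ = 0 := by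
      intro α β γ h
      apply hind
      rw [← act_smul, ← act_smul, ← act_smul, ← act_add, ← act_add] at h
      have h1 := act_inv_act t (α • lV u + β • lV u' + γ • lV u'')
      rw [h, act_zero] at h1
      exact h1.symm
    have hc0 : act t (lV u) ≠ 0 := by
      intro h
      have h1 := hindt 1 0 0 (by simp [h])
      exact one_ne_zero h1.1
    have hnot1 : act t (lV u') ∉ Submodule.span F {act t (lV u)} := by
      intro h
      obtain ⟨e, he⟩ := Submodule.mem_span_singleton.1 h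
      have h1 := hindt e (-1) 0 (by rw [he]; simp)
      exact one_ne_zero (neg_eq_zero.1 h1.2.1)
    have hnot2 : act t (lV u'') ∉ Submodule.span F {act t (lV u)} := by
      intro h
      obtain ⟨e, he⟩ := Submodule.mem_span_singleton.1 h
      have h1 := hindt e 0 (-1) (by rw [he]; simp)
      exact one_ne_zero (neg_eq_zero.1 h1.2.2)
    have h1 : ∃ z : ι → F₀, z ≠ 0 ∧ Q (lV z) = 0 ∧ 𝔣 (lV z) (act t (lV u)) = 0 ∧ 𝔣 (lV z) (act t (lV u')) = 0 := by
      by_contra hcon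
      push Not at hcon
      exact high_contra11 hQ hR hM hMi hn hAs hr hc (by rw [Q_act]; exact hu'u') hc0 hnot1
        ((hM u u' huu (pc hu'u)).conj t htM) (fun z hz0 hzz h2 h3 => hcon z hz0 hzz h2 h3)
    have h2 : ∃ z : ι → F₀, z ≠ 0 ∧ Q (lV z) = 0 ∧ 𝔣 (lV z) (act t (lV u)) = 0 ∧ 𝔣 (lV z) (act t (lV u'')) = 0 := by
      by_contra hcon
      push Not at hcon
      exact high_contra11 hQ hR hM hMi hn hAs hr hc (by rw [Q_act]; exact hu''u'') hc0 hnot2
        ((hM u u'' huu (pc hu''u)).conj t htM) (fun z hz0 hzz h2 h3 => hcon z hz0 hzz h2 h3)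
    obtain ⟨z, hz0, hzz, hz1, hz2⟩ := h1
    obtain ⟨z', hz'0, hz'z', hz'1, hz'2⟩ := h2
    exact conj_line hQ hR hM (by omega) hAs t htM huu hu'u' hu''u'' (pc hu'u) (pc hu''u) hind hzz hz0 hz1 hz2 hz'z' hz'0 hz'1 hz'2
  · right
    apply omega_le_of_top hQ hR hM (by omega)
    intro κ
    have : κ ∈ subK hQ hR hM (by omega) := by
      rw [hK]
      exact Subfield.mem_top κ
    exact this

end High

end Cfsg.Agent.Lib.Classical.Sub.OCore11
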