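/-
Maximality of the subfield subgroups of the orthogonal groups: the transfer to the rational coordinates.
-/
import Mathlib
import Cfsg.Agent.Lib.Classical.Sub.OCore
import Cfsg.Agent.Lib.Classical.Asch.MaxCases

set_option autoImplicit false
set_option linter.unusedSectionVars false

namespace Cfsg.Agent.Lib.Classical.Sub.OMain

open scoped Matrix MatrixGroups
open Module Cfsg Cfsg.Geo QuadraticMap
open Cfsg.Agent.Lib.Classical.Orth.Basic
open Cfsg.Agent.Lib.Classical.Orth.Siegel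
open Cfsg.Agent.Lib.Classical.Orth.Simple
open Cfsg.Agent.Lib.Classical.Geo.OPts
open Cfsg.Agent.Lib.Classical.Sub.Rat
open Cfsg.Agent.Lib.Classical.Sub.OBase
open Cfsg.Agent.Lib.Classical.Sub.OElts
open Cfsg.Agent.Lib.Classical.Sub.OLow
open Cfsg.Agent.Lib.Classical.Sub.OCore
open Cfsg.Agent.Lib.Classical.Geo.UPair (not_mem_singleton_symm)
open Cfsg.Agent.Lib.Classical.Geo.Basic (mulVec_inv_mulVec inv_mulVec_mulVec mulVec_injective)

variable {ι : Type} [Fintype ι] [DecidableEq ι] {F : Type*} [Field F] [Fintype F]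
  {Q : QuadraticForm F (ι → F)} {F₀ : Subfield F}

local notation "Mt" => Matrix ι ι F

set_option quotPrecheck false in
local notation "𝔣" => polar (⇑Q)

/-- The form in the coordinates of `P`. -/
noncomputable def QP (Q : QuadraticForm F (ι → F)) (P : GL ι F) : QuadraticForm F (ι → F) :=
  Q.comp (Matrix.toLin' (P : Mt))

theorem QP_apply (P : GL ι F) (x : ι → F) : QP Q P x = Q ((P : Mt) *ᵥ x) := rfl

theorem polar_QP (P : GL ι F) (x y : ι → F) : polar (⇑(QP Q P)) x y = 𝔣 ((P : Mt) *ᵥ x) ((P : Mt) *ᵥ y) := by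
  simp only [polar, QP_apply, Matrix.mulVec_add]

theorem QP_nondeg (hQ : (polarBilin Q).Nondegenerate) (P : GL ι F) : (polarBilin (QP Q P)).Nondegenerate := by
  refine ⟨fun x hx => ?_, fun x hx => ?_⟩
  · apply mulVec_injective P
    change (P : Mt) *ᵥ x = (P : Mt) *ᵥ 0
    rw [Matrix.mulVec_zero]
    apply hQ.1
    intro y
    have h1 := hx (((P⁻¹ : GL ι F) : Mt) *ᵥ y)
    rw [polarBilin_apply_apply, polar_QP, mulVec_inv_mulVec] at h1
    exact h1
  · apply mulVec_injective P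
    change (P : Mt) *ᵥ x = (P : Mt) *ᵥ 0
    rw [Matrix.mulVec_zero]
    apply hQ.2
    intro y
    have h1 := hx (((P⁻¹ : GL ι F) : Mt) *ᵥ y)
    rw [polarBilin_apply_apply, polar_QP, mulVec_inv_mulVec] at h1
    exact h1

/-- Conjugation of Eichler elements by the change of coordinates. -/
theorem conj_eG (P : GL ι F) {z b y c : ι → F} (hz : QP Q P z = 0) (hb : polar (⇑(QP Q P)) z b = 0)
    (hPz : (P : Mt) *ᵥ z = y) (hPb : (P : Mt) *ᵥ b = c) (hy : Q y = 0) (hc : 𝔣 y c = 0) :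
    P * eG (Q := QP Q P) hz hb * P⁻¹ = eG (Q := Q) hy hc := by
  subst hPz hPb
  apply gl_ext
  intro x
  rw [Units.val_mul, Units.val_mul, ← Matrix.mulVec_mulVec, ← Matrix.mulVec_mulVec, eG_mulVec, eG_mulVec]
  simp only [polar_QP, mulVec_inv_mulVec, QP_apply, Matrix.mulVec_sub, Matrix.mulVec_add, Matrix.mulVec_smul]

theorem map_mulVec_lV_gen (G : GL ι F₀) (x : ι → F₀) :
    ((Matrix.GeneralLinearGroup.map (F₀.subtype : F₀ →+* F) G : GL ι F) : Mt) *ᵥ lV x =
      lV ((G : Matrix ι ι F₀) *ᵥ x) := by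
  funext i
  have h := RingHom.map_mulVec (F₀.subtype : F₀ →+* F) (G : Matrix ι ι F₀) x i
  exact h.symm

/-- Membership in the rational group with scalars, on rational vectors. -/
theorem mem_sup_lines_gen {g : GL ι F}
    (hg : g ∈ (Matrix.GeneralLinearGroup.map (F₀.subtype : F₀ →+* F)).range ⊔ scalars ι F) (x : ι → F₀) :
    ∃ (κ : F) (y₀ : ι → F₀), (g : Mt) *ᵥ lV x = κ • lV y₀ := by
  obtain ⟨g₀, ⟨h₀, rfl⟩, z, hz, rfl⟩ := Subgroup.mem_sup_of_normal_right.mp hg
  obtain ⟨d, hd⟩ := (Cfsg.Agent.Lib.Classical.Asch.Basic.mem_scalars_iff' z).mp hz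
  refine ⟨d, (h₀ : Matrix ι ι F₀) *ᵥ x, ?_⟩
  rw [Units.val_mul, hd, Matrix.mul_smul, mul_one, Matrix.smul_mulVec, map_mulVec_lV_gen]

/-- An Eichler element outside the rational group with scalars. -/
theorem exists_not_mem (hQ : (polarBilin Q).Nondegenerate) (hR : RatQ Q F₀) (hn : 7 ≤ Fintype.card ι) (hne : F₀ ≠ ⊤) :
    ∃ (z b : ι → F) (hz : Q z = 0) (hb : 𝔣 z b = 0),
      eG hz hb ∉ (Matrix.GeneralLinearGroup.map (F₀.subtype : F₀ →+* F)).range ⊔ scalars ι F := by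
  classical
  obtain ⟨κ, hκ⟩ : ∃ c : F, c ∉ F₀ := by
    by_contra hcon
    push Not at hcon
    exact hne (eq_top_iff.2 fun x _ => hcon x)
  have hκ0 : κ ≠ 0 := by
    rintro rfl
    exact hκ F₀.zero_mem
  obtain ⟨a, haS, haa, -, -⟩ := exists_iso_perp hR (r := finrank F₀ F) rfl (Fin.elim0 : Fin 0 → ι → F₀)
    (Fin.elim0 : Fin 0 → ι → F) ⊥ (by simp; omega)
  have ha0 : a ≠ 0 := by simpa using haS
  have hS1 : finrank F₀ (Submodule.span F₀ {a}) ≤ 1 := le_of_eq (finrank_span_singleton ha0)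
  obtain ⟨b, hbS, hbb, hb, -⟩ := exists_iso_perp hR (r := finrank F₀ F) rfl ![a]
    (Fin.elim0 : Fin 0 → ι → F) (Submodule.span F₀ {a}) (by simp; omega)
  have hba : 𝔣 (lV b) (lV a) = 0 := hb 0
  obtain ⟨h', -, h1, h2⟩ := exists_partner_rat hQ hR hbS hbb (fun s hs => by
    obtain ⟨c, rfl⟩ := Submodule.mem_span_singleton.1 hs
    rw [lV_smul, polar_smul_left', pc hba, mul_zero])
  have hah' := h2 a (Submodule.mem_span_singleton_self _)
  have h0 : Q (κ • lV a) = 0 := Q_scale haa κ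
  have hab : 𝔣 (κ • lV a) (lV b) = 0 := f_scale_left (pc hba) κ
  refine ⟨_, _, h0, hab, fun hmem => ?_⟩
  obtain ⟨d, y, hy⟩ := mem_sup_lines_gen hmem h'
  rw [eG_mulVec, polar_smul_left', hah', polar_comm (⇑Q) (lV b) (lV h'), polar_comm (⇑Q) (lV h') (lV b), h1] at hy
  simp only [mul_zero, zero_smul, add_zero, one_smul, sub_zero] at hy
  have hsum : (1 : F) • lV h' + (-κ) • lV a = d • lV y := by
    rw [← hy, one_smul, neg_smul]
    abel
  have h3 : h' ∉ Submodule.span F₀ {a} := by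
    intro hm
    obtain ⟨c, rfl⟩ := Submodule.mem_span_singleton.1 hm
    rw [lV_smul, polar_smul_right', hba, mul_zero] at h1
    exact zero_ne_one h1
  have h'0 : h' ≠ 0 := by
    rintro rfl
    exact h3 (Submodule.zero_mem _)
  have h4 : a ∉ Submodule.span F₀ {h'} := not_mem_singleton_symm ha0 h3
  have h5 := ratio_of_sum h3 h4 one_ne_zero (neg_ne_zero.2 hκ0) hsum
  apply hκ
  have e2 : κ = -(1 / -κ)⁻¹ := by
    field_simp
  rw [e2]
  exact F₀.neg_mem (F₀.inv_mem h5)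

/-- **Maximality of the subfield subgroups of the orthogonal groups.** -/
theorem isMaximal_rat (hQ : (polarBilin Q).Nondegenerate) (hn : 13 ≤ Fintype.card ι) {r : ℕ} (hr : r.Prime)
    (hc : Fintype.card F = Nat.card F₀ ^ r) (P : GL ι F) (hP : IsQuadFormRationalStructure (⇑Q) F₀ P) :
    IsMaximalIn (omegaGL (⇑Q)) (subfieldSubgroup F₀ P ⊓ omegaGL (⇑Q)) := by
  classical
  have hn5 : 5 ≤ Fintype.card ι := by omega
  haveI : Nonempty ι := by
    apply Fintype.card_pos_iff.1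
    omega
  set Q' := QP Q P with hQ'def
  have hQ' : (polarBilin Q').Nondegenerate := QP_nondeg hQ P
  have hR : RatQ Q' F₀ := fun x => hP (lV x) (fun i => (x i).2)
  have hne : F₀ ≠ ⊤ := Cfsg.Agent.Lib.Classical.Asch.MaxCases.subfield_ne_top hr hc
  set H := (Matrix.GeneralLinearGroup.map (F₀.subtype : F₀ →+* F)).range ⊔ scalars ι F with hH
  have hmem : ∀ g : GL ι F, g ∈ subfieldSubgroup F₀ P ↔ P⁻¹ * g * P ∈ H := by
    intro g
    constructor
    · rintro ⟨h, hh, rfl⟩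
      simpa [MulAut.conj_apply, mul_assoc] using hh
    · intro h
      exact ⟨_, h, by simp [MulAut.conj_apply, mul_assoc]⟩
  have hiso : ∀ g : GL ι F, g ∈ Cfsg.isometryGroup F (⇑Q') ↔ P * g * P⁻¹ ∈ Cfsg.isometryGroup F (⇑Q) := by
    intro g
    rw [mem_isometryGroup_iff, mem_isometryGroup_iff]
    have hP2 : ∀ x : ι → F, (P * g * P⁻¹ : GL ι F).val *ᵥ x = (P : Mt) *ᵥ ((g : Mt) *ᵥ (((P⁻¹ : GL ι F) : Mt) *ᵥ x)) := by
      intro x
      rw [Matrix.mulVec_mulVec, Matrix.mulVec_mulVec, ← Units.val_mul, ← Units.val_mul]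
    constructor
    · intro h x
      rw [hP2]
      have h1 := h (((P⁻¹ : GL ι F) : Mt) *ᵥ x)
      rw [hQ'def, QP_apply, QP_apply, mulVec_inv_mulVec] at h1
      exact h1
    · intro h x
      have h1 := h ((P : Mt) *ᵥ x)
      rw [hP2, inv_mulVec_mulVec] at h1
      exact h1
  -- the conjugates of Eichler elements
  have hrat_H : ∀ a b : ι → F₀, ∀ (hz : Q' (lV a) = 0) (hb : polar (⇑Q') (lV a) (lV b) = 0), eG hz hb ∈ H := by
    intro a b hz hb
    apply Cfsg.Agent.Lib.Classical.Sub.Lines.mem_of_lines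
    intro x _
    refine ⟨1, x + rv hR a x • b - rv hR b x • a - (qv hR b * rv hR a x) • a, one_ne_zero, ?_⟩
    rw [eG_mulVec, one_smul]
    rfl
  have hΩ : ∀ {z b : ι → F} (hz : Q' z = 0) (hb : polar (⇑Q') z b = 0),
      P * eG hz hb * P⁻¹ ∈ omegaGL (⇑Q) := by
    intro z b hz hb
    have hz' : Q ((P : Mt) *ᵥ z) = 0 := hz
    have hb' : 𝔣 ((P : Mt) *ᵥ z) ((P : Mt) *ᵥ b) = 0 := by
      rw [← polar_QP]
      exact hb
    rw [conj_eG P hz hb rfl rfl hz' hb']
    exact eG_mem_omegaGL hQ hn5 _ _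
  refine ⟨?_, ?_⟩
  · -- strictness
    refine lt_of_le_not_ge inf_le_right fun h => ?_
    obtain ⟨z, b, hz, hb, hg⟩ := exists_not_mem hQ' hR (by omega) hne
    have h1 := (hmem _).1 (h (hΩ hz hb)).1
    have h2 : P⁻¹ * (P * eG hz hb * P⁻¹) * P = eG hz hb := by group
    rw [h2] at h1
    exact hg h1
  intro M hHM hMS
  let M' : Subgroup (GL ι F) := M.map (MulAut.conj P⁻¹).toMonoidHom
  have hM' : ∀ g, g ∈ M' ↔ P * g * P⁻¹ ∈ M := by
    intro g
    constructor
    · rintro ⟨m, hm, rfl⟩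
      simpa [MulAut.conj_apply, mul_assoc] using hm
    · intro hg
      exact ⟨_, hg, by simp [MulAut.conj_apply, mul_assoc]⟩
  have hM'S : M' ≤ Cfsg.isometryGroup F (⇑Q') := by
    intro g hg
    rw [hiso]
    exact omegaGL_le_iso (hMS ((hM' g).1 hg))
  have hrat : HasRatO Q' M' F₀ := by
    intro a b hz hb
    refine ⟨hz, hb, ?_⟩
    rw [hM']
    apply hHM
    refine ⟨(hmem _).2 ?_, hΩ hz hb⟩
    have h2 : P⁻¹ * (P * eG hz hb * P⁻¹) * P = eG hz hb := by group
    rw [h2]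
    exact hrat_H a b hz hb
  rcases core hQ' hR hrat hM'S hn hr hc with h | h
  · left
    apply le_antisymm _ hHM
    intro g hg
    refine ⟨(hmem _).2 (h _ ?_), hMS hg⟩
    rw [hM']
    convert hg using 1
    group
  · right
    apply le_antisymm hMS
    apply omegaGL_le hQ hn5
    intro y hy
    have hPy : (P : Mt) *ᵥ (((P⁻¹ : GL ι F) : Mt) *ᵥ y) = y := mulVec_inv_mulVec P y
    have hz : Q' (((P⁻¹ : GL ι F) : Mt) *ᵥ y) = 0 := by
      rw [hQ'def, QP_apply, hPy]
      exact hy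
    refine ⟨hy, fun b hb => ?_⟩
    have hPb : (P : Mt) *ᵥ (((P⁻¹ : GL ι F) : Mt) *ᵥ b) = b := mulVec_inv_mulVec P b
    have hb' : polar (⇑Q') (((P⁻¹ : GL ι F) : Mt) *ᵥ y) (((P⁻¹ : GL ι F) : Mt) *ᵥ b) = 0 := by
      rw [hQ'def, polar_QP, hPy, hPb]
      exact hb
    have h1 := (hM' _).1 (h (eG_mem_omegaGL hQ' hn5 hz hb'))
    rwa [conj_eG P hz hb' hPy hPb hy hb] at h1

/-- Isometry groups of proportional forms. -/
theorem omegaGL_congr {Q₁ Q₂ : (ι → F) → F} (h : Cfsg.isometryGroup F Q₁ = Cfsg.isometryGroup F Q₂) :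
    omegaGL Q₁ = omegaGL Q₂ := by
  unfold omegaGL
  rw [Cfsg.Omega, Cfsg.Omega, Subgroup.map_subtype_commutator, Subgroup.map_subtype_commutator, h]

/-- **Maximality of the subfield subgroups of the orthogonal groups, up to a scalar.** -/
theorem isMaximal_zeta (hn : 13 ≤ Fintype.card ι) {Q₀ : (ι → F) → F} (hQ₀ : IsNondegenerateQuadraticForm Q₀) {r : ℕ} (hr : r.Prime)
    (hc : Fintype.card F = Nat.card F₀ ^ r) (P : GL ι F) {ζ : F} (hζ : ζ ≠ 0)
    (hP : IsQuadFormRationalStructure (fun v : ι → F => ζ * Q₀ v) F₀ P) :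
    IsMaximalIn (omegaGL Q₀) (subfieldSubgroup F₀ P ⊓ omegaGL Q₀) := by
  obtain ⟨Qf, rfl, hnd⟩ := exists_quadraticForm hQ₀
  set Q₁ : QuadraticForm F (ι → F) := ζ • Qf with hQ₁
  have hco : ∀ v, Q₁ v = ζ * Qf v := fun v => rfl
  have hpol : ∀ x y, polar (⇑Q₁) x y = ζ * polar (⇑Qf) x y := by
    intro x y
    simp only [polar, hco]
    ring
  have hnd₁ : (polarBilin Q₁).Nondegenerate := by
    refine ⟨fun x hx => ?_, fun x hx => ?_⟩
    · apply hnd.1
      intro y
      have h1 := hx y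
      rw [polarBilin_apply_apply, hpol] at h1
      exact (mul_eq_zero.1 h1).resolve_left hζ
    · apply hnd.2
      intro y
      have h1 := hx y
      rw [polarBilin_apply_apply, hpol] at h1
      exact (mul_eq_zero.1 h1).resolve_left hζ
  have hG : Cfsg.isometryGroup F (⇑Q₁) = Cfsg.isometryGroup F (⇑Qf) := by
    ext g
    rw [mem_isometryGroup_iff, mem_isometryGroup_iff]
    constructor
    · intro h x
      have h1 := h x
      rw [hco, hco] at h1
      exact mul_left_cancel₀ hζ h1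
    · intro h x
      rw [hco, hco, h x]
  have hΩ : omegaGL (⇑Q₁) = omegaGL (⇑Qf) := omegaGL_congr hG
  have h := isMaximal_rat hnd₁ hn hr hc P hP
  rwa [hΩ] at h

end Cfsg.Agent.Lib.Classical.Sub.OMain
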