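/-
Maximality of the subfield subgroups of `SL_n`.
-/
import Mathlib
import Cfsg.Agent.Lib.Classical.Sub.SLCore
import Cfsg.Agent.Lib.Classical.Sub.Lines
import Cfsg.Agent.Lib.Classical.Asch.MaxCases

set_option autoImplicit false
set_option linter.unusedSectionVars false

namespace Cfsg.Agent.Lib.Classical.Sub.SLMain

open scoped Matrix MatrixGroups
open Module Cfsg.Geo
open Cfsg.Agent.Lib.Classical.Geo.Basic
open Cfsg.Agent.Lib.Classical.Sub.Rat Cfsg.Agent.Lib.Classical.Sub.Act Cfsg.Agent.Lib.Classical.Sub.SLCore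
open Cfsg.Agent.Lib.Classical.Sub.Lines

variable {ι : Type} [Fintype ι] [DecidableEq ι] {F : Type*} [Field F] {F₀ : Subfield F} {M : Subgroup (GL ι F)}

/-- All the coefficients: everything. -/
theorem specialLinear_le_of_all (h2 : 2 ≤ Fintype.card ι) (hall : ∀ c : F, c ∈ A M F₀) : specialLinear ι F ≤ M := by
  classical
  haveI : Nontrivial ι := Fintype.one_lt_card_iff_nontrivial.1 (by omega)
  rw [← Cfsg.Agent.Lib.Classical.Asch.NotSL.range_toGL]
  rintro _ ⟨s, rfl⟩
  refine Cfsg.Agent.Lib.Classical.Lin.Transvections.transvection_induction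
    (fun s => Matrix.SpecialLinearGroup.toGL s ∈ M) ?_ (fun A B hA hB => ?_) s
  · intro i j hij c
    have h1 := hall c (Pi.single i 1) (LinearMap.proj j) (by simp [hij])
    obtain ⟨h3, h4⟩ := h1
    convert h4 using 1
    apply gl_ext
    intro x
    rw [tv_mulVec, lD_proj, lV_single]
    change (Matrix.transvection i j c) *ᵥ x = _
    rw [Matrix.transvection, Matrix.add_mulVec, Matrix.one_mulVec, Matrix.single_mulVec]
    congr 1
    ext k
    by_cases hk : k = i
    · subst hk
      simp [mul_comm]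
    · simp [hk]
  · rw [map_mul]
    exact M.mul_mem hA hB

/-- **The dichotomy.** -/
theorem core [Fintype F] {r : ℕ} (hr : r.Prime) (hc : Fintype.card F = Nat.card F₀ ^ r) (h7 : 7 ≤ Fintype.card ι)
    (hM : HasRat M F₀) :
    (∀ g ∈ M, g ∈ (Matrix.GeneralLinearGroup.map (F₀.subtype : F₀ →+* F)).range ⊔ scalars ι F) ∨ specialLinear ι F ≤ M := by
  classical
  have h3 : 3 ≤ Fintype.card ι := by omega
  haveI : Nonempty ι := Fintype.card_pos_iff.1 (by omega)
  have hdich := subfield_dichotomy hr hc (F₀ := F₀)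
  rcases hdich (subA hM h3) (fun c hc => coe_mem_A hM ⟨c, hc⟩) with hA | hA
  · left
    have hA' : ∀ c ∈ A M F₀, c ∈ F₀ := by
      intro c hc
      exact (SetLike.ext_iff.1 hA c).1 hc
    intro g hg
    apply mem_of_lines
    intro v₀ hv₀
    obtain ⟨φ₀, hφ₀, h1, -⟩ := exists_ne_vanish h3 v₀ v₀
    have h4 := (hM v₀ φ₀ h1).conj hg
    refine line_all hM hA' hdich h7 h4 ?_ ?_
    · intro h0
      apply lV_ne_zero hv₀
      apply mulVec_injective g
      change (g : Matrix ι ι F) *ᵥ lV v₀ = (g : Matrix ι ι F) *ᵥ 0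
      rw [h0, Matrix.mulVec_zero]
    · intro h0
      apply lD_ne_zero hφ₀
      apply LinearMap.ext
      intro x
      have h5 := LinearMap.congr_fun h0 ((g : Matrix ι ι F) *ᵥ x)
      rw [LinearMap.comp_apply, Matrix.toLin'_apply, inv_mulVec_mulVec] at h5
      simpa using h5
  · right
    apply specialLinear_le_of_all (F₀ := F₀) (by omega)
    intro c
    have : c ∈ subA hM h3 := by
      rw [hA]
      exact Subfield.mem_top c
    exact this

/-- Rational transvections lie in the rational group. -/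
theorem tv_rat_mem (u : ι → F₀) (ψ : Dual F₀ (ι → F₀)) (h : ψ u = 0) (h' : lD ψ (lV u) = 0) :
    tv (lD ψ) (lV u) h' ∈ (Matrix.GeneralLinearGroup.map (F₀.subtype : F₀ →+* F)).range := by
  refine ⟨tv ψ u h, ?_⟩
  apply Units.ext
  ext i j
  have h1 : ((tv (lD ψ) (lV u) h' : GL ι F) : Matrix ι ι F) i j = (((tv (lD ψ) (lV u) h' : GL ι F) : Matrix ι ι F) *ᵥ Pi.single j 1) i := by
    rw [Matrix.mulVec_single_one]
    rfl
  have h2 : ((Matrix.GeneralLinearGroup.map (F₀.subtype : F₀ →+* F) (tv ψ u h) : GL ι F) : Matrix ι ι F) i j =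
      ((((tv ψ u h : GL ι F₀) : Matrix ι ι F₀) *ᵥ Pi.single j 1) i : F) := by
    rw [Matrix.mulVec_single_one]
    rfl
  rw [h1, h2, tv_mulVec, tv_mulVec, lD_single]
  by_cases hij : i = j
  · subst hij
    simp
  · simp [hij]

theorem result_general {F : Type*} [Field F] [Fintype F] (h7 : 7 ≤ Fintype.card ι) (F₀ : Subfield F) (r : ℕ) (hr : r.Prime)
    (hcard : Fintype.card F = Nat.card F₀ ^ r) (P : GL ι F) :
    IsMaximalIn (specialLinear ι F) (subfieldSubgroup F₀ P ⊓ specialLinear ι F) := by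
  classical
  have hF₀ : F₀ ≠ ⊤ := Cfsg.Agent.Lib.Classical.Asch.MaxCases.subfield_ne_top hr hcard
  refine ⟨?_, ?_⟩
  · refine lt_of_le_not_ge inf_le_right fun h => ?_
    exact Cfsg.Agent.Lib.Classical.Asch.NotSL.not_le_subfieldSubgroup (by omega) hF₀ P (le_trans h inf_le_left)
  intro M hHM hMS
  have hnormal := Cfsg.Agent.Lib.Classical.Asch.NotSL.specialLinear_normal (ι := ι) (F := F)
  let M' : Subgroup (GL ι F) := M.map (MulAut.conj P⁻¹).toMonoidHom
  have hM' : ∀ g, g ∈ M' ↔ P * g * P⁻¹ ∈ M := by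
    intro g
    constructor
    · rintro ⟨m, hm, rfl⟩
      simpa [MulAut.conj_apply, mul_assoc] using hm
    · intro hg
      exact ⟨_, hg, by simp [MulAut.conj_apply, mul_assoc]⟩
  have hrat : HasRat M' F₀ := by
    intro u ψ hu
    have hu' : lD ψ (lV u) = 0 := by
      rw [lD_lV, hu]
      simp
    refine ⟨hu', ?_⟩
    rw [hM']
    apply hHM
    refine ⟨?_, ?_⟩
    · refine ⟨_, (Subgroup.mem_sup_left (tv_rat_mem u ψ hu hu')), ?_⟩
      simp [MulAut.conj_apply]
    · exact hnormal.conj_mem _ (tv_mem_specialLinear _ _ _) P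
  rcases Cfsg.Agent.Lib.Classical.Sub.SLMain.core hr hcard h7 hrat with h | h
  · left
    apply le_antisymm
    · intro g hg
      refine ⟨?_, hMS hg⟩
      have h1 : P⁻¹ * g * P ∈ M' := by
        rw [hM']
        simpa [mul_assoc] using hg
      refine ⟨_, h _ h1, ?_⟩
      simp [MulAut.conj_apply, mul_assoc]
    · exact hHM
  · right
    apply le_antisymm hMS
    intro s hs
    have h1 : P⁻¹ * s * P⁻¹⁻¹ ∈ specialLinear ι F := hnormal.conj_mem _ hs _
    have h2 := h (by simpa using h1 : P⁻¹ * s * P ∈ specialLinear ι F)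
    rw [hM'] at h2
    simpa [mul_assoc] using h2

end Cfsg.Agent.Lib.Classical.Sub.SLMain
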