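/-
Overgroups of `Sp_{2m}(F₀)` in `Sp_{2m}(F)`: rational vectors, rational short root elements, the coefficients.
-/
import Mathlib
import Cfsg.Agent.Lib.Classical.Sub.Rat
import Cfsg.Agent.Lib.Classical.Sub.Lines
import Cfsg.Agent.Lib.Classical.Geo.SympPair

set_option autoImplicit false
set_option linter.unusedSectionVars false

namespace Cfsg.Agent.Lib.Classical.Sub.SpBase

open scoped Matrix MatrixGroups
open Module Cfsg Cfsg.Geo
open Cfsg.Agent.Lib.Classical.Geo.Basic
open Cfsg.Agent.Lib.Classical.Geo.SympPair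
open Cfsg.Agent.Lib.Classical.Symp.SpGL Cfsg.Agent.Lib.Classical.Symp.Basic
open Cfsg.Agent.Lib.Classical.Sub.Rat

variable {m : ℕ} {F : Type*} [Field F] {F₀ : Subfield F}

local notation "V" => (Fin m ⊕ Fin m → F)
local notation "V₀" => (Fin m ⊕ Fin m → F₀)
local notation "B" => sympForm m F
local notation "B₀" => sympForm m F₀
local notation "Mt" => Matrix (Fin m ⊕ Fin m) (Fin m ⊕ Fin m) F
local notation "Mt₀" => Matrix (Fin m ⊕ Fin m) (Fin m ⊕ Fin m) F₀

theorem B_lV (x y : V₀) : B (lV x) (lV y) = (B₀ x y : F) := by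
  rw [sympForm_apply, sympForm_apply]
  simp

theorem map_mulVec_lV (G : GL (Fin m ⊕ Fin m) F₀) (x : V₀) :
    ((Matrix.GeneralLinearGroup.map (F₀.subtype : F₀ →+* F) G : GL (Fin m ⊕ Fin m) F) : Mt) *ᵥ lV x =
      lV ((G : Mt₀) *ᵥ x) := by
  funext i
  have h := RingHom.map_mulVec (F₀.subtype : F₀ →+* F) (G : Mt₀) x i
  exact h.symm

theorem gl_ext_rat {g h : GL (Fin m ⊕ Fin m) F}
    (H : ∀ x : V₀, (g : Mt) *ᵥ lV x = (h : Mt) *ᵥ lV x) : g = h := by
  apply Units.ext
  ext i j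
  have := congrFun (H (Pi.single j 1)) i
  rw [lV_single] at this
  simpa using this

/-- The rational group lies in `M`. -/
def HasRatS (M : Subgroup (GL (Fin m ⊕ Fin m) F)) (K : Subfield F) : Prop :=
  ∀ G ∈ spGL m K, Matrix.GeneralLinearGroup.map (K.subtype : K →+* F) G ∈ M

variable {M : Subgroup (GL (Fin m ⊕ Fin m) F)}

theorem map_gt (u : V₀) (d : F₀) :
    Matrix.GeneralLinearGroup.map (F₀.subtype : F₀ →+* F) (gt u d) = gt (lV u) (d : F) := by
  apply gl_ext_rat
  intro x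
  rw [map_mulVec_lV, gt_mulVec, gt_mulVec, B_lV, lV_add, lV_smul]
  simp only [MulMemClass.coe_mul]

theorem gt_rat_mem (hM : HasRatS M F₀) (u : V₀) (d : F₀) : gt (lV u) (d : F) ∈ M := by
  rw [← map_gt]
  exact hM _ (gt_mem _ _)

theorem gt_rat_mem_one (hM : HasRatS M F₀) (u : V₀) : gt (lV u) (1 : F) ∈ M := by
  have := gt_rat_mem hM u 1
  simpa using this

theorem B_lV_zero {a b : V₀} (h : B₀ a b = 0) : B (lV a) (lV b) = 0 := by
  rw [B_lV, h]
  simp

theorem map_E (a b : V₀) (h : B₀ a b = 0) (h' : B (lV a) (lV b) = 0) :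
    Matrix.GeneralLinearGroup.map (F₀.subtype : F₀ →+* F) (E a b h) = E (lV a) (lV b) h' := by
  apply gl_ext_rat
  intro x
  rw [map_mulVec_lV, E_mulVec, E_mulVec, B_lV, B_lV, lV_add, lV_add, lV_smul, lV_smul]

theorem E_rat_mem (hM : HasRatS M F₀) {a b : V₀} (h : B₀ a b = 0) (h' : B (lV a) (lV b) = 0) : E (lV a) (lV b) h' ∈ M := by
  rw [← map_E a b h h']
  exact hM _ (E_mem _ _ _)

theorem map_mem_of_conj {G : GL (Fin m ⊕ Fin m) F₀} (hG : G ∈ spGL m F₀) :
    Matrix.GeneralLinearGroup.map (F₀.subtype : F₀ →+* F) G ∈ spGL m F := by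
  rw [mem_spGL_iff]
  intro u v
  have h1 : ∀ x y : V₀, B (((Matrix.GeneralLinearGroup.map (F₀.subtype : F₀ →+* F) G : GL (Fin m ⊕ Fin m) F) : Mt) *ᵥ lV x)
      (((Matrix.GeneralLinearGroup.map (F₀.subtype : F₀ →+* F) G : GL (Fin m ⊕ Fin m) F) : Mt) *ᵥ lV y) = B (lV x) (lV y) := by
    intro x y
    rw [map_mulVec_lV, map_mulVec_lV, B_lV, B_lV]
    congr 1
    exact (mem_spGL_iff G).1 hG x y
  -- extend by bilinearity
  set g := Matrix.GeneralLinearGroup.map (F₀.subtype : F₀ →+* F) G with hg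
  have hu : ∀ x : V, x = ∑ i, x i • lV (Pi.single i (1 : F₀)) := by
    intro x
    funext j
    simp only [Finset.sum_apply, Pi.smul_apply, lV_single, Pi.single_apply, smul_eq_mul, mul_ite, mul_one, mul_zero,
      Finset.sum_ite_eq, Finset.mem_univ, if_true]
  rw [hu u, hu v]
  simp only [Matrix.mulVec_sum, Matrix.mulVec_smul, B_sum_left, B_sum_right, B_smul_left, B_smul_right, h1]

/-- Two independent vectors. -/
def Ind (a b : V₀) : Prop := ∀ s t : F₀, s • a + t • b = 0 → s = 0 ∧ t = 0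

/-- Transitivity on totally isotropic independent pairs. -/
theorem pair_transit {a b a' b' : V₀} (h1 : Ind a b) (h2 : Ind a' b') (h3 : B₀ a b = 0) (h4 : B₀ a' b' = 0) :
    ∃ G ∈ spGL m F₀, (G : Mt₀) *ᵥ a = a' ∧ (G : Mt₀) *ᵥ b = b' := by
  let L : F₀ × F₀ →ₗ[F₀] V₀ := (LinearMap.toSpanSingleton F₀ _ a).coprod (LinearMap.toSpanSingleton F₀ _ b)
  let L' : F₀ × F₀ →ₗ[F₀] V₀ := (LinearMap.toSpanSingleton F₀ _ a').coprod (LinearMap.toSpanSingleton F₀ _ b')
  have hL : ∀ p, L p = p.1 • a + p.2 • b := fun p => by simp [L]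
  have hL' : ∀ p, L' p = p.1 • a' + p.2 • b' := fun p => by simp [L']
  have hinj : Function.Injective L := by
    rw [injective_iff_map_eq_zero]
    intro p hp
    rw [hL] at hp
    exact Prod.ext (h1 _ _ hp).1 (h1 _ _ hp).2
  have hinj' : Function.Injective L' := by
    rw [injective_iff_map_eq_zero]
    intro p hp
    rw [hL'] at hp
    exact Prod.ext (h2 _ _ hp).1 (h2 _ _ hp).2
  obtain ⟨G, hG, h5⟩ := exists_spGL_of_injective L L' hinj hinj' (by
    intro p q
    rw [hL, hL, hL', hL']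
    simp only [B_add_left, B_add_right, B_smul_left, B_smul_right, sympForm_self, h3, h4, B_swap_zero h3, B_swap_zero h4])
  refine ⟨G, hG, ?_, ?_⟩
  · have := h5 (1, 0)
    simpa [hL, hL'] using this
  · have := h5 (0, 1)
    simpa [hL, hL'] using this

/-- Transitivity on nonzero vectors. -/
theorem vec_transit {a a' : V₀} (h1 : a ≠ 0) (h2 : a' ≠ 0) :
    ∃ G ∈ spGL m F₀, (G : Mt₀) *ᵥ a = a' := by
  let L : F₀ →ₗ[F₀] V₀ := LinearMap.toSpanSingleton F₀ _ a
  let L' : F₀ →ₗ[F₀] V₀ := LinearMap.toSpanSingleton F₀ _ a'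
  have hinj : Function.Injective L := by
    rw [injective_iff_map_eq_zero]
    intro p hp
    have : p • a = 0 := hp
    exact (smul_eq_zero.1 this).resolve_right h1
  have hinj' : Function.Injective L' := by
    rw [injective_iff_map_eq_zero]
    intro p hp
    have : p • a' = 0 := hp
    exact (smul_eq_zero.1 this).resolve_right h2
  obtain ⟨G, hG, h5⟩ := exists_spGL_of_injective L L' hinj hinj' (by
    intro p q
    simp only [L, L', LinearMap.toSpanSingleton_apply, B_smul_left, B_smul_right, sympForm_self])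
  refine ⟨G, hG, ?_⟩
  have := h5 1
  simpa [L, L'] using this

/-- `E` with a scalar moved across. -/
theorem E_smul_swap (κ : F) (a b : V) (h : B (κ • a) b = 0) (h' : B a (κ • b) = 0) : E (κ • a) b h = E a (κ • b) h' := by
  apply Cfsg.Agent.Lib.Classical.Sub.Rat.gl_ext
  intro x
  rw [E_mulVec, E_mulVec]
  simp only [B_smul_right, smul_smul]
  module

/-- The coefficients of the rational short root elements in `M`. -/
def As (M : Subgroup (GL (Fin m ⊕ Fin m) F)) (K : Subfield F) : Set F :=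
  {κ | ∀ a b : Fin m ⊕ Fin m → K, Ind a b → sympForm m K a b = 0 → ∀ h : B (κ • lV a) (lV b) = 0, E (κ • lV a) (lV b) h ∈ M}

theorem B_smul_lV_zero (κ : F) {a b : V₀} (h : B₀ a b = 0) : B (κ • lV a) (lV b) = 0 := by
  rw [B_smul_left, B_lV_zero h, mul_zero]

/-- One pair is enough. -/
theorem mem_As_of_pair (hM : HasRatS M F₀) {κ : F} {a b : V₀} (hi : Ind a b) (h0 : B₀ a b = 0)
    (h : E (κ • lV a) (lV b) (B_smul_lV_zero κ h0) ∈ M) : κ ∈ As M F₀ := by
  intro a' b' hi' h0' h1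
  obtain ⟨G, hG, h2, h3⟩ := pair_transit hi hi' h0 h0'
  set g := Matrix.GeneralLinearGroup.map (F₀.subtype : F₀ →+* F) G with hg
  have hgM : g ∈ M := hM G hG
  have hgS : g ∈ spGL m F := map_mem_of_conj hG
  have hg1 : (g : Mt) *ᵥ lV a = lV a' := by
    rw [hg, map_mulVec_lV, h2]
  have hg2 : (g : Mt) *ᵥ lV b = lV b' := by
    rw [hg, map_mulVec_lV, h3]
  have h4 := conj_E hgS (κ • lV a) (lV b) (B_smul_lV_zero κ h0) (by
    rw [Matrix.mulVec_smul, hg1, hg2]
    exact h1)
  have h5 : E ((g : Mt) *ᵥ (κ • lV a)) ((g : Mt) *ᵥ lV b) (by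
      rw [Matrix.mulVec_smul, hg1, hg2]
      exact h1) = E (κ • lV a') (lV b') h1 := by
    congr 1
    · rw [Matrix.mulVec_smul, hg1]
  rw [← h5, ← h4]
  exact M.mul_mem (M.mul_mem hgM h) (M.inv_mem hgM)

theorem coe_mem_As (hM : HasRatS M F₀) (d : F₀) : (d : F) ∈ As M F₀ := by
  intro a b hi h0 h1
  have h2 := E_rat_mem hM (a := d • a) (b := b) (by rw [B_smul_left, h0, mul_zero]) (by
    rw [lV_smul]
    exact h1)
  have h3 : lV (d • a) = (d : F) • lV a := lV_smul d a
  simp only [h3] at h2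
  exact h2

theorem add_mem_As {κ κ' : F} (h : κ ∈ As M F₀) (h' : κ' ∈ As M F₀) : κ + κ' ∈ As M F₀ := by
  intro a b hi h0 h1
  have h2 := M.mul_mem (h a b hi h0 (B_smul_lV_zero κ h0)) (h' a b hi h0 (B_smul_lV_zero κ' h0))
  convert h2 using 1
  apply Cfsg.Agent.Lib.Classical.Sub.Rat.gl_ext
  intro x
  rw [gl_mulVec_mul, E_mulVec, E_mulVec, E_mulVec]
  have h3 := B_lV_zero h0
  simp only [B_add_left, B_smul_left, B_smul_right, B_add_right, add_smul, sympForm_self, h3, B_swap_zero h3, mul_zero, add_zero,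
    zero_smul, smul_add, Matrix.mulVec_add]
  module

theorem neg_mem_As {κ : F} (h : κ ∈ As M F₀) : -κ ∈ As M F₀ := by
  intro a b hi h0 h1
  have h2 := M.inv_mem (h a b hi h0 (B_smul_lV_zero κ h0))
  convert h2 using 1
  apply eq_inv_of_mul_eq_one_left
  apply Cfsg.Agent.Lib.Classical.Sub.Rat.gl_ext
  intro x
  rw [gl_mulVec_mul, E_mulVec, E_mulVec]
  have h3 := B_lV_zero h0
  simp only [B_add_left, B_smul_left, B_smul_right, B_add_right, add_smul, sympForm_self, h3, B_swap_zero h3, mul_zero, add_zero,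
    zero_smul, smul_add, Units.val_one, Matrix.one_mulVec]
  module

/-- Standard basis vectors. -/
abbrev ei (i : Fin m) : V₀ := Pi.single (.inl i) 1
abbrev fi (i : Fin m) : V₀ := Pi.single (.inr i) 1

theorem B₀_ei_ei (i j : Fin m) : B₀ (ei i) (ei j) = 0 := by
  rw [sympForm_single_inl]
  simp

theorem B₀_ei_fi {i j : Fin m} (h : i ≠ j) : B₀ (ei i) (fi j) = 0 := by
  rw [sympForm_single_inr]
  simp [h.symm]

theorem B₀_fi_ei (i : Fin m) : B₀ (fi i) (ei i) = 1 := by
  rw [sympForm_single_inl]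
  simp

theorem B₀_fi_ei_ne {i j : Fin m} (h : i ≠ j) : B₀ (fi i) (ei j) = 0 := by
  rw [sympForm_single_inl]
  simp [h.symm]

theorem Ind_single {i j : Fin m ⊕ Fin m} (h : i ≠ j) :
    Ind (Pi.single i 1 : V₀) (Pi.single j 1 : V₀) := by
  intro s t hst
  have h1 := congrFun hst i
  have h2 := congrFun hst j
  simp [h, h.symm] at h1 h2
  exact ⟨h1, h2⟩

/-- Products of coefficients. -/
theorem mul_mem_As (hM : HasRatS M F₀) (hm : 3 ≤ m) {κ κ' : F} (h : κ ∈ As M F₀) (h' : κ' ∈ As M F₀) : κ * κ' ∈ As M F₀ := by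
  let i₀ : Fin m := ⟨0, by omega⟩
  let i₁ : Fin m := ⟨1, by omega⟩
  let i₂ : Fin m := ⟨2, by omega⟩
  have h01 : i₀ ≠ i₁ := by simp [i₀, i₁, Fin.ext_iff]
  have h02 : i₀ ≠ i₂ := by simp [i₀, i₂, Fin.ext_iff]
  have h12 : i₁ ≠ i₂ := by simp [i₁, i₂, Fin.ext_iff]
  have hbr : ∀ {a b : V₀}, B₀ a b = 0 → B (lV a) (lV b) = 0 := fun h => B_lV_zero h
  -- `a = κ e₀`, `b = f₂`, `c = κ' e₁`, `d = e₂`
  have h1 : E (κ • lV (ei i₀ : V₀)) (lV (fi i₂ : V₀)) (B_smul_lV_zero κ (B₀_ei_fi h02)) ∈ M :=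
    h _ _ (Ind_single (by simp [h02])) (B₀_ei_fi h02) _
  have h2 : E (κ' • lV (ei i₁ : V₀)) (lV (ei i₂ : V₀)) (B_smul_lV_zero κ' (B₀_ei_ei _ _)) ∈ M :=
    h' _ _ (Ind_single (by simp [h12])) (B₀_ei_ei _ _) _
  have hmain := comm_mem (a := κ • lV (ei i₀ : V₀)) (b := lV (fi i₂ : V₀)) (c := κ' • lV (ei i₁ : V₀)) (d := lV (ei i₂ : V₀))
    (B_smul_lV_zero κ' (B₀_ei_ei _ _)) (B_smul_lV_zero κ (B₀_ei_fi h02))
    (by rw [B_smul_left, B_smul_right, hbr (B₀_ei_ei _ _)]; simp)
    (by rw [B_smul_left, hbr (B₀_ei_ei _ _)]; simp)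
    (by rw [B_smul_right, hbr (B₀_fi_ei_ne h12.symm)]; simp)
    (by rw [B_lV, B₀_fi_ei]; simp) h2 h1
  refine mem_As_of_pair hM (a := ei i₁) (b := ei i₀) (Ind_single (by simp [h01.symm])) (B₀_ei_ei _ _) ?_
  convert hmain using 1
  apply Cfsg.Agent.Lib.Classical.Sub.Rat.gl_ext
  intro x
  rw [E_mulVec, E_mulVec]
  simp only [B_smul_left, B_smul_right, smul_smul]
  module

/-- The field of coefficients. -/
noncomputable def subAs [Finite F] (hM : HasRatS M F₀) (hm : 3 ≤ m) : Subfield F where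
  carrier := As M F₀
  mul_mem' := mul_mem_As hM hm
  one_mem' := by
    have := coe_mem_As hM (1 : F₀)
    simpa using this
  add_mem' := add_mem_As
  zero_mem' := by
    have := coe_mem_As hM (0 : F₀)
    simpa using this
  neg_mem' := neg_mem_As
  inv_mem' := by
    intro c hc
    haveI : Fintype F := Fintype.ofFinite F
    have h1' : (1 : F) ∈ As M F₀ := by
      have := coe_mem_As hM (1 : F₀)
      simpa using this
    by_cases hc0 : c = 0
    · subst hc0
      rw [inv_zero]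
      have := coe_mem_As hM (0 : F₀)
      simpa using this
    have hpow : ∀ n : ℕ, c ^ n ∈ As M F₀ := by
      intro n
      induction n with
      | zero =>
        rw [pow_zero]
        exact h1'
      | succ n ih =>
        rw [pow_succ]
        exact mul_mem_As hM hm ih hc
    have h1 : c⁻¹ = c ^ (Fintype.card F - 2) := by
      have h2 := FiniteField.pow_card_sub_one_eq_one c hc0
      have h3 : 2 ≤ Fintype.card F := Fintype.one_lt_card
      have h4 : Fintype.card F - 1 = (Fintype.card F - 2) + 1 := by omega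
      rw [h4, pow_succ] at h2
      exact (eq_inv_of_mul_eq_one_left h2).symm
    rw [h1]
    exact hpow _

/-- The pairing with a basis vector. -/
theorem B_single_swap (x : V) (l : Fin m ⊕ Fin m) : B x (Pi.single l.swap 1) = x l ∨ B x (Pi.single l.swap 1) = - x l := by
  rcases l with i | i
  · right
    exact sympForm_single_inr x i
  · left
    exact sympForm_single_inl x i

theorem B_single_swap_ne (x : V) (l : Fin m ⊕ Fin m) (h : x l ≠ 0) : B x (Pi.single l.swap 1) ≠ 0 := by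
  rcases B_single_swap x l with h1 | h1 <;> rw [h1]
  · exact h
  · exact neg_ne_zero.2 h

theorem gt_sq_mem (hm : 2 ≤ m) (hM : HasRatS M F₀) (hall : ∀ κ : F, κ ∈ As M F₀) (κ : F) : gt (lV (ei ⟨0, by omega⟩ : V₀)) (κ ^ 2) ∈ M := by
  let i₀ : Fin m := ⟨0, by omega⟩
  let i₁ : Fin m := ⟨1, by omega⟩
  have h01 : i₀ ≠ i₁ := by simp [i₀, i₁, Fin.ext_iff]
  set w : V := lV (ei i₀ : V₀) with hw
  set y : V := lV (fi i₁ : V₀) with hy
  set z : V := lV (ei i₁ : V₀) with hz
  have hyz : B y z = 1 := by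
    rw [hy, hz, B_lV, B₀_fi_ei]
    simp
  have hwz : B w z = 0 := B_lV_zero (B₀_ei_ei _ _)
  have hyw : B y w = 0 := B_lV_zero (B₀_fi_ei_ne h01.symm)
  have hg : E (κ • w) z (B_smul_lV_zero κ (B₀_ei_ei _ _)) ∈ M :=
    hall κ _ _ (Ind_single (by simp [h01])) (B₀_ei_ei _ _) _
  have hgS := E_mem (κ • w) z (B_smul_lV_zero κ (B₀_ei_ei _ _))
  have hgy : ((E (κ • w) z (B_smul_lV_zero κ (B₀_ei_ei _ _)) : GL _ F) : Matrix _ _ F) *ᵥ y = y + κ • w := by
    rw [E_mulVec, hyz, B_smul_right, hyw]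
    simp
  have h1 : gt (y + κ • w) 1 ∈ M := by
    rw [← hgy, ← conj_gt hgS]
    exact M.mul_mem (M.mul_mem hg (gt_rat_mem_one hM _)) (M.inv_mem hg)
  have hwy : B w y = 0 := B_swap_zero hyw
  have h2 : E (κ • w) y (by rw [B_smul_left, hwy, mul_zero]) ∈ M :=
    hall κ _ _ (Ind_single (by simp)) (B₀_ei_fi h01) _
  have h3 : gt (y + κ • w) 1 = gt y 1 * gt w (κ ^ 2) * E (κ • w) y (by rw [B_smul_left, hwy, mul_zero]) := by
    apply Cfsg.Agent.Lib.Classical.Sub.Rat.gl_ext
    intro x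
    simp only [gl_mulVec_mul, E_mulVec, gt_mulVec, B_add_left, B_add_right, B_smul_left, B_smul_right, sympForm_self, hyw, hwy,
      mul_zero, add_zero, zero_add, smul_add, Matrix.mulVec_add]
    module
  have h4 : gt w (κ ^ 2) = (gt y 1)⁻¹ * gt (y + κ • w) 1 * (E (κ • w) y (by rw [B_smul_left, hwy, mul_zero]))⁻¹ := by
    rw [h3]
    group
  rw [h4]
  exact M.mul_mem (M.mul_mem (M.inv_mem (gt_rat_mem_one hM _)) h1) (M.inv_mem h2)

theorem gt_all_mem [Finite F] (hm : 2 ≤ m) (hM : HasRatS M F₀) (hall : ∀ κ : F, κ ∈ As M F₀) (c : F) : gt (lV (ei ⟨0, by omega⟩ : V₀)) c ∈ M := by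
  by_cases h2 : (2 : F) = 0
  · haveI : CharP F 2 := by
      haveI := CharTwo.of_one_ne_zero_of_two_eq_zero (R := F) one_ne_zero h2
      infer_instance
    haveI : Fintype F := Fintype.ofFinite F
    obtain ⟨κ, hκ⟩ := FiniteField.isSquare_of_char_two (ringChar.eq F 2) c
    rw [hκ, ← pow_two]
    exact gt_sq_mem hm hM hall κ
  · have e : c = ((c + 1) / 2) ^ 2 + -(((c - 1) / 2) ^ 2) := by
      field_simp
      ring
    rw [e, ← gt_mul]
    refine M.mul_mem (gt_sq_mem hm hM hall _) ?_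
    have : gt (lV (ei ⟨0, by omega⟩ : V₀)) (-(((c - 1) / 2) ^ 2)) = (gt (lV (ei ⟨0, by omega⟩ : V₀)) (((c - 1) / 2) ^ 2))⁻¹ := by
      rw [gt_inv]
    rw [this]
    exact M.inv_mem (gt_sq_mem hm hM hall _)

theorem rat_mem_vecs [Finite F] (hm : 2 ≤ m) (hM : HasRatS M F₀) (hall : ∀ κ : F, κ ∈ As M F₀) (u : V₀) : lV u ∈ vecs M := by
  by_cases hu : u = 0
  · subst hu
    intro c
    rw [lV_zero, gt_zero_left]
    exact M.one_mem
  have h1 : (ei ⟨0, by omega⟩ : V₀) ≠ 0 := by
    intro h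
    have := congrFun h (.inl ⟨0, by omega⟩)
    simp at this
  obtain ⟨G, hG, hGu⟩ := vec_transit h1 hu
  have h2 : ∀ c, gt (lV (ei ⟨0, by omega⟩ : V₀)) c ∈ M := gt_all_mem hm hM hall
  have h3 := mulVec_mem_vecs (M := M) h2 (hM G hG) (map_mem_of_conj hG)
  rwa [map_mulVec_lV, hGu] at h3

/-- **All the coefficients give everything.** -/
theorem spGL_le_of_As [Finite F] (hm : 2 ≤ m) (hM : HasRatS M F₀) (hall : ∀ κ : F, κ ∈ As M F₀) : spGL m F ≤ M := by
  classical
  apply spGL_le_of_vecs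
  have hε : ∀ j : Fin m ⊕ Fin m, (Pi.single j 1 : V) ∈ vecs M := by
    intro j
    have := rat_mem_vecs hm hM hall (Pi.single j 1)
    rwa [lV_single] at this
  have key : ∀ (T : Finset (Fin m ⊕ Fin m)) (w : V), (∀ j, j ∉ T → w j = 0) → w ∈ vecs M := by
    intro T
    induction T using Finset.induction_on with
    | empty =>
      intro w hw
      have : w = 0 := funext fun j => hw j (by simp)
      rw [this]
      intro c
      rw [gt_zero_left]
      exact M.one_mem
    | insert j T hj ih =>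
      intro w hw
      set w' : V := w - w j • Pi.single j 1 with hw'
      have hw'j : w' j = 0 := by simp [hw']
      have h1 : w' ∈ vecs M := by
        apply ih
        intro l hl
        by_cases hlj : l = j
        · rw [hlj, hw'j]
        · have : w l = 0 := hw l (by simp [hlj, hl])
          simp [hw', this, hlj]
      have h2 : w = w' + w j • Pi.single j 1 := by
        rw [hw']
        abel
      by_cases h0 : w' = 0
      · rw [h2, h0, zero_add]
        exact smul_mem_vecs (hε j) _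
      by_cases h3 : B w' (Pi.single j 1) = 0
      · obtain ⟨l, hl⟩ : ∃ l, w' l ≠ 0 := by
          by_contra hc
          push Not at hc
          exact h0 (funext hc)
        have hB := B_single_swap_ne w' l hl
        have hjl : j ≠ l := by
          rintro rfl
          exact hl hw'j
        have hjl' : j ≠ l.swap := by
          intro h
          rw [← h] at hB
          exact hB h3
        have hpair : B₀ (Pi.single j 1) (Pi.single l.swap 1) = 0 := by
          rcases B_single_swap (F := F₀) (Pi.single j 1 : V₀) l with h4 | h4 <;> rw [h4]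
          · simp [hjl.symm]
          · simp [hjl.symm]
        have hb0 : ∀ κ : F, B (κ • lV (Pi.single j 1 : V₀)) (lV (Pi.single l.swap 1 : V₀)) = 0 := fun κ => B_smul_lV_zero κ hpair
        set κ := w j / B w' (Pi.single l.swap 1) with hκ
        have hg := hall κ _ _ (Ind_single hjl') hpair (hb0 κ)
        have hgS := E_mem _ _ (hb0 κ)
        have h5 := mulVec_mem_vecs h1 hg hgS
        rw [E_mulVec, lV_single, lV_single, B_smul_right, h3, mul_zero, zero_smul, add_zero, smul_smul, mul_comm, hκ,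
          div_mul_cancel₀ _ hB] at h5
        rw [h2]
        exact h5
      · have := add_smul_mem_vecs h1 (hε j) h3 (w j)
        rw [h2]
        exact this
  intro w
  exact key Finset.univ w (fun j hj => absurd (Finset.mem_univ j) hj)

end Cfsg.Agent.Lib.Classical.Sub.SpBase
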