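/-
Overgroups of `Sp_{2m}(F₀)`, the low rank case: a transvection whose centre is orthogonal to a rational vector has
a rational centre, unless the group contains all short root elements.
-/
import Mathlib
import Cfsg.Agent.Lib.Classical.Sub.SpBase

set_option autoImplicit false
set_option linter.unusedSectionVars false

namespace Cfsg.Agent.Lib.Classical.Sub.SpLow

open scoped Matrix MatrixGroups
open Module Cfsg Cfsg.Geo
open Cfsg.Agent.Lib.Classical.Geo.Basic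
open Cfsg.Agent.Lib.Classical.Geo.SympPair
open Cfsg.Agent.Lib.Classical.Symp.SpGL Cfsg.Agent.Lib.Classical.Symp.Basic
open Cfsg.Agent.Lib.Classical.Sub.Rat Cfsg.Agent.Lib.Classical.Sub.SpBase

variable {m : ℕ} {F : Type*} [Field F] {F₀ : Subfield F}

local notation "V" => (Fin m ⊕ Fin m → F)
local notation "V₀" => (Fin m ⊕ Fin m → F₀)
local notation "B" => sympForm m F
local notation "B₀" => sympForm m F₀
local notation "Mt" => Matrix (Fin m ⊕ Fin m) (Fin m ⊕ Fin m) F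
local notation "Mt₀" => Matrix (Fin m ⊕ Fin m) (Fin m ⊕ Fin m) F₀

variable {M : Subgroup (GL (Fin m ⊕ Fin m) F)}

/-- The Heisenberg elements in `M`. -/
def InY (M : Subgroup (GL (Fin m ⊕ Fin m) F)) (z w : V) (s : F) : Prop := ∃ h : B z w = 0, E z w h * gt z s ∈ M

theorem B_g_fix {g : GL (Fin m ⊕ Fin m) F} (hgS : g ∈ spGL m F) {z w : V} (hgz : (g : Mt) *ᵥ z = z) (h : B z w = 0) :
    B z ((g : Mt) *ᵥ w) = 0 := by
  have := (mem_spGL_iff g).1 hgS z w
  rw [hgz] at this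
  rw [this, h]

theorem conj_E_fix {g : GL (Fin m ⊕ Fin m) F} (hgS : g ∈ spGL m F) {z w : V} (hgz : (g : Mt) *ᵥ z = z) (h : B z w = 0)
    (h' : B z ((g : Mt) *ᵥ w) = 0) : g * E z w h * g⁻¹ = E z ((g : Mt) *ᵥ w) h' := by
  apply Cfsg.Agent.Lib.Classical.Sub.Rat.gl_ext
  intro x
  have h1 := conj_E hgS z w h (by rw [hgz]; exact h')
  have h2 := congrArg (fun t : GL (Fin m ⊕ Fin m) F => (t : Mt) *ᵥ x) h1
  simp only [E_mulVec, hgz] at h2
  simp only [E_mulVec]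
  rw [gl_mulVec_mul, gl_mulVec_mul, E_mulVec] at h2 ⊢
  exact h2

theorem InY.step {z w : V} {s : F} (h : InY M z w s) {g : GL (Fin m ⊕ Fin m) F} (hgM : g ∈ M) (hgS : g ∈ spGL m F)
    (hgz : (g : Mt) *ᵥ z = z) : InY M z ((g : Mt) *ᵥ w - w) (-B w ((g : Mt) *ᵥ w)) := by
  obtain ⟨h0, h1⟩ := h
  have h0' := B_g_fix hgS hgz h0
  have h2 : B z ((g : Mt) *ᵥ w - w) = 0 := by
    rw [B_sub_right, h0, h0', sub_zero]
  refine ⟨h2, ?_⟩
  have e1 : g * (E z w h0 * gt z s) * g⁻¹ = E z ((g : Mt) *ᵥ w) h0' * gt z s := by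
    have h3 := conj_E_fix hgS hgz h0 h0'
    have h4 := conj_gt hgS z s
    rw [hgz] at h4
    calc g * (E z w h0 * gt z s) * g⁻¹ = (g * E z w h0 * g⁻¹) * (g * gt z s * g⁻¹) := by group
      _ = _ := by rw [h3, h4]
  have hzw := B_swap_zero h0
  have hzw' := B_swap_zero h0'
  have e2 : (E z ((g : Mt) *ᵥ w - w) h2 * gt z (-B w ((g : Mt) *ᵥ w))) * (E z w h0 * gt z s) =
      E z ((g : Mt) *ᵥ w) h0' * gt z s := by
    apply Cfsg.Agent.Lib.Classical.Sub.Rat.gl_ext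
    intro x
    simp only [gl_mulVec_mul, E_mulVec, gt_mulVec, B_add_left, B_add_right, B_sub_right, B_smul_left, B_smul_right, sympForm_self,
      h0, h0', hzw, hzw', mul_zero, add_zero, zero_add, sub_zero, zero_sub, smul_add, smul_sub, Matrix.mulVec_add,
      neg_mul, mul_neg, neg_smul, smul_neg, B_neg_left, B_neg_right]
    module
  have e3 : E z ((g : Mt) *ᵥ w - w) h2 * gt z (-B w ((g : Mt) *ᵥ w)) =
      (g * (E z w h0 * gt z s) * g⁻¹) * (E z w h0 * gt z s)⁻¹ := by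
    rw [e1, ← e2]
    group
  rw [e3]
  exact M.mul_mem (M.mul_mem (M.mul_mem hgM h1) (M.inv_mem hgM)) (M.inv_mem h1)

/-- Riesz for the symplectic form. -/
theorem exists_riesz {K : Type*} [Field K] (ψ : Dual K (Fin m ⊕ Fin m → K)) :
    ∃ y : Fin m ⊕ Fin m → K, ∀ x, sympForm m K x y = ψ x := by
  refine ⟨Sum.elim (fun i => ψ (Pi.single (.inr i) 1)) (fun i => - ψ (Pi.single (.inl i) 1)), fun x => ?_⟩
  rw [sympForm_apply]
  have h : x = ∑ i, x i • (Pi.single i (1 : K) : Fin m ⊕ Fin m → K) := by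
    ext j
    simp [Finset.sum_apply, Pi.single_apply]
  conv_rhs => rw [h]
  rw [map_sum, Fintype.sum_sum_type]
  simp only [map_smul, smul_eq_mul, Sum.elim_inl, Sum.elim_inr, mul_neg, sub_neg_eq_add, Finset.sum_add_distrib]
  rw [add_comm]

/-- A common kernel vector of four covectors. -/
theorem exists_kernel4 {K : Type*} [Field K] (hm : 3 ≤ m) (ψ₁ ψ₂ ψ₃ ψ₄ : Dual K (Fin m ⊕ Fin m → K)) :
    ∃ u : Fin m ⊕ Fin m → K, u ≠ 0 ∧ ψ₁ u = 0 ∧ ψ₂ u = 0 ∧ ψ₃ u = 0 ∧ ψ₄ u = 0 := by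
  let L : (Fin m ⊕ Fin m → K) →ₗ[K] (Fin 4 → K) := LinearMap.pi ![ψ₁, ψ₂, ψ₃, ψ₄]
  have h1 : LinearMap.ker L ≠ ⊥ := by
    apply LinearMap.ker_ne_bot_of_finrank_lt
    rw [finrank_fintype_fun_eq_card, finrank_fintype_fun_eq_card]
    simp
    omega
  obtain ⟨u, hu, hu0⟩ := Submodule.exists_mem_ne_zero_of_ne_bot h1
  have hu' : L u = 0 := hu
  refine ⟨u, hu0, ?_, ?_, ?_, ?_⟩
  · exact congrFun hu' 0
  · exact congrFun hu' 1
  · exact congrFun hu' 2
  · exact congrFun hu' 3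

/-- The covector `B(x, ·)`. -/
noncomputable def covL (x : Fin m ⊕ Fin m → F₀) : Dual F₀ (Fin m ⊕ Fin m → F₀) := (sympBilin m F₀) x

@[simp] theorem covL_apply (x y : V₀) : covL x y = B₀ x y := rfl

/-- The main relation. -/
theorem low_main (hM : HasRatS M F₀) (hAs : ∀ κ ∈ As M F₀, κ ∈ F₀) (hm : 3 ≤ m) {v : V} {c : F} (hT : gt v c ∈ M)
    {z y y' : V₀} (hz : z ≠ 0) (hzv : B (lV z) v = 0) (hzy : B₀ z y = 0) (hzy' : B₀ z y' = 0) :
    c * B (lV y) v * B (lV y') v ∈ F₀ := by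
  by_cases hy' : y' ∈ Submodule.span F₀ {z}
  · obtain ⟨a, rfl⟩ := Submodule.mem_span_singleton.1 hy'
    rw [lV_smul, B_smul_left, hzv, mul_zero, mul_zero]
    exact F₀.zero_mem
  set κ := (c * B (lV y) v) * B v (lV y') with hκ
  -- step 1
  have h1 : InY M (lV z) (lV y) 0 := by
    refine ⟨B_lV_zero hzy, ?_⟩
    rw [gt_zero_right, mul_one]
    exact E_rat_mem hM hzy _
  -- step 2
  obtain ⟨s₂, h2⟩ : ∃ s, InY M (lV z) ((c * B (lV y) v) • v) s := by
    have := h1.step hT (gt_mem _ _) (by rw [gt_mulVec, hzv]; simp)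
    rw [gt_mulVec, add_sub_cancel_left] at this
    exact ⟨_, this⟩
  -- step 3
  have hz' : B (lV z) (lV y') = 0 := B_lV_zero hzy'
  have h3 : ∃ s, InY M (lV z) (κ • lV y') s := by
    have := h2.step (gt_rat_mem_one hM y') (gt_mem _ _) (by rw [gt_mulVec, hz']; simp)
    have e : ((gt (lV y') 1 : GL (Fin m ⊕ Fin m) F) : Mt) *ᵥ ((c * B (lV y) v) • v) - (c * B (lV y) v) • v = κ • lV y' := by
      rw [Matrix.mulVec_smul, gt_mulVec, one_mul, hκ]
      module
    rw [e] at this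
    exact ⟨_, this⟩
  obtain ⟨s, h3⟩ := h3
  -- the vectors
  obtain ⟨f₁, hf₁0, hf₁1⟩ := exists_dual_eq_one hy'
  obtain ⟨y'', hy''⟩ := exists_riesz f₁
  have e1 : B₀ y' y'' = 1 := by rw [hy'', hf₁1]
  have e2 : B₀ z y'' = 0 := by
    rw [hy'']
    exact hf₁0 _ (Submodule.mem_span_singleton_self z)
  obtain ⟨f₂, -, hf₂⟩ := exists_dual_eq_one (show z ∉ (⊥ : Submodule F₀ V₀) by simpa using hz)
  obtain ⟨w₁, hw₁0, h4, h5, h6, h7⟩ := exists_kernel4 hm (covL z) (covL y') (covL y'') f₂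
  rw [covL_apply] at h4 h5 h6
  have h8 : B (lV y'') (lV w₁) = 0 := B_lV_zero h6
  have hE := E_rat_mem hM h6 h8
  have h9 : ((E (lV y'') (lV w₁) h8 : GL _ F) : Mt) *ᵥ lV z = lV z := by
    rw [E_mulVec, B_lV_zero h4, B_lV_zero e2]
    simp
  have h10 : ((E (lV y'') (lV w₁) h8 : GL _ F) : Mt) *ᵥ (κ • lV y') = κ • lV y' + κ • lV w₁ := by
    rw [Matrix.mulVec_smul, E_mulVec, B_lV_zero h5, B_lV, e1]
    simp
  have h11 := h3.step hE (E_mem _ _ _) h9
  rw [h10, add_sub_cancel_left] at h11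
  have hs0 : -B (κ • lV y') (κ • lV y' + κ • lV w₁) = 0 := by
    simp only [B_add_right, B_smul_left, B_smul_right, sympForm_self, B_lV_zero h5]
    simp
  rw [hs0] at h11
  obtain ⟨h12, h13⟩ := h11
  rw [gt_zero_right, mul_one, ← E_comm (lV z) (κ • lV w₁) h12] at h13
  have hind : Ind w₁ z := by
    intro s t hst
    have h14 := congrArg f₂ hst
    rw [map_add, map_smul, map_smul, h7, hf₂] at h14
    simp at h14
    have h15 : s = 0 ∨ w₁ = 0 := by
      have h16 : s • w₁ = 0 := by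
        have := hst
        simpa [h14] using this
      exact smul_eq_zero.1 h16
    exact ⟨h15.resolve_right hw₁0, h14⟩
  have h14 : κ ∈ As M F₀ := mem_As_of_pair hM hind (B_swap_zero h4) h13
  have h15 := hAs κ h14
  have h16 : c * B (lV y) v * B (lV y') v = -κ := by
    rw [hκ, sympForm_swap v]
    ring
  rw [h16]
  exact F₀.neg_mem h15

/-- Rational centre in the low rank case. -/
theorem low_rat (hM : HasRatS M F₀) (hAs : ∀ κ ∈ As M F₀, κ ∈ F₀) (hm : 3 ≤ m) {v : V} {c : F} (hc : c ≠ 0) (hv : v ≠ 0)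
    (hT : gt v c ∈ M) {z : V₀} (hz : z ≠ 0) (hzv : B (lV z) v = 0) :
    ∃ (κ : F) (y₀ : V₀), κ ≠ 0 ∧ v = κ • lV y₀ := by
  classical
  -- the main relation for all pairs
  have hall : ∀ y y' : V₀, c * B (lV y) v * B (lV y') v ∈ F₀ := by
    intro y y'
    suffices h : ∃ z' : V₀, z' ≠ 0 ∧ B (lV z') v = 0 ∧ B₀ z' y = 0 ∧ B₀ z' y' = 0 by
      obtain ⟨z', h1, h2, h3, h4⟩ := h
      exact low_main hM hAs hm hT h1 h2 h3 h4
    by_cases hy₀ : ∃ y₀ : V₀, B₀ z y₀ = 0 ∧ B (lV y₀) v ≠ 0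
    · obtain ⟨y₀, hy₀1, hy₀2⟩ := hy₀
      obtain ⟨f, hf⟩ : ∃ f : Dual F₀ V₀, f z = 1 := by
        obtain ⟨f, -, hf⟩ := exists_dual_eq_one (show z ∉ (⊥ : Submodule F₀ V₀) by simpa using hz)
        exact ⟨f, hf⟩
      obtain ⟨u₀, hu₀⟩ := exists_riesz f
      have hu₀z : B₀ z u₀ = 1 := by rw [hu₀, hf]
      let Φ : Dual F V := (B (lV y₀) v)⁻¹ • ((sympBilin m F).flip v -
        (B (lV u₀) v) • (sympBilin m F) (lV z))
      have hΦ : ∀ x, Φ x = (B (lV y₀) v)⁻¹ * (B x v - B (lV u₀) v * B (lV z) x) := fun x => by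
        simp [Φ]
      have hrat : ∀ x : V₀, Φ (lV x) ∈ F₀ := by
        intro x
        have h1 : Φ (lV x) = (c * B (lV y₀) v * B (lV (x - B₀ z x • u₀)) v) / (c * B (lV y₀) v * B (lV y₀) v) := by
          rw [hΦ, lV_sub, lV_smul, B_sub_left, B_smul_left, B_lV]
          field_simp
        rw [h1]
        exact F₀.div_mem (low_main hM hAs hm hT hz hzv hy₀1 (by
          rw [B_sub_right, B_smul_right, hu₀z, mul_one, sub_self]))
          (low_main hM hAs hm hT hz hzv hy₀1 hy₀1)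
      obtain ⟨ψ, hψ⟩ := exists_lD Φ hrat
      obtain ⟨z', h1, h2, h3, h4, h5⟩ := exists_kernel4 hm (covL z) ψ (covL y) (covL y')
      rw [covL_apply] at h2 h4 h5
      refine ⟨z', h1, ?_, ?_, ?_⟩
      · have h6 : Φ (lV z') = 0 := by
          rw [hψ, lD_lV, h3]
          simp
        rw [hΦ, B_lV_zero h2, mul_zero, sub_zero] at h6
        exact (mul_eq_zero.1 h6).resolve_left (inv_ne_zero hy₀2)
      · rw [sympForm_swap, h4, neg_zero]
      · rw [sympForm_swap, h5, neg_zero]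
    · push Not at hy₀
      obtain ⟨z', h1, h2, h3, h4, -⟩ := exists_kernel4 hm (covL z) (covL y) (covL y') 0
      rw [covL_apply] at h2 h3 h4
      refine ⟨z', h1, hy₀ z' h2, ?_, ?_⟩
      · rw [sympForm_swap, h3, neg_zero]
      · rw [sympForm_swap, h4, neg_zero]
  -- a rational vector not orthogonal to `v`
  obtain ⟨y₀, hy₀⟩ : ∃ y₀ : V₀, B (lV y₀) v ≠ 0 := by
    by_contra hcon
    push Not at hcon
    obtain ⟨w, hw⟩ := exists_sympForm_ne hv
    apply hw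
    have : ((sympBilin m F).flip v) = 0 := by
      apply dual_ext_rat (F₀ := F₀)
      intro x
      simpa using hcon x
    have h2 := LinearMap.congr_fun this w
    simpa using h2
  let Φ : Dual F V := (B (lV y₀) v)⁻¹ • (sympBilin m F).flip v
  have hΦ : ∀ x, Φ x = (B (lV y₀) v)⁻¹ * B x v := fun x => by
    simp [Φ]
  have hrat : ∀ x : V₀, Φ (lV x) ∈ F₀ := by
    intro x
    have h1 : Φ (lV x) = (c * B (lV y₀) v * B (lV x) v) / (c * B (lV y₀) v * B (lV y₀) v) := by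
      rw [hΦ]
      field_simp
    rw [h1]
    exact F₀.div_mem (hall _ _) (hall _ _)
  obtain ⟨ψ, hψ⟩ := exists_lD Φ hrat
  obtain ⟨y₁, hy₁⟩ := exists_riesz ψ
  refine ⟨B (lV y₀) v, y₁, hy₀, ?_⟩
  have h5 : ∀ x : V, B x (v - B (lV y₀) v • lV y₁) = 0 := by
    intro x
    have h6 : ((sympBilin m F).flip (v - B (lV y₀) v • lV y₁)) = 0 := by
      apply dual_ext_rat (F₀ := F₀)
      intro x
      have h7 : Φ (lV x) = (ψ x : F) := by
        rw [hψ, lD_lV]
      rw [hΦ, ← hy₁, ← B_lV] at h7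
      simp only [LinearMap.BilinForm.flip_apply, sympBilin_apply, LinearMap.zero_apply, B_sub_right, B_smul_right]
      rw [← h7]
      field_simp
      ring
    have := LinearMap.congr_fun h6 x
    rw [B_sub_right, B_smul_right]
    simpa using this
  by_contra hne
  obtain ⟨w, hw⟩ := exists_sympForm_ne (sub_ne_zero.2 hne)
  exact hw (h5 w)

end Cfsg.Agent.Lib.Classical.Sub.SpLow
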