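/-
Overgroups of `Sp_{2m}(F₀)`, the generic case: a transvection whose centre is orthogonal to no rational vector
would give `SL₂(F)` on a section, and the section would then be rational.
-/
import Mathlib
import Cfsg.Agent.Lib.Classical.Sub.SpLow
import Cfsg.Agent.Lib.Classical.Sub.Act
import Cfsg.Agent.Lib.Classical.Asch.Subfield

set_option autoImplicit false
set_option linter.unusedSectionVars false

namespace Cfsg.Agent.Lib.Classical.Sub.SpHigh

open scoped Matrix MatrixGroups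
open Module Cfsg Cfsg.Geo
open Cfsg.Agent.Lib.Classical.Geo.Basic
open Cfsg.Agent.Lib.Classical.Geo.SympPair
open Cfsg.Agent.Lib.Classical.Symp.SpGL Cfsg.Agent.Lib.Classical.Symp.Basic
open Cfsg.Agent.Lib.Classical.Sub.Rat Cfsg.Agent.Lib.Classical.Sub.SpBase Cfsg.Agent.Lib.Classical.Sub.SpLow
open Cfsg.Agent.Lib.Classical.Sub.Act
open Cfsg.Agent.Lib.PSL2.Basic

variable {m : ℕ} {F : Type*} [Field F] {F₀ : Subfield F}

local notation "V" => (Fin m ⊕ Fin m → F)
local notation "V₀" => (Fin m ⊕ Fin m → F₀)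
local notation "B" => sympForm m F
local notation "B₀" => sympForm m F₀
local notation "Mt" => Matrix (Fin m ⊕ Fin m) (Fin m ⊕ Fin m) F
local notation "Mt₀" => Matrix (Fin m ⊕ Fin m) (Fin m ⊕ Fin m) F₀

variable {M : Subgroup (GL (Fin m ⊕ Fin m) F)}

/-- For odd degree, `ρ² ∈ F₀` forces `ρ ∈ F₀`. -/
theorem mem_of_sq_mem [Fintype F] {r : ℕ} (hodd : Odd r) (hc : Fintype.card F = Nat.card F₀ ^ r) {ρ : F} (h : ρ ^ 2 ∈ F₀) :
    ρ ∈ F₀ := by
  have hmem := Cfsg.Agent.Lib.Classical.Asch.Subfield.mem_subfield_iff F₀ hc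
  rw [hmem]
  rw [hmem] at h
  set q := Nat.card F₀ with hq
  have h1 : (ρ ^ q - ρ) * (ρ ^ q + ρ) = 0 := by
    have : (ρ ^ q) ^ 2 = ρ ^ 2 := by
      rw [← pow_mul, mul_comm, pow_mul, h]
    linear_combination this
  rcases mul_eq_zero.1 h1 with h2 | h2
  · exact sub_eq_zero.1 h2
  have h3 : ρ ^ q = -ρ := eq_neg_of_add_eq_zero_left h2
  have hneg : (-1 : F) ^ q = -1 := (hmem (-1)).1 (F₀.neg_mem F₀.one_mem)
  have h4 : (ρ ^ q) ^ q = ρ := by
    rw [h3, neg_pow, hneg, h3]
    ring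
  have h5 : ∀ s : ℕ, ρ ^ (q ^ (2 * s)) = ρ := by
    intro s
    induction s with
    | zero => simp
    | succ s ih =>
      have e : q ^ (2 * (s + 1)) = q ^ (2 * s) * q * q := by ring
      rw [e, pow_mul, pow_mul, ih, h4]
  obtain ⟨s, rfl⟩ := hodd
  have h6 := FiniteField.pow_card ρ
  rw [hc] at h6
  have e : q ^ (2 * s + 1) = q ^ (2 * s) * q := pow_succ q (2 * s)
  rw [e, pow_mul, h5] at h6
  exact h6

/-- The coordinate subspace. -/
def WW (σ : Fin 4 → Fin m) : Submodule F V where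
  carrier := {u | (∀ k, u (.inr k) = 0) ∧ ∀ k, (∀ i, σ i ≠ k) → u (.inl k) = 0}
  add_mem' := by
    rintro a b ⟨h1, h2⟩ ⟨h3, h4⟩
    exact ⟨fun k => by simp [h1, h3], fun k hk => by simp [h2 k hk, h4 k hk]⟩
  zero_mem' := ⟨fun k => rfl, fun k _ => rfl⟩
  smul_mem' := by
    rintro c a ⟨h1, h2⟩
    exact ⟨fun k => by simp [h1], fun k hk => by simp [h2 k hk]⟩

/-- The basis vectors. -/
def wv (σ : Fin 4 → Fin m) (i : Fin 4) : V := Pi.single (.inl (σ i)) 1

def fv (σ : Fin 4 → Fin m) (i : Fin 4) : V := Pi.single (.inr (σ i)) 1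

variable {σ : Fin 4 → Fin m}

theorem wv_mem (i : Fin 4) : wv (F := F) σ i ∈ WW σ := by
  refine ⟨fun k => by simp [wv], fun k hk => ?_⟩
  have : (Sum.inl k : Fin m ⊕ Fin m) ≠ Sum.inl (σ i) := fun h => hk i (Sum.inl.inj h).symm
  simp [wv, this]

theorem B_WW {u u' : V} (hu : u ∈ WW σ) (hu' : u' ∈ WW σ) : B u u' = 0 := by
  rw [sympForm_apply]
  apply Finset.sum_eq_zero
  intro i _
  rw [hu.1 i, hu'.1 i]
  simp

theorem WW_eq_sum (hσ : Function.Injective σ) {u : V} (hu : u ∈ WW σ) : u = ∑ i, u (.inl (σ i)) • wv σ i := by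
  funext k
  rw [Finset.sum_apply]
  rcases k with k | k
  · by_cases hk : ∃ i, σ i = k
    · obtain ⟨i, rfl⟩ := hk
      rw [Finset.sum_eq_single i]
      · simp [wv]
      · intro j _ hj
        have : (Sum.inl (σ i) : Fin m ⊕ Fin m) ≠ Sum.inl (σ j) := fun h => hj (hσ (Sum.inl.inj h)).symm
        simp [wv, this]
      · simp
    · push Not at hk
      rw [hu.2 k hk]
      symm
      apply Finset.sum_eq_zero
      intro j _
      have : (Sum.inl k : Fin m ⊕ Fin m) ≠ Sum.inl (σ j) := fun h => hk j (Sum.inl.inj h).symm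
      simp [wv, this]
  · rw [hu.1 k]
    symm
    apply Finset.sum_eq_zero
    intro j _
    simp [wv]

theorem eq_zero_of_WW (hσ : Function.Injective σ) {u : V} (hu : u ∈ WW σ) (h : ∀ i, u (.inl (σ i)) = 0) : u = 0 := by
  rw [WW_eq_sum hσ hu]
  simp [h]

theorem B_fv_wv (hσ : Function.Injective σ) (i j : Fin 4) : B (fv σ i) (wv σ j) = if i = j then 1 else 0 := by
  rw [wv, sympForm_single_inl, fv]
  by_cases h : i = j
  · subst h
    simp
  · have : (Sum.inr (σ j) : Fin m ⊕ Fin m) ≠ Sum.inr (σ i) := fun h' => h (hσ (Sum.inr.inj h')).symm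
    simp [h, this]

theorem B_u_fv (u : V) (i : Fin 4) : B u (fv σ i) = - u (.inl (σ i)) := by
  rw [fv, sympForm_single_inr]

/-- The section. -/
noncomputable def RR (σ : Fin 4 → Fin m) (v : V) : Submodule F V := WW σ ⊓ LinearMap.ker ((sympBilin m F).flip v)

theorem mem_RR {v u : V} : u ∈ RR σ v ↔ u ∈ WW σ ∧ B u v = 0 := by
  simp [RR]

/-- The action of the transvection with centre `v`. -/
theorem act_x {v : V} {c : F} (hc : c ≠ 0) {a : F} (ha : a ≠ 0) {w : V} (hw : B w v = a) {R : Submodule F V}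
    (hR : ∀ r ∈ R, B r v = 0) : ActR R ((c * a) • v) w (gt v c) (x (1 : F)) := by
  refine ⟨fun r hr => ?_, fun p => ?_, fun y => ⟨![B y v / a, 0], ?_⟩⟩
  · rw [gt_mulVec, hR r hr]
    simp
  · have h0 : (((x (1 : F) : SL(2, F)) : Matrix (Fin 2) (Fin 2) F) *ᵥ p) 0 = p 0 + p 1 := by
      simp [x, Matrix.mulVec, dotProduct, Fin.sum_univ_two]
    have h1 : (((x (1 : F) : SL(2, F)) : Matrix (Fin 2) (Fin 2) F) *ᵥ p) 1 = p 1 := by
      simp [x, Matrix.mulVec, dotProduct, Fin.sum_univ_two]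
    rw [gt_mulVec]
    simp only [L, h0, h1, B_add_left, B_smul_left, sympForm_self, hw, mul_zero, zero_add]
    have : p 0 • (c * a) • v + p 1 • w + (c * (p 1 * a)) • v - ((p 0 + p 1) • (c * a) • v + p 1 • w) = 0 := by
      module
    rw [this]
    exact R.zero_mem
  · rw [gt_mulVec]
    have : y + (c * B y v) • v - y - L ((c * a) • v) w ![B y v / a, 0] = 0 := by
      simp only [L, Matrix.cons_val_zero, Matrix.cons_val_one, zero_smul, add_zero, add_sub_cancel_left, smul_smul]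
      rw [sub_eq_zero]
      congr 1
      field_simp
    rw [this]
    exact R.zero_mem

/-- The action of the transvection with centre in the subspace. -/
theorem act_y {v : V} {c : F} {a : F} (ha : a ≠ 0) {w w₀ : V} (hw : B w v = a) (hw' : w ∈ WW σ) (hw₀ : w₀ ∈ WW σ) (d : F) :
    ActR (RR σ v) ((c * a) • v) w (gt w₀ d) (y (-(d * c * (B w₀ v) ^ 2))) := by
  set β := B w₀ v with hβ
  have hB : a • w₀ - β • w ∈ RR σ v := by
    rw [mem_RR]
    have h1 : a • w₀ ∈ WW σ := (WW σ).smul_mem _ hw₀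
    have h2 : β • w ∈ WW σ := (WW σ).smul_mem _ hw'
    have h3 : a • w₀ - β • w ∈ WW σ := sub_mem h1 h2
    refine ⟨h3, ?_⟩
    rw [B_sub_left, B_smul_left, B_smul_left, hw, ← hβ]
    ring
  have hvw₀ : B v w₀ = -β := by
    rw [sympForm_swap]
  refine ⟨fun r hr => ?_, fun p => ?_, fun z => ⟨![0, d * B z w₀ * β / a], ?_⟩⟩
  · rw [gt_mulVec, B_WW ((mem_RR.1 hr).1) hw₀]
    simp
  · have h0 : (((y (-(d * c * β ^ 2)) : SL(2, F)) : Matrix (Fin 2) (Fin 2) F) *ᵥ p) 0 = p 0 := by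
      simp [y, Matrix.mulVec, dotProduct, Fin.sum_univ_two]
    have h1 : (((y (-(d * c * β ^ 2)) : SL(2, F)) : Matrix (Fin 2) (Fin 2) F) *ᵥ p) 1 = -(d * c * β ^ 2) * p 0 + p 1 := by
      simp [y, Matrix.mulVec, dotProduct, Fin.sum_univ_two]
    rw [gt_mulVec]
    simp only [L, h0, h1, B_add_left, B_smul_left, hvw₀, B_WW hw' hw₀, mul_zero, add_zero]
    have : p 0 • (c * a) • v + p 1 • w + (d * (p 0 * (c * a * -β))) • w₀ -
        (p 0 • (c * a) • v + (-(d * c * β ^ 2) * p 0 + p 1) • w) = (-(d * p 0 * c * β)) • (a • w₀ - β • w) := by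
      module
    rw [this]
    exact (RR σ v).smul_mem _ hB
  · rw [gt_mulVec]
    have : z + (d * B z w₀) • w₀ - z - L ((c * a) • v) w ![0, d * B z w₀ * β / a] = (d * B z w₀ / a) • (a • w₀ - β • w) := by
      simp only [L, Matrix.cons_val_zero, Matrix.cons_val_one, zero_smul, zero_add, add_sub_cancel_left]
      rw [smul_sub, smul_smul, smul_smul]
      congr 2
      · field_simp
      · field_simp
    rw [this]
    exact (RR σ v).smul_mem _ hB

theorem exists_ne_fin4 : ∀ j : Fin 4, ∃ j' : Fin 4, j' ≠ j := by decide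

theorem exists_ne2_fin4 : ∀ l i : Fin 4, ∃ j : Fin 4, j ≠ l ∧ j ≠ i := by decide

theorem y_mulVec_zero (μ : F) : ((y μ : SL(2, F)) : Matrix (Fin 2) (Fin 2) F) *ᵥ ![1, 0] = ![1, μ] := by
  funext i
  fin_cases i <;> simp [y, Matrix.mulVec, dotProduct, Fin.sum_univ_two]

theorem y_mulVec_one (μ : F) : ((y μ : SL(2, F)) : Matrix (Fin 2) (Fin 2) F) *ᵥ ![0, 1] = ![0, 1] := by
  funext i
  fin_cases i <;> simp [y, Matrix.mulVec, dotProduct, Fin.sum_univ_two]

theorem wv_eq_lV (i : Fin 4) : wv (F := F) σ i = lV (ei (σ i) : V₀) := by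
  rw [lV_single]
  rfl

theorem fv_eq_lV (i : Fin 4) : fv (F := F) σ i = lV (fi (σ i) : V₀) := by
  rw [lV_single]
  rfl

/-- **Rigidity**: the elements acting as `y μ` are rational. -/
theorem high_rigid (hMS : M ≤ spGL m F) (hM : HasRatS M F₀) (hAs : ∀ κ ∈ As M F₀, κ ∈ F₀) (hm : 3 ≤ m) (hσ : Function.Injective σ)
    {v : V} {c : F} (hc : c ≠ 0) (hgen : ∀ z : V₀, z ≠ 0 → B (lV z) v ≠ 0) {t : GL (Fin m ⊕ Fin m) F} (ht : t ∈ M) {μ : F}
    (hact : ActR (RR σ v) ((c * B (wv σ 0) v) • v) (wv σ 0) t (y μ)) :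
    ∃ θ : Fin 4 → Fin 4 → F₀, μ = c * ∑ i, ∑ j, (θ i j : F) * (B (wv σ i) v * B (wv σ j) v) := by
  classical
  set w := wv (F := F) σ 0 with hw
  set a := B w v with ha
  obtain ⟨e, he⟩ : ∃ e, e = (c * a) • v := ⟨_, rfl⟩
  rw [← he] at hact
  have htS := hMS ht
  have hiso : ∀ x y, B ((t : Mt) *ᵥ x) ((t : Mt) *ᵥ y) = B x y := (mem_spGL_iff t).1 htS
  have hsingle : ∀ i : Fin m ⊕ Fin m, (Pi.single i 1 : V₀) ≠ 0 := by
    intro i h0
    have := congrFun h0 i
    simp at this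
  have hβ : ∀ i, B (wv σ i) v ≠ 0 := by
    intro i
    rw [wv_eq_lV]
    exact hgen _ (hsingle _)
  have ha0 : a ≠ 0 := hβ 0
  have hw' : w ∈ WW σ := wv_mem 0
  have hwv : ∀ i, B (wv σ i) v = B (wv σ i) v := fun _ => rfl
  -- the image of `w`
  obtain ⟨ρ, hρdef⟩ : ∃ ρ, ρ = (t : Mt) *ᵥ w - w := ⟨_, rfl⟩
  have hρ : ρ ∈ RR σ v := by
    have := hact.2.1 ![0, 1]
    rw [y_mulVec_one] at this
    have e1 : L e w ![0, 1] = w := by simp [L]
    rwa [e1, ← hρdef] at this
  have hρW : ρ ∈ WW σ := (mem_RR.1 hρ).1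
  have hρv : B ρ v = 0 := (mem_RR.1 hρ).2
  have htu : ∀ u ∈ WW σ, (t : Mt) *ᵥ u = u + (B u v / a) • ρ := by
    intro u hu
    have h1 : u - (B u v / a) • w ∈ RR σ v := by
      rw [mem_RR]
      refine ⟨sub_mem hu ((WW σ).smul_mem _ hw'), ?_⟩
      rw [B_sub_left, B_smul_left, ← ha]
      field_simp
      ring
    have h2 := hact.1 _ h1
    rw [Matrix.mulVec_sub, Matrix.mulVec_smul] at h2
    rw [hρdef, smul_sub]
    have h3 : (t : Mt) *ᵥ u = u - (B u v / a) • w + (B u v / a) • ((t : Mt) *ᵥ w) := by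
      rw [← h2]
      abel
    rw [h3]
    abel
  have htuW : ∀ u ∈ WW σ, (t : Mt) *ᵥ u ∈ WW σ := by
    intro u hu
    rw [htu u hu]
    exact add_mem hu ((WW σ).smul_mem _ hρW)
  -- rational centres in `W`
  have hlines : ∀ j, ∃ (κ : F) (y₀ : V₀), κ ≠ 0 ∧ (t : Mt) *ᵥ wv σ j = κ • lV y₀ := by
    intro j
    have hT : gt ((t : Mt) *ᵥ wv σ j) 1 ∈ M := by
      rw [← conj_gt htS, wv_eq_lV]
      exact M.mul_mem (M.mul_mem ht (gt_rat_mem_one hM _)) (M.inv_mem ht)
    obtain ⟨j', hj'⟩ := exists_ne_fin4 j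
    refine low_rat hM hAs hm one_ne_zero ?_ hT (z := ei (σ j')) (hsingle _) ?_
    · intro h0
      have h1 : wv (F := F) σ j = 0 := mulVec_injective t (by simp only [h0, Matrix.mulVec_zero])
      have := congrFun h1 (.inl (σ j))
      simp [wv] at this
    · rw [← wv_eq_lV]
      exact B_WW (wv_mem _) (htuW _ (wv_mem _))
  -- the vector `ρ` vanishes
  have hρ0 : ρ = 0 := by
    by_contra hne
    obtain ⟨i₀, hi₀⟩ : ∃ i₀, ρ (.inl (σ i₀)) ≠ 0 := by
      by_contra hcon
      push Not at hcon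
      exact hne (eq_zero_of_WW hσ hρW hcon)
    have hratio : ∀ l, ρ (.inl (σ l)) / ρ (.inl (σ i₀)) ∈ F₀ := by
      intro l
      by_cases hl : l = i₀
      · rw [hl, div_self hi₀]
        exact F₀.one_mem
      obtain ⟨j, hj1, hj2⟩ := exists_ne2_fin4 l i₀
      obtain ⟨κ, y₀, hκ, hy₀⟩ := hlines j
      have hbj : B (wv σ j) v / a ≠ 0 := div_ne_zero (hβ j) ha0
      rw [htu _ (wv_mem j)] at hy₀
      have hne1 : ∀ k, k ≠ j → (wv (F := F) σ j) (.inl (σ k)) = 0 := by
        intro k hk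
        have : (Sum.inl (σ k) : Fin m ⊕ Fin m) ≠ Sum.inl (σ j) := fun h => hk (hσ (Sum.inl.inj h))
        simp [wv, this]
      have h1 := congrFun hy₀ (.inl (σ i₀))
      have h2 := congrFun hy₀ (.inl (σ l))
      simp only [Pi.add_apply, Pi.smul_apply, smul_eq_mul, hne1 _ (Ne.symm hj2), hne1 _ (Ne.symm hj1), zero_add, lV] at h1 h2
      have h3 : ((y₀ (.inl (σ i₀)) : F₀) : F) ≠ 0 := by
        intro h0
        rw [h0, mul_zero] at h1
        exact (mul_ne_zero hbj hi₀) h1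
      have h4 : ρ (.inl (σ l)) / ρ (.inl (σ i₀)) = (y₀ (.inl (σ l)) : F) / (y₀ (.inl (σ i₀)) : F) := by
        have h5 : ρ (.inl (σ l)) / ρ (.inl (σ i₀)) =
            (B (wv σ j) v / a * ρ (.inl (σ l))) / (B (wv σ j) v / a * ρ (.inl (σ i₀))) := by
          have := hβ j
          field_simp
        rw [h5, h1, h2, mul_div_mul_left _ _ hκ]
      rw [h4]
      exact F₀.div_mem (Subtype.coe_prop _) (Subtype.coe_prop _)
    set x : V := ∑ l, (ρ (.inl (σ l)) / ρ (.inl (σ i₀))) • wv σ l with hx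
    have hxmem : ∀ k, x k ∈ F₀ := by
      intro k
      rw [hx, Finset.sum_apply]
      refine sum_mem fun l _ => ?_
      rw [Pi.smul_apply, smul_eq_mul]
      refine mul_mem (hratio l) ?_
      rw [wv, Pi.single_apply]
      split_ifs
      · exact F₀.one_mem
      · exact F₀.zero_mem
    obtain ⟨rt, hrt⟩ := exists_lV x hxmem
    have hρx : ρ = ρ (.inl (σ i₀)) • x := by
      conv_lhs => rw [WW_eq_sum hσ hρW]
      rw [hx, Finset.smul_sum]
      apply Finset.sum_congr rfl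
      intro l _
      rw [smul_smul]
      congr 1
      field_simp
    have hrt0 : rt ≠ 0 := by
      rintro rfl
      apply hne
      rw [hρx, hrt, lV_zero, smul_zero]
    apply hgen rt hrt0
    rw [← hrt]
    rw [hρx, B_smul_left] at hρv
    exact (mul_eq_zero.1 hρv).resolve_left hi₀
  have htW : ∀ u ∈ WW σ, (t : Mt) *ᵥ u = u := by
    intro u hu
    rw [htu u hu, hρ0, smul_zero, add_zero]
  have htw : (t : Mt) *ᵥ w = w := htW w hw'
  -- the image of `1 - t` lies in `W`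
  have htV : ∀ x, (t : Mt) *ᵥ x - x ∈ WW σ := by
    intro x
    obtain ⟨p, hp⟩ := hact.2.2 x
    have h1 := (mem_RR.1 hp).1
    have h2 : B ((t : Mt) *ᵥ x - x - L e w p) w = 0 := B_WW h1 hw'
    have h3 : B ((t : Mt) *ᵥ x - x) w = 0 := by
      rw [B_sub_left]
      have := hiso x w
      rw [htw] at this
      rw [this, sub_self]
    have h4 : p 0 = 0 := by
      rw [B_sub_left, h3, L, B_add_left, B_smul_left, B_smul_left, he, B_smul_left, B_WW hw' hw', sympForm_swap v w, ← ha] at h2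
      have h5 : p 0 * (c * a * a) = 0 := by
        linear_combination h2
      have h6 : c * a * a ≠ 0 := mul_ne_zero (mul_ne_zero hc ha0) ha0
      exact (mul_eq_zero.1 h5).resolve_right h6
    have h5 : (t : Mt) *ᵥ x - x = ((t : Mt) *ᵥ x - x - L e w p) + p 1 • w := by
      rw [L, h4, zero_smul, zero_add]
      abel
    rw [h5]
    exact add_mem h1 ((WW σ).smul_mem _ hw')
  -- the images of the dual vectors
  have hu : ∀ i j, (((t : Mt) *ᵥ fv (F := F) σ i - fv σ i : V)) (.inl (σ j)) ∈ F₀ := by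
    intro i j
    have hT : gt ((t : Mt) *ᵥ fv σ i) 1 ∈ M := by
      rw [← conj_gt htS, fv_eq_lV]
      exact M.mul_mem (M.mul_mem ht (gt_rat_mem_one hM _)) (M.inv_mem ht)
    obtain ⟨j', hj'⟩ := exists_ne_fin4 i
    have hne : (t : Mt) *ᵥ fv σ i ≠ 0 := by
      intro h0
      have h1 : fv (F := F) σ i = 0 := mulVec_injective t (by simp only [h0, Matrix.mulVec_zero])
      have := congrFun h1 (.inr (σ i))
      simp [fv] at this
    obtain ⟨κ, y₀, hκ, hy₀⟩ := low_rat hM hAs hm one_ne_zero hne hT (z := ei (σ j')) (hsingle _) (by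
      rw [← wv_eq_lV]
      have := hiso (wv σ j') (fv σ i)
      rw [htW _ (wv_mem _)] at this
      rw [this, B_u_fv]
      have h0 : (wv (F := F) σ j') (.inl (σ i)) = 0 := by
        have : (Sum.inl (σ i) : Fin m ⊕ Fin m) ≠ Sum.inl (σ j') := fun h => hj' (hσ (Sum.inl.inj h)).symm
        simp [wv, this]
      rw [h0, neg_zero])
    have h1 := (htV (fv σ i)).1 (σ i)
    have h2 : ((t : Mt) *ᵥ fv σ i) (.inr (σ i)) = 1 := by
      have := sub_eq_zero.1 h1
      rw [this]
      simp [fv]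
    rw [hy₀] at h2
    have h3 : κ = ((y₀ (.inr (σ i)) : F₀) : F)⁻¹ := by
      simp only [Pi.smul_apply, smul_eq_mul] at h2
      exact eq_inv_of_mul_eq_one_left h2
    have h4 : (fv (F := F) σ i) (.inl (σ j)) = 0 := by
      simp [fv]
    rw [Pi.sub_apply, h4, sub_zero, hy₀, Pi.smul_apply, smul_eq_mul, h3]
    exact F₀.mul_mem (F₀.inv_mem (Subtype.coe_prop _)) (Subtype.coe_prop _)
  -- `t` is trivial on the orthogonal complement of `W`
  have hperp : ∀ x₀ : V, (∀ j, B x₀ (wv σ j) = 0) → (t : Mt) *ᵥ x₀ = x₀ := by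
    intro x₀ hx₀
    have hperp' : ∀ u ∈ WW σ, B x₀ u = 0 := by
      intro u hu
      rw [WW_eq_sum hσ hu, B_sum_right]
      simp [B_smul_right, hx₀]
    have h1 := htV x₀
    rw [← sub_eq_zero]
    apply eq_zero_of_WW hσ h1
    intro i
    have h2 := hiso x₀ (fv σ i)
    have h3 : (t : Mt) *ᵥ fv σ i = fv σ i + ((t : Mt) *ᵥ fv σ i - fv σ i) := by abel
    rw [h3, B_add_right] at h2
    have h4 : B ((t : Mt) *ᵥ x₀) ((t : Mt) *ᵥ fv σ i - fv σ i) = 0 := by
      have h5 := hiso x₀ ((t : Mt) *ᵥ fv σ i - fv σ i)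
      rw [htW _ (htV _)] at h5
      rw [h5, hperp' _ (htV _)]
    rw [h4, add_zero] at h2
    have h6 : B ((t : Mt) *ᵥ x₀ - x₀) (fv σ i) = 0 := by
      rw [B_sub_left, h2, sub_self]
    rw [B_u_fv] at h6
    exact neg_eq_zero.1 h6
  -- the formula for `t v`
  obtain ⟨u, hudef⟩ : ∃ u : Fin 4 → V, ∀ i, u i = (t : Mt) *ᵥ fv σ i - fv σ i := ⟨_, fun _ => rfl⟩
  have hv : (t : Mt) *ᵥ v - v = ∑ i, B v (wv σ i) • u i := by
    set v₀ := v - ∑ i, B v (wv σ i) • fv σ i with hv₀
    have h1 : ∀ j, B v₀ (wv σ j) = 0 := by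
      intro j
      rw [hv₀, B_sub_left, B_sum_left]
      simp only [B_smul_left, B_fv_wv hσ, mul_ite, mul_one, mul_zero, Finset.sum_ite_eq', Finset.mem_univ, if_true, sub_self]
    have h2 := hperp v₀ h1
    have h3 : v = v₀ + ∑ i, B v (wv σ i) • fv σ i := by
      rw [hv₀]
      abel
    have h4 : (t : Mt) *ᵥ v = v₀ + ∑ i, B v (wv σ i) • ((t : Mt) *ᵥ fv σ i) := by
      conv_lhs => rw [h3]
      rw [Matrix.mulVec_add, h2, Matrix.mulVec_sum]
      simp only [Matrix.mulVec_smul]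
    rw [h4, hv₀]
    simp only [hudef, smul_sub, Finset.sum_sub_distrib]
    abel
  -- the end
  have hfin := hact.2.1 ![1, 0]
  rw [y_mulVec_zero] at hfin
  have e1 : L e w ![1, 0] = e := by simp [L]
  have e2 : L e w ![1, μ] = e + μ • w := by simp [L]
  rw [e1, e2] at hfin
  have h5 := (mem_RR.1 hfin).2
  have hte : (t : Mt) *ᵥ e = e + (c * a) • ((t : Mt) *ᵥ v - v) := by
    rw [he, Matrix.mulVec_smul, smul_sub]
    abel
  rw [hte, hv] at h5
  have hbu : ∀ i, B (u i) v = ∑ j, (u i (.inl (σ j))) * B (wv σ j) v := by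
    intro i
    have h6 : u i ∈ WW σ := by
      rw [hudef]
      exact htV _
    conv_lhs => rw [WW_eq_sum hσ h6]
    rw [B_sum_left]
    simp [B_smul_left]
  have h6 : μ * a = - c * a * ∑ i, ∑ j, u i (.inl (σ j)) * (B (wv σ i) v * B (wv σ j) v) := by
    have h7 : e + (c * a) • ∑ i, B v (wv σ i) • u i - (e + μ • w) = (c * a) • ∑ i, B v (wv σ i) • u i - μ • w := by abel
    rw [h7, B_sub_left, B_smul_left, B_smul_left, B_sum_left, ← ha, sub_eq_zero] at h5
    rw [← h5, neg_mul, neg_mul, Finset.mul_sum, Finset.mul_sum, ← Finset.sum_neg_distrib]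
    apply Finset.sum_congr rfl
    intro i _
    have h8 : ∑ j, u i (.inl (σ j)) * (B (wv σ i) v * B (wv σ j) v) = B (wv σ i) v * ∑ j, u i (.inl (σ j)) * B (wv σ j) v := by
      rw [Finset.mul_sum]
      apply Finset.sum_congr rfl
      intro j _
      ring
    rw [B_smul_left, hbu, sympForm_swap v, h8]
    ring
  have hθ : ∀ i j, u i (.inl (σ j)) ∈ F₀ := by
    intro i j
    rw [hudef]
    exact hu i j
  refine ⟨fun i j => -(⟨u i (.inl (σ j)), hθ i j⟩ : F₀), ?_⟩
  have h7 : μ = - c * ∑ i, ∑ j, u i (.inl (σ j)) * (B (wv σ i) v * B (wv σ j) v) := by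
    apply mul_right_cancel₀ ha0
    rw [h6]
    ring
  rw [h7, neg_mul, ← mul_neg, ← Finset.sum_neg_distrib]
  congr 1
  apply Finset.sum_congr rfl
  intro i _
  rw [← Finset.sum_neg_distrib]
  apply Finset.sum_congr rfl
  intro j _
  simp

/-- **The generic case is impossible.** -/
theorem high_contra [Fintype F] (hMS : M ≤ spGL m F) (hM : HasRatS M F₀) (hAs : ∀ κ ∈ As M F₀, κ ∈ F₀)
    (hdich : ∀ W : Subfield F, F₀ ≤ W → W = F₀ ∨ W = ⊤) {r : ℕ} (hr : r.Prime) (hcard : Fintype.card F = Nat.card F₀ ^ r)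
    (hm : 7 ≤ m) {v : V} {c : F} (hc : c ≠ 0) (hT : gt v c ∈ M) (hgen : ∀ z : V₀, z ≠ 0 → B (lV z) v ≠ 0) : False := by
  classical
  let σ : Fin 4 → Fin m := fun i => ⟨i, by omega⟩
  have hσ : Function.Injective σ := by
    intro i j h
    exact Fin.ext (by simpa [σ, Fin.ext_iff] using h)
  have hsingle : ∀ i : Fin m ⊕ Fin m, (Pi.single i 1 : V₀) ≠ 0 := by
    intro i h0
    have := congrFun h0 i
    simp at this
  have hβ : ∀ i, B (wv σ i) v ≠ 0 := by
    intro i
    rw [wv_eq_lV]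
    exact hgen _ (hsingle _)
  -- the degree is large
  have hgeninj : ∀ x y : V₀, B (lV x) v = B (lV y) v → x = y := by
    intro x y h
    by_contra hne
    apply hgen (x - y) (sub_ne_zero.2 hne)
    rw [lV_sub, B_sub_left, h, sub_self]
  have hr14 : 14 ≤ r := by
    have h1 : Nat.card V₀ ≤ Nat.card F := Nat.card_le_card_of_injective (fun x : V₀ => B (lV x) v) (fun x y h => hgeninj x y h)
    have h2 : Nat.card V₀ = Nat.card F₀ ^ (2 * m) := by
      rw [Nat.card_fun]
      simp [two_mul]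
    rw [h2, Nat.card_eq_fintype_card (α := F), hcard] at h1
    have h3 : 1 < Nat.card F₀ := Finite.one_lt_card
    have h4 := (Nat.pow_le_pow_iff_right h3).1 h1
    omega
  have hr17 : 17 ≤ r := by
    by_contra hlt
    have : r = 14 ∨ r = 15 ∨ r = 16 := by omega
    rcases this with rfl | rfl | rfl <;> revert hr <;> norm_num
  have hodd : Odd r := hr.odd_of_ne_two (by omega)
  set w := wv (F := F) σ 0 with hw
  set a := B w v with ha
  have ha0 : a ≠ 0 := hβ 0
  have hw' : w ∈ WW σ := wv_mem 0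
  let G : Set F := {t | ∃ (d : F₀) (w₀ : V₀), lV w₀ ∈ WW σ ∧ t = c * d * (B (lV w₀) v) ^ 2}
  let S : AddSubgroup F := AddSubgroup.closure G
  have hx : ∃ g ∈ M, ActR (RR σ v) ((c * a) • v) w g (x (1 : F)) :=
    ⟨_, hT, act_x hc ha0 rfl (fun r hr => (mem_RR.1 hr).2)⟩
  have hy : ∀ d ∈ S, ∃ g ∈ M, ActR (RR σ v) ((c * a) • v) w g (y d) := by
    intro d hd
    induction hd using AddSubgroup.closure_induction with
    | mem t ht =>
      obtain ⟨d, w₀, h1, rfl⟩ := ht
      refine ⟨gt (lV w₀) ((-d : F₀) : F), gt_rat_mem hM _ _, ?_⟩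
      have h2 := act_y (c := c) ha0 (rfl : B w v = a) hw' h1 ((-d : F₀) : F)
      have e : -(((-d : F₀) : F) * c * (B (lV w₀) v) ^ 2) = c * d * (B (lV w₀) v) ^ 2 := by
        push_cast
        ring
      rwa [e] at h2
    | zero =>
      rw [y_zero]
      exact ⟨1, M.one_mem, ActR.one⟩
    | add s t _ _ h1 h2 =>
      obtain ⟨g₁, h3, h4⟩ := h1
      obtain ⟨g₂, h5, h6⟩ := h2
      rw [y_add]
      exact ⟨_, M.mul_mem h3 h5, h4.mul h6⟩
    | neg s _ h1 =>
      obtain ⟨g₁, h3, h4⟩ := h1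
      rw [← y_inv]
      exact ⟨_, M.inv_mem h3, h4.inv⟩
  -- many elements
  have hS : 8 < Nat.card S := by
    let w₀ : (Fin 4 → Bool) → V₀ := fun s => ∑ i, (if s i then (1 : F₀) else 0) • (ei (σ i) : V₀)
    have hw₀ : ∀ s, lV (w₀ s) ∈ WW σ := by
      intro s
      have : lV (w₀ s) = ∑ i, ((if s i then (1 : F₀) else 0 : F₀) : F) • wv σ i := by
        funext k
        simp only [w₀, wv, Finset.sum_apply, Pi.smul_apply, smul_eq_mul, lV]
        push_cast
        apply Finset.sum_congr rfl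
        intro i _
        by_cases hk : k = .inl (σ i)
        · subst hk
          simp
        · simp [hk]
      rw [this]
      exact sum_mem fun i _ => (WW σ).smul_mem _ (wv_mem i)
    have hcoord : ∀ s i, w₀ s (.inl (σ i)) = if s i then (1 : F₀) else 0 := by
      intro s i
      simp only [w₀, Finset.sum_apply, Pi.smul_apply, smul_eq_mul]
      rw [Finset.sum_eq_single i]
      · simp
      · intro j _ hj
        have : (Sum.inl (σ i) : Fin m ⊕ Fin m) ≠ Sum.inl (σ j) := fun h => hj (hσ (Sum.inl.inj h)).symm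
        simp [this]
      · simp
    let f : (Fin 4 → Bool) → S := fun s => ⟨c * ((1 : F₀) : F) * (B (lV (w₀ s)) v) ^ 2,
      AddSubgroup.subset_closure ⟨1, w₀ s, hw₀ s, rfl⟩⟩
    have hf : Function.Injective f := by
      intro s s' h
      have h1 : c * ((1 : F₀) : F) * (B (lV (w₀ s)) v) ^ 2 = c * ((1 : F₀) : F) * (B (lV (w₀ s')) v) ^ 2 := congrArg Subtype.val h
      have h2 : (B (lV (w₀ s)) v) ^ 2 = (B (lV (w₀ s')) v) ^ 2 := by
        have h3 : c * ((1 : F₀) : F) ≠ 0 := by simpa using hc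
        exact mul_left_cancel₀ h3 h1
      rcases sq_eq_sq_iff_eq_or_eq_neg.1 h2 with h3 | h3
      · have h4 := hgeninj _ _ h3
        funext i
        have h5 : (if s i then (1 : F₀) else 0) = if s' i then (1 : F₀) else 0 := by
          rw [← hcoord, ← hcoord, h4]
        by_cases h6 : s i <;> by_cases h7 : s' i <;> simp_all
      · have h4 : w₀ s + w₀ s' = 0 := by
          by_contra hne
          apply hgen _ hne
          rw [lV_add, B_add_left, h3]
          ring
        funext i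
        have h5 := congrFun h4 (.inl (σ i))
        rw [Pi.add_apply, hcoord, hcoord] at h5
        by_cases h6 : s i <;> by_cases h7 : s' i <;> simp_all
    have h1 := Nat.card_le_card_of_injective f hf
    have h2 : Nat.card (Fin 4 → Bool) = 16 := by
      simp [Nat.card_eq_fintype_card]
    omega
  have hgen' : ∀ W : Subfield F, (∀ d ∈ S, d ∈ W) → W = ⊤ := by
    intro W hW
    have hG : ∀ (d : F₀) (i : Fin 4), c * d * (B (wv σ i) v) ^ 2 ∈ W := by
      intro d i
      apply hW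
      apply AddSubgroup.subset_closure
      refine ⟨d, ei (σ i), ?_, ?_⟩
      · rw [← wv_eq_lV]
        exact wv_mem i
      · rw [← wv_eq_lV]
    have h1 : ∀ i, c * ((1 : F₀) : F) * (B (wv σ i) v) ^ 2 ≠ 0 := by
      intro i
      have := hβ i
      simp [hc, this]
    have hF₀ : F₀ ≤ W := by
      intro d hd
      have h2 : d = (c * ((⟨d, hd⟩ : F₀) : F) * (B (wv σ 0) v) ^ 2) / (c * ((1 : F₀) : F) * (B (wv σ 0) v) ^ 2) := by
        have h3 := hβ 0
        simp only [OneMemClass.coe_one]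
        field_simp
      rw [h2]
      exact W.div_mem (hG _ 0) (hG _ 0)
    rcases hdich W hF₀ with h2 | h2
    · exfalso
      have hG' : ∀ i, c * ((1 : F₀) : F) * (B (wv σ i) v) ^ 2 ∈ F₀ := fun i => (SetLike.ext_iff.1 h2 _).1 (hG 1 i)
      have h3 : (B (wv σ 1) v / B (wv σ 0) v) ^ 2 ∈ F₀ := by
        have h4 : (B (wv σ 1) v / B (wv σ 0) v) ^ 2 =
            (c * ((1 : F₀) : F) * (B (wv σ 1) v) ^ 2) / (c * ((1 : F₀) : F) * (B (wv σ 0) v) ^ 2) := by
          have h5 := hβ 0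
          simp only [OneMemClass.coe_one]
          field_simp
        rw [h4]
        exact F₀.div_mem (hG' 1) (hG' 0)
      have h4 := mem_of_sq_mem hodd hcard h3
      have h5 : (ei (σ 1) : V₀) - (⟨_, h4⟩ : F₀) • (ei (σ 0) : V₀) ≠ 0 := by
        intro h6
        have h7 := congrFun h6 (.inl (σ 1))
        have h8 : (Sum.inl (σ 1) : Fin m ⊕ Fin m) ≠ Sum.inl (σ 0) := fun h => by
          have := hσ (Sum.inl.inj h)
          revert this
          decide
        simp [h8] at h7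
      apply hgen _ h5
      rw [lV_sub, lV_smul, B_sub_left, B_smul_left, ← wv_eq_lV, ← wv_eq_lV]
      have h5 := hβ 0
      simp only
      field_simp
      ring
    · exact h2
  have hall := actR_all hx S hy hS hgen'
  -- an element outside the rational values
  let Θ : (Fin 4 → Fin 4 → F₀) → F := fun θ => c * ∑ i, ∑ j, (θ i j : F) * (B (wv σ i) v * B (wv σ j) v)
  obtain ⟨μ, hμ⟩ : ∃ μ, μ ∉ Set.range Θ := by
    by_contra hcon
    push Not at hcon
    have hsurj : Function.Surjective Θ := fun μ => hcon μ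
    have h1 := Nat.card_le_card_of_surjective Θ hsurj
    have h2 : Nat.card (Fin 4 → Fin 4 → F₀) = Nat.card F₀ ^ 16 := by
      rw [Nat.card_fun, Nat.card_fun]
      simp [← pow_mul]
    rw [h2, Nat.card_eq_fintype_card (α := F), hcard] at h1
    have h3 : 1 < Nat.card F₀ := Finite.one_lt_card
    have h4 := (Nat.pow_le_pow_iff_right h3).1 h1
    omega
  obtain ⟨t, ht, hact⟩ := hall (y μ)
  obtain ⟨θ, hθ⟩ := high_rigid hMS hM hAs (by omega) hσ hc hgen ht hact
  exact hμ ⟨θ, hθ.symm⟩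

end Cfsg.Agent.Lib.Classical.Sub.SpHigh
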