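/-
Maximality of the subfield subgroups of `Sp_{2m}`.
-/
import Mathlib
import Cfsg.Agent.Lib.Classical.Sub.SpHigh
import Cfsg.Agent.Lib.Classical.Sub.SLCore
import Cfsg.Agent.Lib.Classical.Symp.SympBasis
import Cfsg.Agent.Lib.Classical.Asch.MaxCases

set_option autoImplicit false
set_option linter.unusedSectionVars false

namespace Cfsg.Agent.Lib.Classical.Sub.SpMain

open scoped Matrix MatrixGroups
open Module Cfsg Cfsg.Geo
open Cfsg.Agent.Lib.Classical.Geo.Basic
open Cfsg.Agent.Lib.Classical.Geo.SympPair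
open Cfsg.Agent.Lib.Classical.Symp.SpGL Cfsg.Agent.Lib.Classical.Symp.Basic
open Cfsg.Agent.Lib.Classical.Sub.Rat Cfsg.Agent.Lib.Classical.Sub.SpBase Cfsg.Agent.Lib.Classical.Sub.SpLow
open Cfsg.Agent.Lib.Classical.Sub.SpHigh

variable {m : ℕ} {F : Type*} [Field F] {F₀ : Subfield F}

local notation "V" => (Fin m ⊕ Fin m → F)
local notation "V₀" => (Fin m ⊕ Fin m → F₀)
local notation "B" => sympForm m F
local notation "B₀" => sympForm m F₀
local notation "Mt" => Matrix (Fin m ⊕ Fin m) (Fin m ⊕ Fin m) F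
local notation "Mt₀" => Matrix (Fin m ⊕ Fin m) (Fin m ⊕ Fin m) F₀

variable {M : Subgroup (GL (Fin m ⊕ Fin m) F)}

/-- **The dichotomy.** -/
theorem core [Fintype F] {r : ℕ} (hr : r.Prime) (hc : Fintype.card F = Nat.card F₀ ^ r) (hm : 7 ≤ m) (hMS : M ≤ spGL m F)
    (hM : HasRatS M F₀) :
    (∀ g ∈ M, g ∈ (Matrix.GeneralLinearGroup.map (F₀.subtype : F₀ →+* F)).range ⊔ scalars (Fin m ⊕ Fin m) F) ∨ spGL m F ≤ M := by
  classical
  haveI : Nonempty (Fin m) := ⟨⟨0, by omega⟩⟩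
  have hdich := Cfsg.Agent.Lib.Classical.Sub.SLCore.subfield_dichotomy hr hc (F₀ := F₀)
  rcases hdich (subAs hM (by omega)) (fun c hc => coe_mem_As hM ⟨c, hc⟩) with hA | hA
  · left
    have hA' : ∀ c ∈ As M F₀, c ∈ F₀ := by
      intro c hc
      exact (SetLike.ext_iff.1 hA c).1 hc
    intro g hg
    apply Cfsg.Agent.Lib.Classical.Sub.Lines.mem_of_lines
    intro v₀ hv₀
    have hgS := hMS hg
    have hT : gt ((g : Mt) *ᵥ lV v₀) 1 ∈ M := by
      rw [← conj_gt hgS]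
      exact M.mul_mem (M.mul_mem hg (gt_rat_mem_one hM _)) (M.inv_mem hg)
    have hv : (g : Mt) *ᵥ lV v₀ ≠ 0 := by
      intro h0
      apply lV_ne_zero hv₀
      apply mulVec_injective g
      change (g : Mt) *ᵥ lV v₀ = (g : Mt) *ᵥ 0
      rw [h0, Matrix.mulVec_zero]
    by_cases h1 : ∃ z : V₀, z ≠ 0 ∧ B (lV z) ((g : Mt) *ᵥ lV v₀) = 0
    · obtain ⟨z, hz, hzv⟩ := h1
      exact low_rat hM hA' (by omega) one_ne_zero hv hT hz hzv
    · push Not at h1
      exact (high_contra hMS hM hA' hdich hr hc hm one_ne_zero hT h1).elim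
  · right
    apply spGL_le_of_As (F₀ := F₀) (by omega) hM
    intro c
    have : c ∈ subAs hM (by omega) := by
      rw [hA]
      exact Subfield.mem_top c
    exact this

/-- Membership in the rational group with scalars. -/
theorem mem_sup_lines {g : GL (Fin m ⊕ Fin m) F}
    (hg : g ∈ (Matrix.GeneralLinearGroup.map (F₀.subtype : F₀ →+* F)).range ⊔ scalars (Fin m ⊕ Fin m) F) (x : V₀) :
    ∃ (κ : F) (y₀ : V₀), (g : Mt) *ᵥ lV x = κ • lV y₀ := by
  obtain ⟨g₀, ⟨h₀, rfl⟩, z, hz, rfl⟩ := Subgroup.mem_sup_of_normal_right.mp hg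
  obtain ⟨d, hd⟩ := (Cfsg.Agent.Lib.Classical.Asch.Basic.mem_scalars_iff' z).mp hz
  refine ⟨d, (h₀ : Mt₀) *ᵥ x, ?_⟩
  rw [Units.val_mul, hd, Matrix.mul_smul, mul_one, Matrix.smul_mulVec, map_mulVec_lV]

/-- The transfer of the form. -/
theorem exists_rat_change [Fintype F] {ζ : F} (hζ : ζ ≠ 0) (P : GL (Fin m ⊕ Fin m) F)
    (hP : IsFormRationalStructure (sympForm m F) F₀ ζ P) :
    ∃ R : GL (Fin m ⊕ Fin m) F₀, ∀ x y : V,
      ζ * B (((P * Matrix.GeneralLinearGroup.map (F₀.subtype : F₀ →+* F) R : GL (Fin m ⊕ Fin m) F) : Mt) *ᵥ x)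
        (((P * Matrix.GeneralLinearGroup.map (F₀.subtype : F₀ →+* F) R : GL (Fin m ⊕ Fin m) F) : Mt) *ᵥ y) = B x y := by
  classical
  have hmem : ∀ x y : V₀, ζ * B ((P : Mt) *ᵥ lV x) ((P : Mt) *ᵥ lV y) ∈ F₀ := by
    intro x y
    exact hP _ _ (fun i => Subtype.coe_prop _) (fun i => Subtype.coe_prop _)
  -- the rational form
  let f : V₀ → V₀ → F₀ := fun x y => ⟨_, hmem x y⟩
  have hf : ∀ x y, (f x y : F) = ζ * B ((P : Mt) *ᵥ lV x) ((P : Mt) *ᵥ lV y) := fun _ _ => rfl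
  let Bf : LinearMap.BilinForm F₀ V₀ := LinearMap.mk₂ F₀ f
    (fun a b c => Subtype.ext (by
      simp only [hf, lV_add, Matrix.mulVec_add, B_add_left, mul_add, Subfield.coe_add]))
    (fun c a b => Subtype.ext (by
      simp only [hf, lV_smul, Matrix.mulVec_smul, B_smul_left, smul_eq_mul, Subfield.coe_mul]
      ring))
    (fun a b c => Subtype.ext (by
      simp only [hf, lV_add, Matrix.mulVec_add, B_add_right, mul_add, Subfield.coe_add]))
    (fun c a b => Subtype.ext (by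
      simp only [hf, lV_smul, Matrix.mulVec_smul, B_smul_right, smul_eq_mul, Subfield.coe_mul]
      ring))
  have hBf : ∀ x y, ((Bf x y : F₀) : F) = ζ * B ((P : Mt) *ᵥ lV x) ((P : Mt) *ᵥ lV y) := fun _ _ => rfl
  have hext : ∀ x : V, x = ∑ i, x i • lV (Pi.single i (1 : F₀)) := by
    intro x
    funext j
    simp only [Finset.sum_apply, Pi.smul_apply, lV_single, Pi.single_apply, smul_eq_mul, mul_ite, mul_one, mul_zero,
      Finset.sum_ite_eq, Finset.mem_univ, if_true]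
  have hA : Bf.IsAlt := by
    intro x
    apply Subtype.ext
    rw [hBf, sympForm_self]
    simp
  have hnd : Bf.Nondegenerate := by
    refine ⟨fun x hx => ?_, fun x hx => ?_⟩
    · apply lV_injective
      rw [lV_zero]
      apply mulVec_injective P
      change (P : Mt) *ᵥ lV x = (P : Mt) *ᵥ 0
      rw [Matrix.mulVec_zero]
      by_contra hne
      obtain ⟨w, hw⟩ := exists_sympForm_ne hne
      apply hw
      rw [sympForm_swap]
      have h1 : ∀ y : V₀, B ((P : Mt) *ᵥ lV x) ((P : Mt) *ᵥ lV y) = 0 := by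
        intro y
        have h2 := hx y
        have h3 := congrArg (Subtype.val) h2
        rw [hBf] at h3
        exact (mul_eq_zero.1 h3).resolve_left hζ
      have h4 : ∀ y : V, B ((P : Mt) *ᵥ lV x) ((P : Mt) *ᵥ y) = 0 := by
        intro y
        rw [hext y, Matrix.mulVec_sum, B_sum_right]
        apply Finset.sum_eq_zero
        intro i _
        rw [Matrix.mulVec_smul, B_smul_right, h1, mul_zero]
      have h5 := h4 (((P⁻¹ : GL _ F) : Mt) *ᵥ w)
      rw [mulVec_inv_mulVec] at h5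
      rw [h5, neg_zero]
    · apply lV_injective
      rw [lV_zero]
      apply mulVec_injective P
      change (P : Mt) *ᵥ lV x = (P : Mt) *ᵥ 0
      rw [Matrix.mulVec_zero]
      by_contra hne
      obtain ⟨w, hw⟩ := exists_sympForm_ne hne
      apply hw
      have h1 : ∀ y : V₀, B ((P : Mt) *ᵥ lV y) ((P : Mt) *ᵥ lV x) = 0 := by
        intro y
        have h2 := hx y
        have h3 := congrArg (Subtype.val) h2
        rw [hBf] at h3
        exact (mul_eq_zero.1 h3).resolve_left hζ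
      have h4 : ∀ y : V, B ((P : Mt) *ᵥ y) ((P : Mt) *ᵥ lV x) = 0 := by
        intro y
        rw [hext y, Matrix.mulVec_sum, B_sum_left]
        apply Finset.sum_eq_zero
        intro i _
        rw [Matrix.mulVec_smul, B_smul_left, h1, mul_zero]
      have h5 := h4 (((P⁻¹ : GL _ F) : Mt) *ᵥ w)
      rwa [mulVec_inv_mulVec] at h5
  obtain ⟨e, he⟩ := Cfsg.Agent.Lib.Classical.Symp.SympBasis.exists_sympEquiv Bf hA hnd (k := m) (by
    rw [finrank_fintype_fun_eq_card]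
    simp
    ring)
  refine ⟨glOfEquiv e.symm, ?_⟩
  -- the rational identity
  have h1 : ∀ x y : V₀, ζ * B (((P * Matrix.GeneralLinearGroup.map (F₀.subtype : F₀ →+* F) (glOfEquiv e.symm) : GL (Fin m ⊕ Fin m) F) : Mt) *ᵥ lV x)
        (((P * Matrix.GeneralLinearGroup.map (F₀.subtype : F₀ →+* F) (glOfEquiv e.symm) : GL (Fin m ⊕ Fin m) F) : Mt) *ᵥ lV y) = B (lV x) (lV y) := by
    intro x y
    rw [Units.val_mul, ← Matrix.mulVec_mulVec, ← Matrix.mulVec_mulVec, map_mulVec_lV, map_mulVec_lV, glOfEquiv_mulVec, glOfEquiv_mulVec,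
      ← hBf, ← he, LinearEquiv.apply_symm_apply, LinearEquiv.apply_symm_apply, B_lV]
  intro x y
  rw [hext x, hext y]
  simp only [Matrix.mulVec_sum, Matrix.mulVec_smul, B_sum_left, B_sum_right, B_smul_left, B_smul_right, Finset.mul_sum]
  apply Finset.sum_congr rfl
  intro i _
  apply Finset.sum_congr rfl
  intro j _
  rw [mul_left_comm, mul_left_comm ζ, h1]

theorem subfield_mul_map (R : GL (Fin m ⊕ Fin m) F₀) (P : GL (Fin m ⊕ Fin m) F) :
    subfieldSubgroup F₀ (P * Matrix.GeneralLinearGroup.map (F₀.subtype : F₀ →+* F) R) = subfieldSubgroup F₀ P := by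
  set Q := Matrix.GeneralLinearGroup.map (F₀.subtype : F₀ →+* F) R with hQ
  set H := (Matrix.GeneralLinearGroup.map (F₀.subtype : F₀ →+* F)).range ⊔ scalars (Fin m ⊕ Fin m) F with hH
  have hQH : Q ∈ H := Subgroup.mem_sup_left ⟨R, rfl⟩
  have hmem : ∀ (P' g : GL (Fin m ⊕ Fin m) F), g ∈ subfieldSubgroup F₀ P' ↔ P'⁻¹ * g * P' ∈ H := by
    intro P' g
    constructor
    · rintro ⟨h, hh, rfl⟩
      simpa [MulAut.conj_apply, mul_assoc] using hh
    · intro h
      exact ⟨_, h, by simp [MulAut.conj_apply, mul_assoc]⟩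
  ext g
  rw [hmem, hmem]
  constructor
  · intro h
    have := H.mul_mem (H.mul_mem hQH h) (H.inv_mem hQH)
    convert this using 1
    group
  · intro h
    have := H.mul_mem (H.mul_mem (H.inv_mem hQH) h) hQH
    convert this using 1
    group

theorem result_general [Fintype F] (hm : 7 ≤ m) {r : ℕ} (hr : r.Prime)
    (hcard : Fintype.card F = Nat.card F₀ ^ r) (P : GL (Fin m ⊕ Fin m) F) (ζ : F) (hζ : ζ ≠ 0)
    (hP : IsFormRationalStructure (sympForm m F) F₀ ζ P) :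
    IsMaximalIn (spGL m F) (subfieldSubgroup F₀ P ⊓ spGL m F) := by
  classical
  have hF₀ : F₀ ≠ ⊤ := Cfsg.Agent.Lib.Classical.Asch.MaxCases.subfield_ne_top hr hcard
  obtain ⟨R, hR⟩ := exists_rat_change hζ P hP
  rw [← subfield_mul_map R P]
  set P' := P * Matrix.GeneralLinearGroup.map (F₀.subtype : F₀ →+* F) R with hP'
  set H := (Matrix.GeneralLinearGroup.map (F₀.subtype : F₀ →+* F)).range ⊔ scalars (Fin m ⊕ Fin m) F with hH
  have hmem : ∀ g : GL (Fin m ⊕ Fin m) F, g ∈ subfieldSubgroup F₀ P' ↔ P'⁻¹ * g * P' ∈ H := by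
    intro g
    constructor
    · rintro ⟨h, hh, rfl⟩
      simpa [MulAut.conj_apply, mul_assoc] using hh
    · intro h
      exact ⟨_, h, by simp [MulAut.conj_apply, mul_assoc]⟩
  -- conjugation preserves the symplectic group
  have hconj1 : ∀ g ∈ spGL m F, P'⁻¹ * g * P' ∈ spGL m F := by
    intro g hg
    rw [mem_spGL_iff]
    intro x y
    have h1 := hR ((P'⁻¹ * g * P' : GL _ F).val *ᵥ x) ((P'⁻¹ * g * P' : GL _ F).val *ᵥ y)
    have h2 : ∀ z, (P' : Mt) *ᵥ ((P'⁻¹ * g * P' : GL _ F).val *ᵥ z) = (g : Mt) *ᵥ ((P' : Mt) *ᵥ z) := by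
      intro z
      rw [Matrix.mulVec_mulVec, ← Units.val_mul, Matrix.mulVec_mulVec, ← Units.val_mul]
      congr 2
      group
    rw [h2, h2, (mem_spGL_iff g).1 hg, hR] at h1
    exact h1.symm
  have hconj2 : ∀ g ∈ spGL m F, P' * g * P'⁻¹ ∈ spGL m F := by
    intro g hg
    rw [mem_spGL_iff]
    intro x y
    have h2 : ∀ z, (P' * g * P'⁻¹ : GL _ F).val *ᵥ z = (P' : Mt) *ᵥ ((g : Mt) *ᵥ (((P'⁻¹ : GL _ F) : Mt) *ᵥ z)) := by
      intro z
      rw [Matrix.mulVec_mulVec, Matrix.mulVec_mulVec, ← Units.val_mul, ← Units.val_mul]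
    have h3 := hR ((g : Mt) *ᵥ (((P'⁻¹ : GL _ F) : Mt) *ᵥ x)) ((g : Mt) *ᵥ (((P'⁻¹ : GL _ F) : Mt) *ᵥ y))
    have h4 := hR (((P'⁻¹ : GL _ F) : Mt) *ᵥ x) (((P'⁻¹ : GL _ F) : Mt) *ᵥ y)
    rw [mulVec_inv_mulVec, mulVec_inv_mulVec] at h4
    rw [(mem_spGL_iff g).1 hg, ← h4] at h3
    rw [h2, h2]
    exact mul_left_cancel₀ hζ h3
  refine ⟨?_, ?_⟩
  · -- strictness
    refine lt_of_le_not_ge inf_le_right fun h => ?_
    obtain ⟨c, hc⟩ : ∃ c : F, c ∉ F₀ := by
      by_contra hcon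
      push Not at hcon
      exact hF₀ (eq_top_iff.2 fun x _ => hcon x)
    let i₀ : Fin m := ⟨0, by omega⟩
    have h1 := (hmem _).1 (h (hconj2 _ (gt_mem (lV (ei i₀ : V₀)) c))).1
    have h2 : P'⁻¹ * (P' * gt (lV (ei i₀ : V₀)) c * P'⁻¹) * P' = gt (lV (ei i₀ : V₀)) c := by group
    rw [h2] at h1
    obtain ⟨κ, y₀, hy⟩ := mem_sup_lines h1 (fi i₀ + ei i₀)
    rw [gt_mulVec, lV_add, B_add_left, B_lV, B_lV, B₀_fi_ei, sympForm_self] at hy
    have hy1 := congrFun hy (.inr i₀)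
    have hy2 := congrFun hy (.inl i₀)
    simp [lV] at hy1 hy2
    have hne : (y₀ (.inr i₀) : F) ≠ 0 := by
      intro h0
      rw [h0, mul_zero] at hy1
      exact one_ne_zero hy1
    have hc1 : c = (y₀ (.inl i₀) : F) / (y₀ (.inr i₀) : F) - 1 := by
      have hκ : κ = (y₀ (.inr i₀) : F)⁻¹ := eq_inv_of_mul_eq_one_left hy1.symm
      rw [hκ] at hy2
      rw [div_eq_inv_mul, ← hy2]
      ring
    apply hc
    rw [hc1]
    exact F₀.sub_mem (F₀.div_mem (Subtype.coe_prop _) (Subtype.coe_prop _)) F₀.one_mem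
  intro M hHM hMS
  let M' : Subgroup (GL (Fin m ⊕ Fin m) F) := M.map (MulAut.conj P'⁻¹).toMonoidHom
  have hM' : ∀ g, g ∈ M' ↔ P' * g * P'⁻¹ ∈ M := by
    intro g
    constructor
    · rintro ⟨m, hm, rfl⟩
      simpa [MulAut.conj_apply, mul_assoc] using hm
    · intro hg
      exact ⟨_, hg, by simp [MulAut.conj_apply, mul_assoc]⟩
  have hM'S : M' ≤ spGL m F := by
    intro g hg
    have h1 := hconj1 _ (hMS ((hM' g).1 hg))
    convert h1 using 1
    group
  have hrat : HasRatS M' F₀ := by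
    intro G hG
    rw [hM']
    apply hHM
    refine ⟨(hmem _).2 ?_, hconj2 _ (map_mem_of_conj hG)⟩
    have h2 : P'⁻¹ * (P' * Matrix.GeneralLinearGroup.map (F₀.subtype : F₀ →+* F) G * P'⁻¹) * P' =
        Matrix.GeneralLinearGroup.map (F₀.subtype : F₀ →+* F) G := by group
    rw [h2]
    exact Subgroup.mem_sup_left ⟨G, rfl⟩
  rcases core hr hcard hm hM'S hrat with h | h
  · left
    apply le_antisymm _ hHM
    intro g hg
    refine ⟨(hmem _).2 (h _ ?_), hMS hg⟩
    rw [hM']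
    convert hg using 1
    group
  · right
    apply le_antisymm hMS
    intro s hs
    have h2 := h (hconj1 s hs)
    rw [hM'] at h2
    convert h2 using 1
    group

end Cfsg.Agent.Lib.Classical.Sub.SpMain
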