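/-
Overgroups of the rational points in a special unitary group: generation when the coefficients are everything, and
the rationality of the lines when they are the rational field and the degree is small.
-/
import Mathlib
import Cfsg.Agent.Lib.Classical.Sub.UElts
import Cfsg.Agent.Lib.Classical.Sub.SLCore

set_option autoImplicit false
set_option linter.unusedSectionVars false

namespace Cfsg.Agent.Lib.Classical.Sub.UCore

open scoped Matrix MatrixGroups
open Module Cfsg Cfsg.Geo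
open Cfsg.Agent.Lib.Classical.Geo.Basic
open Cfsg.Agent.Lib.Classical.Geo.UForm Cfsg.Agent.Lib.Classical.Geo.UPair Cfsg.Agent.Lib.Classical.Geo.UParab
open Cfsg.Agent.Lib.Classical.Sub.Rat Cfsg.Agent.Lib.Classical.Sub.UBase Cfsg.Agent.Lib.Classical.Sub.UElts

variable {ι : Type} [Fintype ι] [DecidableEq ι] {F : Type*} [Field F] [Fintype F]
  {σ : F ≃+* F} {f : (ι → F) → (ι → F) → F} {F₀ : Subfield F} {ζ : F}

local notation "Mt" => Matrix ι ι F

variable (hf : IsUnitaryForm σ f) (hR : RatS σ f F₀ ζ) {M : Subgroup (GL ι F)}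

include hf hR

/-- The orthogonal of a rational vector is spanned by rational isotropic vectors. -/
theorem span_perp (hn : 5 ≤ Fintype.card ι) {p : ι → F₀} (hp0 : p ≠ 0) {y : ι → F} (hy : f y (lV p) = 0) :
    y ∈ Submodule.span F (lV '' {x : ι → F₀ | x ∈ LinearMap.ker (cov hf hR p) ∧ f (lV x) (lV x) = 0}) := by
  classical
  set W := LinearMap.ker (cov hf hR p) with hW
  have hmemW : ∀ x : ι → F₀, f (lV x) (lV p) = 0 → x ∈ W := by
    intro x hx
    rw [hW, LinearMap.mem_ker]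
    apply Subtype.ext
    rw [cov_coe, hx, mul_zero]
    rfl
  obtain ⟨e, h', hee, hhh, h1, he, hh⟩ := exists_hyp_rat hf hR ![p] (by simpa using hn)
  have heW : e ∈ W := hmemW _ (he 0)
  have hhW : h' ∈ W := hmemW _ (hh 0)
  -- a rational vector not orthogonal to `p`
  obtain ⟨u₀, hu₀⟩ : ∃ u₀ : ι → F₀, cov hf hR p u₀ ≠ 0 := by
    by_contra hcon
    push Not at hcon
    apply lV_ne_zero hp0
    apply eq_zero_of_rat hf hR
    intro x
    have := congrArg (fun c : F₀ => (c : F)) (hcon x)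
    simp only [cov_coe, ZeroMemClass.coe_zero] at this
    exact (mul_eq_zero.1 this).resolve_left hR.ne
  set u := (cov hf hR p u₀)⁻¹ • u₀ with hu
  have hcu : cov hf hR p u = 1 := by
    rw [hu, map_smul, smul_eq_mul, inv_mul_cancel₀ hu₀]
  set d : ι → F₀ := fun i => cov hf hR p (Pi.single i 1) with hd
  have hmem : ∀ i, (Pi.single i 1 : ι → F₀) - d i • u ∈ W := by
    intro i
    rw [hW, LinearMap.mem_ker, map_sub, map_smul, hcu, smul_eq_mul, mul_one]
    exact sub_self _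
  have hext : y = ∑ i, y i • lV (Pi.single i (1 : F₀)) := by
    funext j
    simp only [Finset.sum_apply, Pi.smul_apply, lV_single, Pi.single_apply, smul_eq_mul, mul_ite, mul_one, mul_zero,
      Finset.sum_ite_eq, Finset.mem_univ, if_true]
  have hsum : ∑ i, y i * (d i : F) = 0 := by
    have h2 : ∑ i, y i * (d i : F) = ζ * f y (lV p) := by
      conv_rhs => rw [hext]
      have h3 := map_sum (fLin hf (lV p)) (fun i => y i • lV (Pi.single i (1 : F₀))) Finset.univ
      simp only [fLin_apply] at h3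
      rw [h3, Finset.mul_sum]
      apply Finset.sum_congr rfl
      intro i _
      rw [hf.smul_left, hd]
      simp only [cov_coe]
      ring
    rw [h2, hy, mul_zero]
  have hy' : y = ∑ i, y i • lV ((Pi.single i 1 : ι → F₀) - d i • u) := by
    have h2 : ∑ i, y i • lV ((Pi.single i 1 : ι → F₀) - d i • u) =
        ∑ i, y i • lV (Pi.single i (1 : F₀)) - (∑ i, y i * (d i : F)) • lV u := by
      rw [Finset.sum_smul, ← Finset.sum_sub_distrib]
      apply Finset.sum_congr rfl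
      intro i _
      rw [lV_sub, lV_smul]
      module
    rw [h2, hsum, zero_smul, sub_zero, ← hext]
  rw [hy']
  refine Submodule.sum_mem _ fun i _ => Submodule.smul_mem _ _ ?_
  exact lV_mem_span hf hR (mem_span_cone hf hR heW hhW (hmem i) hee hhh h1)

variable (hM : HasRatU hf M F₀) {r : ℕ}

include hM

/-- Generation: rational isotropic vectors. -/
theorem rat_mem_vecs (hAll : ∀ κ : F, κ ∈ AsU hf M ζ F₀) {p : ι → F₀} (hpp : f (lV p) (lV p) = 0) :
    lV p ∈ vecs hf M := by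
  refine ⟨hpp, fun c hc => ?_⟩
  obtain ⟨t, rfl⟩ := exists_sub_sigma hf hc
  have h1 : InE hf M (t • lV p) (lV p) := (hAll (t / ζ) p p hpp hpp hpp).congr hf (by
    rw [smul_smul, div_mul_cancel₀ _ hR.ne]) rfl
  obtain ⟨h4, h5⟩ := h1
  rwa [E_smul_self hf hpp t] at h5

/-- Generation: the whole Heisenberg group of a rational isotropic vector. -/
theorem all_Y (hn : 5 ≤ Fintype.card ι) (hAll : ∀ κ : F, κ ∈ AsU hf M ζ F₀) {p : ι → F₀} (hp0 : p ≠ 0)
    (hpp : f (lV p) (lV p) = 0) {y : ι → F} (hy : f y (lV p) = 0) :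
    ∃ s, s + σ s + f y y = 0 ∧ InY hf M (lV p) y s := by
  have hmain : ∀ y' ∈ Submodule.span F (lV '' {x : ι → F₀ | x ∈ LinearMap.ker (cov hf hR p) ∧ f (lV x) (lV x) = 0}),
      ∀ t : F, ∃ s, s + σ s + f (t • y') (t • y') = 0 ∧ InY hf M (lV p) (t • y') s := by
    intro y' hy'
    induction hy' using Submodule.span_induction with
    | mem x hx =>
      obtain ⟨b, ⟨hb, hbb⟩, rfl⟩ := hx
      have hbp : f (lV b) (lV p) = 0 := by
        have h1 : cov hf hR p b = 0 := hb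
        have h2 := congrArg (fun c : F₀ => (c : F)) h1
        simp only [cov_coe, ZeroMemClass.coe_zero] at h2
        exact (mul_eq_zero.1 h2).resolve_left hR.ne
      intro t
      refine ⟨0, ?_, ?_⟩
      · rw [iso_smul hf hbb, map_zero]
        ring
      · apply InE.toY hf hpp
        exact (hAll (t / ζ) b p hbb hpp hbp).congr hf (by
          rw [smul_smul, div_mul_cancel₀ _ hR.ne]) rfl
    | zero =>
      intro t
      refine ⟨0, ?_, ?_⟩
      · rw [smul_zero, zero_left hf, map_zero]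
        ring
      · rw [smul_zero]
        have h0 : f (0 : ι → F) (lV p) = 0 := zero_left hf _
        refine ⟨hpp, h0, ?_⟩
        have : Hh hf (lV p) 0 0 hpp h0 = 1 := by
          apply gl_ext
          intro x
          rw [Hh_mulVec hf hpp, zero_right hf]
          simp
        rw [this]
        exact M.one_mem
    | add a b _ _ h1 h2 =>
      intro t
      obtain ⟨s₁, e₁, m₁⟩ := h1 t
      obtain ⟨s₂, e₂, m₂⟩ := h2 t
      refine ⟨s₁ + s₂ - f (t • b) (t • a), ?_, ?_⟩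
      · rw [smul_add, self_add hf, map_sub, map_add, ← hf.herm (t • b) (t • a)]
        have e₃ : σ (f (t • b) (t • a)) = f (t • a) (t • b) := (hf.herm _ _).symm
        rw [e₃]
        linear_combination e₁ + e₂
      · rw [smul_add]
        exact InY.mul hf m₁ m₂
    | smul c a _ h1 =>
      intro t
      have := h1 (t * c)
      rwa [mul_smul] at this
  have := hmain y (span_perp hf hR hn hp0 hy) 1
  rwa [one_smul] at this

/-- Generation: root elements on a rational isotropic vector. -/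
theorem E_mem_of_top (hn : 5 ≤ Fintype.card ι) (hAll : ∀ κ : F, κ ∈ AsU hf M ζ F₀) {p : ι → F₀} (hp0 : p ≠ 0)
    (hpp : f (lV p) (lV p) = 0) {q : ι → F} (hqq : f q q = 0) (h : f (lV p) q = 0) : E hf (lV p) q h ∈ M := by
  have hq : f (-q) (lV p) = 0 := by rw [neg_left hf, swap_zero hf h, neg_zero]
  obtain ⟨s, hs, hY⟩ := all_Y hf hR hM hn hAll hp0 hpp hq
  have hs' : s + σ s = 0 := by
    have e : f (-q) (-q) = 0 := by rw [neg_left hf, neg_right hf, hqq]; ring
    rw [e, add_zero] at hs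
    exact hs
  have hneg : (-s) + σ (-s) = 0 := by
    rw [map_neg]
    linear_combination -hs'
  have h3 := (rat_mem_vecs hf hR hM hAll hpp).2 (-s) hneg
  have h4 := InY.mul hf hY (InY.zero_of_T hf hpp h3)
  have h5 : InY hf M (lV p) (-q) 0 := h4.congr hf (add_zero _) (by
    rw [zero_left hf]
    ring)
  obtain ⟨h6, h7⟩ := h5.toE hf
  have e : E hf (lV p) q h = E hf (-q) (lV p) h6 := by
    apply gl_ext
    intro x
    rw [E_mulVec hf h hqq, E_mulVec hf h6 hpp, neg_right hf]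
    module
  rw [e]
  exact h7

/-- **Generation**: all isotropic vectors. -/
theorem all_vecs_of_top (hn : 12 ≤ Fintype.card ι) (hAll : ∀ κ : F, κ ∈ AsU hf M ζ F₀) {w : ι → F} (hw : f w w = 0) :
    w ∈ vecs hf M := by
  by_cases hw0 : w = 0
  · rw [hw0]
    have := rat_mem_vecs hf hR hM hAll (p := 0) (by rw [lV_zero, zero_left hf])
    rwa [lV_zero] at this
  -- a rational isotropic vector not orthogonal to `w`
  obtain ⟨p, hpp, hwp⟩ : ∃ p : ι → F₀, f (lV p) (lV p) = 0 ∧ f w (lV p) ≠ 0 := by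
    by_contra hcon
    push Not at hcon
    apply hw0
    apply eq_zero_of_rat hf hR
    intro x
    apply swap_zero hf
    have hx := all_span_cone hf hR (by omega) x
    induction hx using Submodule.span_induction with
    | mem y hy => exact hcon y hy
    | zero => rw [lV_zero, zero_right hf]
    | add a b _ _ h1 h2 => rw [lV_add, add_right hf, h1, h2, add_zero]
    | smul c a _ h1 => rw [lV_smul, smul_right hf, h1, mul_zero]
  have hp0 : p ≠ 0 := by
    rintro rfl
    rw [lV_zero, zero_right hf] at hwp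
    exact hwp rfl
  -- a partner
  obtain ⟨h', hhh, h1, -⟩ := exists_partner_rat hf hR (x := p) (S := ⊥) (by simpa using hp0) hpp (by
    intro s hs
    rw [Submodule.mem_bot] at hs
    rw [hs, lV_zero, zero_left hf])
  have hpx : f (lV p) (lV h') ≠ 0 := by
    intro h0
    rw [h0, mul_zero] at h1
    exact zero_ne_one h1
  have hxp : f (lV h') (lV p) ≠ 0 := fun h0 => hpx (swap_zero hf h0)
  have hx := smul_mem_vecs hf (rat_mem_vecs hf hR hM hAll hhh) (f (lV h') (lV p))⁻¹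
  have e1 : f ((f (lV h') (lV p))⁻¹ • lV h') (lV p) = 1 := by
    rw [hf.smul_left, inv_mul_cancel₀ hxp]
  have e2 : f ((f w (lV p))⁻¹ • w) (lV p) = 1 := by
    rw [hf.smul_left, inv_mul_cancel₀ hwp]
  have e3 : f ((f w (lV p))⁻¹ • w) ((f w (lV p))⁻¹ • w) = 0 := iso_smul hf hw _
  have h2 := vecs_step hf (p := lV p) (fun q hq h => E_mem_of_top hf hR hM (by omega) hAll hp0 hpp hq h)
    (rat_mem_vecs hf hR hM hAll hpp) hx e1 e3 e2 hn
  have h3 := smul_mem_vecs hf h2 (f w (lV p))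
  rwa [smul_smul, mul_inv_cancel₀ hwp, one_smul] at h3

/-- The low rank relation. -/
theorem low_core (hn : 11 ≤ Fintype.card ι) (hAs : ∀ κ ∈ AsU hf M ζ F₀, κ ∈ F₀) {z y₃ : ι → F₀} {v : ι → F} {t s : F}
    (hzz : f (lV z) (lV z) = 0) (hz0 : z ≠ 0) (hY : InY hf M (lV z) (t • v) s) (hy₃ : f (lV y₃) (lV y₃) = 0)
    (hzy₃ : f (lV z) (lV y₃) = 0) : t * f v (lV y₃) ∈ F₀ := by
  classical
  have hS : finrank F₀ (Submodule.span F₀ {z, y₃}) ≤ 2 := finrank_span_pair_le z y₃
  obtain ⟨y₂, hy₂S, hy₂y₂, hy₂, -⟩ := exists_iso_perp hf hR (r := finrank F₀ F) rfl ![z, y₃]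
    (Fin.elim0 : Fin 0 → ι → F) (Submodule.span F₀ {z, y₃}) (by simp; omega)
  have hy₂z : f (lV y₂) (lV z) = 0 := hy₂ 0
  have hy₂y₃ : f (lV y₂) (lV y₃) = 0 := hy₂ 1
  obtain ⟨d, hdd, h1, h2⟩ := exists_partner_rat hf hR hy₂S hy₂y₂
    (fun u hu => orth_span_pair hf (swap_zero hf hy₂z) (swap_zero hf hy₂y₃) hu)
  have hzd := h2 z (Submodule.subset_span (by simp))
  have hy₃d := h2 y₃ (Submodule.subset_span (by simp))
  have hS1 : finrank F₀ (Submodule.span F₀ {z}) ≤ 1 := le_of_eq (finrank_span_singleton hz0)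
  obtain ⟨y₅, hy₅S, hy₅y₅, hy₅, -⟩ := exists_iso_perp hf hR (r := finrank F₀ F) rfl ![z, y₂, y₃, d]
    (Fin.elim0 : Fin 0 → ι → F) (Submodule.span F₀ {z}) (by simp; omega)
  have hy₅z : f (lV y₅) (lV z) = 0 := hy₅ 0
  have hy₅y₂ : f (lV y₅) (lV y₂) = 0 := hy₅ 1
  have hy₅y₃ : f (lV y₅) (lV y₃) = 0 := hy₅ 2
  have hy₅d : f (lV y₅) (lV d) = 0 := hy₅ 3
  -- the first step
  obtain ⟨h0, hg₁⟩ := rat_E hf hR hM hy₂y₂ hy₃ hy₂y₃
  have hi₁ := E_iso hf (iso_smul hf hy₂y₂ ζ) hy₃ h0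
  have hfix₁ : ((E hf (ζ • lV y₂) (lV y₃) h0 : GL ι F) : Mt) *ᵥ lV z = lV z := by
    rw [E_mulVec hf h0 hy₃, hzy₃, smul_right hf, swap_zero hf hy₂z]
    simp
  have hA := InY.step hf hY hg₁ hi₁ hfix₁
  set A := t * f v (lV y₃) * ζ with hAdef
  set B := t * σ ζ * f v (lV y₂) with hBdef
  have e1 : ((E hf (ζ • lV y₂) (lV y₃) h0 : GL ι F) : Mt) *ᵥ (t • v) - t • v = A • lV y₂ - B • lV y₃ := by
    rw [E_mulVec hf h0 hy₃, hf.smul_left, hf.smul_left, smul_right hf, hAdef, hBdef]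
    module
  rw [e1] at hA
  -- the second step
  obtain ⟨h0', hg₂⟩ := rat_E hf hR hM hy₅y₅ hdd hy₅d
  have hi₂ := E_iso hf (iso_smul hf hy₅y₅ ζ) hdd h0'
  have hfix₂ : ((E hf (ζ • lV y₅) (lV d) h0' : GL ι F) : Mt) *ᵥ lV z = lV z := by
    rw [E_mulVec hf h0' hdd, hzd, smul_right hf, swap_zero hf hy₅z]
    simp
  have hB := InY.step hf hA hg₂ hi₂ hfix₂
  have e2 : f (A • lV y₂ - B • lV y₃) (lV d) * ζ = A := by
    rw [sub_left hf, hf.smul_left, hf.smul_left, hy₃d, mul_zero, sub_zero, mul_assoc, mul_comm (f _ _), h1, mul_one]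
  have e3 : f (A • lV y₂ - B • lV y₃) (ζ • lV y₅) = 0 := by
    rw [smul_right hf, sub_left hf, hf.smul_left, hf.smul_left, swap_zero hf hy₅y₂, swap_zero hf hy₅y₃]
    simp
  have e4 : ((E hf (ζ • lV y₅) (lV d) h0' : GL ι F) : Mt) *ᵥ (A • lV y₂ - B • lV y₃) - (A • lV y₂ - B • lV y₃) = A • lV y₅ := by
    rw [E_mulVec hf h0' hdd, e3, zero_smul, sub_zero, add_sub_cancel_left, smul_smul, e2]
  have e5 : f (A • lV y₂ - B • lV y₃) (((E hf (ζ • lV y₅) (lV d) h0' : GL ι F) : Mt) *ᵥ (A • lV y₂ - B • lV y₃)) -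
      f (A • lV y₂ - B • lV y₃) (A • lV y₂ - B • lV y₃) = 0 := by
    rw [E_mulVec hf h0' hdd, e3, zero_smul, sub_zero, smul_smul, e2, add_right hf, smul_right hf, add_sub_cancel_left,
      sub_left hf, hf.smul_left, hf.smul_left, swap_zero hf hy₅y₂, swap_zero hf hy₅y₃]
    simp
  rw [e4, e5] at hB
  have hE := hB.toE hf
  have hmem : t * f v (lV y₃) ∈ KS hf M ζ y₅ z := hE.congr hf (by
    rw [smul_smul]) rfl
  have hy₅0 : y₅ ≠ 0 := by
    rintro rfl
    exact hy₅S (Submodule.zero_mem _)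
  exact hAs _ (mem_AsU_of_pair hf hR hM hn hy₅y₅ hzz hy₅z hy₅0 (not_mem_singleton_symm hz0 hy₅S) hmem)

/-- **Lines** are rational, when the degree is small. -/
theorem low_line (hrk : finrank F₀ F = r) (hnr : 2 * r + 5 ≤ Fintype.card ι) (hn : 11 ≤ Fintype.card ι)
    (hAs : ∀ κ ∈ AsU hf M ζ F₀, κ ∈ F₀) {g : GL ι F} (hgM : g ∈ M)
    (hg : ∀ x y, f ((g : Mt) *ᵥ x) ((g : Mt) *ᵥ y) = f x y) {u : ι → F₀} (hu0 : u ≠ 0) (huu : f (lV u) (lV u) = 0) :
    ∃ (κ : F) (y₀ : ι → F₀), κ ≠ 0 ∧ (g : Mt) *ᵥ lV u = κ • lV y₀ := by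
  classical
  set v := (g : Mt) *ᵥ lV u with hv
  have hvv : f v v = 0 := by rw [hv, hg, huu]
  -- a rational isotropic vector orthogonal to `v`, not on the line of `v`
  obtain ⟨y, hyy, hyv, hyl⟩ : ∃ y : ι → F₀, f (lV y) (lV y) = 0 ∧ f (lV y) v = 0 ∧ lV y ∉ Submodule.span F {v} := by
    obtain ⟨y₁, hy₁S, hy₁y₁, -, hy₁⟩ := exists_iso_perp hf hR hrk (Fin.elim0 : Fin 0 → ι → F₀) ![v] ⊥ (by simp; omega)
    have hy₁0 : y₁ ≠ 0 := by simpa using hy₁S
    have hS1 : finrank F₀ (Submodule.span F₀ {y₁}) ≤ 1 := le_of_eq (finrank_span_singleton hy₁0)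
    obtain ⟨y₂, hy₂S, hy₂y₂, -, hy₂⟩ := exists_iso_perp hf hR hrk (Fin.elim0 : Fin 0 → ι → F₀) ![v]
      (Submodule.span F₀ {y₁}) (by simp; omega)
    by_cases hc : lV y₁ ∈ Submodule.span F {v}
    · refine ⟨y₂, hy₂y₂, hy₂ 0, fun hc2 => hy₂S ?_⟩
      obtain ⟨α, hα⟩ := Submodule.mem_span_singleton.1 hc
      obtain ⟨β, hβ⟩ := Submodule.mem_span_singleton.1 hc2
      have hα0 : α ≠ 0 := by
        rintro rfl
        apply lV_ne_zero hy₁0
        rw [← hα, zero_smul]
      apply exists_rat_mult hf hR hy₁0 (l := β / α)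
      rw [← hα, ← hβ, smul_smul]
      congr 1
      field_simp
    · exact ⟨y₁, hy₁y₁, hy₁ 0, hc⟩
  -- a rational isotropic `b`
  set x := ((g⁻¹ : GL ι F) : Mt) *ᵥ lV y with hx
  have hgx : (g : Mt) *ᵥ x = lV y := by
    rw [hx, Matrix.mulVec_mulVec, ← Units.val_mul, mul_inv_cancel]
    simp
  have hxl : x ∉ Submodule.span F {lV u} := by
    intro hmem
    obtain ⟨α, hα⟩ := Submodule.mem_span_singleton.1 hmem
    apply hyl
    rw [← hgx, ← hα, Matrix.mulVec_smul]
    exact Submodule.smul_mem _ _ (Submodule.mem_span_singleton_self _)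
  obtain ⟨w', hw'0, hw'1⟩ := exists_perp_ne hf hxl
  have hw'u : f w' (lV u) = 0 := swap_zero hf (hw'0 _ (Submodule.mem_span_singleton_self _))
  have hspan := span_perp hf hR (by omega) hu0 hw'u
  obtain ⟨b, hbu, hbb, hxb⟩ : ∃ b : ι → F₀, f (lV b) (lV u) = 0 ∧ f (lV b) (lV b) = 0 ∧ f x (lV b) ≠ 0 := by
    by_contra hcon
    push Not at hcon
    have h1 : ∀ y' ∈ Submodule.span F (lV '' {x : ι → F₀ | x ∈ LinearMap.ker (cov hf hR u) ∧ f (lV x) (lV x) = 0}),
        f x y' = 0 := by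
      intro y' hy'
      induction hy' using Submodule.span_induction with
      | mem c hc =>
        obtain ⟨b, ⟨hb, hbb⟩, rfl⟩ := hc
        have h2 : cov hf hR u b = 0 := hb
        have h3 := congrArg (fun c : F₀ => (c : F)) h2
        simp only [cov_coe, ZeroMemClass.coe_zero] at h3
        exact hcon b ((mul_eq_zero.1 h3).resolve_left hR.ne) hbb
      | zero => exact zero_right hf x
      | add a b _ _ h1 h2 => rw [add_right hf, h1, h2, add_zero]
      | smul c a _ h1 => rw [smul_right hf, h1, mul_zero]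
    rw [h1 _ hspan] at hw'1
    exact zero_ne_one hw'1
  set w := (g : Mt) *ᵥ lV b with hw
  have hwww : f w w = 0 := by rw [hw, hg, hbb]
  have hyw : f (lV y) w ≠ 0 := by
    rw [← hgx, hw, hg]
    exact hxb
  have hvw : f w v = 0 := by rw [hw, hv, hg, hbu]
  -- the conjugate root element
  have hT0 := InE.conj hf huu (rat_E hf hR hM hbb huu hbu) hgM hg
  rw [Matrix.mulVec_smul, ← hw, ← hv] at hT0
  obtain ⟨h0, hT⟩ := hT0
  have hTi := E_iso hf (iso_smul hf hwww ζ) hvv h0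
  set t := -(ζ * σ ζ * f (lV y) w) with ht
  have hσζ : σ ζ ≠ 0 := by simpa using hR.ne
  have ht0 : t ≠ 0 := by
    rw [ht]
    exact neg_ne_zero.2 (mul_ne_zero (mul_ne_zero hR.ne hσζ) hyw)
  have hrel : ∀ y₃ : ι → F₀, f (lV y₃) (lV y₃) = 0 → f (lV y₃) v * σ t ∈ F₀ := by
    intro y₃ hy₃
    obtain ⟨z, hzS, hzz, hz, hz'⟩ := exists_iso_perp hf hR hrk ![y, y₃] ![v, w] ⊥ (by simp; omega)
    have hz0 : z ≠ 0 := by simpa using hzS
    have hzy : f (lV z) (lV y) = 0 := hz 0
    have hzy₃ : f (lV z) (lV y₃) = 0 := hz 1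
    have hzv : f (lV z) v = 0 := hz' 0
    have hzw : f (lV z) w = 0 := hz' 1
    have hfix : ((E hf (ζ • w) v h0 : GL ι F) : Mt) *ᵥ lV z = lV z := by
      rw [E_mulVec hf h0 hvv, hzv, smul_right hf, hzw]
      simp
    have hY0 : InY hf M (lV z) (ζ • lV y) 0 := InE.toY hf hzz (rat_E hf hR hM hyy hzz (swap_zero hf hzy))
    have hY1 := InY.step hf hY0 hT hTi hfix
    have e1 : ((E hf (ζ • w) v h0 : GL ι F) : Mt) *ᵥ (ζ • lV y) - ζ • lV y = t • v := by
      rw [E_mulVec hf h0 hvv, hf.smul_left, hf.smul_left, hyv, smul_right hf, ht]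
      module
    rw [e1] at hY1
    have h2 := low_core hf hR hM hn hAs hzz hz0 hY1 hy₃ hzy₃
    have h3 := hR.σF _ h2
    rw [map_mul, ← hf.herm] at h3
    rw [mul_comm]
    exact h3
  obtain ⟨u', hu'⟩ := line_of_rel hf hR (by omega) (t := σ t) (by simpa using ht0) hrel
  refine ⟨_, u', ?_, hu'⟩
  rw [hf.involutive]
  exact div_ne_zero hσζ ht0

/-- **The dichotomy for small degrees.** -/
theorem core_low (hr : r.Prime) (hc : Fintype.card F = Nat.card F₀ ^ r) (hnr : 2 * r + 5 ≤ Fintype.card ι)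
    (hn : 12 ≤ Fintype.card ι) (hMi : M ≤ isoGroup hf) :
    (∀ g ∈ M, g ∈ (Matrix.GeneralLinearGroup.map (F₀.subtype : F₀ →+* F)).range ⊔ scalars ι F) ∨
      ∀ w, f w w = 0 → w ∈ vecs hf M := by
  classical
  have hrk : finrank F₀ F = r := by
    have h1 : Nat.card F = Nat.card F₀ ^ finrank F₀ F := Module.natCard_eq_pow_finrank (K := F₀) (V := F)
    have h2 : 1 < Nat.card F₀ := Finite.one_lt_card
    rw [Nat.card_eq_fintype_card, hc] at h1
    exact (Nat.pow_right_injective h2 h1).symm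
  rcases Cfsg.Agent.Lib.Classical.Sub.SLCore.subfield_dichotomy hr hc (subK hf hR hM (by omega))
    (fun c hc => coe_mem_AsU hf hR hM ⟨c, hc⟩) with hK | hK
  · left
    have hAs : ∀ κ ∈ AsU hf M ζ F₀, κ ∈ F₀ := fun κ hκ => (SetLike.ext_iff.1 hK κ).1 hκ
    intro g hg
    apply mem_of_iso_lines hf hR (by omega)
    intro x hx0 hxx
    exact low_line hf hR hM hrk hnr (by omega) hAs hg ((mem_isoGroup hf).1 (hMi hg)).1 hx0 hxx
  · right
    intro w hw
    apply all_vecs_of_top hf hR hM hn _ hw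
    intro κ
    have : κ ∈ subK hf hR hM (by omega) := by
      rw [hK]
      exact Subfield.mem_top κ
    exact this

end Cfsg.Agent.Lib.Classical.Sub.UCore
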