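/-
Fixed fields of involutions of finite fields, and the additive groups generated by the norms of a three dimensional
family of elements: they are large and generate the fixed field.
-/
import Mathlib
import Cfsg.Agent.Lib.Classical.Sub.SLCore

set_option autoImplicit false
set_option linter.unusedSectionVars false

namespace Cfsg.Agent.Lib.Classical.Sub.UGen

section Fix

variable {K : Type*} [Field K]

theorem mem_Efix_aux {τ : K ≃+* K} {x : K} : x ∈ {x | τ x = x} ↔ τ x = x := Iff.rfl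

/-- The fixed field. -/
def Efix (τ : K ≃+* K) : Subfield K where
  carrier := {x | τ x = x}
  mul_mem' := by
    intro a b ha hb
    simp only [mem_Efix_aux] at *
    rw [map_mul, ha, hb]
  one_mem' := map_one τ
  add_mem' := by
    intro a b ha hb
    simp only [mem_Efix_aux] at *
    rw [map_add, ha, hb]
  zero_mem' := map_zero τ
  neg_mem' := by
    intro a ha
    simp only [mem_Efix_aux] at *
    rw [map_neg, ha]
  inv_mem' := by
    intro a ha
    simp only [mem_Efix_aux] at *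
    rw [map_inv₀, ha]

theorem mem_Efix {τ : K ≃+* K} {x : K} : x ∈ Efix τ ↔ τ x = x := Iff.rfl

/-- A quadratic extension by an involution. -/
theorem card_Efix [Finite K] (τ : K ≃+* K) (hτ : ∀ x, τ (τ x) = x) {w : K} (hw : τ w ≠ w) :
    Nat.card K = Nat.card (Efix τ) ^ 2 := by
  set δ := w - τ w with hδ
  have hδ0 : δ ≠ 0 := sub_ne_zero.2 hw.symm
  have hτδ : τ δ = -δ := by
    rw [hδ, map_sub, hτ]
    ring
  have hb : ∀ x, τ ((x - τ x) / δ) = (x - τ x) / δ := by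
    intro x
    rw [map_div₀, map_sub, hτ, hτδ, div_neg, ← neg_div, neg_sub]
  have ha : ∀ x, τ (x - (x - τ x) / δ * w) = x - (x - τ x) / δ * w := by
    intro x
    rw [map_sub, map_mul, hb]
    have : (x - τ x) / δ * (w - τ w) = x - τ x := by
      rw [← hδ]
      field_simp
    linear_combination this
  let e : K ≃ Efix τ × Efix τ :=
    { toFun := fun x => (⟨x - (x - τ x) / δ * w, ha x⟩, ⟨(x - τ x) / δ, hb x⟩)
      invFun := fun p => (p.1 : K) + (p.2 : K) * w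
      left_inv := by
        intro x
        simp
      right_inv := by
        rintro ⟨⟨p, hp⟩, ⟨q, hq⟩⟩
        have hp' : τ p = p := hp
        have hq' : τ q = q := hq
        have h1 : (p + q * w - τ (p + q * w)) / δ = q := by
          rw [map_add, map_mul, hp', hq', hδ]
          field_simp
          ring
        apply Prod.ext
        · apply Subtype.ext
          show p + q * w - (p + q * w - τ (p + q * w)) / δ * w = p
          rw [h1]
          ring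
        · apply Subtype.ext
          exact h1 }
  rw [Nat.card_congr e, Nat.card_prod, sq]

end Fix

section Field

variable {F : Type*} [Field F] {σ : F ≃+* F} {F₀ : Subfield F}

/-- The restriction of an involution to a stable subfield. -/
def resS (hσ : ∀ x, σ (σ x) = x) (hsF : ∀ x ∈ F₀, σ x ∈ F₀) : F₀ ≃+* F₀ where
  toFun x := ⟨σ x, hsF x x.2⟩
  invFun x := ⟨σ x, hsF x x.2⟩
  left_inv x := Subtype.ext (hσ x)
  right_inv x := Subtype.ext (hσ x)
  map_mul' a b := Subtype.ext (map_mul σ _ _)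
  map_add' a b := Subtype.ext (map_add σ _ _)

/-- The rational part of the fixed field. -/
def E0 (σ : F ≃+* F) (F₀ : Subfield F) : Subfield (Efix σ) := F₀.comap (Efix σ).subtype

theorem mem_E0 {x : Efix σ} : x ∈ E0 σ F₀ ↔ (x : F) ∈ F₀ := Iff.rfl

/-- The order of the rational part of the fixed field. -/
theorem card_E0 (hσ : ∀ x, σ (σ x) = x) (hsF : ∀ x ∈ F₀, σ x ∈ F₀) :
    Nat.card (Efix (resS hσ hsF)) = Nat.card (E0 σ F₀) := by
  refine Nat.card_congr
    { toFun := fun x => ⟨⟨(x.1 : F), congrArg Subtype.val x.2⟩, x.1.2⟩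
      invFun := fun x => ⟨⟨(x.1 : F), x.2⟩, Subtype.ext x.1.2⟩
      left_inv := fun x => rfl
      right_inv := fun x => rfl }

variable [Finite F]

/-- The degree of the fixed fields. -/
theorem card_E_eq (hσ : ∀ x, σ (σ x) = x) (hsF : ∀ x ∈ F₀, σ x ∈ F₀) {l₁ : F} (hl : l₁ ∈ F₀) (hl' : σ l₁ ≠ l₁) {r : ℕ}
    (hc : Nat.card F = Nat.card F₀ ^ r) : Nat.card (Efix σ) = Nat.card (E0 σ F₀) ^ r := by
  have h1 : Nat.card F = Nat.card (Efix σ) ^ 2 := card_Efix σ hσ (w := l₁) hl'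
  have h2 : Nat.card F₀ = Nat.card (E0 σ F₀) ^ 2 := by
    rw [← card_E0 hσ hsF]
    exact card_Efix (resS hσ hsF) (fun x => Subtype.ext (hσ x)) (w := ⟨l₁, hl⟩) (fun h => hl' (congrArg Subtype.val h))
  rw [h1, h2, ← pow_mul, mul_comm, pow_mul] at hc
  exact Nat.pow_left_injective (n := 2) (by norm_num) hc

/-- The norm as an element of the fixed field. -/
def Nm (hσ : ∀ x, σ (σ x) = x) (x : F) : Efix σ := ⟨x * σ x, by
  show σ (x * σ x) = x * σ x
  rw [map_mul, hσ, mul_comm]⟩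

@[simp] theorem Nm_coe (hσ : ∀ x, σ (σ x) = x) (x : F) : (Nm hσ x : F) = x * σ x := rfl

variable (β : (Fin 3 → F₀) → F)

/-- The additive group generated by the rational multiples of the norms. -/
def Sgen (hσ : ∀ x, σ (σ x) = x) : AddSubgroup (Efix σ) :=
  AddSubgroup.closure {μ | ∃ (e : Efix σ) (a : Fin 3 → F₀), (e : F) ∈ F₀ ∧ μ = e * Nm hσ (β a)}

variable {β}

theorem gen_mem_S (hσ : ∀ x, σ (σ x) = x) (e : Efix σ) (a : Fin 3 → F₀) (he : (e : F) ∈ F₀) :
    e * Nm hσ (β a) ∈ Sgen β hσ :=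
  AddSubgroup.subset_closure ⟨e, a, he, rfl⟩

theorem Nm_ne (hσ : ∀ x, σ (σ x) = x) {x : F} (hx : x ≠ 0) : Nm hσ x ≠ 0 := by
  intro h
  have h1 : x * σ x = 0 := congrArg Subtype.val h
  exact (mul_ne_zero hx (by simpa using hx)) h1

/-- **Generation of the fixed field.** -/
theorem S_gen (hσ : ∀ x, σ (σ x) = x) (hsF : ∀ x ∈ F₀, σ x ∈ F₀) {l₁ : F} (hl : l₁ ∈ F₀) (hl' : σ l₁ ≠ l₁)
    (hadd : ∀ a b, β (a + b) = β a + β b) (hsmul : ∀ (d : F₀) a, β (d • a) = d * β a) (hinj : ∀ a, β a = 0 → a = 0)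
    {r : ℕ} (hr : r.Prime) (hc : Nat.card F = Nat.card F₀ ^ r) (W : Subfield (Efix σ))
    (hW : ∀ d ∈ Sgen β hσ, d ∈ W) : W = ⊤ := by
  classical
  haveI : Fintype F := Fintype.ofFinite F
  haveI : Fintype (Efix σ) := Fintype.ofFinite _
  have hgen : ∀ (e : Efix σ) (a : Fin 3 → F₀), (e : F) ∈ F₀ → e * Nm hσ (β a) ∈ W :=
    fun e a he => hW _ (gen_mem_S hσ e a he)
  set e₀ : Fin 3 → F₀ := Pi.single 0 1 with he₀
  set e₁ : Fin 3 → F₀ := Pi.single 1 1 with he₁
  have he₀0 : e₀ ≠ 0 := by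
    intro h0
    have := congrFun h0 0
    simp [he₀] at this
  have hb₀ : β e₀ ≠ 0 := fun h => he₀0 (hinj _ h)
  have hN₀ := Nm_ne hσ hb₀
  have hle : E0 σ F₀ ≤ W := by
    intro x hx
    have h1 := hgen x e₀ hx
    have h2 := hgen 1 e₀ F₀.one_mem
    have e : x = (x * Nm hσ (β e₀)) / (1 * Nm hσ (β e₀)) := by
      field_simp
    rw [e]
    exact W.div_mem h1 h2
  have hcE : Fintype.card (Efix σ) = Nat.card (E0 σ F₀) ^ r := by
    rw [← Nat.card_eq_fintype_card]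
    exact card_E_eq hσ hsF hl hl' hc
  rcases Cfsg.Agent.Lib.Classical.Sub.SLCore.subfield_dichotomy hr hcE W hle with h | h
  swap
  · exact h
  exfalso
  have hN : ∀ a, β a * σ (β a) ∈ F₀ := by
    intro a
    have h1 := hgen 1 a F₀.one_mem
    rw [h, one_mul] at h1
    exact h1
  set b₀ := β e₀ with hb₀def
  set b₁ := β e₁ with hb₁def
  have hβ1 := hN (e₁ + e₀)
  rw [hadd, ← hb₀def, ← hb₁def, map_add] at hβ1
  have hβ2 := hN (e₁ + (⟨l₁, hl⟩ : F₀) • e₀)
  rw [hadd, hsmul, ← hb₀def, ← hb₁def, map_add, map_mul] at hβ2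
  have hN₀' := hN e₀
  have hN₁' := hN e₁
  rw [← hb₀def] at hN₀'
  rw [← hb₁def] at hN₁'
  have hu₁ : b₁ * σ b₀ + b₀ * σ b₁ ∈ F₀ := by
    have e : b₁ * σ b₀ + b₀ * σ b₁ = (b₁ + b₀) * (σ b₁ + σ b₀) - b₁ * σ b₁ - b₀ * σ b₀ := by ring
    rw [e]
    exact F₀.sub_mem (F₀.sub_mem hβ1 hN₁') hN₀'
  have hu₂ : σ l₁ * (b₁ * σ b₀) + l₁ * (b₀ * σ b₁) ∈ F₀ := by
    have e : σ l₁ * (b₁ * σ b₀) + l₁ * (b₀ * σ b₁) =
        (b₁ + l₁ * b₀) * (σ b₁ + σ l₁ * σ b₀) - b₁ * σ b₁ - (l₁ * σ l₁) * (b₀ * σ b₀) := by ring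
    rw [e]
    exact F₀.sub_mem (F₀.sub_mem hβ2 hN₁') (F₀.mul_mem (F₀.mul_mem hl (hsF _ hl)) hN₀')
  have hδ : l₁ - σ l₁ ≠ 0 := sub_ne_zero.2 hl'.symm
  have hA : b₁ * σ b₀ ∈ F₀ := by
    have e : b₁ * σ b₀ = (l₁ * (b₁ * σ b₀ + b₀ * σ b₁) - (σ l₁ * (b₁ * σ b₀) + l₁ * (b₀ * σ b₁))) / (l₁ - σ l₁) := by
      field_simp
      ring
    rw [e]
    exact F₀.div_mem (F₀.sub_mem (F₀.mul_mem hl hu₁) hu₂) (F₀.sub_mem hl (hsF _ hl))
  have hσb₀ : σ b₀ ≠ 0 := by simpa using hb₀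
  have hρ : b₁ / b₀ ∈ F₀ := by
    have e : b₁ / b₀ = (b₁ * σ b₀) / (b₀ * σ b₀) := by
      field_simp
    rw [e]
    exact F₀.div_mem hA hN₀'
  have h0 : β (e₁ + (⟨-(b₁ / b₀), F₀.neg_mem hρ⟩ : F₀) • e₀) = 0 := by
    rw [hadd, hsmul, ← hb₀def, ← hb₁def]
    simp only
    field_simp
    ring
  have h1 := congrFun (hinj _ h0) 1
  simp [he₀, he₁] at h1

/-- The polarisation. -/
def Pf (hσ : ∀ x, σ (σ x) = x) (b y l : F) : Efix σ := ⟨l * y * σ b + σ l * b * σ y, by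
  show σ (l * y * σ b + σ l * b * σ y) = l * y * σ b + σ l * b * σ y
  simp only [map_add, map_mul, hσ]
  ring⟩

theorem Pf_mem (hσ : ∀ x, σ (σ x) = x) (hsF : ∀ x ∈ F₀, σ x ∈ F₀)
    (hadd : ∀ a b, β (a + b) = β a + β b) (hsmul : ∀ (d : F₀) a, β (d • a) = d * β a) (e₀ a : Fin 3 → F₀) (l : F₀) :
    Pf hσ (β e₀) (β a) l ∈ Sgen β hσ := by
  have e : Pf hσ (β e₀) (β a) l = Nm hσ (β (a + (⟨σ l, hsF _ l.2⟩ : F₀) • e₀)) - Nm hσ (β a) - Nm hσ l * Nm hσ (β e₀) := by
    apply Subtype.ext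
    show (l : F) * β a * σ (β e₀) + σ l * β e₀ * σ (β a) = β (a + (⟨σ l, hsF _ l.2⟩ : F₀) • e₀) * σ (β (a + (⟨σ l, hsF _ l.2⟩ : F₀) • e₀)) -
      β a * σ (β a) - (l * σ l) * (β e₀ * σ (β e₀))
    rw [hadd, hsmul]
    simp only [map_add, map_mul, hσ]
    ring
  rw [e]
  have h1 : ∀ a' : Fin 3 → F₀, Nm hσ (β a') ∈ Sgen β hσ := fun a' => by
    have := gen_mem_S (β := β) hσ 1 a' F₀.one_mem
    rwa [one_mul] at this
  refine AddSubgroup.sub_mem _ (AddSubgroup.sub_mem _ (h1 _) (h1 _)) (gen_mem_S hσ _ _ ?_)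
  exact F₀.mul_mem l.2 (hsF _ l.2)

/-- **The additive group is large.** -/
theorem S_card (hσ : ∀ x, σ (σ x) = x) (hsF : ∀ x ∈ F₀, σ x ∈ F₀) {l₁ : F} (hl : l₁ ∈ F₀) (hl' : σ l₁ ≠ l₁)
    (hadd : ∀ a b, β (a + b) = β a + β b) (hsmul : ∀ (d : F₀) a, β (d • a) = d * β a) (hinj : ∀ a, β a = 0 → a = 0)
    {r : ℕ} (hr : r.Prime) (hr3 : r ≠ 3) (hc : Nat.card F = Nat.card F₀ ^ r) : 8 < Nat.card (Sgen β hσ) := by
  classical
  haveI : Fintype F := Fintype.ofFinite F
  haveI : Fintype (Efix σ) := Fintype.ofFinite _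
  set S := Sgen β hσ with hS
  set e₀ : Fin 3 → F₀ := Pi.single 0 1 with he₀
  have he₀0 : e₀ ≠ 0 := by
    intro h0
    have := congrFun h0 0
    simp [he₀] at this
  have hb₀ : β e₀ ≠ 0 := fun h => he₀0 (hinj _ h)
  have hσb₀ : σ (β e₀) ≠ 0 := by simpa using hb₀
  set L₁ : F₀ := ⟨l₁, hl⟩ with hL₁
  have hsub : ∀ a a', β (a - a') = β a - β a' := by
    intro a a'
    have := hadd (a - a') a'
    rw [sub_add_cancel] at this
    rw [this]
    ring
  have hone : (1 : F₀) = (1 : F₀) := rfl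
  let Φ : (Fin 3 → F₀) → S × S := fun a =>
    (⟨Pf hσ (β e₀) (β a) (1 : F₀), Pf_mem hσ hsF hadd hsmul e₀ a 1⟩, ⟨Pf hσ (β e₀) (β a) L₁, Pf_mem hσ hsF hadd hsmul e₀ a L₁⟩)
  have hΦ1 : ∀ a, ((Φ a).1 : Efix σ).1 = β a * σ (β e₀) + β e₀ * σ (β a) := by
    intro a
    show ((1 : F₀) : F) * β a * σ (β e₀) + σ ((1 : F₀) : F) * β e₀ * σ (β a) = _
    simp
  have hΦ2 : ∀ a, ((Φ a).2 : Efix σ).1 = l₁ * β a * σ (β e₀) + σ l₁ * β e₀ * σ (β a) := fun a => rfl
  have hinjΦ : Function.Injective Φ := by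
    intro a a' h
    have h1 := congrArg (fun p : S × S => (p.1 : Efix σ).1) h
    have h2 := congrArg (fun p : S × S => (p.2 : Efix σ).1) h
    simp only [hΦ1, hΦ2] at h1 h2
    set A := (β a - β a') * σ (β e₀) with hA
    have h3 : (l₁ - σ l₁) * A = 0 := by
      rw [hA]
      linear_combination h2 - σ l₁ * h1
    have h4 : A = 0 := (mul_eq_zero.1 h3).resolve_left (sub_ne_zero.2 hl'.symm)
    have h5 : β a - β a' = 0 := (mul_eq_zero.1 h4).resolve_right hσb₀
    rw [← hsub] at h5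
    exact sub_eq_zero.1 (hinj _ h5)
  have h1 : Nat.card F₀ ^ 3 ≤ Nat.card S ^ 2 := by
    have h2 := Nat.card_le_card_of_injective Φ hinjΦ
    have h3 : Nat.card (Fin 3 → F₀) = Nat.card F₀ ^ 3 := by
      rw [Nat.card_fun]
      simp
    rw [h3, Nat.card_prod] at h2
    rwa [sq]
  by_contra hle
  have hle' : Nat.card S ≤ 8 := not_lt.1 hle
  have hF₀ : Nat.card F₀ = Nat.card (E0 σ F₀) ^ 2 := by
    rw [← card_E0 hσ hsF]
    exact card_Efix (resS hσ hsF) (fun x => Subtype.ext (hσ x)) (w := ⟨l₁, hl⟩) (fun h => hl' (congrArg Subtype.val h))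
  have hE2 : 2 ≤ Nat.card (E0 σ F₀) := Finite.one_lt_card
  have hF4 : 4 ≤ Nat.card F₀ := by
    rw [hF₀]
    nlinarith
  have hS8 : Nat.card S = 8 := by
    have h2 : 64 ≤ Nat.card F₀ ^ 3 := by
      calc 64 = 4 ^ 3 := by norm_num
        _ ≤ _ := Nat.pow_le_pow_left hF4 3
    have h3 : 64 ≤ Nat.card S ^ 2 := h2.trans h1
    nlinarith
  have hF4' : Nat.card F₀ = 4 := by
    have h2 : Nat.card F₀ ^ 3 ≤ 64 := by
      rw [hS8] at h1
      simpa using h1
    by_contra hne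
    have h3 : 5 ≤ Nat.card F₀ := by omega
    have h4 : 5 ^ 3 ≤ Nat.card F₀ ^ 3 := Nat.pow_le_pow_left h3 3
    omega
  have hE0 : Nat.card (E0 σ F₀) = 2 := by
    rw [hF4'] at hF₀
    nlinarith
  have hbij : Function.Bijective Φ := by
    apply hinjΦ.bijective_of_nat_card_le
    rw [Nat.card_prod, hS8]
    have h3 : Nat.card (Fin 3 → F₀) = Nat.card F₀ ^ 3 := by
      rw [Nat.card_fun]
      simp
    rw [h3, hF4']
    norm_num
  -- the rational part of the fixed field is the prime field of order two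
  have hE01 : ∀ x : E0 σ F₀, x = 0 ∨ x = 1 := by
    intro x
    obtain ⟨y, hy, huniq⟩ := (Nat.card_eq_two_iff' (0 : E0 σ F₀)).1 hE0
    by_cases hx : x = 0
    · exact Or.inl hx
    · right
      rw [huniq x hx, ← huniq 1 one_ne_zero]
  have hfix : ∀ x : F, x ∈ F₀ → σ x = x → x = 0 ∨ x = 1 := by
    intro x hx hsx
    rcases hE01 ⟨⟨x, hsx⟩, hx⟩ with h | h
    · left
      exact congrArg (fun z : E0 σ F₀ => ((z : Efix σ) : F)) h
    · right
      exact congrArg (fun z : E0 σ F₀ => ((z : Efix σ) : F)) h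
  have h2F : (2 : F) = 0 := by
    rcases hfix 2 (by
        have := F₀.add_mem F₀.one_mem F₀.one_mem
        rwa [one_add_one_eq_two] at this) (by simp only [map_ofNat]) with h | h
    · exact h
    · exfalso
      have : (1 : F) = 0 := by linear_combination h
      exact one_ne_zero this
  have hl0 : l₁ ≠ 0 := by
    rintro rfl
    exact hl' (map_zero σ)
  have htr : l₁ + σ l₁ = 1 := by
    rcases hfix (l₁ + σ l₁) (F₀.add_mem hl (hsF _ hl)) (by rw [map_add, hσ, add_comm]) with h | h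
    · exfalso
      apply hl'
      linear_combination h - l₁ * h2F
    · exact h
  have hnm : l₁ * σ l₁ = 1 := by
    rcases hfix (l₁ * σ l₁) (F₀.mul_mem hl (hsF _ hl)) (by rw [map_mul, hσ, mul_comm]) with h | h
    · exfalso
      exact (mul_ne_zero hl0 (by simpa using hl0)) h
    · exact h
  -- multiplication
  set N₀ := Nm hσ (β e₀) with hN₀
  have hN₀0 : N₀ ≠ 0 := Nm_ne hσ hb₀
  have hNmem : ∀ a', Nm hσ (β a') ∈ S := fun a' => by
    have := gen_mem_S (β := β) hσ 1 a' F₀.one_mem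
    rwa [one_mul] at this
  have hquad : ∀ a ∈ S, ∀ b ∈ S, ∃ m ∈ S, m * N₀ = a * a + a * b + b * b := by
    intro a ha b hb
    obtain ⟨a₀, ha₀⟩ := hbij.2 (⟨a, ha⟩, ⟨b, hb⟩)
    refine ⟨_, hNmem a₀, ?_⟩
    have h3 : (a : F) = β a₀ * σ (β e₀) + β e₀ * σ (β a₀) := by
      rw [← hΦ1, ha₀]
    have h4 : (b : F) = l₁ * β a₀ * σ (β e₀) + σ l₁ * β e₀ * σ (β a₀) := by
      rw [← hΦ2, ha₀]
    apply Subtype.ext
    show β a₀ * σ (β a₀) * (β e₀ * σ (β e₀)) = (a : F) * a + a * b + b * b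
    rw [h3, h4]
    set B := β a₀ * σ (β e₀) with hB
    set C := β e₀ * σ (β a₀) with hC
    have e1 : β a₀ * σ (β a₀) * (β e₀ * σ (β e₀)) = B * C := by
      rw [hB, hC]
      ring
    have e2 : l₁ * β a₀ * σ (β e₀) = l₁ * B := by
      rw [hB]
      ring
    have e3 : σ l₁ * β e₀ * σ (β a₀) = σ l₁ * C := by
      rw [hC]
      ring
    rw [e1, e2, e3]
    linear_combination -(B ^ 2 * l₁ + C ^ 2 * σ l₁ + B * C) * htr + (B ^ 2 + C ^ 2) * hnm -
      (B ^ 2 * l₁ + C ^ 2 * σ l₁ + B * C * (1 + l₁ * σ l₁)) * h2F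
  have hprod : ∀ a ∈ S, ∀ b ∈ S, ∃ m ∈ S, m * N₀ = a * b := by
    intro a ha b hb
    obtain ⟨m, hm, e1⟩ := hquad a ha b hb
    obtain ⟨m₁, hm₁, e2⟩ := hquad a ha 0 S.zero_mem
    obtain ⟨m₂, hm₂, e3⟩ := hquad b hb 0 S.zero_mem
    refine ⟨m - m₁ - m₂, S.sub_mem (S.sub_mem hm hm₁) hm₂, ?_⟩
    rw [sub_mul, sub_mul, e1, e2, e3]
    ring
  have hone' : N₀ ∈ S := hNmem e₀
  -- the subfield
  have hmulK : ∀ x y : Efix σ, x * N₀ ∈ S → y * N₀ ∈ S → x * y * N₀ ∈ S := by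
    intro x y hx hy
    obtain ⟨m, hm, e1⟩ := hprod _ hx _ hy
    have e2 : x * y * N₀ = m := by
      apply mul_right_cancel₀ hN₀0
      rw [e1]
      ring
    rw [e2]
    exact hm
  have hpow : ∀ (x : Efix σ), x * N₀ ∈ S → ∀ n : ℕ, x ^ n * N₀ ∈ S := by
    intro x hx n
    induction n with
    | zero =>
      rw [pow_zero, one_mul]
      exact hone'
    | succ n ih =>
      rw [pow_succ]
      exact hmulK _ _ ih hx
  let K : Subfield (Efix σ) :=
    { carrier := {x | x * N₀ ∈ S}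
      mul_mem' := fun {x y} hx hy => hmulK x y hx hy
      one_mem' := by
        show 1 * N₀ ∈ S
        rw [one_mul]
        exact hone'
      add_mem' := fun {x y} hx hy => by
        show (x + y) * N₀ ∈ S
        rw [add_mul]
        exact S.add_mem hx hy
      zero_mem' := by
        show 0 * N₀ ∈ S
        rw [zero_mul]
        exact S.zero_mem
      neg_mem' := fun {x} hx => by
        show (-x) * N₀ ∈ S
        rw [neg_mul]
        exact S.neg_mem hx
      inv_mem' := fun x hx => by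
        show x⁻¹ * N₀ ∈ S
        by_cases hx0 : x = 0
        · rw [hx0, inv_zero, zero_mul]
          exact S.zero_mem
        have h3 : x⁻¹ = x ^ (Fintype.card (Efix σ) - 2) := by
          have h4 := FiniteField.pow_card_sub_one_eq_one x hx0
          have h5 : 2 ≤ Fintype.card (Efix σ) := Fintype.one_lt_card
          have h6 : Fintype.card (Efix σ) - 1 = (Fintype.card (Efix σ) - 2) + 1 := by omega
          rw [h6, pow_succ] at h4
          exact (eq_inv_of_mul_eq_one_left h4).symm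
        rw [h3]
        exact hpow x hx _ }
  have hKcard : Nat.card K = 8 := by
    rw [← hS8]
    refine Nat.card_congr
      { toFun := fun x => ⟨(x : Efix σ) * N₀, x.2⟩
        invFun := fun x => ⟨(x : Efix σ) / N₀, by
          show (x : Efix σ) / N₀ * N₀ ∈ S
          rw [div_mul_cancel₀ _ hN₀0]
          exact x.2⟩
        left_inv := fun x => Subtype.ext (by
          simp [hN₀0])
        right_inv := fun x => Subtype.ext (by
          simp [hN₀0]) }
  obtain ⟨b, hb⟩ := Cfsg.Agent.Lib.Classical.Asch.Subfield.exists_card_eq_pow K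
  rw [hKcard, ← Nat.card_eq_fintype_card] at hb
  have h3 : Nat.card F = Nat.card (Efix σ) ^ 2 := card_Efix σ hσ (w := l₁) hl'
  rw [hb, hc, hF4'] at h3
  have h4 : 2 ^ (2 * r) = 2 ^ (3 * b * 2) := by
    have e1 : (2 : ℕ) ^ (2 * r) = 4 ^ r := by
      rw [pow_mul]
      norm_num
    have e2 : (2 : ℕ) ^ (3 * b * 2) = (8 ^ b) ^ 2 := by
      rw [← pow_mul, show (8 : ℕ) = 2 ^ 3 by norm_num, ← pow_mul, mul_assoc]
    rw [e1, e2]
    exact h3
  have h5 := Nat.pow_right_injective (le_refl 2) h4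
  have h6 : 3 ∣ r := ⟨b, by omega⟩
  have h7 := (Nat.prime_dvd_prime_iff_eq Nat.prime_three hr).1 h6
  exact hr3 h7.symm

end Field

end Cfsg.Agent.Lib.Classical.Sub.UGen
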