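/-
Overgroups of the rational points in a special unitary group, when the rational form is Hermitian: a unitary
transvection of `M` whose centre is orthogonal to a rational isotropic vector has a rational centre, unless the
coefficients are everything.
-/
import Mathlib
import Cfsg.Agent.Lib.Classical.Sub.UCore

set_option autoImplicit false
set_option linter.unusedSectionVars false

namespace Cfsg.Agent.Lib.Classical.Sub.ULow

open scoped Matrix MatrixGroups
open Module Cfsg Cfsg.Geo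
open Cfsg.Agent.Lib.Classical.Geo.Basic
open Cfsg.Agent.Lib.Classical.Geo.UForm Cfsg.Agent.Lib.Classical.Geo.UPair Cfsg.Agent.Lib.Classical.Geo.UParab
open Cfsg.Agent.Lib.Classical.Sub.Rat Cfsg.Agent.Lib.Classical.Sub.UBase Cfsg.Agent.Lib.Classical.Sub.UElts
open Cfsg.Agent.Lib.Classical.Sub.UCore

variable {ι : Type} [Fintype ι] [DecidableEq ι] {F : Type*} [Field F] [Fintype F]
  {σ : F ≃+* F} {f : (ι → F) → (ι → F) → F} {F₀ : Subfield F}

local notation "Mt" => Matrix ι ι F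

variable (hf : IsUnitaryForm σ f) (hR : RatS σ f F₀ 1) {M : Subgroup (GL ι F)} (hM : HasRatU hf M F₀)

include hf hR

theorem rat_one (x y : ι → F₀) : f (lV x) (lV y) ∈ F₀ := by
  have := hR.rat x y
  rwa [one_mul] at this

/-- The rational value. -/
noncomputable def rv (x y : ι → F₀) : F₀ := ⟨f (lV x) (lV y), rat_one hf hR x y⟩

omit hf hR in
theorem rv_coe (hf : IsUnitaryForm σ f) (hR : RatS σ f F₀ 1) (x y : ι → F₀) : ((rv hf hR x y : F₀) : F) = f (lV x) (lV y) := rfl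

include hM

/-- Rational unitary transvections. -/
theorem T_rat_mem {c : F} (hcF : c ∈ F₀) (hc : c + σ c = 0) {u : ι → F₀} (huu : f (lV u) (lV u) = 0) :
    T hf (c • lV u) (lV u) (by rw [hf.smul_left, huu, mul_zero]) ∈ M := by
  refine hM _ (T_mem_isoGroup hf _ c huu hc) fun x => ?_
  refine ⟨x + (rv hf hR x u * ⟨c, hcF⟩) • u, ?_⟩
  rw [T_mulVec, lV_add, lV_smul]
  simp only [MulMemClass.coe_mul, rv_coe]
  rw [mul_smul]

/-- The main relation. -/
theorem rel_T (hn : 11 ≤ Fintype.card ι) (hAs : ∀ κ ∈ AsU hf M 1 F₀, κ ∈ F₀) {c : F} (hc0 : c ≠ 0) (hcF : c ∈ F₀)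
    (hcs : c + σ c = 0) {v : ι → F}
    (hvv : f v v = 0) (hT : T hf (c • v) v (by rw [hf.smul_left, hvv, mul_zero]) ∈ M) {z y y₃ : ι → F₀}
    (hzz : f (lV z) (lV z) = 0) (hz0 : z ≠ 0) (hzv : f (lV z) v = 0) (hy : f (lV y) (lV y) = 0)
    (hy₃ : f (lV y₃) (lV y₃) = 0) (hzy : f (lV z) (lV y) = 0) (hzy₃ : f (lV z) (lV y₃) = 0) :
    f (lV y) v * f v (lV y₃) ∈ F₀ := by
  have hY0 : InY hf M (lV z) ((1 : F) • lV y) 0 := InE.toY hf hzz (rat_E hf hR hM hy hzz (swap_zero hf hzy))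
  have hfix : ((T hf (c • v) v (by rw [hf.smul_left, hvv, mul_zero]) : GL ι F) : Mt) *ᵥ lV z = lV z := by
    rw [T_mulVec, hzv, zero_smul, add_zero]
  have hY1 := InY.step hf hY0 hT (T_iso hf hvv hcs) hfix
  have e1 : ((T hf (c • v) v (by rw [hf.smul_left, hvv, mul_zero]) : GL ι F) : Mt) *ᵥ ((1 : F) • lV y) - (1 : F) • lV y =
      (c * f (lV y) v) • v := by
    rw [T_mulVec, one_smul, smul_smul, add_sub_cancel_left, mul_comm]
  rw [e1] at hY1
  have h2 := low_core hf hR hM hn hAs hzz hz0 hY1 hy₃ hzy₃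
  have e2 : f (lV y) v * f v (lV y₃) = c * f (lV y) v * f v (lV y₃) / c := by
    field_simp
  rw [e2]
  exact F₀.div_mem h2 hcF

/-- A transvection of `M` whose centre is orthogonal to a rational isotropic vector has a rational centre. -/
theorem low_rat_T (hn : 11 ≤ Fintype.card ι) (hAs : ∀ κ ∈ AsU hf M 1 F₀, κ ∈ F₀) {c : F} (hc0 : c ≠ 0) (hcF : c ∈ F₀)
    (hcs : c + σ c = 0) {v : ι → F} (hv0 : v ≠ 0)
    (hvv : f v v = 0) (hT : T hf (c • v) v (by rw [hf.smul_left, hvv, mul_zero]) ∈ M) {z : ι → F₀}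
    (hzz : f (lV z) (lV z) = 0) (hz0 : z ≠ 0) (hzv : f (lV z) v = 0) :
    ∃ (κ : F) (y₀ : ι → F₀), κ ≠ 0 ∧ v = κ • lV y₀ := by
  classical
  have hrel := fun {y y₃ : ι → F₀} => @rel_T ι _ _ F _ _ σ f F₀ hf hR M hM hn hAs c hc0 hcF hcs v hvv hT z y y₃ hzz hz0 hzv
  -- a partner of `z`
  obtain ⟨u₀, hu₀u₀, hu₀z, -⟩ := exists_partner_rat hf hR (x := z) (S := ⊥) (by simpa using hz0) hzz (by
    intro s hs
    rw [Submodule.mem_bot] at hs
    rw [hs, lV_zero, zero_left hf])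
  rw [one_mul] at hu₀z
  have hzu₀ : f (lV u₀) (lV z) = 1 := by
    rw [hf.herm, hu₀z, map_one]
  set W := LinearMap.ker (cov hf hR z) with hW
  have hmemW : ∀ x : ι → F₀, f (lV x) (lV z) = 0 → x ∈ W := by
    intro x hx
    rw [hW, LinearMap.mem_ker]
    apply Subtype.ext
    rw [cov_coe, hx, mul_zero]
    rfl
  have hWmem : ∀ x ∈ W, f (lV x) (lV z) = 0 := by
    intro x hx
    have h2 := congrArg (fun c : F₀ => (c : F)) (show cov hf hR z x = 0 from hx)
    simp only [cov_coe, ZeroMemClass.coe_zero] at h2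
    exact (mul_eq_zero.1 h2).resolve_left hR.ne
  obtain ⟨e, h', hee, hhh, h1, he, hh⟩ := exists_hyp_rat hf hR ![z] (by simp; omega)
  have heW : e ∈ W := hmemW _ (he 0)
  have hhW : h' ∈ W := hmemW _ (hh 0)
  -- rational span inside `W`
  have hspan : ∀ (τ : F), (∀ y : ι → F₀, f (lV y) (lV y) = 0 → f (lV y) (lV z) = 0 → f (lV y) v * τ ∈ F₀) →
      ∀ x ∈ W, f (lV x) v * τ ∈ F₀ := by
    intro τ hτ x hx
    have hx' := mem_span_cone hf hR heW hhW hx hee hhh h1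
    clear hx
    induction hx' using Submodule.span_induction with
    | mem y hy => exact hτ y hy.2 (hWmem y hy.1)
    | zero =>
      rw [lV_zero, zero_left hf, zero_mul]
      exact F₀.zero_mem
    | add y y' _ _ h1 h2 =>
      rw [lV_add, hf.add_left, add_mul]
      exact F₀.add_mem h1 h2
    | smul d y _ h1 =>
      rw [lV_smul, hf.smul_left, mul_assoc]
      exact F₀.mul_mem d.2 h1
  have hspan0 : (∀ y : ι → F₀, f (lV y) (lV y) = 0 → f (lV y) (lV z) = 0 → f (lV y) v = 0) →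
      ∀ x ∈ W, f (lV x) v = 0 := by
    intro hτ x hx
    have hx' := mem_span_cone hf hR heW hhW hx hee hhh h1
    clear hx
    induction hx' using Submodule.span_induction with
    | mem y hy => exact hτ y hy.2 (hWmem y hy.1)
    | zero =>
      rw [lV_zero, zero_left hf]
    | add y y' _ _ h1 h2 =>
      rw [lV_add, hf.add_left, h1, h2, add_zero]
    | smul d y _ h1 =>
      rw [lV_smul, hf.smul_left, h1, mul_zero]
  -- the projection to `W`
  have hproj : ∀ x : ι → F₀, x - (rv hf hR x z) • u₀ ∈ W := by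
    intro x
    apply hmemW
    rw [lV_sub, lV_smul, sub_left hf, hf.smul_left, hzu₀, rv_coe, mul_one, sub_self]
  have hprojv : ∀ x : ι → F₀, f (lV (x - (rv hf hR x z) • u₀)) v = f (lV x) v - f (lV x) (lV z) * f (lV u₀) v := by
    intro x
    rw [lV_sub, lV_smul, sub_left hf, hf.smul_left, rv_coe]
  by_cases hy₀ : ∃ y₀ : ι → F₀, f (lV y₀) (lV y₀) = 0 ∧ f (lV y₀) (lV z) = 0 ∧ f (lV y₀) v ≠ 0
  · obtain ⟨y₀, hy₀y₀, hy₀z, hy₀v⟩ := hy₀
    have hτ0 : f v (lV y₀) ≠ 0 := fun h0 => hy₀v (swap_zero hf h0)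
    have hW1 := hspan (f v (lV y₀)) (fun y hy hyz => hrel hy hy₀y₀ (swap_zero hf hyz) (swap_zero hf hy₀z))
    let Φ : Dual F (ι → F) := (f v (lV y₀)) • (fLin hf v - (f (lV u₀) v) • fLin hf (lV z))
    have hΦ : ∀ x : ι → F₀, Φ (lV x) = f (lV (x - (rv hf hR x z) • u₀)) v * f v (lV y₀) := by
      intro x
      rw [hprojv]
      simp only [Φ, LinearMap.smul_apply, LinearMap.sub_apply, fLin_apply, smul_eq_mul]
      ring
    obtain ⟨ψ, hψ⟩ := exists_lD Φ (fun x => by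
      rw [hΦ]
      exact hW1 _ (hproj x))
    obtain ⟨u, hu⟩ := riesz hf hR ψ
    have hu' : ∀ x : ι → F₀, f (lV x) (lV u) = f (lV (x - (rv hf hR x z) • u₀)) v * f v (lV y₀) := by
      intro x
      rw [← hΦ, hψ, lD_lV, ← hu, one_mul]
    have hrelAll : ∀ y y₃ : ι → F₀, f (lV y) (lV y) = 0 → f (lV y₃) (lV y₃) = 0 → f (lV y) v * f v (lV y₃) ∈ F₀ := by
      intro y y₃ hy hy₃
      obtain ⟨z', hz'S, hz'z', hz', -⟩ := exists_iso_perp hf hR (r := finrank F₀ F) rfl ![z, u, y, y₃]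
        (Fin.elim0 : Fin 0 → ι → F) ⊥ (by simp; omega)
      have hz'0 : z' ≠ 0 := by simpa using hz'S
      have h2 : f (lV z') (lV z) = 0 := hz' 0
      have h3 : f (lV z') (lV u) = 0 := hz' 1
      have h4 : f (lV z') (lV y) = 0 := hz' 2
      have h5 : f (lV z') (lV y₃) = 0 := hz' 3
      have h6 : f (lV z') v = 0 := by
        have h7 := hu' z'
        rw [h3, hprojv, h2, zero_mul, sub_zero] at h7
        exact (mul_eq_zero.1 h7.symm).resolve_right hτ0
      exact rel_T hf hR hM hn hAs hc0 hcF hcs hvv hT hz'z' hz'0 h6 hy hy₃ h4 h5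
    obtain ⟨y₁, hy₁y₁, hy₁v⟩ : ∃ y₁ : ι → F₀, f (lV y₁) (lV y₁) = 0 ∧ f (lV y₁) v ≠ 0 := ⟨y₀, hy₀y₀, hy₀v⟩
    have ht0 : f v (lV y₁) ≠ 0 := fun h0 => hy₁v (swap_zero hf h0)
    obtain ⟨u', hu''⟩ := line_of_rel hf hR (by omega) ht0 (fun y hy => hrelAll y y₁ hy hy₁y₁)
    refine ⟨_, u', ?_, hu''⟩
    simp only [map_one]
    exact div_ne_zero one_ne_zero (by simpa using ht0)
  · push Not at hy₀
    have hW0 := hspan0 (fun y hy hyz => hy₀ y hy hyz)
    have e : v = σ (f (lV u₀) v) • lV z := by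
      apply eq_of_rat hf hR
      intro x
      have h2 := hW0 _ (hproj x)
      rw [hprojv] at h2
      rw [smul_right hf, hf.involutive]
      linear_combination h2
    refine ⟨_, z, ?_, e⟩
    intro h0
    apply hv0
    rw [e, h0, zero_smul]

/-- The image of a rational isotropic vector under an isometry in `M`, when orthogonal to a rational isotropic vector. -/
theorem low_conj (hn : 11 ≤ Fintype.card ι) (hAs : ∀ κ ∈ AsU hf M 1 F₀, κ ∈ F₀) {c : F} (hc0 : c ≠ 0) (hcF : c ∈ F₀)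
    (hcs : c + σ c = 0) {g : GL ι F} (hgM : g ∈ M) (hg : ∀ x y, f ((g : Mt) *ᵥ x) ((g : Mt) *ᵥ y) = f x y)
    {x : ι → F₀} (hx0 : lV x ≠ 0) (hxx : f (lV x) (lV x) = 0) {z : ι → F₀}
    (hzz : f (lV z) (lV z) = 0) (hz0 : z ≠ 0) (hzv : f (lV z) ((g : Mt) *ᵥ lV x) = 0) :
    ∃ (κ : F) (y₀ : ι → F₀), κ ≠ 0 ∧ (g : Mt) *ᵥ lV x = κ • lV y₀ := by
  have hvv : f ((g : Mt) *ᵥ lV x) ((g : Mt) *ᵥ lV x) = 0 := by rw [hg, hxx]
  have hv0 : (g : Mt) *ᵥ lV x ≠ 0 := by
    intro h0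
    apply hx0
    apply mulVec_injective g
    simp only [h0, Matrix.mulVec_zero]
  refine low_rat_T hf hR hM hn hAs hc0 hcF hcs hv0 hvv ?_ hzz hz0 hzv
  have h1 := T_rat_mem hf hR hM hcF hcs hxx
  have h2 := M.mul_mem (M.mul_mem hgM h1) (M.inv_mem hgM)
  rw [T_conj_iso hf g hg] at h2
  rw [T_congr hf (Matrix.mulVec_smul _ c _).symm rfl]
  exact h2

end Cfsg.Agent.Lib.Classical.Sub.ULow
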