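/-
Overgroups of the rational points in a special unitary group, the generic case: a unitary transvection whose centre
is orthogonal to no rational isotropic vector acts on a section, and the elements of `M` acting there as lower
unitriangular matrices are controlled by rational data.
-/
import Mathlib
import Cfsg.Agent.Lib.Classical.Sub.ULow
import Cfsg.Agent.Lib.Classical.Sub.Act

set_option autoImplicit false
set_option linter.unusedSectionVars false

namespace Cfsg.Agent.Lib.Classical.Sub.UHigh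

open scoped Matrix MatrixGroups
open Module Cfsg Cfsg.Geo
open Cfsg.Agent.Lib.Classical.Geo.Basic
open Cfsg.Agent.Lib.Classical.Geo.UForm Cfsg.Agent.Lib.Classical.Geo.UPair Cfsg.Agent.Lib.Classical.Geo.UParab
open Cfsg.Agent.Lib.Classical.Sub.Rat Cfsg.Agent.Lib.Classical.Sub.UBase Cfsg.Agent.Lib.Classical.Sub.UElts
open Cfsg.Agent.Lib.Classical.Sub.UCore Cfsg.Agent.Lib.Classical.Sub.ULow
open Cfsg.Agent.Lib.Classical.Sub.Act
open Cfsg.Agent.Lib.PSL2.Basic

variable {ι : Type} [Fintype ι] [DecidableEq ι] {F : Type*} [Field F] [Fintype F]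
  {σ : F ≃+* F} {f : (ι → F) → (ι → F) → F} {F₀ : Subfield F}

local notation "Mt" => Matrix ι ι F

section Act

variable (hf : IsUnitaryForm σ f)

/-- The section. -/
noncomputable def RR (W : Submodule F (ι → F)) (v : ι → F) : Submodule F (ι → F) := W ⊓ LinearMap.ker (fLin hf v)

omit [Fintype F] in
theorem mem_RR {W : Submodule F (ι → F)} {v u : ι → F} : u ∈ RR hf W v ↔ u ∈ W ∧ f u v = 0 := by
  simp [RR]

omit [Fintype F] in
theorem x_mulVec_zero (p : Fin 2 → F) : (((x (1 : F) : SL(2, F)) : Matrix (Fin 2) (Fin 2) F) *ᵥ p) 0 = p 0 + p 1 := by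
  simp [x, Matrix.mulVec, dotProduct, Fin.sum_univ_two]

omit [Fintype F] in
theorem x_mulVec_one (p : Fin 2 → F) : (((x (1 : F) : SL(2, F)) : Matrix (Fin 2) (Fin 2) F) *ᵥ p) 1 = p 1 := by
  simp [x, Matrix.mulVec, dotProduct, Fin.sum_univ_two]

omit [Fintype F] in
theorem y_mulVec_zero' (μ : F) (p : Fin 2 → F) : (((y μ : SL(2, F)) : Matrix (Fin 2) (Fin 2) F) *ᵥ p) 0 = p 0 := by
  simp [y, Matrix.mulVec, dotProduct, Fin.sum_univ_two]

omit [Fintype F] in
theorem y_mulVec_one' (μ : F) (p : Fin 2 → F) : (((y μ : SL(2, F)) : Matrix (Fin 2) (Fin 2) F) *ᵥ p) 1 = μ * p 0 + p 1 := by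
  simp [y, Matrix.mulVec, dotProduct, Fin.sum_univ_two]

omit [Fintype F] in
theorem y_mulVec_zero (μ : F) : ((y μ : SL(2, F)) : Matrix (Fin 2) (Fin 2) F) *ᵥ ![1, 0] = ![1, μ] := by
  funext i
  fin_cases i <;> simp [y, Matrix.mulVec, dotProduct, Fin.sum_univ_two]

omit [Fintype F] in
theorem y_mulVec_one (μ : F) : ((y μ : SL(2, F)) : Matrix (Fin 2) (Fin 2) F) *ᵥ ![0, 1] = ![0, 1] := by
  funext i
  fin_cases i <;> simp [y, Matrix.mulVec, dotProduct, Fin.sum_univ_two]

omit [Fintype F] in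
/-- The action of the transvection with centre `v`. -/
theorem act_x {v : ι → F} (hvv : f v v = 0) {c : F} {a : F} (ha : a ≠ 0) {w : ι → F} (hw : f w v = a)
    {R : Submodule F (ι → F)} (hR : ∀ r ∈ R, f r v = 0) :
    ActR R ((c * a) • v) w (T hf (c • v) v (by rw [hf.smul_left, hvv, mul_zero])) (x (1 : F)) := by
  refine ⟨fun r hr => ?_, fun p => ?_, fun y => ⟨![f y v / a, 0], ?_⟩⟩
  · rw [T_mulVec, hR r hr]
    simp
  · rw [T_mulVec]
    simp only [L, x_mulVec_zero, x_mulVec_one, hf.add_left, hf.smul_left, hvv, hw, mul_zero, zero_add]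
    have : p 0 • (c * a) • v + p 1 • w + (p 1 * a) • c • v - ((p 0 + p 1) • (c * a) • v + p 1 • w) = 0 := by
      module
    rw [this]
    exact R.zero_mem
  · rw [T_mulVec]
    have : y + f y v • c • v - y - L ((c * a) • v) w ![f y v / a, 0] = 0 := by
      simp only [L, Matrix.cons_val_zero, Matrix.cons_val_one, zero_smul, add_zero, add_sub_cancel_left, smul_smul]
      rw [sub_eq_zero]
      congr 1
      field_simp
    rw [this]
    exact R.zero_mem

omit [Fintype F] in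
/-- The action of the transvection with centre in the subspace. -/
theorem act_y {W : Submodule F (ι → F)} (hWt : ∀ u ∈ W, ∀ u' ∈ W, f u u' = 0) {v : ι → F} {c a : F} (ha : a ≠ 0)
    {w w₀ : ι → F} (hw : f w v = a) (hw' : w ∈ W) (hw₀ : w₀ ∈ W) (d : F) :
    ActR (RR hf W v) ((c * a) • v) w (T hf (d • w₀) w₀ (by rw [hf.smul_left, hWt _ hw₀ _ hw₀, mul_zero]))
      (y (d * c * (f w₀ v * σ (f w₀ v)))) := by
  set β := f w₀ v with hβ
  have hB : a • w₀ - β • w ∈ RR hf W v := by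
    rw [mem_RR]
    refine ⟨W.sub_mem (W.smul_mem _ hw₀) (W.smul_mem _ hw'), ?_⟩
    rw [sub_left hf, hf.smul_left, hf.smul_left, hw, ← hβ]
    ring
  have hvw₀ : f v w₀ = σ β := hf.herm _ _
  refine ⟨fun r hr => ?_, fun p => ?_, fun z => ⟨![0, d * f z w₀ * β / a], ?_⟩⟩
  · rw [T_mulVec, hWt _ ((mem_RR hf).1 hr).1 _ hw₀]
    simp
  · rw [T_mulVec]
    simp only [L, y_mulVec_zero', y_mulVec_one', hf.add_left, hf.smul_left, hvw₀, hWt _ hw' _ hw₀, mul_zero, add_zero]
    have : p 0 • (c * a) • v + p 1 • w + (p 0 * (c * a * σ β)) • d • w₀ -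
        (p 0 • (c * a) • v + (d * c * (β * σ β) * p 0 + p 1) • w) = (p 0 * c * d * σ β) • (a • w₀ - β • w) := by
      module
    rw [this]
    exact (RR hf W v).smul_mem _ hB
  · rw [T_mulVec]
    have : z + f z w₀ • d • w₀ - z - L ((c * a) • v) w ![0, d * f z w₀ * β / a] = (d * f z w₀ / a) • (a • w₀ - β • w) := by
      simp only [L, Matrix.cons_val_zero, Matrix.cons_val_one, zero_smul, zero_add, add_sub_cancel_left]
      rw [smul_sub, smul_smul, smul_smul, smul_smul]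
      congr 2
      · field_simp
      · field_simp
    rw [this]
    exact (RR hf W v).smul_mem _ hB

end Act

/-- A rational window. -/
structure Win (f : (ι → F) → (ι → F) → F) (w f' : Fin 3 → ι → F₀) : Prop where
  ww : ∀ i j, f (lV (w i)) (lV (w j)) = 0
  ff : ∀ i j, f (lV (f' i)) (lV (f' j)) = 0
  wf : ∀ i j, f (lV (w i)) (lV (f' j)) = if i = j then 1 else 0

/-- The subspace spanned by the window. -/
noncomputable def WW (w : Fin 3 → ι → F₀) : Submodule F (ι → F) := Submodule.span F (Set.range fun i => lV (w i))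

variable (hf : IsUnitaryForm σ f) {w f' : Fin 3 → ι → F₀}

include hf

theorem exists_win (hR : RatS σ f F₀ 1) (hn : 11 ≤ Fintype.card ι) : ∃ w f' : Fin 3 → ι → F₀, Win f w f' := by
  obtain ⟨e₁, h₁, he₁, hh₁, h1, -, -⟩ := exists_hyp_rat hf hR (Fin.elim0 : Fin 0 → ι → F₀) (by simp; omega)
  obtain ⟨e₂, h₂, he₂, hh₂, h2, a2, b2⟩ := exists_hyp_rat hf hR ![e₁, h₁] (by simp; omega)
  obtain ⟨e₃, h₃, he₃, hh₃, h3, a3, b3⟩ := exists_hyp_rat hf hR ![e₁, h₁, e₂, h₂] (by simp; omega)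
  rw [one_mul] at h1 h2 h3
  have a20 : f (lV e₂) (lV e₁) = 0 := a2 0
  have a21 : f (lV e₂) (lV h₁) = 0 := a2 1
  have b20 : f (lV h₂) (lV e₁) = 0 := b2 0
  have b21 : f (lV h₂) (lV h₁) = 0 := b2 1
  have a30 : f (lV e₃) (lV e₁) = 0 := a3 0
  have a31 : f (lV e₃) (lV h₁) = 0 := a3 1
  have a32 : f (lV e₃) (lV e₂) = 0 := a3 2
  have a33 : f (lV e₃) (lV h₂) = 0 := a3 3
  have b30 : f (lV h₃) (lV e₁) = 0 := b3 0
  have b31 : f (lV h₃) (lV h₁) = 0 := b3 1
  have b32 : f (lV h₃) (lV e₂) = 0 := b3 2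
  have b33 : f (lV h₃) (lV h₂) = 0 := b3 3
  refine ⟨![e₁, e₂, e₃], ![h₁, h₂, h₃], ⟨?_, ?_, ?_⟩⟩
  · intro i j
    fin_cases i <;> fin_cases j
    · exact he₁
    · exact swap_zero hf a20
    · exact swap_zero hf a30
    · exact a20
    · exact he₂
    · exact swap_zero hf a32
    · exact a30
    · exact a32
    · exact he₃
  · intro i j
    fin_cases i <;> fin_cases j
    · exact hh₁
    · exact swap_zero hf b21
    · exact swap_zero hf b31
    · exact b21
    · exact hh₂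
    · exact swap_zero hf b33
    · exact b31
    · exact b33
    · exact hh₃
  · intro i j
    fin_cases i <;> fin_cases j
    · simpa using h1
    · simpa using swap_zero hf b20
    · simpa using swap_zero hf b30
    · simpa using a21
    · simpa using h2
    · simpa using swap_zero hf b32
    · simpa using a31
    · simpa using a33
    · simpa using h3

omit [Fintype F] in
theorem sum_left {k : Type*} [Fintype k] (a : k → F) (x : k → ι → F) (z : ι → F) :
    f (∑ i, a i • x i) z = ∑ i, a i * f (x i) z := by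
  have h := map_sum (fLin hf z) (fun i => a i • x i) Finset.univ
  rw [fLin_apply] at h
  rw [h]
  apply Finset.sum_congr rfl
  intro i _
  rw [fLin_apply, hf.smul_left]

omit [Fintype F] in
theorem sum_right {k : Type*} [Fintype k] (a : k → F) (x : k → ι → F) (z : ι → F) :
    f z (∑ i, a i • x i) = ∑ i, σ (a i) * f z (x i) := by
  rw [hf.herm, sum_left hf, map_sum]
  apply Finset.sum_congr rfl
  intro i _
  rw [map_mul, ← hf.herm]

omit [Fintype F] in
theorem fw (hW : Win f w f') (i j : Fin 3) : f (lV (f' i)) (lV (w j)) = if i = j then 1 else 0 := by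
  rw [hf.herm, hW.wf]
  by_cases h : i = j
  · subst h
    simp
  · have : ¬ j = i := fun h' => h h'.symm
    simp [h, this]

omit [Fintype F] in
theorem self_add' (a b a' b' : ι → F) : f (a + b) (a' + b') = f a a' + f a b' + f b a' + f b b' := by
  rw [hf.add_left, add_right hf, add_right hf]
  ring

omit hf [Fintype F] in
theorem w_mem (i : Fin 3) : lV (w i) ∈ WW w := Submodule.subset_span ⟨i, rfl⟩

omit [Fintype F] in
theorem f_WW (hW : Win f w f') {u u' : ι → F} (hu : u ∈ WW w) (hu' : u' ∈ WW w) : f u u' = 0 := by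
  obtain ⟨a, rfl⟩ := (Submodule.mem_span_range_iff_exists_fun F).1 hu
  obtain ⟨b, rfl⟩ := (Submodule.mem_span_range_iff_exists_fun F).1 hu'
  rw [sum_left hf]
  apply Finset.sum_eq_zero
  intro i _
  rw [sum_right hf, Finset.sum_eq_zero, mul_zero]
  intro j _
  rw [hW.ww, mul_zero]

omit [Fintype F] in
theorem WW_sum (hW : Win f w f') {u : ι → F} (hu : u ∈ WW w) : u = ∑ i, f u (lV (f' i)) • lV (w i) := by
  obtain ⟨a, rfl⟩ := (Submodule.mem_span_range_iff_exists_fun F).1 hu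
  apply Finset.sum_congr rfl
  intro i _
  congr 1
  rw [sum_left hf]
  simp [hW.wf]

omit [Fintype F] in
theorem eq_zero_of_WW (hW : Win f w f') {u : ι → F} (hu : u ∈ WW w) (h : ∀ i, f u (lV (f' i)) = 0) : u = 0 := by
  rw [WW_sum hf hW hu]
  simp [h]

omit [Fintype F] in
theorem w_ne (hW : Win f w f') (i : Fin 3) : lV (w i) ≠ 0 := by
  intro h0
  have h1 := hW.wf i i
  rw [h0, zero_left hf] at h1
  simp at h1

omit [Fintype F] in
theorem f'_ne (hW : Win f w f') (i : Fin 3) : lV (f' i) ≠ 0 := by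
  intro h0
  have h1 := hW.wf i i
  rw [h0, zero_right hf] at h1
  simp at h1

omit hf [Fintype F] in
theorem exists_ne2_fin3 : ∀ l i : Fin 3, l ≠ i → ∃ j : Fin 3, j ≠ l ∧ j ≠ i := by decide

omit hf [Fintype F] in
theorem exists_ne_fin3 : ∀ i : Fin 3, ∃ j : Fin 3, j ≠ i := by decide

/-- **Rigidity**: the elements acting as `y μ` are controlled by rational data. -/
theorem high_rigid (hR : RatS σ f F₀ 1) {M : Subgroup (GL ι F)} (hM : HasRatU hf M F₀) (hMi : M ≤ isoGroup hf)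
    (hn : 11 ≤ Fintype.card ι) (hAs : ∀ κ ∈ AsU hf M 1 F₀, κ ∈ F₀) {d₀ : F} (hd0 : d₀ ≠ 0) (hdF : d₀ ∈ F₀)
    (hds : d₀ + σ d₀ = 0) (hW : Win f w f') {v : ι → F} {c : F} (hc : c ≠ 0)
    (hgen : ∀ z : ι → F₀, z ≠ 0 → f (lV z) (lV z) = 0 → f (lV z) v ≠ 0) {t : GL ι F} (ht : t ∈ M) {μ : F}
    (hact : ActR (RR hf (WW w) v) ((c * f (lV (w 0)) v) • v) (lV (w 0)) t (y μ)) :
    ∃ θ : Fin 3 → Fin 3 → F₀, (∀ i j, (θ i j : F) + σ (θ j i) = 0) ∧
      μ = c * ∑ i, ∑ j, (θ i j : F) * (f (lV (w j)) v * σ (f (lV (w i)) v)) := by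
  classical
  have hiso : ∀ x y, f ((t : Mt) *ᵥ x) ((t : Mt) *ᵥ y) = f x y := ((mem_isoGroup hf).1 (hMi ht)).1
  have hw0 : ∀ i, w i ≠ 0 := by
    intro i h0
    apply w_ne hf hW i
    rw [h0, lV_zero]
  have hβ : ∀ i, f (lV (w i)) v ≠ 0 := fun i => hgen _ (hw0 i) (hW.ww i i)
  set w₁ := lV (w 0) with hw₁
  set a := f w₁ v with ha
  have ha0 : a ≠ 0 := hβ 0
  have hw' : w₁ ∈ WW w := w_mem 0
  obtain ⟨e, he⟩ : ∃ e, e = (c * a) • v := ⟨_, rfl⟩
  rw [← he] at hact
  -- the image of `w`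
  obtain ⟨ρ, hρdef⟩ : ∃ ρ, ρ = (t : Mt) *ᵥ w₁ - w₁ := ⟨_, rfl⟩
  have hρ : ρ ∈ RR hf (WW w) v := by
    have := hact.2.1 ![0, 1]
    rw [y_mulVec_one] at this
    have e1 : L e w₁ ![0, 1] = w₁ := by simp [L]
    rwa [e1, ← hρdef] at this
  have hρW : ρ ∈ WW w := ((mem_RR hf).1 hρ).1
  have hρv : f ρ v = 0 := ((mem_RR hf).1 hρ).2
  have htu : ∀ u ∈ WW w, (t : Mt) *ᵥ u = u + (f u v / a) • ρ := by
    intro u hu
    have h1 : u - (f u v / a) • w₁ ∈ RR hf (WW w) v := by
      rw [mem_RR]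
      refine ⟨sub_mem hu ((WW w).smul_mem _ hw'), ?_⟩
      rw [sub_left hf, hf.smul_left, ← ha]
      field_simp
      ring
    have h2 := hact.1 _ h1
    rw [Matrix.mulVec_sub, Matrix.mulVec_smul] at h2
    rw [hρdef, smul_sub]
    have h3 : (t : Mt) *ᵥ u = u - (f u v / a) • w₁ + (f u v / a) • ((t : Mt) *ᵥ w₁) := by
      rw [← h2]
      abel
    rw [h3]
    abel
  have htuW : ∀ u ∈ WW w, (t : Mt) *ᵥ u ∈ WW w := by
    intro u hu
    rw [htu u hu]
    exact add_mem hu ((WW w).smul_mem _ hρW)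
  -- rational centres in `W`
  have hlines : ∀ j, ∃ (κ : F) (y₀ : ι → F₀), κ ≠ 0 ∧ (t : Mt) *ᵥ lV (w j) = κ • lV y₀ := by
    intro j
    exact low_conj hf hR hM hn hAs hd0 hdF hds ht hiso (w_ne hf hW j) (hW.ww j j) (hW.ww j j) (hw0 j)
      (f_WW hf hW (w_mem j) (htuW _ (w_mem j)))
  -- the vector `ρ` vanishes
  have hρ0 : ρ = 0 := by
    by_contra hne
    obtain ⟨i₀, hi₀⟩ : ∃ i₀, f ρ (lV (f' i₀)) ≠ 0 := by
      by_contra hcon
      push Not at hcon
      exact hne (eq_zero_of_WW hf hW hρW hcon)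
    have hratio : ∀ l, f ρ (lV (f' l)) / f ρ (lV (f' i₀)) ∈ F₀ := by
      intro l
      by_cases hl : l = i₀
      · rw [hl, div_self hi₀]
        exact F₀.one_mem
      obtain ⟨j, hj1, hj2⟩ := exists_ne2_fin3 l i₀ hl
      obtain ⟨κ, y₀, hκ, hy₀⟩ := hlines j
      have hbj : f (lV (w j)) v / a ≠ 0 := div_ne_zero (hβ j) ha0
      rw [htu _ (w_mem j)] at hy₀
      have h1 := congrArg (fun z => f z (lV (f' i₀))) hy₀
      have h2 := congrArg (fun z => f z (lV (f' l))) hy₀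
      simp only [hf.add_left, hf.smul_left, hW.wf, if_neg hj1, if_neg hj2, zero_add] at h1 h2
      have h3 : f (lV y₀) (lV (f' i₀)) ≠ 0 := by
        intro h0
        rw [h0, mul_zero] at h1
        exact (mul_ne_zero hbj hi₀) h1
      have h4 : f ρ (lV (f' l)) / f ρ (lV (f' i₀)) = f (lV y₀) (lV (f' l)) / f (lV y₀) (lV (f' i₀)) := by
        have h5 : f ρ (lV (f' l)) / f ρ (lV (f' i₀)) =
            (f (lV (w j)) v / a * f ρ (lV (f' l))) / (f (lV (w j)) v / a * f ρ (lV (f' i₀))) := by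
          have := hβ j
          field_simp
        rw [h5, h1, h2, mul_div_mul_left _ _ hκ]
      rw [h4]
      exact F₀.div_mem (rat_one hf hR _ _) (rat_one hf hR _ _)
    set x₀ : ι → F₀ := ∑ l, (⟨f ρ (lV (f' l)) / f ρ (lV (f' i₀)), hratio l⟩ : F₀) • w l with hx₀
    have hlx : lV x₀ = ∑ l, (f ρ (lV (f' l)) / f ρ (lV (f' i₀))) • lV (w l) := by
      rw [hx₀]
      funext k
      simp [lV, Finset.sum_apply]
    have hx₀W : lV x₀ ∈ WW w := by
      rw [hlx]
      exact sum_mem fun l _ => (WW w).smul_mem _ (w_mem l)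
    have hρx : ρ = f ρ (lV (f' i₀)) • lV x₀ := by
      conv_lhs => rw [WW_sum hf hW hρW]
      rw [hlx, Finset.smul_sum]
      apply Finset.sum_congr rfl
      intro l _
      rw [smul_smul]
      congr 1
      field_simp
    have hx₀0 : x₀ ≠ 0 := by
      rintro h0
      apply hne
      rw [hρx, h0, lV_zero, smul_zero]
    apply hgen x₀ hx₀0 (f_WW hf hW hx₀W hx₀W)
    rw [hρx, hf.smul_left] at hρv
    exact (mul_eq_zero.1 hρv).resolve_left hi₀
  have htW : ∀ u ∈ WW w, (t : Mt) *ᵥ u = u := by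
    intro u hu
    rw [htu u hu, hρ0, smul_zero, add_zero]
  have htw : (t : Mt) *ᵥ w₁ = w₁ := htW w₁ hw'
  -- the image of `1 - t` lies in `W`
  have htV : ∀ x, (t : Mt) *ᵥ x - x ∈ WW w := by
    intro x
    obtain ⟨p, hp⟩ := hact.2.2 x
    have h1 := ((mem_RR hf).1 hp).1
    have h2 : f ((t : Mt) *ᵥ x - x - L e w₁ p) w₁ = 0 := f_WW hf hW h1 hw'
    have h3 : f ((t : Mt) *ᵥ x - x) w₁ = 0 := by
      rw [sub_left hf]
      have := hiso x w₁
      rw [htw] at this
      rw [this, sub_self]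
    have hvw : f v w₁ = σ a := hf.herm _ _
    have h4 : p 0 = 0 := by
      rw [sub_left hf, h3, L, hf.add_left, hf.smul_left, hf.smul_left, he, hf.smul_left, f_WW hf hW hw' hw', hvw] at h2
      have h5 : p 0 * (c * a * σ a) = 0 := by
        linear_combination -h2
      have h6 : c * a * σ a ≠ 0 := mul_ne_zero (mul_ne_zero hc ha0) (by simpa using ha0)
      exact (mul_eq_zero.1 h5).resolve_right h6
    have h5 : (t : Mt) *ᵥ x - x = ((t : Mt) *ᵥ x - x - L e w₁ p) + p 1 • w₁ := by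
      rw [L, h4, zero_smul, zero_add]
      abel
    rw [h5]
    exact add_mem h1 ((WW w).smul_mem _ hw')
  -- the images of the dual vectors
  have hu : ∀ i j, f ((t : Mt) *ᵥ lV (f' i) - lV (f' i)) (lV (f' j)) ∈ F₀ := by
    intro i j
    obtain ⟨j', hj'⟩ := exists_ne_fin3 i
    have hz : f (lV (w j')) ((t : Mt) *ᵥ lV (f' i)) = 0 := by
      have h1 := hiso (lV (w j')) (lV (f' i))
      rw [htW _ (w_mem j'), hW.wf, if_neg hj'] at h1
      exact h1
    obtain ⟨κ, y₀, hκ, hy₀⟩ := low_conj hf hR hM hn hAs hd0 hdF hds ht hiso (f'_ne hf hW i) (hW.ff i i) (hW.ww j' j') (hw0 j') hz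
    have h1 : f ((t : Mt) *ᵥ lV (f' i)) (lV (w i)) = 1 := by
      have h2 := hiso (lV (f' i)) (lV (w i))
      rw [htW _ (w_mem i), fw hf hW, if_pos rfl] at h2
      exact h2
    rw [hy₀, hf.smul_left] at h1
    have hκF : κ ∈ F₀ := by
      have e : κ = (f (lV y₀) (lV (w i)))⁻¹ := eq_inv_of_mul_eq_one_left h1
      rw [e]
      exact F₀.inv_mem (rat_one hf hR _ _)
    rw [sub_left hf, hy₀, hf.smul_left, hW.ff, sub_zero]
    exact F₀.mul_mem hκF (rat_one hf hR _ _)
  -- `t` is trivial on the orthogonal complement of `W`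
  obtain ⟨u, hudef⟩ : ∃ u : Fin 3 → ι → F, ∀ i, u i = (t : Mt) *ᵥ lV (f' i) - lV (f' i) := ⟨_, fun _ => rfl⟩
  have huW : ∀ i, u i ∈ WW w := by
    intro i
    rw [hudef]
    exact htV _
  have hperp : ∀ x₀ : ι → F, (∀ j, f x₀ (lV (w j)) = 0) → (t : Mt) *ᵥ x₀ = x₀ := by
    intro x₀ hx₀
    have hperp' : ∀ u ∈ WW w, f x₀ u = 0 := by
      intro u hu
      rw [WW_sum hf hW hu, sum_right hf]
      simp [hx₀]
    rw [← sub_eq_zero]
    apply eq_zero_of_WW hf hW (htV x₀)
    intro l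
    have h2 := hiso x₀ (lV (f' l))
    have h3 : (t : Mt) *ᵥ lV (f' l) = lV (f' l) + u l := by
      rw [hudef]
      abel
    rw [h3, add_right hf] at h2
    have h4 : f ((t : Mt) *ᵥ x₀) (u l) = 0 := by
      have h5 := hiso x₀ (u l)
      rw [htW _ (huW l)] at h5
      rw [h5, hperp' _ (huW l)]
    rw [h4, add_zero] at h2
    rw [sub_left hf, h2, sub_self]
  -- the formula for `t v`
  have hv : (t : Mt) *ᵥ v - v = ∑ i, f v (lV (w i)) • u i := by
    set v₀ := v - ∑ i, f v (lV (w i)) • lV (f' i) with hv₀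
    have h1 : ∀ j, f v₀ (lV (w j)) = 0 := by
      intro j
      rw [hv₀, sub_left hf, sum_left hf]
      simp only [fw hf hW, mul_ite, mul_one, mul_zero, Finset.sum_ite_eq', Finset.mem_univ, if_true, sub_self]
    have h2 := hperp v₀ h1
    have h3 : v = v₀ + ∑ i, f v (lV (w i)) • lV (f' i) := by
      rw [hv₀]
      abel
    have h4 : (t : Mt) *ᵥ v = v₀ + ∑ i, f v (lV (w i)) • ((t : Mt) *ᵥ lV (f' i)) := by
      conv_lhs => rw [h3]
      rw [Matrix.mulVec_add, h2, Matrix.mulVec_sum]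
      simp only [Matrix.mulVec_smul]
    rw [h4, hv₀]
    simp only [hudef, smul_sub, Finset.sum_sub_distrib]
    abel
  -- the end
  have hfin := hact.2.1 ![1, 0]
  rw [y_mulVec_zero] at hfin
  have e1 : L e w₁ ![1, 0] = e := by simp [L]
  have e2 : L e w₁ ![1, μ] = e + μ • w₁ := by simp [L]
  rw [e1, e2] at hfin
  have h5 := ((mem_RR hf).1 hfin).2
  have hte : (t : Mt) *ᵥ e = e + (c * a) • ((t : Mt) *ᵥ v - v) := by
    rw [he, Matrix.mulVec_smul, smul_sub]
    abel
  rw [hte, hv] at h5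
  have hbu : ∀ i, f (u i) v = ∑ j, f (u i) (lV (f' j)) * f (lV (w j)) v := by
    intro i
    conv_lhs => rw [WW_sum hf hW (huW i)]
    rw [sum_left hf]
  have h6 : μ * a = c * a * ∑ i, ∑ j, f (u i) (lV (f' j)) * (f (lV (w j)) v * σ (f (lV (w i)) v)) := by
    have h7 : e + (c * a) • ∑ i, f v (lV (w i)) • u i - (e + μ • w₁) = (c * a) • ∑ i, f v (lV (w i)) • u i - μ • w₁ := by abel
    rw [h7, sub_left hf, hf.smul_left, hf.smul_left, sum_left hf, ← ha, sub_eq_zero] at h5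
    rw [← h5]
    congr 1
    apply Finset.sum_congr rfl
    intro i _
    rw [hbu, Finset.mul_sum, hf.herm v]
    apply Finset.sum_congr rfl
    intro j _
    ring
  have hθ : ∀ i j, f (u i) (lV (f' j)) ∈ F₀ := by
    intro i j
    rw [hudef]
    exact hu i j
  refine ⟨fun i j => ⟨f (u i) (lV (f' j)), hθ i j⟩, fun i j => ?_, ?_⟩
  · have h7 := hiso (lV (f' i)) (lV (f' j))
    have h8 : ∀ l, (t : Mt) *ᵥ lV (f' l) = lV (f' l) + u l := by
      intro l
      rw [hudef]
      abel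
    rw [h8, h8, self_add' hf, hW.ff, f_WW hf hW (huW i) (huW j)] at h7
    show f (u i) (lV (f' j)) + σ (f (u j) (lV (f' i))) = 0
    rw [← hf.herm]
    linear_combination h7
  · apply mul_right_cancel₀ ha0
    rw [h6]
    ring

end Cfsg.Agent.Lib.Classical.Sub.UHigh
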