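/-
Maximality of the subfield subgroups of the special unitary group: the transfer to the rational coordinates.
-/
import Mathlib
import Cfsg.Agent.Lib.Classical.Sub.UCore
import Cfsg.Agent.Lib.Classical.Asch.MaxCases
import Cfsg.Agent.Lib.Classical.Geo.HermBridge

set_option autoImplicit false
set_option linter.unusedSectionVars false

namespace Cfsg.Agent.Lib.Classical.Sub.UMain

open scoped Matrix MatrixGroups
open Module Cfsg Cfsg.Geo
open Cfsg.Agent.Lib.Classical.Geo.Basic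
open Cfsg.Agent.Lib.Classical.Geo.UForm Cfsg.Agent.Lib.Classical.Geo.UPair Cfsg.Agent.Lib.Classical.Geo.UParab
open Cfsg.Agent.Lib.Classical.Sub.Rat Cfsg.Agent.Lib.Classical.Sub.UBase Cfsg.Agent.Lib.Classical.Sub.UElts
open Cfsg.Agent.Lib.Classical.Sub.UCore

variable {ι : Type} [Fintype ι] [DecidableEq ι] {F : Type*} [Field F] [Fintype F]
  {σ : F ≃+* F} {f : (ι → F) → (ι → F) → F} {F₀ : Subfield F} {ζ : F}

local notation "Mt" => Matrix ι ι F

/-- The form in the coordinates of `P`. -/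
def fP (f : (ι → F) → (ι → F) → F) (P : GL ι F) : (ι → F) → (ι → F) → F :=
  fun x y => f ((P : Mt) *ᵥ x) ((P : Mt) *ᵥ y)

omit [Fintype F] in
theorem fP_unitary (hf : IsUnitaryForm σ f) (P : GL ι F) : IsUnitaryForm σ (fP f P) where
  ne_refl := hf.ne_refl
  involutive := hf.involutive
  add_left x y v := by
    simp only [fP, Matrix.mulVec_add, hf.add_left]
  smul_left c x v := by
    simp only [fP, Matrix.mulVec_smul, hf.smul_left]
  herm v w := hf.herm _ _
  nondegenerate := by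
    intro v hv
    have hPv : (P : Mt) *ᵥ v ≠ 0 := by
      intro h0
      apply hv
      apply mulVec_injective P
      change (P : Mt) *ᵥ v = (P : Mt) *ᵥ 0
      rw [h0, Matrix.mulVec_zero]
    obtain ⟨⟨x, hx⟩, ⟨y, hy⟩⟩ := hf.nondegenerate _ hPv
    refine ⟨⟨((P⁻¹ : GL ι F) : Mt) *ᵥ x, ?_⟩, ⟨((P⁻¹ : GL ι F) : Mt) *ᵥ y, ?_⟩⟩
    · simp only [fP, mulVec_inv_mulVec]
      exact hx
    · simp only [fP, mulVec_inv_mulVec]
      exact hy

omit [Fintype F] in
theorem map_mulVec_lV_gen (G : GL ι F₀) (x : ι → F₀) :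
    ((Matrix.GeneralLinearGroup.map (F₀.subtype : F₀ →+* F) G : GL ι F) : Mt) *ᵥ lV x =
      lV ((G : Matrix ι ι F₀) *ᵥ x) := by
  funext i
  have h := RingHom.map_mulVec (F₀.subtype : F₀ →+* F) (G : Matrix ι ι F₀) x i
  exact h.symm

omit [Fintype F] in
/-- Membership in the rational group with scalars, on rational vectors. -/
theorem mem_sup_lines_gen {g : GL ι F}
    (hg : g ∈ (Matrix.GeneralLinearGroup.map (F₀.subtype : F₀ →+* F)).range ⊔ scalars ι F) (x : ι → F₀) :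
    ∃ (κ : F) (y₀ : ι → F₀), (g : Mt) *ᵥ lV x = κ • lV y₀ := by
  obtain ⟨g₀, ⟨h₀, rfl⟩, z, hz, rfl⟩ := Subgroup.mem_sup_of_normal_right.mp hg
  obtain ⟨d, hd⟩ := (Cfsg.Agent.Lib.Classical.Asch.Basic.mem_scalars_iff' z).mp hz
  refine ⟨d, (h₀ : Matrix ι ι F₀) *ᵥ x, ?_⟩
  rw [Units.val_mul, hd, Matrix.mul_smul, mul_one, Matrix.smul_mulVec, map_mulVec_lV_gen]

/-- A unitary element outside the rational group with scalars. -/
theorem exists_not_mem (hf : IsUnitaryForm σ f) (hR : RatS σ f F₀ ζ) (hn : 7 ≤ Fintype.card ι) (hne : F₀ ≠ ⊤) :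
    ∃ g ∈ isoGroup hf, g ∉ (Matrix.GeneralLinearGroup.map (F₀.subtype : F₀ →+* F)).range ⊔ scalars ι F := by
  classical
  obtain ⟨κ, hκ⟩ : ∃ c : F, c ∉ F₀ := by
    by_contra hcon
    push Not at hcon
    exact hne (eq_top_iff.2 fun x _ => hcon x)
  have hκ0 : κ ≠ 0 := by
    rintro rfl
    exact hκ F₀.zero_mem
  obtain ⟨a, haS, haa, -, -⟩ := exists_iso_perp hf hR (r := finrank F₀ F) rfl (Fin.elim0 : Fin 0 → ι → F₀)
    (Fin.elim0 : Fin 0 → ι → F) ⊥ (by simp; omega)
  have ha0 : a ≠ 0 := by simpa using haS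
  have hS1 : finrank F₀ (Submodule.span F₀ {a}) ≤ 1 := le_of_eq (finrank_span_singleton ha0)
  obtain ⟨b, hbS, hbb, hb, -⟩ := exists_iso_perp hf hR (r := finrank F₀ F) rfl ![a]
    (Fin.elim0 : Fin 0 → ι → F) (Submodule.span F₀ {a}) (by simp; omega)
  have hba : f (lV b) (lV a) = 0 := hb 0
  obtain ⟨h', -, h1, h2⟩ := exists_partner_rat hf hR hbS hbb (fun s hs => by
    obtain ⟨c, rfl⟩ := Submodule.mem_span_singleton.1 hs
    rw [lV_smul, hf.smul_left, swap_zero hf hba, mul_zero])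
  have hah' := h2 a (Submodule.mem_span_singleton_self _)
  have hbh' : f (lV b) (lV h') ≠ 0 := by
    intro h0
    rw [h0, mul_zero] at h1
    exact zero_ne_one h1
  have hh'b : f (lV h') (lV b) ≠ 0 := fun h0 => hbh' (swap_zero hf h0)
  set t := κ / f (lV h') (lV b) with ht
  have h0 : f (t • lV a) (lV b) = 0 := by rw [hf.smul_left, swap_zero hf hba, mul_zero]
  refine ⟨E hf (t • lV a) (lV b) h0, E_mem hf (iso_smul hf haa t) hbb h0, fun hmem => ?_⟩
  obtain ⟨d, y, hy⟩ := mem_sup_lines_gen hmem h'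
  rw [E_mulVec hf h0 hbb, hf.herm (lV h') (t • lV a), hf.smul_left, hah'] at hy
  simp only [mul_zero, map_zero, zero_smul, sub_zero, smul_smul] at hy
  have e : f (lV h') (lV b) * t = κ := by
    rw [ht]
    field_simp
  rw [e] at hy
  have hsum : (1 : F) • lV h' + κ • lV a = d • lV y := by
    rw [one_smul, hy]
  have h3 : h' ∉ Submodule.span F₀ {a} := by
    intro hm
    obtain ⟨c, rfl⟩ := Submodule.mem_span_singleton.1 hm
    apply hbh'
    rw [lV_smul, smul_right hf, hba, mul_zero]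
  have h'0 : h' ≠ 0 := by
    rintro rfl
    exact h3 (Submodule.zero_mem _)
  have h4 : a ∉ Submodule.span F₀ {h'} := not_mem_singleton_symm ha0 h3
  have h5 := ratio_of_sum h3 h4 one_ne_zero hκ0 hsum
  apply hκ
  have e2 : κ = (1 / κ)⁻¹ := by simp
  rw [e2]
  exact F₀.inv_mem h5

/-- The main transfer. -/
theorem isMaximal_subfield (hf : IsUnitaryForm σ f) (P : GL ι F) (hne : F₀ ≠ ⊤) (hn : 7 ≤ Fintype.card ι)
    (hR : RatS σ (fP f P) F₀ ζ)
    (hcore : ∀ M' : Subgroup (GL ι F), M' ≤ isoGroup (fP_unitary hf P) → HasRatU (fP_unitary hf P) M' F₀ →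
      (∀ g ∈ M', g ∈ (Matrix.GeneralLinearGroup.map (F₀.subtype : F₀ →+* F)).range ⊔ scalars ι F) ∨
        ∀ w, fP f P w w = 0 → w ∈ vecs (fP_unitary hf P) M')
    (hgen : ∀ M : Subgroup (GL ι F), (∀ w, f w w = 0 → w ∈ vecs hf M) → isoGroup hf ≤ M) :
    IsMaximalIn (isoGroup hf) (subfieldSubgroup F₀ P ⊓ isoGroup hf) := by
  classical
  haveI : Nonempty ι := by
    apply Fintype.card_pos_iff.1
    omega
  set hf' := fP_unitary hf P with hf'def
  set H := (Matrix.GeneralLinearGroup.map (F₀.subtype : F₀ →+* F)).range ⊔ scalars ι F with hH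
  have hmem : ∀ g : GL ι F, g ∈ subfieldSubgroup F₀ P ↔ P⁻¹ * g * P ∈ H := by
    intro g
    constructor
    · rintro ⟨h, hh, rfl⟩
      simpa [MulAut.conj_apply, mul_assoc] using hh
    · intro h
      exact ⟨_, h, by simp [MulAut.conj_apply, mul_assoc]⟩
  have hdet1 : ∀ g : GL ι F, g ∈ specialLinear ι F → P⁻¹ * g * P ∈ specialLinear ι F := by
    intro g hg
    rw [mem_specialLinear_iff] at hg ⊢
    rw [Units.val_mul, Units.val_mul, Matrix.det_mul, Matrix.det_mul, hg, mul_one, mul_comm, ← Matrix.det_mul, ← Units.val_mul,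
      mul_inv_cancel]
    simp
  have hdet2 : ∀ g : GL ι F, g ∈ specialLinear ι F → P * g * P⁻¹ ∈ specialLinear ι F := by
    intro g hg
    rw [mem_specialLinear_iff] at hg ⊢
    rw [Units.val_mul, Units.val_mul, Matrix.det_mul, Matrix.det_mul, hg, mul_one, mul_comm, ← Matrix.det_mul, ← Units.val_mul,
      inv_mul_cancel]
    simp
  have hP1 : ∀ (g : GL ι F) (z : ι → F), (P : Mt) *ᵥ ((P⁻¹ * g * P : GL ι F).val *ᵥ z) = (g : Mt) *ᵥ ((P : Mt) *ᵥ z) := by
    intro g z
    rw [Matrix.mulVec_mulVec, ← Units.val_mul, Matrix.mulVec_mulVec, ← Units.val_mul]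
    congr 2
    group
  have hconj1 : ∀ g ∈ isoGroup hf, P⁻¹ * g * P ∈ isoGroup hf' := by
    intro g hg
    refine (mem_isoGroup hf').2 ⟨fun x y => ?_, hdet1 g hg.2⟩
    change f _ _ = f _ _
    rw [hP1, hP1]
    exact ((mem_isoGroup hf).1 hg).1 _ _
  have hP2 : ∀ (g : GL ι F) (z : ι → F), (P * g * P⁻¹ : GL ι F).val *ᵥ z =
      (P : Mt) *ᵥ ((g : Mt) *ᵥ (((P⁻¹ : GL ι F) : Mt) *ᵥ z)) := by
    intro g z
    rw [Matrix.mulVec_mulVec, Matrix.mulVec_mulVec, ← Units.val_mul, ← Units.val_mul]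
  have hconj2 : ∀ g ∈ isoGroup hf', P * g * P⁻¹ ∈ isoGroup hf := by
    intro g hg
    refine (mem_isoGroup hf).2 ⟨fun x y => ?_, hdet2 g hg.2⟩
    rw [hP2, hP2]
    have h3 := ((mem_isoGroup hf').1 hg).1 (((P⁻¹ : GL ι F) : Mt) *ᵥ x) (((P⁻¹ : GL ι F) : Mt) *ᵥ y)
    have h4 : fP f P (((P⁻¹ : GL ι F) : Mt) *ᵥ x) (((P⁻¹ : GL ι F) : Mt) *ᵥ y) = f x y := by
      simp only [fP, mulVec_inv_mulVec]
    rw [h4] at h3
    exact h3
  refine ⟨?_, ?_⟩
  · -- strictness
    refine lt_of_le_not_ge inf_le_right fun h => ?_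
    obtain ⟨g, hg, hgH⟩ := exists_not_mem hf' hR hn hne
    have h1 := (hmem _).1 (h (hconj2 g hg)).1
    have h2 : P⁻¹ * (P * g * P⁻¹) * P = g := by group
    rw [h2] at h1
    exact hgH h1
  intro M hHM hMS
  let M' : Subgroup (GL ι F) := M.map (MulAut.conj P⁻¹).toMonoidHom
  have hM' : ∀ g, g ∈ M' ↔ P * g * P⁻¹ ∈ M := by
    intro g
    constructor
    · rintro ⟨m, hm, rfl⟩
      simpa [MulAut.conj_apply, mul_assoc] using hm
    · intro hg
      exact ⟨_, hg, by simp [MulAut.conj_apply, mul_assoc]⟩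
  have hM'S : M' ≤ isoGroup hf' := by
    intro g hg
    have h1 := hconj1 _ (hMS ((hM' g).1 hg))
    convert h1 using 1
    group
  have hrat : HasRatU hf' M' F₀ := by
    intro g hg hgr
    rw [hM']
    apply hHM
    refine ⟨(hmem _).2 ?_, hconj2 _ hg⟩
    have h2 : P⁻¹ * (P * g * P⁻¹) * P = g := by group
    rw [h2]
    apply Cfsg.Agent.Lib.Classical.Sub.Lines.mem_of_lines
    intro v₀ _
    obtain ⟨y, hy⟩ := hgr v₀
    exact ⟨1, y, one_ne_zero, by rw [hy, one_smul]⟩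
  rcases hcore M' hM'S hrat with h | h
  · left
    apply le_antisymm _ hHM
    intro g hg
    refine ⟨(hmem _).2 (h _ ?_), hMS hg⟩
    rw [hM']
    convert hg using 1
    group
  · right
    apply le_antisymm hMS
    apply hgen
    intro w hw
    have h1 : fP f P (((P⁻¹ : GL ι F) : Mt) *ᵥ w) (((P⁻¹ : GL ι F) : Mt) *ᵥ w) = 0 := by
      simp only [fP, mulVec_inv_mulVec]
      exact hw
    obtain ⟨h0, hT⟩ := h _ h1
    refine ⟨hw, fun c hc => ?_⟩
    have h2 := (hM' _).1 (hT c hc)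
    convert h2 using 1
    apply gl_ext
    intro x
    rw [T_mulVec, hP2, T_mulVec, Matrix.mulVec_add, mulVec_inv_mulVec, Matrix.mulVec_smul, Matrix.mulVec_smul, mulVec_inv_mulVec]
    simp only [fP, mulVec_inv_mulVec]

section Final

/-- Squares. -/
theorem sq_sum {K : Type*} [Field K] [Finite K] (h2 : (2 : K) ≠ 0) (a b c : K) (ha : a ≠ 0) (hb : b ≠ 0) :
    ∃ α β : K, α * α * a + β * β * b + c = 0 := by
  classical
  haveI : Fintype K := Fintype.ofFinite K
  have hodd : Fintype.card K % 2 = 1 := by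
    have hne : ringChar K ≠ 2 := by
      intro h
      apply h2
      have : CharP K 2 := ringChar.of_eq h
      exact CharTwo.two_eq_zero
    exact FiniteField.odd_card_of_char_ne_two hne
  let P : Polynomial K := Polynomial.C a * Polynomial.X ^ 2
  let R : Polynomial K := Polynomial.C b * Polynomial.X ^ 2 + Polynomial.C c
  have hP : P.degree = 2 := Polynomial.degree_C_mul_X_pow 2 ha
  have hR : R.degree = 2 := by
    have h1 : (Polynomial.C b * Polynomial.X ^ 2 : Polynomial K).degree = 2 :=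
      Polynomial.degree_C_mul_X_pow 2 hb
    rw [Polynomial.degree_add_C (by rw [h1]; norm_num)]
    exact h1
  obtain ⟨α, β, h⟩ := FiniteField.exists_root_sum_quadratic hP hR hodd
  refine ⟨α, β, ?_⟩
  simp only [P, R, Polynomial.eval_add, Polynomial.eval_mul, Polynomial.eval_C, Polynomial.eval_pow,
    Polynomial.eval_X] at h
  linear_combination h

/-- A symmetric form on three dimensions is isotropic. -/
theorem iso3_of_sym {K : Type*} [Field K] [Finite K] {V : Type*} [AddCommGroup V] [Module K V] [FiniteDimensional K V]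
    (h2 : (2 : K) ≠ 0) (B : V →ₗ[K] V →ₗ[K] K) (hsym : ∀ x y, B x y = B y x) (W : Submodule K V) (hW : 3 ≤ finrank K W) :
    ∃ x ∈ W, x ≠ 0 ∧ B x x = 0 := by
  have hex : ∀ (k : ℕ) (ψ : Fin k → Module.Dual K V), k < finrank K W → ∃ x ∈ W, x ≠ 0 ∧ ∀ i, ψ i x = 0 := by
    intro k ψ hk
    let L : W →ₗ[K] (Fin k → K) := LinearMap.pi fun i => (ψ i).domRestrict W
    have h1 : LinearMap.ker L ≠ ⊥ := by
      apply LinearMap.ker_ne_bot_of_finrank_lt
      simpa using hk
    obtain ⟨x, hx, hx0⟩ := Submodule.exists_mem_ne_zero_of_ne_bot h1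
    refine ⟨x, x.2, fun h => hx0 (Subtype.ext h), fun i => ?_⟩
    exact congrFun (show L x = 0 from hx) i
  obtain ⟨x₁, hx₁, h₁, -⟩ := hex 0 Fin.elim0 (by omega)
  by_cases ha : B x₁ x₁ = 0
  · exact ⟨x₁, hx₁, h₁, ha⟩
  obtain ⟨x₂, hx₂, h₂, h₂'⟩ := hex 1 ![B.flip x₁] (by omega)
  have e21 : B x₂ x₁ = 0 := h₂' 0
  by_cases hb : B x₂ x₂ = 0
  · exact ⟨x₂, hx₂, h₂, hb⟩
  obtain ⟨x₃, hx₃, h₃, h₃'⟩ := hex 2 ![B.flip x₁, B.flip x₂] (by omega)
  have e31 : B x₃ x₁ = 0 := h₃' 0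
  have e32 : B x₃ x₂ = 0 := h₃' 1
  by_cases hc : B x₃ x₃ = 0
  · exact ⟨x₃, hx₃, h₃, hc⟩
  obtain ⟨α, β, hαβ⟩ := sq_sum h2 _ _ (B x₃ x₃) ha hb
  have e12 : B x₁ x₂ = 0 := by rw [hsym, e21]
  have e13 : B x₁ x₃ = 0 := by rw [hsym, e31]
  have e23 : B x₂ x₃ = 0 := by rw [hsym, e32]
  refine ⟨α • x₁ + β • x₂ + x₃, W.add_mem (W.add_mem (W.smul_mem _ hx₁) (W.smul_mem _ hx₂)) hx₃, ?_, ?_⟩
  · intro h0
    apply hc
    have h3 := congrArg (fun z => B z x₃) h0
    simpa [e13, e23] using h3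
  · simp only [map_add, map_smul, LinearMap.add_apply, LinearMap.smul_apply, smul_eq_mul, e12, e13, e21, e23, e31, e32]
    linear_combination hαβ

open Cfsg.Agent.Lib.Classical.Geo.HermBridge

variable {n q : ℕ}

theorem sigma_fixes (hF : Fintype.card F = q ^ 2) (hcard : Fintype.card F = Nat.card F₀ ^ 2) {x : F} (hx : x ∈ F₀) :
    sigmaEquiv hF x = x := by
  have h1 : Nat.card F₀ = q := by
    have h2 : Nat.card F₀ ^ 2 = q ^ 2 := by rw [← hcard, hF]
    exact Nat.pow_left_injective (n := 2) (by norm_num) h2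
  classical
  haveI : Fintype F₀ := Fintype.ofFinite _
  rw [sigmaEquiv_apply, ← h1]
  have h3 := FiniteField.pow_card (⟨x, hx⟩ : F₀)
  rw [Nat.card_eq_fintype_card]
  exact congrArg Subtype.val h3

/-- The main theorem for small degree. -/
theorem result_of_rat (hF : Fintype.card F = q ^ 2) (hn : 13 ≤ n) {r : ℕ} (hr : r.Prime)
    (hc : Fintype.card F = Nat.card F₀ ^ r) (hnr : 2 * r + 5 ≤ n) (P : GL (Fin n) F)
    (hR : RatS (sigmaEquiv hF) (fP (hermForm n F q) P) F₀ ζ) :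
    IsMaximalIn (GU n F q ⊓ specialLinear (Fin n) F)
      (subfieldSubgroup F₀ P ⊓ (GU n F q ⊓ specialLinear (Fin n) F)) := by
  have hq : 2 ≤ q := Cfsg.Agent.Lib.Classical.Herm.Basic.two_le_q hF
  refine isMaximal_subfield (isUnitaryForm hF n) P (Cfsg.Agent.Lib.Classical.Asch.MaxCases.subfield_ne_top hr hc)
    (by simp; omega) hR ?_ (hgen hF (by omega) (by omega))
  intro M' hM' hrat
  exact core_low (fP_unitary (isUnitaryForm hF n) P) hR hrat hr hc (by simpa using hnr) (by simp; omega) hM'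

/-- The rational structure of the symplectic type. -/
theorem ratS_alt (hF : Fintype.card F = q ^ 2) (hcard : Fintype.card F = Nat.card F₀ ^ 2) {ζ : F} (hζ0 : ζ ≠ 0)
    (hζ : ζ + ζ ^ q = 0) (P : GL (Fin n) F) (hP : IsFormRationalStructure (hermForm n F q) F₀ ζ P)
    (halt : ∀ u : Fin n → F, (∀ i, u i ∈ F₀) → hermForm n F q ((P : Matrix (Fin n) (Fin n) F) *ᵥ u)
      ((P : Matrix (Fin n) (Fin n) F) *ᵥ u) = 0) :
    RatS (sigmaEquiv hF) (fP (hermForm n F q) P) F₀ ζ := by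
  have hiso : ∀ x : Fin n → F₀, fP (hermForm n F q) P (lV x) (lV x) = 0 := fun x =>
    halt (lV x) (fun i => (x i).2)
  refine ⟨hζ0, Or.inr ?_, fun x hx => by rw [sigma_fixes hF hcard hx]; exact hx, fun x y => ?_, fun W hW => ?_,
    fun x y _ _ => ⟨0, hiso _⟩⟩
  · rw [sigmaEquiv_apply]
    linear_combination hζ
  · exact hP (lV x) (lV y) (fun i => (x i).2) (fun i => (y i).2)
  · have hW0 : W ≠ ⊥ := by
      rintro rfl
      simp at hW
    obtain ⟨x, hx, hx0⟩ := Submodule.exists_mem_ne_zero_of_ne_bot hW0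
    exact ⟨x, hx, hx0, hiso x⟩

/-- The rational structure of the orthogonal type. -/
theorem ratS_sym (hF : Fintype.card F = q ^ 2) (hcard : Fintype.card F = Nat.card F₀ ^ 2) (hodd : Odd q)
    (P : GL (Fin n) F) (hP : IsFormRationalStructure (hermForm n F q) F₀ 1 P) :
    RatS (sigmaEquiv hF) (fP (hermForm n F q) P) F₀ 1 := by
  classical
  haveI : Fintype F₀ := Fintype.ofFinite _
  have hf := fP_unitary (isUnitaryForm hF n) P
  set f' := fP (hermForm n F q) P with hf'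
  have hr : ∀ x y : Fin n → F₀, f' (lV x) (lV y) ∈ F₀ := fun x y => by
    have := hP (lV x) (lV y) (fun i => (x i).2) (fun i => (y i).2)
    rwa [one_mul] at this
  have hfix : ∀ x y : Fin n → F₀, f' (lV y) (lV x) = f' (lV x) (lV y) := fun x y => by
    rw [hf.herm, sigma_fixes hF hcard (hr x y)]
  have h2F : (2 : F) ≠ 0 := by
    intro h0
    have hc2 : CharP F 2 := CharTwo.of_one_ne_zero_of_two_eq_zero one_ne_zero h0
    have h1 : ringChar F = 2 := ringChar.eq F 2
    have h2 := FiniteField.even_card_iff_char_two.1 h1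
    rw [hF] at h2
    have h3 : Odd (q ^ 2) := hodd.pow
    have h4 := Nat.odd_iff.1 h3
    omega
  have h2 : (2 : F₀) ≠ 0 := by
    intro h0
    apply h2F
    have h3 : ((2 : F₀) : F) = 2 := rfl
    rw [← h3, h0]
    rfl
  refine ⟨one_ne_zero, Or.inl (map_one _), fun x hx => by rw [sigma_fixes hF hcard hx]; exact hx, fun x y => ?_, fun W hW => ?_,
    fun x y hxx hxy => ?_⟩
  · rw [one_mul]
    exact hr x y
  · let B : (Fin n → F₀) →ₗ[F₀] (Fin n → F₀) →ₗ[F₀] F₀ := LinearMap.mk₂ F₀ (fun x y => ⟨f' (lV x) (lV y), hr x y⟩)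
      (fun a b c => Subtype.ext (by
        simp only [lV_add, hf.add_left, Subfield.coe_add]))
      (fun c a b => Subtype.ext (by
        simp only [lV_smul, hf.smul_left, smul_eq_mul, Subfield.coe_mul]))
      (fun a b c => Subtype.ext (by
        simp only [lV_add, add_right hf, Subfield.coe_add]))
      (fun c a b => Subtype.ext (by
        simp only [lV_smul, smul_right hf, smul_eq_mul, Subfield.coe_mul]
        rw [sigma_fixes hF hcard c.2]))
    obtain ⟨x, hx, hx0, hxx⟩ := iso3_of_sym h2 B (fun x y => Subtype.ext (hfix y x)) W hW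
    exact ⟨x, hx, hx0, congrArg (fun c : F₀ => (c : F)) hxx⟩
  · rw [one_mul] at hxy
    refine ⟨(⟨f' (lV y) (lV y), hr y y⟩ : F₀) / 2, ?_⟩
    set s : F₀ := (⟨f' (lV y) (lV y), hr y y⟩ : F₀) / 2 with hs
    have hs2 : (s : F) * 2 = f' (lV y) (lV y) := by
      rw [hs, Subfield.coe_div]
      have : ((2 : F₀) : F) = 2 := rfl
      rw [this]
      field_simp
    have hyx : f' (lV y) (lV x) = 1 := by
      rw [hfix x y]
      exact hxy
    rw [lV_sub, lV_smul, sub_left hf, sub_right hf, sub_right hf, hf.smul_left, smul_right hf, smul_right hf, hf.smul_left,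
      hxx, hxy, hyx, sigma_fixes hF hcard s.2]
    linear_combination -hs2

end Final

end Cfsg.Agent.Lib.Classical.Sub.UMain
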