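/-
The subfield subgroups of the special unitary group, for a rational Hermitian form over a subfield of odd prime index,
are maximal.
-/
import Mathlib
import Cfsg.Agent.Lib.Classical.Sub.UHigh
import Cfsg.Agent.Lib.Classical.Sub.UGen
import Cfsg.Agent.Lib.Classical.Sub.UMain

set_option autoImplicit false
set_option linter.unusedSectionVars false

namespace Cfsg.Agent.Lib.Classical.Sub.UHerm

open scoped Matrix MatrixGroups
open Module Cfsg Cfsg.Geo
open Cfsg.Agent.Lib.Classical.Geo.Basic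
open Cfsg.Agent.Lib.Classical.Geo.UForm Cfsg.Agent.Lib.Classical.Geo.UPair Cfsg.Agent.Lib.Classical.Geo.UParab
open Cfsg.Agent.Lib.Classical.Sub.Rat Cfsg.Agent.Lib.Classical.Sub.UBase Cfsg.Agent.Lib.Classical.Sub.UElts
open Cfsg.Agent.Lib.Classical.Sub.UCore Cfsg.Agent.Lib.Classical.Sub.ULow Cfsg.Agent.Lib.Classical.Sub.UHigh
open Cfsg.Agent.Lib.Classical.Sub.UGen Cfsg.Agent.Lib.Classical.Sub.UMain
open Cfsg.Agent.Lib.Classical.Sub.Act
open Cfsg.Agent.Lib.PSL2.Basic

variable {ι : Type} [Fintype ι] [DecidableEq ι] {F : Type*} [Field F] [Fintype F]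
  {σ : F ≃+* F} {f : (ι → F) → (ι → F) → F} {F₀ : Subfield F}

local notation "Mt" => Matrix ι ι F

omit [Fintype F] in
/-- `SL₂` of a subfield. -/
theorem actR_sub [Finite F] {E : Subfield F} {M : Subgroup (GL ι F)} {R : Submodule F (ι → F)} {e w : ι → F}
    (hx : ∃ g ∈ M, ActR R e w g (x (1 : F))) (S : AddSubgroup E) (hy : ∀ d ∈ S, ∃ g ∈ M, ActR R e w g (y (d : F)))
    (hB : 8 < Nat.card S) (hgen : ∀ W : Subfield E, (∀ d ∈ S, d ∈ W) → W = ⊤) (μ : E) :
    ∃ g ∈ M, ActR R e w g (y (μ : F)) := by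
  classical
  haveI : Fintype E := Fintype.ofFinite _
  obtain ⟨p, hp⟩ := CharP.exists E
  haveI : Fact p.Prime := ⟨(CharP.char_is_prime_or_zero E p).resolve_right (CharP.ringChar_ne_zero_of_finite E |> fun h => by
    rw [ringChar.eq E p] at h
    exact h)⟩
  let φ : SL(2, E) →* SL(2, F) := Matrix.SpecialLinearGroup.map (E.subtype : E →+* F)
  have hφx : φ (x (1 : E)) = x (1 : F) := by
    apply ext2 <;> simp [φ]
  have hφy : ∀ d : E, φ (y d) = y (d : F) := by
    intro d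
    apply ext2 <;> simp [φ]
  let H : Subgroup SL(2, E) := (actGroupR M R e w).comap φ
  have h := SL2Gen.gen_top p H (by
    show φ (x (1 : E)) ∈ actGroupR M R e w
    rw [hφx]
    exact hx) S (fun d hd => by
    show φ (y d) ∈ actGroupR M R e w
    rw [hφy]
    exact hy d hd) hB hgen
  have h2 : y μ ∈ H := by
    rw [h]
    exact Subgroup.mem_top _
  have h3 : φ (y μ) ∈ actGroupR M R e w := h2
  rw [hφy] at h3
  exact h3

variable (hf : IsUnitaryForm σ f) (hR : RatS σ f F₀ 1) {M : Subgroup (GL ι F)} (hM : HasRatU hf M F₀)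

include hf hR hM

/-- The transvections with conjugate centres. -/
theorem T_conj_mem {c : F} (hcF : c ∈ F₀) (hcs : c + σ c = 0) {g : GL ι F} (hgM : g ∈ M)
    (hg : ∀ x y, f ((g : Mt) *ᵥ x) ((g : Mt) *ᵥ y) = f x y) {x : ι → F₀} (hxx : f (lV x) (lV x) = 0) :
    T hf (c • (g : Mt) *ᵥ lV x) ((g : Mt) *ᵥ lV x) (by rw [hf.smul_left, hg, hxx, mul_zero]) ∈ M := by
  have h1 := T_rat_mem hf hR hM hcF hcs hxx
  have h2 := M.mul_mem (M.mul_mem hgM h1) (M.inv_mem hgM)
  rw [T_conj_iso hf g hg] at h2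
  rw [T_congr hf (Matrix.mulVec_smul _ c _).symm rfl]
  exact h2

/-- **The generic case is impossible.** -/
theorem high_contra (hMi : M ≤ isoGroup hf) (hAs : ∀ κ ∈ AsU hf M 1 F₀, κ ∈ F₀)
    (hiso2 : ∀ W : Submodule F₀ (ι → F₀), 2 ≤ finrank F₀ W → ∃ x ∈ W, x ≠ 0 ∧ f (lV x) (lV x) = 0)
    {r : ℕ} (hr : r.Prime) (hro : Odd r) (hcard : Fintype.card F = Nat.card F₀ ^ r) (hn : 13 ≤ Fintype.card ι)
    {l₁ : F} (hl : l₁ ∈ F₀) (hl' : σ l₁ ≠ l₁) {v : ι → F} (hvv : f v v = 0)
    (hT : T hf ((l₁ - σ l₁) • v) v (by rw [hf.smul_left, hvv, mul_zero]) ∈ M)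
    (hgen : ∀ z : ι → F₀, z ≠ 0 → f (lV z) (lV z) = 0 → f (lV z) v ≠ 0) : False := by
  classical
  have hσ : ∀ x, σ (σ x) = x := hf.involutive
  have hsF : ∀ x ∈ F₀, σ x ∈ F₀ := hR.σF
  have hc : Nat.card F = Nat.card F₀ ^ r := by rw [Nat.card_eq_fintype_card, hcard]
  set d₀ := l₁ - σ l₁ with hd₀
  have hd0 : d₀ ≠ 0 := sub_ne_zero.2 hl'.symm
  have hdF : d₀ ∈ F₀ := F₀.sub_mem hl (hsF _ hl)
  have hds : d₀ + σ d₀ = 0 := by
    rw [hd₀, map_sub, hσ]
    ring
  have hσd0 : σ d₀ = -d₀ := by linear_combination hds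
  -- the degree is large
  have hrk : finrank F₀ F = r := by
    have h1 : Nat.card F = Nat.card F₀ ^ finrank F₀ F := Module.natCard_eq_pow_finrank (K := F₀) (V := F)
    have h2 : 1 < Nat.card F₀ := Finite.one_lt_card
    rw [hc] at h1
    exact (Nat.pow_right_injective h2 h1).symm
  have hr13 : 13 ≤ r := by
    let Ψ : (ι → F₀) →ₗ[F₀] F :=
      { toFun := fun x => f (lV x) v
        map_add' := fun a b => by simp only [lV_add, hf.add_left]
        map_smul' := fun c a => by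
          simp only [lV_smul, hf.smul_left, RingHom.id_apply]
          rfl }
    have h1 := LinearMap.finrank_range_add_finrank_ker Ψ
    have h2 : finrank F₀ (LinearMap.range Ψ) ≤ r := by
      rw [← hrk]
      exact Submodule.finrank_le _
    have h3 : finrank F₀ (ι → F₀) = Fintype.card ι := by simp
    have h4 : finrank F₀ (LinearMap.ker Ψ) < 2 := by
      by_contra hcon
      obtain ⟨z, hz, hz0, hzz⟩ := hiso2 _ (not_lt.1 hcon)
      exact hgen z hz0 hzz hz
    have h5 : 12 ≤ r := by omega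
    obtain ⟨k, hk⟩ := hro
    omega
  obtain ⟨w, f', hW⟩ := exists_win hf hR (by omega)
  -- the rational vectors of the window
  let wc : (Fin 3 → F₀) → ι → F₀ := fun a => ∑ i, a i • w i
  have hwc : ∀ a, lV (wc a) = ∑ i, (a i : F) • lV (w i) := by
    intro a
    funext k
    simp [wc, lV, Finset.sum_apply]
  have hwcW : ∀ a, lV (wc a) ∈ WW w := by
    intro a
    rw [hwc]
    exact sum_mem fun i _ => (WW w).smul_mem _ (w_mem i)
  have hwcc : ∀ a j, f (lV (wc a)) (lV (f' j)) = a j := by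
    intro a j
    rw [hwc, sum_left hf]
    simp [hW.wf]
  let β : (Fin 3 → F₀) → F := fun a => f (lV (wc a)) v
  have hadd : ∀ a b, β (a + b) = β a + β b := by
    intro a b
    have e : wc (a + b) = wc a + wc b := by
      simp only [wc, Pi.add_apply, add_smul, Finset.sum_add_distrib]
    simp only [β]
    rw [e, lV_add, hf.add_left]
  have hsmul : ∀ (d : F₀) a, β (d • a) = d * β a := by
    intro d a
    have e : wc (d • a) = d • wc a := by
      simp only [wc, Pi.smul_apply, Finset.smul_sum, smul_smul, smul_eq_mul]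
    simp only [β]
    rw [e, lV_smul, hf.smul_left]
  have hinj : ∀ a, β a = 0 → a = 0 := by
    intro a ha
    by_contra hne
    have hwc0 : wc a ≠ 0 := by
      intro h0
      apply hne
      funext j
      have h1 := hwcc a j
      rw [h0, lV_zero, zero_left hf] at h1
      exact Subtype.ext h1.symm
    exact hgen _ hwc0 (f_WW hf hW (hwcW a) (hwcW a)) ha
  have hw0 : w 0 ≠ 0 := by
    intro h0
    apply w_ne hf hW 0
    rw [h0, lV_zero]
  set w₁ := lV (w 0) with hw₁
  set a := f w₁ v with ha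
  have ha0 : a ≠ 0 := hgen _ hw0 (hW.ww 0 0)
  have hw' : w₁ ∈ WW w := w_mem 0
  have hx : ∃ g ∈ M, ActR (RR hf (WW w) v) ((d₀ * a) • v) w₁ g (x (1 : F)) :=
    ⟨_, hT, act_x hf hvv ha0 rfl (fun r hr => ((mem_RR hf).1 hr).2)⟩
  have hy : ∀ d ∈ Sgen β hσ, ∃ g ∈ M, ActR (RR hf (WW w) v) ((d₀ * a) • v) w₁ g (y (d : F)) := by
    intro d hd
    induction hd using AddSubgroup.closure_induction with
    | mem t ht =>
      obtain ⟨e', a', he', rfl⟩ := ht
      have hdd : (e' : F) / d₀ + σ ((e' : F) / d₀) = 0 := by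
        rw [map_div₀, hσd0, show σ (e' : F) = e' from e'.2]
        field_simp
        ring
      have h1 := T_rat_mem hf hR hM (F₀.div_mem he' hdF) hdd (f_WW hf hW (hwcW a') (hwcW a'))
      refine ⟨_, h1, ?_⟩
      have h2 := act_y hf (fun u hu u' hu' => f_WW hf hW hu hu') (c := d₀) ha0 (rfl : f w₁ v = a) hw' (hwcW a')
        ((e' : F) / d₀)
      have e1 : (e' : F) / d₀ * d₀ * (f (lV (wc a')) v * σ (f (lV (wc a')) v)) = ((e' * Nm hσ (β a') : Efix σ) : F) := by
        show _ = (e' : F) * (β a' * σ (β a'))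
        simp only [β]
        field_simp
      rwa [e1] at h2
    | zero =>
      show ∃ g ∈ M, ActR _ _ _ g (y (0 : F))
      rw [y_zero]
      exact ⟨1, M.one_mem, ActR.one⟩
    | add s t _ _ h1 h2 =>
      obtain ⟨g₁, h3, h4⟩ := h1
      obtain ⟨g₂, h5, h6⟩ := h2
      show ∃ g ∈ M, ActR _ _ _ g (y ((s : F) + (t : F)))
      rw [y_add]
      exact ⟨_, M.mul_mem h3 h5, h4.mul h6⟩
    | neg s _ h1 =>
      obtain ⟨g₁, h3, h4⟩ := h1
      show ∃ g ∈ M, ActR _ _ _ g (y (-(s : F)))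
      rw [← y_inv]
      exact ⟨_, M.inv_mem h3, h4.inv⟩
  have hB := S_card hσ hsF hl hl' hadd hsmul hinj hr (by omega) hc
  have hgen' := S_gen hσ hsF hl hl' hadd hsmul hinj hr hc
  have hall := actR_sub hx (Sgen β hσ) hy hB hgen'
  -- an element outside the rational values
  have hrig : ∀ μ : Efix σ, ∃ θ : Fin 3 → Fin 3 → F₀, (∀ i j, (θ i j : F) + σ (θ j i) = 0) ∧
      (μ : F) = d₀ * ∑ i, ∑ j, (θ i j : F) * (f (lV (w j)) v * σ (f (lV (w i)) v)) := by
    intro μ
    obtain ⟨t, ht, hact⟩ := hall μ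
    exact high_rigid hf hR hM hMi (by omega) hAs hd0 hdF hds hW hd0 hgen ht hact
  choose Θ hΘ1 hΘ2 using hrig
  let Up := {p : Fin 3 × Fin 3 // p.1 ≤ p.2}
  have hUp : Nat.card Up = 6 := by
    rw [Nat.card_eq_fintype_card]
    rfl
  let Ψ : Efix σ → (Up → F₀) := fun μ p => Θ μ p.1.1 p.1.2
  have hΨ : Function.Injective Ψ := by
    intro μ μ' h
    have h1 : ∀ i j : Fin 3, i ≤ j → Θ μ i j = Θ μ' i j := fun i j hij => congrFun h ⟨(i, j), hij⟩
    have h2 : Θ μ = Θ μ' := by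
      funext i j
      by_cases hij : i ≤ j
      · exact h1 i j hij
      · have h3 := h1 j i (le_of_not_ge hij)
        apply Subtype.ext
        have h4 := hΘ1 μ i j
        have h5 := hΘ1 μ' i j
        rw [h3] at h4
        linear_combination h4 - h5
    apply Subtype.ext
    rw [hΘ2 μ, hΘ2 μ', h2]
  have h1 := Nat.card_le_card_of_injective Ψ hΨ
  have h2 : Nat.card (Up → F₀) = Nat.card F₀ ^ 6 := by
    rw [Nat.card_fun, hUp]
  rw [h2] at h1
  have h3 : Nat.card F = Nat.card (Efix σ) ^ 2 := card_Efix σ hσ (w := l₁) hl'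
  rw [hc] at h3
  have h4 : Nat.card F₀ ^ r ≤ Nat.card F₀ ^ 12 := by
    rw [h3, show 12 = 6 * 2 by norm_num, pow_mul]
    exact Nat.pow_le_pow_left h1 2
  have h5 := (Nat.pow_le_pow_iff_right (Finite.one_lt_card (α := F₀))).1 h4
  omega

/-- **The dichotomy.** -/
theorem core_T (hMi : M ≤ isoGroup hf)
    (hiso2 : ∀ W : Submodule F₀ (ι → F₀), 2 ≤ finrank F₀ W → ∃ x ∈ W, x ≠ 0 ∧ f (lV x) (lV x) = 0)
    {r : ℕ} (hr : r.Prime) (hro : Odd r) (hc : Fintype.card F = Nat.card F₀ ^ r) (hn : 13 ≤ Fintype.card ι)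
    {l₁ : F} (hl : l₁ ∈ F₀) (hl' : σ l₁ ≠ l₁) :
    (∀ g ∈ M, g ∈ (Matrix.GeneralLinearGroup.map (F₀.subtype : F₀ →+* F)).range ⊔ scalars ι F) ∨
      ∀ w, f w w = 0 → w ∈ vecs hf M := by
  classical
  have hσ : ∀ x, σ (σ x) = x := hf.involutive
  have hsF : ∀ x ∈ F₀, σ x ∈ F₀ := hR.σF
  have hd0 : l₁ - σ l₁ ≠ 0 := sub_ne_zero.2 hl'.symm
  have hdF : l₁ - σ l₁ ∈ F₀ := F₀.sub_mem hl (hsF _ hl)
  have hds : (l₁ - σ l₁) + σ (l₁ - σ l₁) = 0 := by
    rw [map_sub, hσ]
    ring
  rcases Cfsg.Agent.Lib.Classical.Sub.SLCore.subfield_dichotomy hr hc (subK hf hR hM (by omega))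
    (fun c hc => coe_mem_AsU hf hR hM ⟨c, hc⟩) with hK | hK
  · left
    have hAs : ∀ κ ∈ AsU hf M 1 F₀, κ ∈ F₀ := fun κ hκ => (SetLike.ext_iff.1 hK κ).1 hκ
    intro g hg
    apply mem_of_iso_lines hf hR (by omega)
    intro x hx0 hxx
    have hgi := ((mem_isoGroup hf).1 (hMi hg)).1
    by_cases hz : ∃ z : ι → F₀, z ≠ 0 ∧ f (lV z) (lV z) = 0 ∧ f (lV z) ((g : Mt) *ᵥ lV x) = 0
    · obtain ⟨z, hz0, hzz, hzv⟩ := hz
      exact low_conj hf hR hM (by omega) hAs hd0 hdF hds hg hgi (lV_ne_zero hx0) hxx hzz hz0 hzv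
    · exfalso
      push Not at hz
      have hvv : f ((g : Mt) *ᵥ lV x) ((g : Mt) *ᵥ lV x) = 0 := by rw [hgi, hxx]
      exact high_contra hf hR hM hMi hAs hiso2 hr hro hc hn hl hl' hvv (T_conj_mem hf hR hM hdF hds hg hgi hxx)
        (fun z hz0 hzz => hz z hz0 hzz)
  · right
    intro w hw
    apply all_vecs_of_top hf hR hM (by omega) _ hw
    intro κ
    have : κ ∈ subK hf hR hM (by omega) := by
      rw [hK]
      exact Subfield.mem_top κ
    exact this

omit hf hR hM in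
/-- A subfield of odd prime index is moved by an involution. -/
theorem exists_moved (hne : σ ≠ RingEquiv.refl F) (hσ : ∀ x, σ (σ x) = x) {r : ℕ} (hr : r.Prime) (hro : Odd r)
    (hc : Fintype.card F = Nat.card F₀ ^ r) : ∃ l₁ ∈ F₀, σ l₁ ≠ l₁ := by
  by_contra hcon
  push Not at hcon
  obtain ⟨w, hw⟩ : ∃ w, σ w ≠ w := by
    by_contra hcon2
    push Not at hcon2
    apply hne
    ext a
    exact hcon2 a
  rcases Cfsg.Agent.Lib.Classical.Sub.SLCore.subfield_dichotomy hr hc (Efix σ) (fun x hx => hcon x hx) with h | h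
  · have h1 := card_Efix σ hσ hw
    rw [h, Nat.card_eq_fintype_card, hc] at h1
    have h2 := Nat.pow_right_injective (Finite.one_lt_card (α := F₀)) h1
    obtain ⟨k, hk⟩ := hro
    omega
  · apply hw
    have : w ∈ Efix σ := by
      rw [h]
      exact Subfield.mem_top w
    exact this

omit hR hM in
/-- A rational Hermitian form. -/
theorem ratS_herm (hrat : ∀ x y : ι → F₀, f (lV x) (lV y) ∈ F₀) (hsF : ∀ x ∈ F₀, σ x ∈ F₀) {l₁ : F} (hl : l₁ ∈ F₀)
    (hl' : σ l₁ ≠ l₁) : RatS σ f F₀ 1 ∧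
      ∀ W : Submodule F₀ (ι → F₀), 2 ≤ finrank F₀ W → ∃ x ∈ W, x ≠ 0 ∧ f (lV x) (lV x) = 0 := by
  classical
  haveI : Fintype F₀ := Fintype.ofFinite _
  have hz : ∀ w : ι → F, (∀ x : ι → F₀, f (lV x) w = 0) → w = 0 := by
    intro w h
    apply eq_zero_right hf
    intro x
    have h1 : fLin hf w = 0 := by
      apply dual_ext_rat (F₀ := F₀)
      intro y
      simpa using h y
    have h2 := LinearMap.congr_fun h1 x
    simpa using h2
  let g : (ι → F₀) → (ι → F₀) → F₀ := fun x y => ⟨f (lV x) (lV y), hrat x y⟩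
  have hg : IsUnitaryForm (resS hf.involutive hsF) g :=
    { ne_refl := by
        intro h
        apply hl'
        have := congrArg (fun e : F₀ ≃+* F₀ => ((e ⟨l₁, hl⟩ : F₀) : F)) h
        exact this
      involutive := fun a => Subtype.ext (hf.involutive a)
      add_left := fun x y v => Subtype.ext (by
        show f (lV (x + y)) (lV v) = f (lV x) (lV v) + f (lV y) (lV v)
        rw [lV_add, hf.add_left])
      smul_left := fun c x v => Subtype.ext (by
        show f (lV (c • x)) (lV v) = (c : F) * f (lV x) (lV v)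
        rw [lV_smul, hf.smul_left])
      herm := fun v w => Subtype.ext (hf.herm _ _)
      nondegenerate := by
        intro v hv
        have hlv : lV v ≠ 0 := lV_ne_zero hv
        constructor
        · by_contra hcon
          push Not at hcon
          apply hlv
          apply hz
          intro x
          exact congrArg (fun c : F₀ => (c : F)) (hcon x)
        · by_contra hcon
          push Not at hcon
          apply hlv
          apply hz
          intro x
          exact swap_zero hf (congrArg (fun c : F₀ => (c : F)) (hcon x)) }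
  have hiso2 : ∀ W : Submodule F₀ (ι → F₀), 2 ≤ finrank F₀ W → ∃ x ∈ W, x ≠ 0 ∧ f (lV x) (lV x) = 0 := by
    intro W hW
    obtain ⟨x, hx, hx0, hxx⟩ := Cfsg.Agent.Lib.Classical.Geo.UNondeg.exists_iso_of_two hg hW
    exact ⟨x, hx, hx0, congrArg (fun c : F₀ => (c : F)) hxx⟩
  refine ⟨⟨one_ne_zero, Or.inl (map_one _), hsF, fun x y => ?_, fun W hW => hiso2 W (by omega), fun x y hxx hxy => ?_⟩, hiso2⟩
  · rw [one_mul]
    exact hrat x y
  · rw [one_mul] at hxy
    obtain ⟨s, hs⟩ := exists_trace hg.ne_refl hg.involutive (g y y) (sigma_self hg y)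
    have hs' : (s : F) + σ s = f (lV y) (lV y) := congrArg (fun c : F₀ => (c : F)) hs
    refine ⟨s, ?_⟩
    have hyx : f (lV y) (lV x) = 1 := by
      rw [hf.herm, hxy, map_one]
    rw [lV_sub, lV_smul, sub_left hf, sub_right hf, sub_right hf, hf.smul_left, smul_right hf, smul_right hf, hf.smul_left,
      hxx, hxy, hyx]
    linear_combination -hs'

open Cfsg.Agent.Lib.Classical.Geo.HermBridge

omit hf hR hM in
/-- **The main theorem.** -/
theorem result_herm {n q : ℕ} (hF : Fintype.card F = q ^ 2) (hn : 13 ≤ n) {r : ℕ} (hr : r.Prime) (hro : Odd r)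
    (hc : Fintype.card F = Nat.card F₀ ^ r) (P : GL (Fin n) F) (hP : IsFormRationalStructure (hermForm n F q) F₀ 1 P) :
    IsMaximalIn (GU n F q ⊓ specialLinear (Fin n) F)
      (subfieldSubgroup F₀ P ⊓ (GU n F q ⊓ specialLinear (Fin n) F)) := by
  have hq : 2 ≤ q := Cfsg.Agent.Lib.Classical.Herm.Basic.two_le_q hF
  have hf := isUnitaryForm hF n
  have hf' := fP_unitary hf P
  have hsF : ∀ x ∈ F₀, sigmaEquiv hF x ∈ F₀ := fun x hx => by
    rw [sigmaEquiv_apply]
    exact pow_mem hx q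
  obtain ⟨l₁, hl, hl'⟩ := exists_moved hf.ne_refl hf.involutive hr hro hc
  have hrat : ∀ x y : Fin n → F₀, fP (hermForm n F q) P (lV x) (lV y) ∈ F₀ := fun x y => by
    have := hP (lV x) (lV y) (fun i => (x i).2) (fun i => (y i).2)
    rwa [one_mul] at this
  obtain ⟨hR, hiso2⟩ := ratS_herm hf' hrat hsF hl hl'
  refine isMaximal_subfield hf P (Cfsg.Agent.Lib.Classical.Asch.MaxCases.subfield_ne_top hr hc)
    (by simp; omega) hR ?_ (hgen hF (by omega) (by omega))
  intro M' hM' hrat'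
  exact core_T (fP_unitary hf P) hR hrat' hM' hiso2 hr hro hc (by simp; omega) hl hl'

end Cfsg.Agent.Lib.Classical.Sub.UHerm
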