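/-
Tensor decompositions of the Hermitian form over the field with four elements with a factor of dimension two: the
tensor product group lies properly in the stabiliser of a decomposition into two spaces.
-/
import Mathlib
import Cfsg.Agent.Lib.Classical.Sub.OTens
import Cfsg.Agent.Lib.Classical.Asch.SUTwo

set_option autoImplicit false
set_option linter.unusedSectionVars false

namespace Cfsg.Agent.Lib.Classical.Sub.UTens

open scoped Matrix MatrixGroups Kronecker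
open Module Cfsg Cfsg.Geo
open Cfsg.Agent.Lib.Classical.Sub.OFrame2 (lt_inf_of_witness inf_lt_of_witness)
open Cfsg.Agent.Lib.Classical.Sub.OTens
open Cfsg.Agent.Lib.Classical.Asch.SpThree
open Cfsg.Agent.Lib.Classical.Asch
open Cfsg.Agent.Lib.Classical.Herm.Basic
open Cfsg.Agent.Lib.Classical.Geo.HermTv
open Cfsg.Agent.Lib.Classical.Asch.NotSU Cfsg.Agent.Lib.Classical.Asch.NotSU2 Cfsg.Agent.Lib.Classical.Asch.SUTwo

variable {F : Type*} [Field F] [Fintype F] {n : ℕ}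

local notation "⟪" x ", " y "⟫" => hermForm _ _ 2 x y

theorem kr_swap {d k : ℕ} (e : Fin n ≃ Fin d × Fin k) (z : Fin d → F) (y : Fin k → F) :
    kr (e.trans (Equiv.prodComm _ _)) y z = kr e z y := by
  funext i
  simp [kr, mul_comm]

theorem not_tensor' {d k : ℕ} {e : Fin n ≃ Fin d × Fin k} {P g : GL (Fin n) F} (hg : g ∈ tensorProductSubgroup d k e P)
    {z₁ z₀ : Fin d → F} (hz₁ : z₁ ≠ 0) (hz₀ : z₀ ≠ 0)
    (h1 : ∀ y, (g : Matrix (Fin n) (Fin n) F) *ᵥ ((P : Matrix (Fin n) (Fin n) F) *ᵥ kr e z₁ y) = (P : Matrix (Fin n) (Fin n) F) *ᵥ kr e z₁ y)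
    {u v v' : Fin k → F} (hu : u ≠ 0)
    (h2 : (g : Matrix (Fin n) (Fin n) F) *ᵥ ((P : Matrix (Fin n) (Fin n) F) *ᵥ kr e z₀ u) = (P : Matrix (Fin n) (Fin n) F) *ᵥ kr e z₀ u)
    (h3 : (g : Matrix (Fin n) (Fin n) F) *ᵥ ((P : Matrix (Fin n) (Fin n) F) *ᵥ kr e z₀ v) = (P : Matrix (Fin n) (Fin n) F) *ᵥ kr e z₀ v') :
    v' = v := by
  refine not_tensor (Main.tensorProductSubgroup_le_swap e P hg) (y₁ := z₁) (y₀ := z₀) hz₁ hz₀ (fun y => ?_) hu ?_ ?_
  · rw [kr_swap]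
    exact h1 y
  · rw [kr_swap]
    exact h2
  · rw [kr_swap, kr_swap]
    exact h3

/-- The test for elements outside the stabiliser of a decomposition. -/
theorem false_of_test_u {t : ℕ} {D : Fin t → Submodule F (Fin n → F)}
    (horth : ∀ i j, i ≠ j → AreOrthogonalFor (hermForm n F 2) (D i) (D j))
    {g : GL (Fin n) F} (hg : g ∈ decompositionStabilizer D) {i j₁ j₂ : Fin t} {x y₁ y₂ : Fin n → F} (hx : x ∈ D i)
    (h₁ : y₁ ∈ D j₁) (h₂ : y₂ ∈ D j₂) (hj : j₁ ≠ j₂) (t₁ : ⟪(g : Matrix _ _ F) *ᵥ x, y₁⟫ ≠ 0)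
    (t₂ : ⟪(g : Matrix _ _ F) *ᵥ x, y₂⟫ ≠ 0) : False := by
  obtain ⟨σ, hσ⟩ := hg
  have hm : (g : Matrix _ _ F) *ᵥ x ∈ D (σ i) := by
    rw [← hσ i]
    exact ⟨x, hx, rfl⟩
  have e1 : σ i = j₁ := by
    by_contra h
    exact t₁ (horth _ _ h _ hm _ h₁)
  have e2 : σ i = j₂ := by
    by_contra h
    exact t₂ (horth _ _ h _ hm _ h₂)
  exact hj (e1.symm.trans e2)

theorem between_tensor_U (hF : Fintype.card F = 2 ^ 2) {k : ℕ} (hk : 2 ≤ k) {e : Fin n ≃ Fin 2 × Fin k} {P : GL (Fin n) F}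
    {f₁ : (Fin 2 → F) → (Fin 2 → F) → F} {f₂ : (Fin k → F) → (Fin k → F) → F}
    (hf₁ : IsUnitaryFormPow 2 f₁) (hf₂ : IsUnitaryFormPow 2 f₂)
    (hs : IsTensorFormStructure (fun x : F => x ^ 2) (hermForm n F 2) f₁ f₂ e P) :
    ∃ K : Subgroup (GL (Fin n) F), tensorProductSubgroup 2 k e P ⊓ (GU n F 2 ⊓ specialLinear (Fin n) F) < K ∧
      K < GU n F 2 ⊓ specialLinear (Fin n) F := by
  classical
  have hch := two_zero hF
  obtain ⟨T₁, h₁⟩ := exists_gram_normal hF hf₁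
  obtain ⟨T₂, h₂⟩ := exists_gram_normal hF hf₂
  obtain ⟨c, hc, hform⟩ := tensor_normal hF hs h₁ h₂
  set P' : GL (Fin n) F := P * FormSU2.kronE e T₁ T₂ with hP'
  have R1 : ∀ (z z' : Fin 2 → F) (y y' : Fin k → F), ⟪(P' : Matrix (Fin n) (Fin n) F) *ᵥ kr e z y, (P' : Matrix (Fin n) (Fin n) F) *ᵥ kr e z' y'⟫ =
      c * (⟪z, z'⟫ * ⟪y, y'⟫) := by
    intro z z' y y'
    rw [hform]
    congr 1
    exact herm_pure hF e z z' y y'
  let Li : Fin 2 → (Fin k → F) →ₗ[F] (Fin n → F) := fun i =>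
    { toFun := fun y => (P' : Matrix (Fin n) (Fin n) F) *ᵥ kr e (Pi.single i 1) y
      map_add' := fun a b => by
        rw [← Matrix.mulVec_add]
        congr 1
        funext j
        simp [kr, mul_add]
      map_smul' := fun a b => by
        rw [RingHom.id_apply, ← Matrix.mulVec_smul]
        congr 1
        funext j
        simp [kr]
        ring }
  have hLi : ∀ i y, Li i y = (P' : Matrix (Fin n) (Fin n) F) *ᵥ kr e (Pi.single i 1) y := fun i y => rfl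
  have hR : ∀ i j y y', ⟪Li i y, Li j y'⟫ = c * ((if i = j then 1 else 0) * ⟪y, y'⟫) := by
    intro i j y y'
    rw [hLi, hLi, R1, herm_single hF]
  have hR1 : ∀ i y y', ⟪Li i y, Li i y'⟫ = c * ⟪y, y'⟫ := by
    intro i y y'
    rw [hR, if_pos rfl, one_mul]
  have hR0 : ∀ {i j} (y y'), i ≠ j → ⟪Li i y, Li j y'⟫ = 0 := by
    intro i j y y' h
    rw [hR, if_neg h, zero_mul, mul_zero]
  let D : Fin 2 → Submodule F (Fin n → F) := fun i => LinearMap.range (Li i)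
  have horth : ∀ i j, i ≠ j → AreOrthogonalFor (hermForm n F 2) (D i) (D j) := by
    rintro i j hij _ ⟨z, rfl⟩ _ ⟨z', rfl⟩
    exact hR0 _ _ hij
  -- the upper bound
  have hleD : tensorProductSubgroup 2 k e P ⊓ (GU n F 2 ⊓ specialLinear (Fin n) F) ≤ decompositionStabilizer D := by
    rintro g ⟨hg, hgU, -⟩
    have hg' := FormSU2.tensorProductSubgroup_change e P T₁ T₂ hg
    obtain ⟨a, b, hab⟩ := Main.mem_tensorProductSubgroup_iff.mp hg'
    have hgP : ∀ z y, (g : Matrix (Fin n) (Fin n) F) *ᵥ ((P' : Matrix (Fin n) (Fin n) F) *ᵥ kr e z y) =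
        (P' : Matrix (Fin n) (Fin n) F) *ᵥ kr e ((a : Matrix (Fin 2) (Fin 2) F) *ᵥ z) ((b : Matrix (Fin k) (Fin k) F) *ᵥ y) := by
      intro z y
      rw [SpThree.conj_mulVec_P, tensor_action hab]
    have hiso : ∀ u v, ⟪(g : Matrix (Fin n) (Fin n) F) *ᵥ u, (g : Matrix (Fin n) (Fin n) F) *ᵥ v⟫ = ⟪u, v⟫ := hgU
    have hrel : ∀ (z z' : Fin 2 → F) (y y' : Fin k → F), ⟪(a : Matrix (Fin 2) (Fin 2) F) *ᵥ z, (a : Matrix (Fin 2) (Fin 2) F) *ᵥ z'⟫ *
        ⟪(b : Matrix (Fin k) (Fin k) F) *ᵥ y, (b : Matrix (Fin k) (Fin k) F) *ᵥ y'⟫ = ⟪z, z'⟫ * ⟪y, y'⟫ := by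
      intro z z' y y'
      have h3 := hiso ((P' : Matrix (Fin n) (Fin n) F) *ᵥ kr e z y) ((P' : Matrix (Fin n) (Fin n) F) *ᵥ kr e z' y')
      rw [hgP, hgP, R1, R1] at h3
      exact mul_left_cancel₀ hc h3
    let y₀ : Fin k → F := Pi.single ⟨0, by omega⟩ 1
    have hy₀ : ⟪y₀, y₀⟫ = 1 := by
      rw [herm_single hF, if_pos rfl]
    set μ := ⟪(b : Matrix (Fin k) (Fin k) F) *ᵥ y₀, (b : Matrix (Fin k) (Fin k) F) *ᵥ y₀⟫ with hμ
    have hμ0 : μ ≠ 0 := by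
      intro h0
      have h3 := hrel (Pi.single 0 1) (Pi.single 0 1) y₀ y₀
      rw [hy₀, ← hμ, h0, mul_zero, herm_single hF, if_pos rfl] at h3
      simp at h3
    obtain ⟨π, s, hs, hπ⟩ := monomial_two hF a (ν := μ⁻¹) (inv_ne_zero hμ0) (fun z z' => by
      have h3 := hrel z z' y₀ y₀
      rw [hy₀, ← hμ, mul_one] at h3
      rw [← h3]
      field_simp)
    have hgL : ∀ i y, (g : Matrix (Fin n) (Fin n) F) *ᵥ Li i y = Li (π i) (s i • ((b : Matrix (Fin k) (Fin k) F) *ᵥ y)) := by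
      intro i y
      rw [hLi, hLi, hgP, hπ, kr_smul_right]
    refine ⟨π, fun i => ?_⟩
    ext w
    constructor
    · rintro ⟨_, ⟨z, rfl⟩, rfl⟩
      exact ⟨s i • ((b : Matrix (Fin k) (Fin k) F) *ᵥ z), by rw [Matrix.toLin'_apply, hgL]⟩
    · rintro ⟨z', rfl⟩
      refine ⟨Li i ((s i)⁻¹ • (((b⁻¹ : GL (Fin k) F) : Matrix (Fin k) (Fin k) F) *ᵥ z')), ⟨_, rfl⟩, ?_⟩
      rw [Matrix.toLin'_apply, hgL, Matrix.mulVec_smul, Basic.mulVec_inv_mulVec, smul_smul, mul_inv_cancel₀ (hs i), one_smul]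
  -- vectors
  set i₀ : Fin k := ⟨0, by omega⟩ with hi₀
  set i₁ : Fin k := ⟨1, by omega⟩ with hi₁
  have hi01 : i₀ ≠ i₁ := by simp [hi₀, hi₁]
  set y' : Fin k → F := Pi.single i₀ 1 with hy'
  set ya : Fin k → F := Pi.single i₀ 1 + Pi.single i₁ 1 with hya
  have haa : ⟪ya, ya⟫ = 0 := by
    rw [hya, hermForm_add_left, hermForm_add_right hF, hermForm_add_right hF, herm_single hF, herm_single hF, herm_single hF,
      herm_single hF, if_pos rfl, if_neg hi01, if_neg hi01.symm, if_pos rfl]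
    linear_combination hch
  have h'a : ⟪y', ya⟫ = 1 := by
    rw [hya, hermForm_add_right hF, hy', herm_single hF, herm_single hF, if_pos rfl, if_neg hi01, add_zero]
  have ha' : ⟪ya, y'⟫ = 1 := by
    rw [← hermForm_pow_q hF, h'a, one_pow]
  have hya0 : ya ≠ 0 := by
    intro h
    rw [h, hermForm_zero_right hF] at h'a
    exact zero_ne_one h'a
  have hone : (1 : F) + 1 ^ 2 = 0 := by linear_combination hch
  have hQ : ⟪Li 0 ya, Li 0 ya⟫ = 0 := by rw [hR1, haa, mul_zero]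
  set G := hT 2 (1 : F) (Li 0 ya) hQ with hG
  have hGv : ∀ x, (G : Matrix (Fin n) (Fin n) F) *ᵥ x = x + ((1 : F) * ⟪x, Li 0 ya⟫) • Li 0 ya := fun x => hT_mulVec _ _ _ _
  have n10 : (1 : Fin 2) ≠ 0 := by decide
  have n01 : (0 : Fin 2) ≠ 1 := by decide
  have hfix : ∀ y, (G : Matrix (Fin n) (Fin n) F) *ᵥ Li 1 y = Li 1 y := by
    intro y
    rw [hGv, hR0 _ _ n10]
    simp
  have hG0 : ∀ y, (G : Matrix (Fin n) (Fin n) F) *ᵥ Li 0 y = Li 0 (y + (c * ⟪y, ya⟫) • ya) := by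
    intro y
    rw [hGv, hR1, one_mul, (Li 0).map_add y, (Li 0).map_smul]
  have hsingle : ∀ i : Fin 2, (Pi.single i 1 : Fin 2 → F) ≠ 0 := by
    intro i h
    have := congrFun h i
    simp at this
  have hG1 : (G : Matrix (Fin n) (Fin n) F) *ᵥ Li 0 ya = Li 0 ya := by
    rw [hG0, haa]
    simp
  have hnot : G ∉ tensorProductSubgroup 2 k e P := by
    intro hmem
    have hmem' := FormSU2.tensorProductSubgroup_change e P T₁ T₂ hmem
    have h3 := not_tensor' hmem' (z₁ := Pi.single 1 1) (z₀ := Pi.single 0 1) (hsingle _) (hsingle _) hfix hya0 hG1 (hG0 y')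
    have h4 : (c * ⟪y', ya⟫) • ya = 0 := by simpa using h3
    rw [h'a, mul_one] at h4
    exact hya0 ((smul_eq_zero.1 h4).resolve_left hc)
  have hGmem : G ∈ GU n F 2 ⊓ specialLinear (Fin n) F :=
    ⟨hT_mem_GU hF _ hone _ _, hT_mem_specialLinear _ _ _⟩
  have hmemG : G ∈ decompositionStabilizer D := by
    refine ⟨1, fun i => ?_⟩
    apply map_eq_of_forward
    rintro _ ⟨w, rfl⟩
    fin_cases i
    · show (G : Matrix (Fin n) (Fin n) F) *ᵥ Li 0 w ∈ D 0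
      rw [hG0]
      exact ⟨_, rfl⟩
    · show (G : Matrix (Fin n) (Fin n) F) *ᵥ Li 1 w ∈ D 1
      rw [hfix]
      exact ⟨_, rfl⟩
  refine ⟨decompositionStabilizer D ⊓ (GU n F 2 ⊓ specialLinear (Fin n) F), lt_inf_of_witness hleD hnot hmemG hGmem, ?_⟩
  set w := Li 0 ya + Li 1 ya with hw
  have hww : ⟪w, w⟫ = 0 := by
    rw [hw, hermForm_add_left, hermForm_add_right hF, hermForm_add_right hF, hR0 _ _ n01, hR0 _ _ n10, hQ, hR1, haa]
    ring
  set G' := hT 2 (1 : F) w hww with hG'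
  have hGv' : ∀ x, (G' : Matrix (Fin n) (Fin n) F) *ᵥ x = x + ((1 : F) * ⟪x, w⟫) • w := fun x => hT_mulVec _ _ _ _
  refine inf_lt_of_witness (g := G') (fun hmem => ?_) ⟨hT_mem_GU hF _ hone _ _, hT_mem_specialLinear _ _ _⟩
  have hval : ⟪Li 0 y', w⟫ = c := by
    rw [hw, hermForm_add_right hF, hR1, hR0 _ _ n01, h'a, mul_one, add_zero]
  refine false_of_test_u horth hmem (i := 0) (j₁ := 0) (j₂ := 1) (x := Li 0 y') (y₁ := Li 0 ya) (y₂ := Li 1 y') ⟨_, rfl⟩ ⟨_, rfl⟩ ⟨_, rfl⟩ n01 ?_ ?_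
  · rw [hGv', hval, one_mul, hermForm_add_left, hermForm_smul_left, hw, hermForm_add_left, hR1, hR1, hR0 _ _ n10, h'a, haa]
    simpa using hc
  · rw [hGv', hval, one_mul, hermForm_add_left, hermForm_smul_left, hw, hermForm_add_left, hR0 _ _ n01, hR0 _ _ n01, hR1, ha', zero_add, zero_add,
      mul_one]
    exact mul_ne_zero hc hc

end Cfsg.Agent.Lib.Classical.Sub.UTens
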